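import Cfsg.Agent.Lib.H94.TCHSC.Chk
set_option autoImplicit false
set_option maxRecDepth 100000
set_option linter.all false
namespace H94.TCHSC
open H35.TC
section
variable {G : Type} [Group G] {g : Lt → G} {H : Subgroup G}
/-- the points of the nodes -/
noncomputable def cP (g : Lt → G) (H : Subgroup G) : ℕ → G ⧸ H := cc (fa g) lt P ((1 : G) : G ⧸ H)
theorem dp_b_0_s (hinv : ∀ x, g (inv x) = (g x)⁻¹) (hr : ∀ r ∈ rels, (r.map g).prod = 1) (hH : ∀ r ∈ subs, (r.map g).prod ∈ H)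
    (j u : ℕ) (hu : u < M) (h : dp_b_0 j u = true) : Good (fa g) T MG M (cP g H) Lt.b u := by
  unfold dp_b_0 at h
  rcases brec_true h with h | h
  · exact lS_good (T := T) (x := Lt.b) (by decide) hu [Lt.fi, Lt.d, Lt.bi, Lt.c, Lt.d, Lt.f, Lt.ci] (hole_rel hinv hr (by decide +kernel)) h
  · exact lF_good (T := T) (x := Lt.b) (by decide) [Lt.b, Lt.f, Lt.ci, Lt.d, Lt.fi, Lt.bi, Lt.fi] (hole_rel hinv hr (by decide +kernel)) h
theorem dp_b_1_s (hinv : ∀ x, g (inv x) = (g x)⁻¹) (hr : ∀ r ∈ rels, (r.map g).prod = 1) (hH : ∀ r ∈ subs, (r.map g).prod ∈ H)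
    (j u : ℕ) (hu : u < M) (h : dp_b_1 j u = true) : Good (fa g) T MG M (cP g H) Lt.b u := by
  unfold dp_b_1 at h
  rcases brec_true h with h | h
  · exact lF_good (T := T) (x := Lt.b) (by decide) [Lt.ei, Lt.ci, Lt.ei, Lt.b, Lt.ei, Lt.ci, Lt.ei] (hole_rel hinv hr (by decide +kernel)) h
  · exact dp_b_0_s hinv hr hH j u hu h
theorem dp_b_2_s (hinv : ∀ x, g (inv x) = (g x)⁻¹) (hr : ∀ r ∈ rels, (r.map g).prod = 1) (hH : ∀ r ∈ subs, (r.map g).prod ∈ H)
    (j u : ℕ) (hu : u < M) (h : dp_b_2 j u = true) : Good (fa g) T MG M (cP g H) Lt.b u := by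
  unfold dp_b_2 at h
  rcases brec_true h with h | h
  · exact lS_good (T := T) (x := Lt.b) (by decide) hu [Lt.ei, Lt.ci, Lt.ei, Lt.b, Lt.ei, Lt.ci, Lt.ei] (hole_rel hinv hr (by decide +kernel)) h
  · exact dp_b_1_s hinv hr hH j u hu h
theorem dp_b_3_s (hinv : ∀ x, g (inv x) = (g x)⁻¹) (hr : ∀ r ∈ rels, (r.map g).prod = 1) (hH : ∀ r ∈ subs, (r.map g).prod ∈ H)
    (j u : ℕ) (hu : u < M) (h : dp_b_3 j u = true) : Good (fa g) T MG M (cP g H) Lt.b u := by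
  unfold dp_b_3 at h
  rcases brec_true h with h | h
  · exact lF_good (T := T) (x := Lt.b) (by decide) [Lt.ci, Lt.fi, Lt.b, Lt.di, Lt.di, Lt.ci, Lt.f] (hole_rel hinv hr (by decide +kernel)) h
  · exact lS_good (T := T) (x := Lt.b) (by decide) hu [Lt.f, Lt.ci, Lt.d, Lt.fi, Lt.bi, Lt.fi, Lt.b] (hole_rel hinv hr (by decide +kernel)) h
theorem dp_b_4_s (hinv : ∀ x, g (inv x) = (g x)⁻¹) (hr : ∀ r ∈ rels, (r.map g).prod = 1) (hH : ∀ r ∈ subs, (r.map g).prod ∈ H)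
    (j u : ℕ) (hu : u < M) (h : dp_b_4 j u = true) : Good (fa g) T MG M (cP g H) Lt.b u := by
  unfold dp_b_4 at h
  rcases brec_true h with h | h
  · exact lS_good (T := T) (x := Lt.b) (by decide) hu [Lt.f, Lt.ci, Lt.f, Lt.di, Lt.b, Lt.ci, Lt.d] (hole_rel hinv hr (by decide +kernel)) h
  · exact lS_good (T := T) (x := Lt.b) (by decide) hu [Lt.d, Lt.f, Lt.f, Lt.c, Lt.di, Lt.bi, Lt.ci] (hole_rel hinv hr (by decide +kernel)) h
theorem dp_b_5_s (hinv : ∀ x, g (inv x) = (g x)⁻¹) (hr : ∀ r ∈ rels, (r.map g).prod = 1) (hH : ∀ r ∈ subs, (r.map g).prod ∈ H)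
    (j u : ℕ) (hu : u < M) (h : dp_b_5 j u = true) : Good (fa g) T MG M (cP g H) Lt.b u := by
  unfold dp_b_5 at h
  rcases brec_true h with h | h
  · exact dp_b_3_s hinv hr hH j u hu h
  · exact dp_b_4_s hinv hr hH j u hu h
theorem dp_b_6_s (hinv : ∀ x, g (inv x) = (g x)⁻¹) (hr : ∀ r ∈ rels, (r.map g).prod = 1) (hH : ∀ r ∈ subs, (r.map g).prod ∈ H)
    (j u : ℕ) (hu : u < M) (h : dp_b_6 j u = true) : Good (fa g) T MG M (cP g H) Lt.b u := by
  unfold dp_b_6 at h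
  rcases brec_true h with h | h
  · exact lS_good (T := T) (x := Lt.b) (by decide) hu [Lt.b, Lt.f, Lt.ci, Lt.d, Lt.fi, Lt.bi, Lt.fi] (hole_rel hinv hr (by decide +kernel)) h
  · exact lF_good (T := T) (x := Lt.b) (by decide) [Lt.fi, Lt.d, Lt.bi, Lt.c, Lt.d, Lt.f, Lt.ci] (hole_rel hinv hr (by decide +kernel)) h
theorem dp_b_7_s (hinv : ∀ x, g (inv x) = (g x)⁻¹) (hr : ∀ r ∈ rels, (r.map g).prod = 1) (hH : ∀ r ∈ subs, (r.map g).prod ∈ H)
    (j u : ℕ) (hu : u < M) (h : dp_b_7 j u = true) : Good (fa g) T MG M (cP g H) Lt.b u := by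
  unfold dp_b_7 at h
  rcases brec_true h with h | h
  · exact lS_good (T := T) (x := Lt.b) (by decide) hu [Lt.ci, Lt.fi, Lt.b, Lt.di, Lt.di, Lt.ci, Lt.f] (hole_rel hinv hr (by decide +kernel)) h
  · exact lF_good (T := T) (x := Lt.b) (by decide) [Lt.d, Lt.f, Lt.f, Lt.c, Lt.di, Lt.bi, Lt.ci] (hole_rel hinv hr (by decide +kernel)) h
theorem dp_b_8_s (hinv : ∀ x, g (inv x) = (g x)⁻¹) (hr : ∀ r ∈ rels, (r.map g).prod = 1) (hH : ∀ r ∈ subs, (r.map g).prod ∈ H)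
    (j u : ℕ) (hu : u < M) (h : dp_b_8 j u = true) : Good (fa g) T MG M (cP g H) Lt.b u := by
  unfold dp_b_8 at h
  rcases brec_true h with h | h
  · exact dp_b_6_s hinv hr hH j u hu h
  · exact dp_b_7_s hinv hr hH j u hu h
theorem dp_b_9_s (hinv : ∀ x, g (inv x) = (g x)⁻¹) (hr : ∀ r ∈ rels, (r.map g).prod = 1) (hH : ∀ r ∈ subs, (r.map g).prod ∈ H)
    (j u : ℕ) (hu : u < M) (h : dp_b_9 j u = true) : Good (fa g) T MG M (cP g H) Lt.b u := by
  unfold dp_b_9 at h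
  rcases brec_true h with h | h
  · exact dp_b_5_s hinv hr hH j u hu h
  · exact dp_b_8_s hinv hr hH j u hu h
theorem dp_b_10_s (hinv : ∀ x, g (inv x) = (g x)⁻¹) (hr : ∀ r ∈ rels, (r.map g).prod = 1) (hH : ∀ r ∈ subs, (r.map g).prod ∈ H)
    (j u : ℕ) (hu : u < M) (h : dp_b_10 j u = true) : Good (fa g) T MG M (cP g H) Lt.b u := by
  unfold dp_b_10 at h
  rcases brec_true h with h | h
  · exact dp_b_2_s hinv hr hH j u hu h
  · exact dp_b_9_s hinv hr hH j u hu h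
theorem dp_b_11_s (hinv : ∀ x, g (inv x) = (g x)⁻¹) (hr : ∀ r ∈ rels, (r.map g).prod = 1) (hH : ∀ r ∈ subs, (r.map g).prod ∈ H)
    (j u : ℕ) (hu : u < M) (h : dp_b_11 j u = true) : Good (fa g) T MG M (cP g H) Lt.b u := by
  unfold dp_b_11 at h
  rcases brec_true h with h | h
  · exact lF_good (T := T) (x := Lt.b) (by decide) [Lt.f, Lt.ci, Lt.d, Lt.fi, Lt.bi, Lt.fi, Lt.b] (hole_rel hinv hr (by decide +kernel)) h
  · exact lS_good (T := T) (x := Lt.b) (by decide) hu [Lt.di, Lt.di, Lt.ci, Lt.f, Lt.b, Lt.ci, Lt.fi] (hole_rel hinv hr (by decide +kernel)) h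
theorem dp_b_12_s (hinv : ∀ x, g (inv x) = (g x)⁻¹) (hr : ∀ r ∈ rels, (r.map g).prod = 1) (hH : ∀ r ∈ subs, (r.map g).prod ∈ H)
    (j u : ℕ) (hu : u < M) (h : dp_b_12 j u = true) : Good (fa g) T MG M (cP g H) Lt.b u := by
  unfold dp_b_12 at h
  rcases brec_true h with h | h
  · exact lF_good (T := T) (x := Lt.b) (by decide) [Lt.di, Lt.di, Lt.ci, Lt.f, Lt.b, Lt.ci, Lt.fi] (hole_rel hinv hr (by decide +kernel)) h
  · exact lS_good (T := T) (x := Lt.b) (by decide) hu [Lt.f, Lt.f, Lt.c, Lt.bi, Lt.bi, Lt.ci, Lt.di] (hole_rel hinv hr (by decide +kernel)) h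
theorem dp_b_13_s (hinv : ∀ x, g (inv x) = (g x)⁻¹) (hr : ∀ r ∈ rels, (r.map g).prod = 1) (hH : ∀ r ∈ subs, (r.map g).prod ∈ H)
    (j u : ℕ) (hu : u < M) (h : dp_b_13 j u = true) : Good (fa g) T MG M (cP g H) Lt.b u := by
  unfold dp_b_13 at h
  rcases brec_true h with h | h
  · exact lS_good (T := T) (x := Lt.b) (by decide) hu [Lt.e, Lt.di, Lt.fi, Lt.bi, Lt.f, Lt.e, Lt.f, Lt.ci] (hole_rel hinv hr (by decide +kernel)) h
  · exact dp_b_12_s hinv hr hH j u hu h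
theorem dp_b_14_s (hinv : ∀ x, g (inv x) = (g x)⁻¹) (hr : ∀ r ∈ rels, (r.map g).prod = 1) (hH : ∀ r ∈ subs, (r.map g).prod ∈ H)
    (j u : ℕ) (hu : u < M) (h : dp_b_14 j u = true) : Good (fa g) T MG M (cP g H) Lt.b u := by
  unfold dp_b_14 at h
  rcases brec_true h with h | h
  · exact dp_b_11_s hinv hr hH j u hu h
  · exact dp_b_13_s hinv hr hH j u hu h
theorem dp_b_15_s (hinv : ∀ x, g (inv x) = (g x)⁻¹) (hr : ∀ r ∈ rels, (r.map g).prod = 1) (hH : ∀ r ∈ subs, (r.map g).prod ∈ H)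
    (j u : ℕ) (hu : u < M) (h : dp_b_15 j u = true) : Good (fa g) T MG M (cP g H) Lt.b u := by
  unfold dp_b_15 at h
  rcases brec_true h with h | h
  · exact lF_good (T := T) (x := Lt.b) (by decide) [Lt.f, Lt.ci, Lt.f, Lt.di, Lt.b, Lt.ci, Lt.d] (hole_rel hinv hr (by decide +kernel)) h
  · exact lF_good (T := T) (x := Lt.b) (by decide) [Lt.di, Lt.ci, Lt.d, Lt.ci, Lt.bi, Lt.d, Lt.ci] (hole_rel hinv hr (by decide +kernel)) h
theorem dp_b_16_s (hinv : ∀ x, g (inv x) = (g x)⁻¹) (hr : ∀ r ∈ rels, (r.map g).prod = 1) (hH : ∀ r ∈ subs, (r.map g).prod ∈ H)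
    (j u : ℕ) (hu : u < M) (h : dp_b_16 j u = true) : Good (fa g) T MG M (cP g H) Lt.b u := by
  unfold dp_b_16 at h
  rcases brec_true h with h | h
  · exact lS_good (T := T) (x := Lt.b) (by decide) hu [Lt.c, Lt.d, Lt.ci, Lt.bi, Lt.d, Lt.fi, Lt.di] (hole_rel hinv hr (by decide +kernel)) h
  · exact lF_good (T := T) (x := Lt.b) (by decide) [Lt.d, Lt.ci, Lt.fi, Lt.fi, Lt.di, Lt.bi, Lt.c] (hole_rel hinv hr (by decide +kernel)) h
theorem dp_b_17_s (hinv : ∀ x, g (inv x) = (g x)⁻¹) (hr : ∀ r ∈ rels, (r.map g).prod = 1) (hH : ∀ r ∈ subs, (r.map g).prod ∈ H)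
    (j u : ℕ) (hu : u < M) (h : dp_b_17 j u = true) : Good (fa g) T MG M (cP g H) Lt.b u := by
  unfold dp_b_17 at h
  rcases brec_true h with h | h
  · exact lS_good (T := T) (x := Lt.b) (by decide) hu [Lt.fi, Lt.d, Lt.c, Lt.b, Lt.f, Lt.d, Lt.d] (hole_rel hinv hr (by decide +kernel)) h
  · exact dp_b_16_s hinv hr hH j u hu h
theorem dp_b_18_s (hinv : ∀ x, g (inv x) = (g x)⁻¹) (hr : ∀ r ∈ rels, (r.map g).prod = 1) (hH : ∀ r ∈ subs, (r.map g).prod ∈ H)
    (j u : ℕ) (hu : u < M) (h : dp_b_18 j u = true) : Good (fa g) T MG M (cP g H) Lt.b u := by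
  unfold dp_b_18 at h
  rcases brec_true h with h | h
  · exact dp_b_15_s hinv hr hH j u hu h
  · exact dp_b_17_s hinv hr hH j u hu h
theorem dp_b_19_s (hinv : ∀ x, g (inv x) = (g x)⁻¹) (hr : ∀ r ∈ rels, (r.map g).prod = 1) (hH : ∀ r ∈ subs, (r.map g).prod ∈ H)
    (j u : ℕ) (hu : u < M) (h : dp_b_19 j u = true) : Good (fa g) T MG M (cP g H) Lt.b u := by
  unfold dp_b_19 at h
  rcases brec_true h with h | h
  · exact dp_b_14_s hinv hr hH j u hu h
  · exact dp_b_18_s hinv hr hH j u hu h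
theorem dp_b_20_s (hinv : ∀ x, g (inv x) = (g x)⁻¹) (hr : ∀ r ∈ rels, (r.map g).prod = 1) (hH : ∀ r ∈ subs, (r.map g).prod ∈ H)
    (j u : ℕ) (hu : u < M) (h : dp_b_20 j u = true) : Good (fa g) T MG M (cP g H) Lt.b u := by
  unfold dp_b_20 at h
  rcases brec_true h with h | h
  · exact lF_good (T := T) (x := Lt.b) (by decide) [Lt.c, Lt.d, Lt.ci, Lt.bi, Lt.d, Lt.fi, Lt.di] (hole_rel hinv hr (by decide +kernel)) h
  · exact lF_good (T := T) (x := Lt.b) (by decide) [Lt.di, Lt.f, Lt.bi, Lt.c, Lt.fi, Lt.di, Lt.ci] (hole_rel hinv hr (by decide +kernel)) h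
theorem dp_b_21_s (hinv : ∀ x, g (inv x) = (g x)⁻¹) (hr : ∀ r ∈ rels, (r.map g).prod = 1) (hH : ∀ r ∈ subs, (r.map g).prod ∈ H)
    (j u : ℕ) (hu : u < M) (h : dp_b_21 j u = true) : Good (fa g) T MG M (cP g H) Lt.b u := by
  unfold dp_b_21 at h
  rcases brec_true h with h | h
  · exact lF_good (T := T) (x := Lt.b) (by decide) [Lt.f, Lt.d, Lt.d, Lt.b, Lt.fi, Lt.d, Lt.c] (hole_rel hinv hr (by decide +kernel)) h
  · exact lF_good (T := T) (x := Lt.b) (by decide) [Lt.ci, Lt.b, Lt.ci, Lt.b, Lt.ci, Lt.b, Lt.ci] (hole_rel hinv hr (by decide +kernel)) h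
theorem dp_b_22_s (hinv : ∀ x, g (inv x) = (g x)⁻¹) (hr : ∀ r ∈ rels, (r.map g).prod = 1) (hH : ∀ r ∈ subs, (r.map g).prod ∈ H)
    (j u : ℕ) (hu : u < M) (h : dp_b_22 j u = true) : Good (fa g) T MG M (cP g H) Lt.b u := by
  unfold dp_b_22 at h
  rcases brec_true h with h | h
  · exact lF_good (T := T) (x := Lt.b) (by decide) [Lt.f, Lt.c, Lt.di, Lt.b, Lt.f, Lt.c, Lt.di] (hole_rel hinv hr (by decide +kernel)) h
  · exact dp_b_21_s hinv hr hH j u hu h
theorem dp_b_23_s (hinv : ∀ x, g (inv x) = (g x)⁻¹) (hr : ∀ r ∈ rels, (r.map g).prod = 1) (hH : ∀ r ∈ subs, (r.map g).prod ∈ H)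
    (j u : ℕ) (hu : u < M) (h : dp_b_23 j u = true) : Good (fa g) T MG M (cP g H) Lt.b u := by
  unfold dp_b_23 at h
  rcases brec_true h with h | h
  · exact dp_b_20_s hinv hr hH j u hu h
  · exact dp_b_22_s hinv hr hH j u hu h
theorem dp_b_24_s (hinv : ∀ x, g (inv x) = (g x)⁻¹) (hr : ∀ r ∈ rels, (r.map g).prod = 1) (hH : ∀ r ∈ subs, (r.map g).prod ∈ H)
    (j u : ℕ) (hu : u < M) (h : dp_b_24 j u = true) : Good (fa g) T MG M (cP g H) Lt.b u := by
  unfold dp_b_24 at h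
  rcases brec_true h with h | h
  · exact lS_good (T := T) (x := Lt.b) (by decide) hu [Lt.b, Lt.ci, Lt.fi, Lt.fi, Lt.bi, Lt.d, Lt.c] (hole_rel hinv hr (by decide +kernel)) h
  · exact lF_good (T := T) (x := Lt.b) (by decide) [Lt.ci, Lt.bi, Lt.f, Lt.d, Lt.b, Lt.c, Lt.d] (hole_rel hinv hr (by decide +kernel)) h
theorem dp_b_25_s (hinv : ∀ x, g (inv x) = (g x)⁻¹) (hr : ∀ r ∈ rels, (r.map g).prod = 1) (hH : ∀ r ∈ subs, (r.map g).prod ∈ H)
    (j u : ℕ) (hu : u < M) (h : dp_b_25 j u = true) : Good (fa g) T MG M (cP g H) Lt.b u := by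
  unfold dp_b_25 at h
  rcases brec_true h with h | h
  · exact lS_good (T := T) (x := Lt.b) (by decide) hu [Lt.d, Lt.ci, Lt.ci, Lt.b, Lt.d, Lt.ci, Lt.ci] (hole_rel hinv hr (by decide +kernel)) h
  · exact dp_b_24_s hinv hr hH j u hu h
theorem dp_b_26_s (hinv : ∀ x, g (inv x) = (g x)⁻¹) (hr : ∀ r ∈ rels, (r.map g).prod = 1) (hH : ∀ r ∈ subs, (r.map g).prod ∈ H)
    (j u : ℕ) (hu : u < M) (h : dp_b_26 j u = true) : Good (fa g) T MG M (cP g H) Lt.b u := by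
  unfold dp_b_26 at h
  rcases brec_true h with h | h
  · exact lS_good (T := T) (x := Lt.b) (by decide) hu [Lt.f, Lt.c, Lt.di, Lt.b, Lt.f, Lt.c, Lt.di] (hole_rel hinv hr (by decide +kernel)) h
  · exact lF_good (T := T) (x := Lt.b) (by decide) [Lt.d, Lt.ci, Lt.ci, Lt.b, Lt.d, Lt.ci, Lt.ci] (hole_rel hinv hr (by decide +kernel)) h
theorem dp_b_27_s (hinv : ∀ x, g (inv x) = (g x)⁻¹) (hr : ∀ r ∈ rels, (r.map g).prod = 1) (hH : ∀ r ∈ subs, (r.map g).prod ∈ H)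
    (j u : ℕ) (hu : u < M) (h : dp_b_27 j u = true) : Good (fa g) T MG M (cP g H) Lt.b u := by
  unfold dp_b_27 at h
  rcases brec_true h with h | h
  · exact lF_good (T := T) (x := Lt.b) (by decide) [Lt.ci, Lt.di, Lt.ci, Lt.bi, Lt.f, Lt.ci, Lt.d] (hole_rel hinv hr (by decide +kernel)) h
  · exact dp_b_26_s hinv hr hH j u hu h
theorem dp_b_28_s (hinv : ∀ x, g (inv x) = (g x)⁻¹) (hr : ∀ r ∈ rels, (r.map g).prod = 1) (hH : ∀ r ∈ subs, (r.map g).prod ∈ H)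
    (j u : ℕ) (hu : u < M) (h : dp_b_28 j u = true) : Good (fa g) T MG M (cP g H) Lt.b u := by
  unfold dp_b_28 at h
  rcases brec_true h with h | h
  · exact dp_b_25_s hinv hr hH j u hu h
  · exact dp_b_27_s hinv hr hH j u hu h
theorem dp_b_29_s (hinv : ∀ x, g (inv x) = (g x)⁻¹) (hr : ∀ r ∈ rels, (r.map g).prod = 1) (hH : ∀ r ∈ subs, (r.map g).prod ∈ H)
    (j u : ℕ) (hu : u < M) (h : dp_b_29 j u = true) : Good (fa g) T MG M (cP g H) Lt.b u := by
  unfold dp_b_29 at h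
  rcases brec_true h with h | h
  · exact dp_b_23_s hinv hr hH j u hu h
  · exact dp_b_28_s hinv hr hH j u hu h
theorem dp_b_30_s (hinv : ∀ x, g (inv x) = (g x)⁻¹) (hr : ∀ r ∈ rels, (r.map g).prod = 1) (hH : ∀ r ∈ subs, (r.map g).prod ∈ H)
    (j u : ℕ) (hu : u < M) (h : dp_b_30 j u = true) : Good (fa g) T MG M (cP g H) Lt.b u := by
  unfold dp_b_30 at h
  rcases brec_true h with h | h
  · exact dp_b_19_s hinv hr hH j u hu h
  · exact dp_b_29_s hinv hr hH j u hu h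
theorem dp_b_31_s (hinv : ∀ x, g (inv x) = (g x)⁻¹) (hr : ∀ r ∈ rels, (r.map g).prod = 1) (hH : ∀ r ∈ subs, (r.map g).prod ∈ H)
    (j u : ℕ) (hu : u < M) (h : dp_b_31 j u = true) : Good (fa g) T MG M (cP g H) Lt.b u := by
  unfold dp_b_31 at h
  rcases brec_true h with h | h
  · exact dp_b_10_s hinv hr hH j u hu h
  · exact dp_b_30_s hinv hr hH j u hu h
theorem dp_b_32_s (hinv : ∀ x, g (inv x) = (g x)⁻¹) (hr : ∀ r ∈ rels, (r.map g).prod = 1) (hH : ∀ r ∈ subs, (r.map g).prod ∈ H)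
    (j u : ℕ) (hu : u < M) (h : dp_b_32 j u = true) : Good (fa g) T MG M (cP g H) Lt.b u := by
  unfold dp_b_32 at h
  rcases brec_true h with h | h
  · exact lS_good (T := T) (x := Lt.b) (by decide) hu [Lt.c, Lt.bi, Lt.ci, Lt.bi, Lt.fi, Lt.d, Lt.d] (hole_rel hinv hr (by decide +kernel)) h
  · exact lS_good (T := T) (x := Lt.b) (by decide) hu [Lt.c, Lt.b, Lt.ci, Lt.bi, Lt.di, Lt.di, Lt.f] (hole_rel hinv hr (by decide +kernel)) h
theorem dp_b_33_s (hinv : ∀ x, g (inv x) = (g x)⁻¹) (hr : ∀ r ∈ rels, (r.map g).prod = 1) (hH : ∀ r ∈ subs, (r.map g).prod ∈ H)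
    (j u : ℕ) (hu : u < M) (h : dp_b_33 j u = true) : Good (fa g) T MG M (cP g H) Lt.b u := by
  unfold dp_b_33 at h
  rcases brec_true h with h | h
  · exact lF_good (T := T) (x := Lt.b) (by decide) [Lt.c, Lt.bi, Lt.ci, Lt.bi, Lt.fi, Lt.d, Lt.d] (hole_rel hinv hr (by decide +kernel)) h
  · exact dp_b_32_s hinv hr hH j u hu h
theorem dp_b_34_s (hinv : ∀ x, g (inv x) = (g x)⁻¹) (hr : ∀ r ∈ rels, (r.map g).prod = 1) (hH : ∀ r ∈ subs, (r.map g).prod ∈ H)
    (j u : ℕ) (hu : u < M) (h : dp_b_34 j u = true) : Good (fa g) T MG M (cP g H) Lt.b u := by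
  unfold dp_b_34 at h
  rcases brec_true h with h | h
  · exact lF_good (T := T) (x := Lt.b) (by decide) [Lt.fi, Lt.c, Lt.c, Lt.fi, Lt.bi, Lt.c, Lt.f] (hole_rel hinv hr (by decide +kernel)) h
  · exact lS_good (T := T) (x := Lt.b) (by decide) hu [Lt.di, Lt.di, Lt.b, Lt.di, Lt.bi, Lt.di, Lt.di] (hole_rel hinv hr (by decide +kernel)) h
theorem dp_b_35_s (hinv : ∀ x, g (inv x) = (g x)⁻¹) (hr : ∀ r ∈ rels, (r.map g).prod = 1) (hH : ∀ r ∈ subs, (r.map g).prod ∈ H)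
    (j u : ℕ) (hu : u < M) (h : dp_b_35 j u = true) : Good (fa g) T MG M (cP g H) Lt.b u := by
  unfold dp_b_35 at h
  rcases brec_true h with h | h
  · exact lS_good (T := T) (x := Lt.b) (by decide) hu [Lt.ci, Lt.bi, Lt.di, Lt.di, Lt.f, Lt.b, Lt.c] (hole_rel hinv hr (by decide +kernel)) h
  · exact lS_good (T := T) (x := Lt.b) (by decide) hu [Lt.c, Lt.d, Lt.f, Lt.b, Lt.di, Lt.f, Lt.c] (hole_rel hinv hr (by decide +kernel)) h
theorem dp_b_36_s (hinv : ∀ x, g (inv x) = (g x)⁻¹) (hr : ∀ r ∈ rels, (r.map g).prod = 1) (hH : ∀ r ∈ subs, (r.map g).prod ∈ H)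
    (j u : ℕ) (hu : u < M) (h : dp_b_36 j u = true) : Good (fa g) T MG M (cP g H) Lt.b u := by
  unfold dp_b_36 at h
  rcases brec_true h with h | h
  · exact dp_b_34_s hinv hr hH j u hu h
  · exact dp_b_35_s hinv hr hH j u hu h
theorem dp_b_37_s (hinv : ∀ x, g (inv x) = (g x)⁻¹) (hr : ∀ r ∈ rels, (r.map g).prod = 1) (hH : ∀ r ∈ subs, (r.map g).prod ∈ H)
    (j u : ℕ) (hu : u < M) (h : dp_b_37 j u = true) : Good (fa g) T MG M (cP g H) Lt.b u := by
  unfold dp_b_37 at h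
  rcases brec_true h with h | h
  · exact dp_b_33_s hinv hr hH j u hu h
  · exact dp_b_36_s hinv hr hH j u hu h
theorem dp_b_38_s (hinv : ∀ x, g (inv x) = (g x)⁻¹) (hr : ∀ r ∈ rels, (r.map g).prod = 1) (hH : ∀ r ∈ subs, (r.map g).prod ∈ H)
    (j u : ℕ) (hu : u < M) (h : dp_b_38 j u = true) : Good (fa g) T MG M (cP g H) Lt.b u := by
  unfold dp_b_38 at h
  rcases brec_true h with h | h
  · exact lF_good (T := T) (x := Lt.b) (by decide) [Lt.d, Lt.bi, Lt.d, Lt.d, Lt.bi, Lt.d, Lt.d] (hole_rel hinv hr (by decide +kernel)) h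
  · exact lF_good (T := T) (x := Lt.b) (by decide) [Lt.ci, Lt.bi, Lt.fi, Lt.b, Lt.c, Lt.d, Lt.b] (hole_rel hinv hr (by decide +kernel)) h
theorem dp_b_39_s (hinv : ∀ x, g (inv x) = (g x)⁻¹) (hr : ∀ r ∈ rels, (r.map g).prod = 1) (hH : ∀ r ∈ subs, (r.map g).prod ∈ H)
    (j u : ℕ) (hu : u < M) (h : dp_b_39 j u = true) : Good (fa g) T MG M (cP g H) Lt.b u := by
  unfold dp_b_39 at h
  rcases brec_true h with h | h
  · exact lS_good (T := T) (x := Lt.b) (by decide) hu [Lt.di, Lt.f, Lt.c, Lt.b, Lt.c, Lt.d, Lt.f] (hole_rel hinv hr (by decide +kernel)) h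
  · exact dp_b_38_s hinv hr hH j u hu h
theorem dp_b_40_s (hinv : ∀ x, g (inv x) = (g x)⁻¹) (hr : ∀ r ∈ rels, (r.map g).prod = 1) (hH : ∀ r ∈ subs, (r.map g).prod ∈ H)
    (j u : ℕ) (hu : u < M) (h : dp_b_40 j u = true) : Good (fa g) T MG M (cP g H) Lt.b u := by
  unfold dp_b_40 at h
  rcases brec_true h with h | h
  · exact lS_good (T := T) (x := Lt.b) (by decide) hu [Lt.f, Lt.di, Lt.c, Lt.fi, Lt.bi, Lt.bi, Lt.f] (hole_rel hinv hr (by decide +kernel)) h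
  · exact lF_good (T := T) (x := Lt.b) (by decide) [Lt.di, Lt.f, Lt.c, Lt.b, Lt.c, Lt.d, Lt.f] (hole_rel hinv hr (by decide +kernel)) h
theorem dp_b_41_s (hinv : ∀ x, g (inv x) = (g x)⁻¹) (hr : ∀ r ∈ rels, (r.map g).prod = 1) (hH : ∀ r ∈ subs, (r.map g).prod ∈ H)
    (j u : ℕ) (hu : u < M) (h : dp_b_41 j u = true) : Good (fa g) T MG M (cP g H) Lt.b u := by
  unfold dp_b_41 at h
  rcases brec_true h with h | h
  · exact lF_good (T := T) (x := Lt.b) (by decide) [Lt.c, Lt.b, Lt.ci, Lt.bi, Lt.di, Lt.di, Lt.f] (hole_rel hinv hr (by decide +kernel)) h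
  · exact lF_good (T := T) (x := Lt.b) (by decide) [Lt.e, Lt.di, Lt.fi, Lt.bi, Lt.f, Lt.e, Lt.f, Lt.ci] (hole_rel hinv hr (by decide +kernel)) h
theorem dp_b_42_s (hinv : ∀ x, g (inv x) = (g x)⁻¹) (hr : ∀ r ∈ rels, (r.map g).prod = 1) (hH : ∀ r ∈ subs, (r.map g).prod ∈ H)
    (j u : ℕ) (hu : u < M) (h : dp_b_42 j u = true) : Good (fa g) T MG M (cP g H) Lt.b u := by
  unfold dp_b_42 at h
  rcases brec_true h with h | h
  · exact dp_b_40_s hinv hr hH j u hu h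
  · exact dp_b_41_s hinv hr hH j u hu h
theorem dp_b_43_s (hinv : ∀ x, g (inv x) = (g x)⁻¹) (hr : ∀ r ∈ rels, (r.map g).prod = 1) (hH : ∀ r ∈ subs, (r.map g).prod ∈ H)
    (j u : ℕ) (hu : u < M) (h : dp_b_43 j u = true) : Good (fa g) T MG M (cP g H) Lt.b u := by
  unfold dp_b_43 at h
  rcases brec_true h with h | h
  · exact dp_b_39_s hinv hr hH j u hu h
  · exact dp_b_42_s hinv hr hH j u hu h
theorem dp_b_44_s (hinv : ∀ x, g (inv x) = (g x)⁻¹) (hr : ∀ r ∈ rels, (r.map g).prod = 1) (hH : ∀ r ∈ subs, (r.map g).prod ∈ H)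
    (j u : ℕ) (hu : u < M) (h : dp_b_44 j u = true) : Good (fa g) T MG M (cP g H) Lt.b u := by
  unfold dp_b_44 at h
  rcases brec_true h with h | h
  · exact dp_b_37_s hinv hr hH j u hu h
  · exact dp_b_43_s hinv hr hH j u hu h
theorem dp_b_45_s (hinv : ∀ x, g (inv x) = (g x)⁻¹) (hr : ∀ r ∈ rels, (r.map g).prod = 1) (hH : ∀ r ∈ subs, (r.map g).prod ∈ H)
    (j u : ℕ) (hu : u < M) (h : dp_b_45 j u = true) : Good (fa g) T MG M (cP g H) Lt.b u := by
  unfold dp_b_45 at h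
  rcases brec_true h with h | h
  · exact lS_good (T := T) (x := Lt.b) (by decide) hu [Lt.fi, Lt.c, Lt.c, Lt.fi, Lt.bi, Lt.c, Lt.f] (hole_rel hinv hr (by decide +kernel)) h
  · exact lS_good (T := T) (x := Lt.b) (by decide) hu [Lt.d, Lt.bi, Lt.d, Lt.d, Lt.bi, Lt.d, Lt.d] (hole_rel hinv hr (by decide +kernel)) h
theorem dp_b_46_s (hinv : ∀ x, g (inv x) = (g x)⁻¹) (hr : ∀ r ∈ rels, (r.map g).prod = 1) (hH : ∀ r ∈ subs, (r.map g).prod ∈ H)
    (j u : ℕ) (hu : u < M) (h : dp_b_46 j u = true) : Good (fa g) T MG M (cP g H) Lt.b u := by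
  unfold dp_b_46 at h
  rcases brec_true h with h | h
  · exact lF_good (T := T) (x := Lt.b) (by decide) [Lt.fi, Lt.d, Lt.c, Lt.b, Lt.f, Lt.d, Lt.d] (hole_rel hinv hr (by decide +kernel)) h
  · exact dp_b_45_s hinv hr hH j u hu h
theorem dp_b_47_s (hinv : ∀ x, g (inv x) = (g x)⁻¹) (hr : ∀ r ∈ rels, (r.map g).prod = 1) (hH : ∀ r ∈ subs, (r.map g).prod ∈ H)
    (j u : ℕ) (hu : u < M) (h : dp_b_47 j u = true) : Good (fa g) T MG M (cP g H) Lt.b u := by
  unfold dp_b_47 at h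
  rcases brec_true h with h | h
  · exact lS_good (T := T) (x := Lt.b) (by decide) hu [Lt.c, Lt.c, Lt.d, Lt.fi, Lt.d, Lt.bi, Lt.c] (hole_rel hinv hr (by decide +kernel)) h
  · exact lS_good (T := T) (x := Lt.b) (by decide) hu [Lt.ci, Lt.fi, Lt.fi, Lt.bi, Lt.d, Lt.c, Lt.b] (hole_rel hinv hr (by decide +kernel)) h
theorem dp_b_48_s (hinv : ∀ x, g (inv x) = (g x)⁻¹) (hr : ∀ r ∈ rels, (r.map g).prod = 1) (hH : ∀ r ∈ subs, (r.map g).prod ∈ H)
    (j u : ℕ) (hu : u < M) (h : dp_b_48 j u = true) : Good (fa g) T MG M (cP g H) Lt.b u := by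
  unfold dp_b_48 at h
  rcases brec_true h with h | h
  · exact lS_good (T := T) (x := Lt.b) (by decide) hu [Lt.b, Lt.ci, Lt.bi, Lt.fi, Lt.b, Lt.c, Lt.d] (hole_rel hinv hr (by decide +kernel)) h
  · exact lS_good (T := T) (x := Lt.b) (by decide) hu [Lt.di, Lt.ci, Lt.d, Lt.ci, Lt.bi, Lt.d, Lt.ci] (hole_rel hinv hr (by decide +kernel)) h
theorem dp_b_49_s (hinv : ∀ x, g (inv x) = (g x)⁻¹) (hr : ∀ r ∈ rels, (r.map g).prod = 1) (hH : ∀ r ∈ subs, (r.map g).prod ∈ H)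
    (j u : ℕ) (hu : u < M) (h : dp_b_49 j u = true) : Good (fa g) T MG M (cP g H) Lt.b u := by
  unfold dp_b_49 at h
  rcases brec_true h with h | h
  · exact dp_b_47_s hinv hr hH j u hu h
  · exact dp_b_48_s hinv hr hH j u hu h
theorem dp_b_50_s (hinv : ∀ x, g (inv x) = (g x)⁻¹) (hr : ∀ r ∈ rels, (r.map g).prod = 1) (hH : ∀ r ∈ subs, (r.map g).prod ∈ H)
    (j u : ℕ) (hu : u < M) (h : dp_b_50 j u = true) : Good (fa g) T MG M (cP g H) Lt.b u := by
  unfold dp_b_50 at h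
  rcases brec_true h with h | h
  · exact dp_b_46_s hinv hr hH j u hu h
  · exact dp_b_49_s hinv hr hH j u hu h
theorem dp_b_51_s (hinv : ∀ x, g (inv x) = (g x)⁻¹) (hr : ∀ r ∈ rels, (r.map g).prod = 1) (hH : ∀ r ∈ subs, (r.map g).prod ∈ H)
    (j u : ℕ) (hu : u < M) (h : dp_b_51 j u = true) : Good (fa g) T MG M (cP g H) Lt.b u := by
  unfold dp_b_51 at h
  rcases brec_true h with h | h
  · exact lS_good (T := T) (x := Lt.b) (by decide) hu [Lt.ci, Lt.bi, Lt.f, Lt.d, Lt.b, Lt.c, Lt.d] (hole_rel hinv hr (by decide +kernel)) h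
  · exact lF_good (T := T) (x := Lt.b) (by decide) [Lt.b, Lt.ci, Lt.fi, Lt.fi, Lt.bi, Lt.d, Lt.c] (hole_rel hinv hr (by decide +kernel)) h
theorem dp_b_52_s (hinv : ∀ x, g (inv x) = (g x)⁻¹) (hr : ∀ r ∈ rels, (r.map g).prod = 1) (hH : ∀ r ∈ subs, (r.map g).prod ∈ H)
    (j u : ℕ) (hu : u < M) (h : dp_b_52 j u = true) : Good (fa g) T MG M (cP g H) Lt.b u := by
  unfold dp_b_52 at h
  rcases brec_true h with h | h
  · exact lS_good (T := T) (x := Lt.b) (by decide) hu [Lt.di, Lt.f, Lt.di, Lt.ci, Lt.ci, Lt.bi, Lt.ci] (hole_rel hinv hr (by decide +kernel)) h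
  · exact lS_good (T := T) (x := Lt.b) (by decide) hu [Lt.ci, Lt.di, Lt.c, Lt.b, Lt.ci, Lt.di, Lt.c] (hole_rel hinv hr (by decide +kernel)) h
theorem dp_b_53_s (hinv : ∀ x, g (inv x) = (g x)⁻¹) (hr : ∀ r ∈ rels, (r.map g).prod = 1) (hH : ∀ r ∈ subs, (r.map g).prod ∈ H)
    (j u : ℕ) (hu : u < M) (h : dp_b_53 j u = true) : Good (fa g) T MG M (cP g H) Lt.b u := by
  unfold dp_b_53 at h
  rcases brec_true h with h | h
  · exact dp_b_51_s hinv hr hH j u hu h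
  · exact dp_b_52_s hinv hr hH j u hu h
theorem dp_b_54_s (hinv : ∀ x, g (inv x) = (g x)⁻¹) (hr : ∀ r ∈ rels, (r.map g).prod = 1) (hH : ∀ r ∈ subs, (r.map g).prod ∈ H)
    (j u : ℕ) (hu : u < M) (h : dp_b_54 j u = true) : Good (fa g) T MG M (cP g H) Lt.b u := by
  unfold dp_b_54 at h
  rcases brec_true h with h | h
  · exact lF_good (T := T) (x := Lt.b) (by decide) [Lt.c, Lt.di, Lt.ci, Lt.bi, Lt.d, Lt.f, Lt.di] (hole_rel hinv hr (by decide +kernel)) h
  · exact lF_good (T := T) (x := Lt.b) (by decide) [Lt.di, Lt.bi, Lt.di, Lt.di, Lt.b, Lt.di, Lt.di] (hole_rel hinv hr (by decide +kernel)) h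
theorem dp_b_55_s (hinv : ∀ x, g (inv x) = (g x)⁻¹) (hr : ∀ r ∈ rels, (r.map g).prod = 1) (hH : ∀ r ∈ subs, (r.map g).prod ∈ H)
    (j u : ℕ) (hu : u < M) (h : dp_b_55 j u = true) : Good (fa g) T MG M (cP g H) Lt.b u := by
  unfold dp_b_55 at h
  rcases brec_true h with h | h
  · exact lF_good (T := T) (x := Lt.b) (by decide) [Lt.b, Lt.ci, Lt.bi, Lt.fi, Lt.b, Lt.c, Lt.d] (hole_rel hinv hr (by decide +kernel)) h
  · exact lF_good (T := T) (x := Lt.b) (by decide) [Lt.c, Lt.bi, Lt.di, Lt.ci, Lt.bi, Lt.di, Lt.fi] (hole_rel hinv hr (by decide +kernel)) h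
theorem dp_b_56_s (hinv : ∀ x, g (inv x) = (g x)⁻¹) (hr : ∀ r ∈ rels, (r.map g).prod = 1) (hH : ∀ r ∈ subs, (r.map g).prod ∈ H)
    (j u : ℕ) (hu : u < M) (h : dp_b_56 j u = true) : Good (fa g) T MG M (cP g H) Lt.b u := by
  unfold dp_b_56 at h
  rcases brec_true h with h | h
  · exact dp_b_54_s hinv hr hH j u hu h
  · exact dp_b_55_s hinv hr hH j u hu h
theorem dp_b_57_s (hinv : ∀ x, g (inv x) = (g x)⁻¹) (hr : ∀ r ∈ rels, (r.map g).prod = 1) (hH : ∀ r ∈ subs, (r.map g).prod ∈ H)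
    (j u : ℕ) (hu : u < M) (h : dp_b_57 j u = true) : Good (fa g) T MG M (cP g H) Lt.b u := by
  unfold dp_b_57 at h
  rcases brec_true h with h | h
  · exact dp_b_53_s hinv hr hH j u hu h
  · exact dp_b_56_s hinv hr hH j u hu h
theorem dp_b_58_s (hinv : ∀ x, g (inv x) = (g x)⁻¹) (hr : ∀ r ∈ rels, (r.map g).prod = 1) (hH : ∀ r ∈ subs, (r.map g).prod ∈ H)
    (j u : ℕ) (hu : u < M) (h : dp_b_58 j u = true) : Good (fa g) T MG M (cP g H) Lt.b u := by
  unfold dp_b_58 at h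
  rcases brec_true h with h | h
  · exact dp_b_50_s hinv hr hH j u hu h
  · exact dp_b_57_s hinv hr hH j u hu h
theorem dp_b_59_s (hinv : ∀ x, g (inv x) = (g x)⁻¹) (hr : ∀ r ∈ rels, (r.map g).prod = 1) (hH : ∀ r ∈ subs, (r.map g).prod ∈ H)
    (j u : ℕ) (hu : u < M) (h : dp_b_59 j u = true) : Good (fa g) T MG M (cP g H) Lt.b u := by
  unfold dp_b_59 at h
  rcases brec_true h with h | h
  · exact dp_b_44_s hinv hr hH j u hu h
  · exact dp_b_58_s hinv hr hH j u hu h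
theorem dp_b_60_s (hinv : ∀ x, g (inv x) = (g x)⁻¹) (hr : ∀ r ∈ rels, (r.map g).prod = 1) (hH : ∀ r ∈ subs, (r.map g).prod ∈ H)
    (j u : ℕ) (hu : u < M) (h : dp_b_60 j u = true) : Good (fa g) T MG M (cP g H) Lt.b u := by
  unfold dp_b_60 at h
  rcases brec_true h with h | h
  · exact lS_good (T := T) (x := Lt.b) (by decide) hu [Lt.f, Lt.d, Lt.ei, Lt.bi, Lt.c, Lt.fi, Lt.ei, Lt.fi] (hole_rel hinv hr (by decide +kernel)) h
  · exact lS_good (T := T) (x := Lt.b) (by decide) hu [Lt.c, Lt.d, Lt.b, Lt.ci, Lt.bi, Lt.f, Lt.d] (hole_rel hinv hr (by decide +kernel)) h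
theorem dp_b_61_s (hinv : ∀ x, g (inv x) = (g x)⁻¹) (hr : ∀ r ∈ rels, (r.map g).prod = 1) (hH : ∀ r ∈ subs, (r.map g).prod ∈ H)
    (j u : ℕ) (hu : u < M) (h : dp_b_61 j u = true) : Good (fa g) T MG M (cP g H) Lt.b u := by
  unfold dp_b_61 at h
  rcases brec_true h with h | h
  · exact lS_good (T := T) (x := Lt.b) (by decide) hu [Lt.c, Lt.bi, Lt.ci, Lt.bi, Lt.f, Lt.d, Lt.f] (hole_rel hinv hr (by decide +kernel)) h
  · exact lF_good (T := T) (x := Lt.b) (by decide) [Lt.c, Lt.di, Lt.c, Lt.d, Lt.bi, Lt.c, Lt.di] (hole_rel hinv hr (by decide +kernel)) h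
theorem dp_b_62_s (hinv : ∀ x, g (inv x) = (g x)⁻¹) (hr : ∀ r ∈ rels, (r.map g).prod = 1) (hH : ∀ r ∈ subs, (r.map g).prod ∈ H)
    (j u : ℕ) (hu : u < M) (h : dp_b_62 j u = true) : Good (fa g) T MG M (cP g H) Lt.b u := by
  unfold dp_b_62 at h
  rcases brec_true h with h | h
  · exact dp_b_60_s hinv hr hH j u hu h
  · exact dp_b_61_s hinv hr hH j u hu h
theorem dp_b_63_s (hinv : ∀ x, g (inv x) = (g x)⁻¹) (hr : ∀ r ∈ rels, (r.map g).prod = 1) (hH : ∀ r ∈ subs, (r.map g).prod ∈ H)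
    (j u : ℕ) (hu : u < M) (h : dp_b_63 j u = true) : Good (fa g) T MG M (cP g H) Lt.b u := by
  unfold dp_b_63 at h
  rcases brec_true h with h | h
  · exact lF_good (T := T) (x := Lt.b) (by decide) [Lt.ci, Lt.bi, Lt.di, Lt.di, Lt.f, Lt.b, Lt.c] (hole_rel hinv hr (by decide +kernel)) h
  · exact lS_good (T := T) (x := Lt.b) (by decide) hu [Lt.ci, Lt.b, Lt.ci, Lt.b, Lt.ci, Lt.b, Lt.ci] (hole_rel hinv hr (by decide +kernel)) h
theorem dp_b_64_s (hinv : ∀ x, g (inv x) = (g x)⁻¹) (hr : ∀ r ∈ rels, (r.map g).prod = 1) (hH : ∀ r ∈ subs, (r.map g).prod ∈ H)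
    (j u : ℕ) (hu : u < M) (h : dp_b_64 j u = true) : Good (fa g) T MG M (cP g H) Lt.b u := by
  unfold dp_b_64 at h
  rcases brec_true h with h | h
  · exact lS_good (T := T) (x := Lt.b) (by decide) hu [Lt.c, Lt.d, Lt.b, Lt.b, Lt.ci, Lt.bi, Lt.fi] (hole_rel hinv hr (by decide +kernel)) h
  · exact lF_good (T := T) (x := Lt.b) (by decide) [Lt.f, Lt.f, Lt.c, Lt.bi, Lt.bi, Lt.ci, Lt.di] (hole_rel hinv hr (by decide +kernel)) h
theorem dp_b_65_s (hinv : ∀ x, g (inv x) = (g x)⁻¹) (hr : ∀ r ∈ rels, (r.map g).prod = 1) (hH : ∀ r ∈ subs, (r.map g).prod ∈ H)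
    (j u : ℕ) (hu : u < M) (h : dp_b_65 j u = true) : Good (fa g) T MG M (cP g H) Lt.b u := by
  unfold dp_b_65 at h
  rcases brec_true h with h | h
  · exact lS_good (T := T) (x := Lt.b) (by decide) hu [Lt.c, Lt.bi, Lt.bi, Lt.di, Lt.ci, Lt.bi, Lt.f] (hole_rel hinv hr (by decide +kernel)) h
  · exact dp_b_64_s hinv hr hH j u hu h
theorem dp_b_66_s (hinv : ∀ x, g (inv x) = (g x)⁻¹) (hr : ∀ r ∈ rels, (r.map g).prod = 1) (hH : ∀ r ∈ subs, (r.map g).prod ∈ H)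
    (j u : ℕ) (hu : u < M) (h : dp_b_66 j u = true) : Good (fa g) T MG M (cP g H) Lt.b u := by
  unfold dp_b_66 at h
  rcases brec_true h with h | h
  · exact dp_b_63_s hinv hr hH j u hu h
  · exact dp_b_65_s hinv hr hH j u hu h
theorem dp_b_67_s (hinv : ∀ x, g (inv x) = (g x)⁻¹) (hr : ∀ r ∈ rels, (r.map g).prod = 1) (hH : ∀ r ∈ subs, (r.map g).prod ∈ H)
    (j u : ℕ) (hu : u < M) (h : dp_b_67 j u = true) : Good (fa g) T MG M (cP g H) Lt.b u := by
  unfold dp_b_67 at h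
  rcases brec_true h with h | h
  · exact dp_b_62_s hinv hr hH j u hu h
  · exact dp_b_66_s hinv hr hH j u hu h
theorem dp_b_68_s (hinv : ∀ x, g (inv x) = (g x)⁻¹) (hr : ∀ r ∈ rels, (r.map g).prod = 1) (hH : ∀ r ∈ subs, (r.map g).prod ∈ H)
    (j u : ℕ) (hu : u < M) (h : dp_b_68 j u = true) : Good (fa g) T MG M (cP g H) Lt.b u := by
  unfold dp_b_68 at h
  rcases brec_true h with h | h
  · exact lF_good (T := T) (x := Lt.b) (by decide) [Lt.ci, Lt.ci, Lt.di, Lt.c, Lt.c, Lt.bi, Lt.c] (hole_rel hinv hr (by decide +kernel)) h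
  · exact lS_good (T := T) (x := Lt.b) (by decide) hu [Lt.c, Lt.b, Lt.ci, Lt.bi, Lt.fi, Lt.di, Lt.fi] (hole_rel hinv hr (by decide +kernel)) h
theorem dp_b_69_s (hinv : ∀ x, g (inv x) = (g x)⁻¹) (hr : ∀ r ∈ rels, (r.map g).prod = 1) (hH : ∀ r ∈ subs, (r.map g).prod ∈ H)
    (j u : ℕ) (hu : u < M) (h : dp_b_69 j u = true) : Good (fa g) T MG M (cP g H) Lt.b u := by
  unfold dp_b_69 at h
  rcases brec_true h with h | h
  · exact lS_good (T := T) (x := Lt.b) (by decide) hu [Lt.d, Lt.ci, Lt.fi, Lt.fi, Lt.di, Lt.bi, Lt.c] (hole_rel hinv hr (by decide +kernel)) h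
  · exact lS_good (T := T) (x := Lt.b) (by decide) hu [Lt.ci, Lt.di, Lt.ci, Lt.bi, Lt.f, Lt.ci, Lt.d] (hole_rel hinv hr (by decide +kernel)) h
theorem dp_b_70_s (hinv : ∀ x, g (inv x) = (g x)⁻¹) (hr : ∀ r ∈ rels, (r.map g).prod = 1) (hH : ∀ r ∈ subs, (r.map g).prod ∈ H)
    (j u : ℕ) (hu : u < M) (h : dp_b_70 j u = true) : Good (fa g) T MG M (cP g H) Lt.b u := by
  unfold dp_b_70 at h
  rcases brec_true h with h | h
  · exact lS_good (T := T) (x := Lt.b) (by decide) hu [Lt.c, Lt.bi, Lt.di, Lt.ci, Lt.bi, Lt.di, Lt.fi] (hole_rel hinv hr (by decide +kernel)) h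
  · exact dp_b_69_s hinv hr hH j u hu h
theorem dp_b_71_s (hinv : ∀ x, g (inv x) = (g x)⁻¹) (hr : ∀ r ∈ rels, (r.map g).prod = 1) (hH : ∀ r ∈ subs, (r.map g).prod ∈ H)
    (j u : ℕ) (hu : u < M) (h : dp_b_71 j u = true) : Good (fa g) T MG M (cP g H) Lt.b u := by
  unfold dp_b_71 at h
  rcases brec_true h with h | h
  · exact dp_b_68_s hinv hr hH j u hu h
  · exact dp_b_70_s hinv hr hH j u hu h
theorem dp_b_72_s (hinv : ∀ x, g (inv x) = (g x)⁻¹) (hr : ∀ r ∈ rels, (r.map g).prod = 1) (hH : ∀ r ∈ subs, (r.map g).prod ∈ H)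
    (j u : ℕ) (hu : u < M) (h : dp_b_72 j u = true) : Good (fa g) T MG M (cP g H) Lt.b u := by
  unfold dp_b_72 at h
  rcases brec_true h with h | h
  · exact lF_good (T := T) (x := Lt.b) (by decide) [Lt.c, Lt.c, Lt.d, Lt.fi, Lt.d, Lt.bi, Lt.c] (hole_rel hinv hr (by decide +kernel)) h
  · exact lF_good (T := T) (x := Lt.b) (by decide) [Lt.f, Lt.ci, Lt.ci, Lt.f, Lt.bi, Lt.fi, Lt.ci] (hole_rel hinv hr (by decide +kernel)) h
theorem dp_b_73_s (hinv : ∀ x, g (inv x) = (g x)⁻¹) (hr : ∀ r ∈ rels, (r.map g).prod = 1) (hH : ∀ r ∈ subs, (r.map g).prod ∈ H)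
    (j u : ℕ) (hu : u < M) (h : dp_b_73 j u = true) : Good (fa g) T MG M (cP g H) Lt.b u := by
  unfold dp_b_73 at h
  rcases brec_true h with h | h
  · exact lF_good (T := T) (x := Lt.b) (by decide) [Lt.ci, Lt.fi, Lt.fi, Lt.bi, Lt.d, Lt.c, Lt.b] (hole_rel hinv hr (by decide +kernel)) h
  · exact lF_good (T := T) (x := Lt.b) (by decide) [Lt.ci, Lt.ci, Lt.d, Lt.c, Lt.c, Lt.bi, Lt.ci] (hole_rel hinv hr (by decide +kernel)) h
theorem dp_b_74_s (hinv : ∀ x, g (inv x) = (g x)⁻¹) (hr : ∀ r ∈ rels, (r.map g).prod = 1) (hH : ∀ r ∈ subs, (r.map g).prod ∈ H)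
    (j u : ℕ) (hu : u < M) (h : dp_b_74 j u = true) : Good (fa g) T MG M (cP g H) Lt.b u := by
  unfold dp_b_74 at h
  rcases brec_true h with h | h
  · exact lS_good (T := T) (x := Lt.b) (by decide) hu [Lt.di, Lt.f, Lt.bi, Lt.c, Lt.fi, Lt.di, Lt.ci] (hole_rel hinv hr (by decide +kernel)) h
  · exact dp_b_73_s hinv hr hH j u hu h
theorem dp_b_75_s (hinv : ∀ x, g (inv x) = (g x)⁻¹) (hr : ∀ r ∈ rels, (r.map g).prod = 1) (hH : ∀ r ∈ subs, (r.map g).prod ∈ H)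
    (j u : ℕ) (hu : u < M) (h : dp_b_75 j u = true) : Good (fa g) T MG M (cP g H) Lt.b u := by
  unfold dp_b_75 at h
  rcases brec_true h with h | h
  · exact dp_b_72_s hinv hr hH j u hu h
  · exact dp_b_74_s hinv hr hH j u hu h
theorem dp_b_76_s (hinv : ∀ x, g (inv x) = (g x)⁻¹) (hr : ∀ r ∈ rels, (r.map g).prod = 1) (hH : ∀ r ∈ subs, (r.map g).prod ∈ H)
    (j u : ℕ) (hu : u < M) (h : dp_b_76 j u = true) : Good (fa g) T MG M (cP g H) Lt.b u := by
  unfold dp_b_76 at h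
  rcases brec_true h with h | h
  · exact dp_b_71_s hinv hr hH j u hu h
  · exact dp_b_75_s hinv hr hH j u hu h
theorem dp_b_77_s (hinv : ∀ x, g (inv x) = (g x)⁻¹) (hr : ∀ r ∈ rels, (r.map g).prod = 1) (hH : ∀ r ∈ subs, (r.map g).prod ∈ H)
    (j u : ℕ) (hu : u < M) (h : dp_b_77 j u = true) : Good (fa g) T MG M (cP g H) Lt.b u := by
  unfold dp_b_77 at h
  rcases brec_true h with h | h
  · exact dp_b_67_s hinv hr hH j u hu h
  · exact dp_b_76_s hinv hr hH j u hu h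
theorem dp_b_78_s (hinv : ∀ x, g (inv x) = (g x)⁻¹) (hr : ∀ r ∈ rels, (r.map g).prod = 1) (hH : ∀ r ∈ subs, (r.map g).prod ∈ H)
    (j u : ℕ) (hu : u < M) (h : dp_b_78 j u = true) : Good (fa g) T MG M (cP g H) Lt.b u := by
  unfold dp_b_78 at h
  rcases brec_true h with h | h
  · exact lF_good (T := T) (x := Lt.b) (by decide) [Lt.c, Lt.d, Lt.b, Lt.ci, Lt.bi, Lt.f, Lt.d] (hole_rel hinv hr (by decide +kernel)) h
  · exact lS_good (T := T) (x := Lt.b) (by decide) hu [Lt.f, Lt.d, Lt.d, Lt.b, Lt.fi, Lt.d, Lt.c] (hole_rel hinv hr (by decide +kernel)) h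
theorem dp_b_79_s (hinv : ∀ x, g (inv x) = (g x)⁻¹) (hr : ∀ r ∈ rels, (r.map g).prod = 1) (hH : ∀ r ∈ subs, (r.map g).prod ∈ H)
    (j u : ℕ) (hu : u < M) (h : dp_b_79 j u = true) : Good (fa g) T MG M (cP g H) Lt.b u := by
  unfold dp_b_79 at h
  rcases brec_true h with h | h
  · exact lS_good (T := T) (x := Lt.b) (by decide) hu [Lt.c, Lt.d, Lt.c, Lt.bi, Lt.di, Lt.c, Lt.fi] (hole_rel hinv hr (by decide +kernel)) h
  · exact lS_good (T := T) (x := Lt.b) (by decide) hu [Lt.ci, Lt.bi, Lt.fi, Lt.b, Lt.c, Lt.d, Lt.b] (hole_rel hinv hr (by decide +kernel)) h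
theorem dp_b_80_s (hinv : ∀ x, g (inv x) = (g x)⁻¹) (hr : ∀ r ∈ rels, (r.map g).prod = 1) (hH : ∀ r ∈ subs, (r.map g).prod ∈ H)
    (j u : ℕ) (hu : u < M) (h : dp_b_80 j u = true) : Good (fa g) T MG M (cP g H) Lt.b u := by
  unfold dp_b_80 at h
  rcases brec_true h with h | h
  · exact lS_good (T := T) (x := Lt.b) (by decide) hu [Lt.c, Lt.di, Lt.c, Lt.d, Lt.bi, Lt.c, Lt.di] (hole_rel hinv hr (by decide +kernel)) h
  · exact dp_b_79_s hinv hr hH j u hu h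
theorem dp_b_81_s (hinv : ∀ x, g (inv x) = (g x)⁻¹) (hr : ∀ r ∈ rels, (r.map g).prod = 1) (hH : ∀ r ∈ subs, (r.map g).prod ∈ H)
    (j u : ℕ) (hu : u < M) (h : dp_b_81 j u = true) : Good (fa g) T MG M (cP g H) Lt.b u := by
  unfold dp_b_81 at h
  rcases brec_true h with h | h
  · exact dp_b_78_s hinv hr hH j u hu h
  · exact dp_b_80_s hinv hr hH j u hu h
theorem dp_b_82_s (hinv : ∀ x, g (inv x) = (g x)⁻¹) (hr : ∀ r ∈ rels, (r.map g).prod = 1) (hH : ∀ r ∈ subs, (r.map g).prod ∈ H)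
    (j u : ℕ) (hu : u < M) (h : dp_b_82 j u = true) : Good (fa g) T MG M (cP g H) Lt.b u := by
  unfold dp_b_82 at h
  rcases brec_true h with h | h
  · exact lS_good (T := T) (x := Lt.b) (by decide) hu [Lt.c, Lt.di, Lt.ci, Lt.bi, Lt.d, Lt.f, Lt.di] (hole_rel hinv hr (by decide +kernel)) h
  · exact lF_good (T := T) (x := Lt.b) (by decide) [Lt.c, Lt.d, Lt.f, Lt.b, Lt.di, Lt.f, Lt.c] (hole_rel hinv hr (by decide +kernel)) h
theorem dp_b_83_s (hinv : ∀ x, g (inv x) = (g x)⁻¹) (hr : ∀ r ∈ rels, (r.map g).prod = 1) (hH : ∀ r ∈ subs, (r.map g).prod ∈ H)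
    (j u : ℕ) (hu : u < M) (h : dp_b_83 j u = true) : Good (fa g) T MG M (cP g H) Lt.b u := by
  unfold dp_b_83 at h
  rcases brec_true h with h | h
  · exact lS_good (T := T) (x := Lt.b) (by decide) hu [Lt.ci, Lt.d, Lt.b, Lt.f, Lt.ci, Lt.f, Lt.di] (hole_rel hinv hr (by decide +kernel)) h
  · exact dp_b_82_s hinv hr hH j u hu h
theorem dp_b_84_s (hinv : ∀ x, g (inv x) = (g x)⁻¹) (hr : ∀ r ∈ rels, (r.map g).prod = 1) (hH : ∀ r ∈ subs, (r.map g).prod ∈ H)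
    (j u : ℕ) (hu : u < M) (h : dp_b_84 j u = true) : Good (fa g) T MG M (cP g H) Lt.b u := by
  unfold dp_b_84 at h
  rcases brec_true h with h | h
  · exact lS_good (T := T) (x := Lt.b) (by decide) hu [Lt.ci, Lt.ci, Lt.di, Lt.c, Lt.c, Lt.bi, Lt.c] (hole_rel hinv hr (by decide +kernel)) h
  · exact lF_good (T := T) (x := Lt.b) (by decide) [Lt.ci, Lt.d, Lt.b, Lt.f, Lt.ci, Lt.f, Lt.di] (hole_rel hinv hr (by decide +kernel)) h
theorem dp_b_85_s (hinv : ∀ x, g (inv x) = (g x)⁻¹) (hr : ∀ r ∈ rels, (r.map g).prod = 1) (hH : ∀ r ∈ subs, (r.map g).prod ∈ H)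
    (j u : ℕ) (hu : u < M) (h : dp_b_85 j u = true) : Good (fa g) T MG M (cP g H) Lt.b u := by
  unfold dp_b_85 at h
  rcases brec_true h with h | h
  · exact lF_good (T := T) (x := Lt.b) (by decide) [Lt.di, Lt.f, Lt.di, Lt.ci, Lt.ci, Lt.bi, Lt.ci] (hole_rel hinv hr (by decide +kernel)) h
  · exact dp_b_84_s hinv hr hH j u hu h
theorem dp_b_86_s (hinv : ∀ x, g (inv x) = (g x)⁻¹) (hr : ∀ r ∈ rels, (r.map g).prod = 1) (hH : ∀ r ∈ subs, (r.map g).prod ∈ H)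
    (j u : ℕ) (hu : u < M) (h : dp_b_86 j u = true) : Good (fa g) T MG M (cP g H) Lt.b u := by
  unfold dp_b_86 at h
  rcases brec_true h with h | h
  · exact dp_b_83_s hinv hr hH j u hu h
  · exact dp_b_85_s hinv hr hH j u hu h
theorem dp_b_87_s (hinv : ∀ x, g (inv x) = (g x)⁻¹) (hr : ∀ r ∈ rels, (r.map g).prod = 1) (hH : ∀ r ∈ subs, (r.map g).prod ∈ H)
    (j u : ℕ) (hu : u < M) (h : dp_b_87 j u = true) : Good (fa g) T MG M (cP g H) Lt.b u := by
  unfold dp_b_87 at h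
  rcases brec_true h with h | h
  · exact dp_b_81_s hinv hr hH j u hu h
  · exact dp_b_86_s hinv hr hH j u hu h
theorem dp_b_88_s (hinv : ∀ x, g (inv x) = (g x)⁻¹) (hr : ∀ r ∈ rels, (r.map g).prod = 1) (hH : ∀ r ∈ subs, (r.map g).prod ∈ H)
    (j u : ℕ) (hu : u < M) (h : dp_b_88 j u = true) : Good (fa g) T MG M (cP g H) Lt.b u := by
  unfold dp_b_88 at h
  rcases brec_true h with h | h
  · exact lS_good (T := T) (x := Lt.b) (by decide) hu [Lt.di, Lt.bi, Lt.di, Lt.di, Lt.b, Lt.di, Lt.di] (hole_rel hinv hr (by decide +kernel)) h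
  · exact lF_good (T := T) (x := Lt.b) (by decide) [Lt.c, Lt.bi, Lt.ci, Lt.bi, Lt.f, Lt.d, Lt.f] (hole_rel hinv hr (by decide +kernel)) h
theorem dp_b_89_s (hinv : ∀ x, g (inv x) = (g x)⁻¹) (hr : ∀ r ∈ rels, (r.map g).prod = 1) (hH : ∀ r ∈ subs, (r.map g).prod ∈ H)
    (j u : ℕ) (hu : u < M) (h : dp_b_89 j u = true) : Good (fa g) T MG M (cP g H) Lt.b u := by
  unfold dp_b_89 at h
  rcases brec_true h with h | h
  · exact lF_good (T := T) (x := Lt.b) (by decide) [Lt.c, Lt.d, Lt.c, Lt.bi, Lt.di, Lt.c, Lt.fi] (hole_rel hinv hr (by decide +kernel)) h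
  · exact dp_b_88_s hinv hr hH j u hu h
theorem dp_b_90_s (hinv : ∀ x, g (inv x) = (g x)⁻¹) (hr : ∀ r ∈ rels, (r.map g).prod = 1) (hH : ∀ r ∈ subs, (r.map g).prod ∈ H)
    (j u : ℕ) (hu : u < M) (h : dp_b_90 j u = true) : Good (fa g) T MG M (cP g H) Lt.b u := by
  unfold dp_b_90 at h
  rcases brec_true h with h | h
  · exact lF_good (T := T) (x := Lt.b) (by decide) [Lt.c, Lt.bi, Lt.bi, Lt.di, Lt.ci, Lt.bi, Lt.f] (hole_rel hinv hr (by decide +kernel)) h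
  · exact lF_good (T := T) (x := Lt.b) (by decide) [Lt.c, Lt.b, Lt.ci, Lt.bi, Lt.fi, Lt.di, Lt.fi] (hole_rel hinv hr (by decide +kernel)) h
theorem dp_b_91_s (hinv : ∀ x, g (inv x) = (g x)⁻¹) (hr : ∀ r ∈ rels, (r.map g).prod = 1) (hH : ∀ r ∈ subs, (r.map g).prod ∈ H)
    (j u : ℕ) (hu : u < M) (h : dp_b_91 j u = true) : Good (fa g) T MG M (cP g H) Lt.b u := by
  unfold dp_b_91 at h
  rcases brec_true h with h | h
  · exact lS_good (T := T) (x := Lt.b) (by decide) hu [Lt.ci, Lt.bi, Lt.fi, Lt.di, Lt.fi, Lt.b, Lt.c] (hole_rel hinv hr (by decide +kernel)) h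
  · exact lF_good (T := T) (x := Lt.b) (by decide) [Lt.di, Lt.di, Lt.b, Lt.di, Lt.bi, Lt.di, Lt.di] (hole_rel hinv hr (by decide +kernel)) h
theorem dp_b_92_s (hinv : ∀ x, g (inv x) = (g x)⁻¹) (hr : ∀ r ∈ rels, (r.map g).prod = 1) (hH : ∀ r ∈ subs, (r.map g).prod ∈ H)
    (j u : ℕ) (hu : u < M) (h : dp_b_92 j u = true) : Good (fa g) T MG M (cP g H) Lt.b u := by
  unfold dp_b_92 at h
  rcases brec_true h with h | h
  · exact dp_b_90_s hinv hr hH j u hu h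
  · exact dp_b_91_s hinv hr hH j u hu h
theorem dp_b_93_s (hinv : ∀ x, g (inv x) = (g x)⁻¹) (hr : ∀ r ∈ rels, (r.map g).prod = 1) (hH : ∀ r ∈ subs, (r.map g).prod ∈ H)
    (j u : ℕ) (hu : u < M) (h : dp_b_93 j u = true) : Good (fa g) T MG M (cP g H) Lt.b u := by
  unfold dp_b_93 at h
  rcases brec_true h with h | h
  · exact dp_b_89_s hinv hr hH j u hu h
  · exact dp_b_92_s hinv hr hH j u hu h
theorem dp_b_94_s (hinv : ∀ x, g (inv x) = (g x)⁻¹) (hr : ∀ r ∈ rels, (r.map g).prod = 1) (hH : ∀ r ∈ subs, (r.map g).prod ∈ H)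
    (j u : ℕ) (hu : u < M) (h : dp_b_94 j u = true) : Good (fa g) T MG M (cP g H) Lt.b u := by
  unfold dp_b_94 at h
  rcases brec_true h with h | h
  · exact lF_good (T := T) (x := Lt.b) (by decide) [Lt.ci, Lt.di, Lt.c, Lt.b, Lt.ci, Lt.di, Lt.c] (hole_rel hinv hr (by decide +kernel)) h
  · exact lS_good (T := T) (x := Lt.b) (by decide) hu [Lt.f, Lt.ci, Lt.ci, Lt.f, Lt.bi, Lt.fi, Lt.ci] (hole_rel hinv hr (by decide +kernel)) h
theorem dp_b_95_s (hinv : ∀ x, g (inv x) = (g x)⁻¹) (hr : ∀ r ∈ rels, (r.map g).prod = 1) (hH : ∀ r ∈ subs, (r.map g).prod ∈ H)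
    (j u : ℕ) (hu : u < M) (h : dp_b_95 j u = true) : Good (fa g) T MG M (cP g H) Lt.b u := by
  unfold dp_b_95 at h
  rcases brec_true h with h | h
  · exact lF_good (T := T) (x := Lt.b) (by decide) [Lt.c, Lt.d, Lt.b, Lt.b, Lt.ci, Lt.bi, Lt.fi] (hole_rel hinv hr (by decide +kernel)) h
  · exact lF_good (T := T) (x := Lt.b) (by decide) [Lt.ci, Lt.fi, Lt.d, Lt.ci, Lt.fi, Lt.b, Lt.c, Lt.c] (hole_rel hinv hr (by decide +kernel)) h
theorem dp_b_96_s (hinv : ∀ x, g (inv x) = (g x)⁻¹) (hr : ∀ r ∈ rels, (r.map g).prod = 1) (hH : ∀ r ∈ subs, (r.map g).prod ∈ H)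
    (j u : ℕ) (hu : u < M) (h : dp_b_96 j u = true) : Good (fa g) T MG M (cP g H) Lt.b u := by
  unfold dp_b_96 at h
  rcases brec_true h with h | h
  · exact lF_good (T := T) (x := Lt.b) (by decide) [Lt.ci, Lt.bi, Lt.fi, Lt.di, Lt.fi, Lt.b, Lt.c] (hole_rel hinv hr (by decide +kernel)) h
  · exact dp_b_95_s hinv hr hH j u hu h
theorem dp_b_97_s (hinv : ∀ x, g (inv x) = (g x)⁻¹) (hr : ∀ r ∈ rels, (r.map g).prod = 1) (hH : ∀ r ∈ subs, (r.map g).prod ∈ H)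
    (j u : ℕ) (hu : u < M) (h : dp_b_97 j u = true) : Good (fa g) T MG M (cP g H) Lt.b u := by
  unfold dp_b_97 at h
  rcases brec_true h with h | h
  · exact dp_b_94_s hinv hr hH j u hu h
  · exact dp_b_96_s hinv hr hH j u hu h
theorem dp_b_98_s (hinv : ∀ x, g (inv x) = (g x)⁻¹) (hr : ∀ r ∈ rels, (r.map g).prod = 1) (hH : ∀ r ∈ subs, (r.map g).prod ∈ H)
    (j u : ℕ) (hu : u < M) (h : dp_b_98 j u = true) : Good (fa g) T MG M (cP g H) Lt.b u := by
  unfold dp_b_98 at h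
  rcases brec_true h with h | h
  · exact lF_good (T := T) (x := Lt.b) (by decide) [Lt.f, Lt.di, Lt.c, Lt.fi, Lt.bi, Lt.bi, Lt.f] (hole_rel hinv hr (by decide +kernel)) h
  · exact lS_good (T := T) (x := Lt.b) (by decide) hu [Lt.b, Lt.b, Lt.fi, Lt.ci, Lt.d, Lt.c, Lt.di, Lt.fi] (hole_rel hinv hr (by decide +kernel)) h
theorem dp_b_99_s (hinv : ∀ x, g (inv x) = (g x)⁻¹) (hr : ∀ r ∈ rels, (r.map g).prod = 1) (hH : ∀ r ∈ subs, (r.map g).prod ∈ H)
    (j u : ℕ) (hu : u < M) (h : dp_b_99 j u = true) : Good (fa g) T MG M (cP g H) Lt.b u := by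
  unfold dp_b_99 at h
  rcases brec_true h with h | h
  · exact lF_good (T := T) (x := Lt.b) (by decide) [Lt.f, Lt.d, Lt.ei, Lt.bi, Lt.c, Lt.fi, Lt.ei, Lt.fi] (hole_rel hinv hr (by decide +kernel)) h
  · exact dp_b_98_s hinv hr hH j u hu h
theorem dp_b_100_s (hinv : ∀ x, g (inv x) = (g x)⁻¹) (hr : ∀ r ∈ rels, (r.map g).prod = 1) (hH : ∀ r ∈ subs, (r.map g).prod ∈ H)
    (j u : ℕ) (hu : u < M) (h : dp_b_100 j u = true) : Good (fa g) T MG M (cP g H) Lt.b u := by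
  unfold dp_b_100 at h
  rcases brec_true h with h | h
  · exact lS_good (T := T) (x := Lt.b) (by decide) hu [Lt.ci, Lt.ci, Lt.d, Lt.c, Lt.c, Lt.bi, Lt.ci] (hole_rel hinv hr (by decide +kernel)) h
  · exact dp_b_99_s hinv hr hH j u hu h
theorem dp_b_101_s (hinv : ∀ x, g (inv x) = (g x)⁻¹) (hr : ∀ r ∈ rels, (r.map g).prod = 1) (hH : ∀ r ∈ subs, (r.map g).prod ∈ H)
    (j u : ℕ) (hu : u < M) (h : dp_b_101 j u = true) : Good (fa g) T MG M (cP g H) Lt.b u := by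
  unfold dp_b_101 at h
  rcases brec_true h with h | h
  · exact lH_good (T := T) (x := Lt.b) (by decide) [] [] (by rw [show cP g H 0 = _ from cc_zero]; exact sub_rel hinv (hH _ (by decide))) h
  · exact lS_good (T := T) (x := Lt.b) (by decide) hu [Lt.b, Lt.b, Lt.ci, Lt.bi, Lt.bi, Lt.di, Lt.c, Lt.f] (hole_rel hinv hr (by decide +kernel)) h
theorem dp_b_102_s (hinv : ∀ x, g (inv x) = (g x)⁻¹) (hr : ∀ r ∈ rels, (r.map g).prod = 1) (hH : ∀ r ∈ subs, (r.map g).prod ∈ H)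
    (j u : ℕ) (hu : u < M) (h : dp_b_102 j u = true) : Good (fa g) T MG M (cP g H) Lt.b u := by
  unfold dp_b_102 at h
  rcases brec_true h with h | h
  · exact lF_good (T := T) (x := Lt.b) (by decide) [Lt.c, Lt.c, Lt.b, Lt.ci, Lt.fi, Lt.d, Lt.ci, Lt.fi] (hole_rel hinv hr (by decide +kernel)) h
  · exact dp_b_101_s hinv hr hH j u hu h
theorem dp_b_103_s (hinv : ∀ x, g (inv x) = (g x)⁻¹) (hr : ∀ r ∈ rels, (r.map g).prod = 1) (hH : ∀ r ∈ subs, (r.map g).prod ∈ H)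
    (j u : ℕ) (hu : u < M) (h : dp_b_103 j u = true) : Good (fa g) T MG M (cP g H) Lt.b u := by
  unfold dp_b_103 at h
  rcases brec_true h with h | h
  · exact lS_good (T := T) (x := Lt.b) (by decide) hu [Lt.fi, Lt.di, Lt.di, Lt.ci, Lt.b, Lt.ci, Lt.f, Lt.di] (hole_rel hinv hr (by decide +kernel)) h
  · exact lS_good (T := T) (x := Lt.b) (by decide) hu [Lt.ci, Lt.fi, Lt.bi, Lt.fi, Lt.ci, Lt.d, Lt.fi, Lt.fi] (hole_rel hinv hr (by decide +kernel)) h
theorem dp_b_104_s (hinv : ∀ x, g (inv x) = (g x)⁻¹) (hr : ∀ r ∈ rels, (r.map g).prod = 1) (hH : ∀ r ∈ subs, (r.map g).prod ∈ H)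
    (j u : ℕ) (hu : u < M) (h : dp_b_104 j u = true) : Good (fa g) T MG M (cP g H) Lt.b u := by
  unfold dp_b_104 at h
  rcases brec_true h with h | h
  · exact lS_good (T := T) (x := Lt.b) (by decide) hu [Lt.fi, Lt.bi, Lt.di, Lt.di, Lt.fi, Lt.b, Lt.ci, Lt.f] (hole_rel hinv hr (by decide +kernel)) h
  · exact lF_good (T := T) (x := Lt.b) (by decide) [Lt.fi, Lt.bi, Lt.di, Lt.di, Lt.fi, Lt.b, Lt.ci, Lt.f] (hole_rel hinv hr (by decide +kernel)) h
theorem dp_b_105_s (hinv : ∀ x, g (inv x) = (g x)⁻¹) (hr : ∀ r ∈ rels, (r.map g).prod = 1) (hH : ∀ r ∈ subs, (r.map g).prod ∈ H)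
    (j u : ℕ) (hu : u < M) (h : dp_b_105 j u = true) : Good (fa g) T MG M (cP g H) Lt.b u := by
  unfold dp_b_105 at h
  rcases brec_true h with h | h
  · exact dp_b_103_s hinv hr hH j u hu h
  · exact dp_b_104_s hinv hr hH j u hu h
theorem dp_b_106_s (hinv : ∀ x, g (inv x) = (g x)⁻¹) (hr : ∀ r ∈ rels, (r.map g).prod = 1) (hH : ∀ r ∈ subs, (r.map g).prod ∈ H)
    (j u : ℕ) (hu : u < M) (h : dp_b_106 j u = true) : Good (fa g) T MG M (cP g H) Lt.b u := by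
  unfold dp_b_106 at h
  rcases brec_true h with h | h
  · exact dp_b_102_s hinv hr hH j u hu h
  · exact dp_b_105_s hinv hr hH j u hu h
theorem dp_b_107_s (hinv : ∀ x, g (inv x) = (g x)⁻¹) (hr : ∀ r ∈ rels, (r.map g).prod = 1) (hH : ∀ r ∈ subs, (r.map g).prod ∈ H)
    (j u : ℕ) (hu : u < M) (h : dp_b_107 j u = true) : Good (fa g) T MG M (cP g H) Lt.b u := by
  unfold dp_b_107 at h
  rcases brec_true h with h | h
  · exact lF_good (T := T) (x := Lt.b) (by decide) [Lt.di, Lt.f, Lt.b, Lt.d, Lt.c, Lt.bi, Lt.ci, Lt.b] (hole_rel hinv hr (by decide +kernel)) h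
  · exact lF_good (T := T) (x := Lt.b) (by decide) [Lt.fi, Lt.di, Lt.di, Lt.ci, Lt.b, Lt.ci, Lt.f, Lt.di] (hole_rel hinv hr (by decide +kernel)) h
theorem dp_b_108_s (hinv : ∀ x, g (inv x) = (g x)⁻¹) (hr : ∀ r ∈ rels, (r.map g).prod = 1) (hH : ∀ r ∈ subs, (r.map g).prod ∈ H)
    (j u : ℕ) (hu : u < M) (h : dp_b_108 j u = true) : Good (fa g) T MG M (cP g H) Lt.b u := by
  unfold dp_b_108 at h
  rcases brec_true h with h | h
  · exact lS_good (T := T) (x := Lt.b) (by decide) hu [Lt.fi, Lt.ci, Lt.d, Lt.c, Lt.di, Lt.fi, Lt.b, Lt.b] (hole_rel hinv hr (by decide +kernel)) h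
  · exact lS_good (T := T) (x := Lt.b) (by decide) hu [Lt.c, Lt.bi, Lt.bi, Lt.bi, Lt.fi, Lt.ci, Lt.d, Lt.b] (hole_rel hinv hr (by decide +kernel)) h
theorem dp_b_109_s (hinv : ∀ x, g (inv x) = (g x)⁻¹) (hr : ∀ r ∈ rels, (r.map g).prod = 1) (hH : ∀ r ∈ subs, (r.map g).prod ∈ H)
    (j u : ℕ) (hu : u < M) (h : dp_b_109 j u = true) : Good (fa g) T MG M (cP g H) Lt.b u := by
  unfold dp_b_109 at h
  rcases brec_true h with h | h
  · exact dp_b_107_s hinv hr hH j u hu h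
  · exact dp_b_108_s hinv hr hH j u hu h
theorem dp_b_110_s (hinv : ∀ x, g (inv x) = (g x)⁻¹) (hr : ∀ r ∈ rels, (r.map g).prod = 1) (hH : ∀ r ∈ subs, (r.map g).prod ∈ H)
    (j u : ℕ) (hu : u < M) (h : dp_b_110 j u = true) : Good (fa g) T MG M (cP g H) Lt.b u := by
  unfold dp_b_110 at h
  rcases brec_true h with h | h
  · exact lF_good (T := T) (x := Lt.b) (by decide) [Lt.ci, Lt.fi, Lt.bi, Lt.fi, Lt.ci, Lt.d, Lt.fi, Lt.fi] (hole_rel hinv hr (by decide +kernel)) h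
  · exact lF_good (T := T) (x := Lt.b) (by decide) [Lt.f, Lt.c, Lt.bi, Lt.f, Lt.f, Lt.di, Lt.c, Lt.f] (hole_rel hinv hr (by decide +kernel)) h
theorem dp_b_111_s (hinv : ∀ x, g (inv x) = (g x)⁻¹) (hr : ∀ r ∈ rels, (r.map g).prod = 1) (hH : ∀ r ∈ subs, (r.map g).prod ∈ H)
    (j u : ℕ) (hu : u < M) (h : dp_b_111 j u = true) : Good (fa g) T MG M (cP g H) Lt.b u := by
  unfold dp_b_111 at h
  rcases brec_true h with h | h
  · exact lS_good (T := T) (x := Lt.b) (by decide) hu [Lt.c, Lt.c, Lt.b, Lt.ci, Lt.fi, Lt.d, Lt.ci, Lt.fi] (hole_rel hinv hr (by decide +kernel)) h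
  · exact lS_good (T := T) (x := Lt.b) (by decide) hu [Lt.ci, Lt.fi, Lt.d, Lt.ci, Lt.fi, Lt.b, Lt.c, Lt.c] (hole_rel hinv hr (by decide +kernel)) h
theorem dp_b_112_s (hinv : ∀ x, g (inv x) = (g x)⁻¹) (hr : ∀ r ∈ rels, (r.map g).prod = 1) (hH : ∀ r ∈ subs, (r.map g).prod ∈ H)
    (j u : ℕ) (hu : u < M) (h : dp_b_112 j u = true) : Good (fa g) T MG M (cP g H) Lt.b u := by
  unfold dp_b_112 at h
  rcases brec_true h with h | h
  · exact lF_good (T := T) (x := Lt.b) (by decide) [Lt.b, Lt.di, Lt.f, Lt.f, Lt.ci, Lt.bi, Lt.ci, Lt.fi] (hole_rel hinv hr (by decide +kernel)) h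
  · exact dp_b_111_s hinv hr hH j u hu h
theorem dp_b_113_s (hinv : ∀ x, g (inv x) = (g x)⁻¹) (hr : ∀ r ∈ rels, (r.map g).prod = 1) (hH : ∀ r ∈ subs, (r.map g).prod ∈ H)
    (j u : ℕ) (hu : u < M) (h : dp_b_113 j u = true) : Good (fa g) T MG M (cP g H) Lt.b u := by
  unfold dp_b_113 at h
  rcases brec_true h with h | h
  · exact dp_b_110_s hinv hr hH j u hu h
  · exact dp_b_112_s hinv hr hH j u hu h
theorem dp_b_114_s (hinv : ∀ x, g (inv x) = (g x)⁻¹) (hr : ∀ r ∈ rels, (r.map g).prod = 1) (hH : ∀ r ∈ subs, (r.map g).prod ∈ H)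
    (j u : ℕ) (hu : u < M) (h : dp_b_114 j u = true) : Good (fa g) T MG M (cP g H) Lt.b u := by
  unfold dp_b_114 at h
  rcases brec_true h with h | h
  · exact dp_b_109_s hinv hr hH j u hu h
  · exact dp_b_113_s hinv hr hH j u hu h
theorem dp_b_115_s (hinv : ∀ x, g (inv x) = (g x)⁻¹) (hr : ∀ r ∈ rels, (r.map g).prod = 1) (hH : ∀ r ∈ subs, (r.map g).prod ∈ H)
    (j u : ℕ) (hu : u < M) (h : dp_b_115 j u = true) : Good (fa g) T MG M (cP g H) Lt.b u := by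
  unfold dp_b_115 at h
  rcases brec_true h with h | h
  · exact dp_b_106_s hinv hr hH j u hu h
  · exact dp_b_114_s hinv hr hH j u hu h
theorem dp_b_116_s (hinv : ∀ x, g (inv x) = (g x)⁻¹) (hr : ∀ r ∈ rels, (r.map g).prod = 1) (hH : ∀ r ∈ subs, (r.map g).prod ∈ H)
    (j u : ℕ) (hu : u < M) (h : dp_b_116 j u = true) : Good (fa g) T MG M (cP g H) Lt.b u := by
  unfold dp_b_116 at h
  rcases brec_true h with h | h
  · exact dp_b_100_s hinv hr hH j u hu h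
  · exact dp_b_115_s hinv hr hH j u hu h
theorem dp_b_117_s (hinv : ∀ x, g (inv x) = (g x)⁻¹) (hr : ∀ r ∈ rels, (r.map g).prod = 1) (hH : ∀ r ∈ subs, (r.map g).prod ∈ H)
    (j u : ℕ) (hu : u < M) (h : dp_b_117 j u = true) : Good (fa g) T MG M (cP g H) Lt.b u := by
  unfold dp_b_117 at h
  rcases brec_true h with h | h
  · exact dp_b_97_s hinv hr hH j u hu h
  · exact dp_b_116_s hinv hr hH j u hu h
theorem dp_b_118_s (hinv : ∀ x, g (inv x) = (g x)⁻¹) (hr : ∀ r ∈ rels, (r.map g).prod = 1) (hH : ∀ r ∈ subs, (r.map g).prod ∈ H)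
    (j u : ℕ) (hu : u < M) (h : dp_b_118 j u = true) : Good (fa g) T MG M (cP g H) Lt.b u := by
  unfold dp_b_118 at h
  rcases brec_true h with h | h
  · exact dp_b_93_s hinv hr hH j u hu h
  · exact dp_b_117_s hinv hr hH j u hu h
theorem dp_b_119_s (hinv : ∀ x, g (inv x) = (g x)⁻¹) (hr : ∀ r ∈ rels, (r.map g).prod = 1) (hH : ∀ r ∈ subs, (r.map g).prod ∈ H)
    (j u : ℕ) (hu : u < M) (h : dp_b_119 j u = true) : Good (fa g) T MG M (cP g H) Lt.b u := by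
  unfold dp_b_119 at h
  rcases brec_true h with h | h
  · exact dp_b_87_s hinv hr hH j u hu h
  · exact dp_b_118_s hinv hr hH j u hu h
theorem dp_b_120_s (hinv : ∀ x, g (inv x) = (g x)⁻¹) (hr : ∀ r ∈ rels, (r.map g).prod = 1) (hH : ∀ r ∈ subs, (r.map g).prod ∈ H)
    (j u : ℕ) (hu : u < M) (h : dp_b_120 j u = true) : Good (fa g) T MG M (cP g H) Lt.b u := by
  unfold dp_b_120 at h
  rcases brec_true h with h | h
  · exact dp_b_77_s hinv hr hH j u hu h
  · exact dp_b_119_s hinv hr hH j u hu h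
theorem dp_b_121_s (hinv : ∀ x, g (inv x) = (g x)⁻¹) (hr : ∀ r ∈ rels, (r.map g).prod = 1) (hH : ∀ r ∈ subs, (r.map g).prod ∈ H)
    (j u : ℕ) (hu : u < M) (h : dp_b_121 j u = true) : Good (fa g) T MG M (cP g H) Lt.b u := by
  unfold dp_b_121 at h
  rcases brec_true h with h | h
  · exact dp_b_59_s hinv hr hH j u hu h
  · exact dp_b_120_s hinv hr hH j u hu h
theorem dp_b_122_s (hinv : ∀ x, g (inv x) = (g x)⁻¹) (hr : ∀ r ∈ rels, (r.map g).prod = 1) (hH : ∀ r ∈ subs, (r.map g).prod ∈ H)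
    (j u : ℕ) (hu : u < M) (h : dp_b_122 j u = true) : Good (fa g) T MG M (cP g H) Lt.b u := by
  unfold dp_b_122 at h
  rcases brec_true h with h | h
  · exact dp_b_31_s hinv hr hH j u hu h
  · exact dp_b_121_s hinv hr hH j u hu h
theorem snd_b (hinv : ∀ x, g (inv x) = (g x)⁻¹) (hr : ∀ r ∈ rels, (r.map g).prod = 1) (hH : ∀ r ∈ subs, (r.map g).prod ∈ H)
    (j u : ℕ) (hu : u < M) (h : disp_b j u = true) : Good (fa g) T MG M (cP g H) Lt.b u := by
  unfold disp_b at h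
  rcases brec_true h with h | h
  · rcases brec_true h with h | h
    · exact lF1_good (T := T) (x := Lt.b) (by decide) .bi (hole_rel hinv hr (by decide +kernel)) h
    · exact lPar_good (T := T) (x := Lt.b) (x' := Lt.bi) (by decide) rfl (inv_rel hinv _ _ rfl) h
  · rcases brec_true h with h | h
    · rcases brec_true h with h | h
      · exact lDef_good (T := T) (x := Lt.b) (by decide) rfl h
      · exact lS_good (T := T) (x := Lt.b) (by decide) hu [Lt.bi] (hole_rel hinv hr (by decide +kernel)) h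
    · exact dp_b_122_s hinv hr hH j u hu h
theorem snc_b (hinv : ∀ x, g (inv x) = (g x)⁻¹) (hr : ∀ r ∈ rels, (r.map g).prod = 1) (hH : ∀ r ∈ subs, (r.map g).prod ∈ H)
    (j u : ℕ) (hu : u < M) (h : chk_b j u = true) : (T Lt.b u < A ∧ Good (fa g) T MG M (cP g H) Lt.b u) ∨ (A ≤ T Lt.b u ∧ MG u < A) := by
  unfold chk_b at h
  cases hb : Nat.ble A (T_b u) with
  | true => rw [hb] at h; exact Or.inr ⟨le_of_ble hb, le_of_ble h⟩
  | false => rw [hb] at h; exact Or.inl ⟨lt_of_ble_false hb, snd_b hinv hr hH j u hu h⟩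
theorem dp_bi_0_s (hinv : ∀ x, g (inv x) = (g x)⁻¹) (hr : ∀ r ∈ rels, (r.map g).prod = 1) (hH : ∀ r ∈ subs, (r.map g).prod ∈ H)
    (j u : ℕ) (hu : u < M) (h : dp_bi_0 j u = true) : Good (fa g) T MG M (cP g H) Lt.bi u := by
  unfold dp_bi_0 at h
  rcases brec_true h with h | h
  · exact lS_good (T := T) (x := Lt.bi) (by decide) hu [Lt.bi, Lt.f, Lt.b, Lt.f, Lt.di, Lt.c, Lt.fi] (hole_rel hinv hr (by decide +kernel)) h
  · exact lS_good (T := T) (x := Lt.bi) (by decide) hu [Lt.c, Lt.b, Lt.d, Lt.ci, Lt.fi, Lt.fi, Lt.di] (hole_rel hinv hr (by decide +kernel)) h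
theorem dp_bi_1_s (hinv : ∀ x, g (inv x) = (g x)⁻¹) (hr : ∀ r ∈ rels, (r.map g).prod = 1) (hH : ∀ r ∈ subs, (r.map g).prod ∈ H)
    (j u : ℕ) (hu : u < M) (h : dp_bi_1 j u = true) : Good (fa g) T MG M (cP g H) Lt.bi u := by
  unfold dp_bi_1 at h
  rcases brec_true h with h | h
  · exact lF_good (T := T) (x := Lt.bi) (by decide) [Lt.e, Lt.c, Lt.e, Lt.bi, Lt.e, Lt.c, Lt.e] (hole_rel hinv hr (by decide +kernel)) h
  · exact dp_bi_0_s hinv hr hH j u hu h
theorem dp_bi_2_s (hinv : ∀ x, g (inv x) = (g x)⁻¹) (hr : ∀ r ∈ rels, (r.map g).prod = 1) (hH : ∀ r ∈ subs, (r.map g).prod ∈ H)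
    (j u : ℕ) (hu : u < M) (h : dp_bi_2 j u = true) : Good (fa g) T MG M (cP g H) Lt.bi u := by
  unfold dp_bi_2 at h
  rcases brec_true h with h | h
  · exact lS_good (T := T) (x := Lt.bi) (by decide) hu [Lt.e, Lt.c, Lt.e, Lt.bi, Lt.e, Lt.c, Lt.e] (hole_rel hinv hr (by decide +kernel)) h
  · exact dp_bi_1_s hinv hr hH j u hu h
theorem dp_bi_3_s (hinv : ∀ x, g (inv x) = (g x)⁻¹) (hr : ∀ r ∈ rels, (r.map g).prod = 1) (hH : ∀ r ∈ subs, (r.map g).prod ∈ H)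
    (j u : ℕ) (hu : u < M) (h : dp_bi_3 j u = true) : Good (fa g) T MG M (cP g H) Lt.bi u := by
  unfold dp_bi_3 at h
  rcases brec_true h with h | h
  · exact lF_good (T := T) (x := Lt.bi) (by decide) [Lt.d, Lt.fi, Lt.di, Lt.b, Lt.c, Lt.d, Lt.ci] (hole_rel hinv hr (by decide +kernel)) h
  · exact lS_good (T := T) (x := Lt.bi) (by decide) hu [Lt.f, Lt.b, Lt.f, Lt.di, Lt.c, Lt.fi, Lt.bi] (hole_rel hinv hr (by decide +kernel)) h
theorem dp_bi_4_s (hinv : ∀ x, g (inv x) = (g x)⁻¹) (hr : ∀ r ∈ rels, (r.map g).prod = 1) (hH : ∀ r ∈ subs, (r.map g).prod ∈ H)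
    (j u : ℕ) (hu : u < M) (h : dp_bi_4 j u = true) : Good (fa g) T MG M (cP g H) Lt.bi u := by
  unfold dp_bi_4 at h
  rcases brec_true h with h | h
  · exact lF_good (T := T) (x := Lt.bi) (by decide) [Lt.c, Lt.b, Lt.d, Lt.ci, Lt.fi, Lt.fi, Lt.di] (hole_rel hinv hr (by decide +kernel)) h
  · exact dp_bi_3_s hinv hr hH j u hu h
theorem dp_bi_5_s (hinv : ∀ x, g (inv x) = (g x)⁻¹) (hr : ∀ r ∈ rels, (r.map g).prod = 1) (hH : ∀ r ∈ subs, (r.map g).prod ∈ H)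
    (j u : ℕ) (hu : u < M) (h : dp_bi_5 j u = true) : Good (fa g) T MG M (cP g H) Lt.bi u := by
  unfold dp_bi_5 at h
  rcases brec_true h with h | h
  · exact lF_good (T := T) (x := Lt.bi) (by decide) [Lt.f, Lt.b, Lt.f, Lt.di, Lt.c, Lt.fi, Lt.bi] (hole_rel hinv hr (by decide +kernel)) h
  · exact lF_good (T := T) (x := Lt.bi) (by decide) [Lt.fi, Lt.c, Lt.d, Lt.d, Lt.bi, Lt.f, Lt.c] (hole_rel hinv hr (by decide +kernel)) h
theorem dp_bi_6_s (hinv : ∀ x, g (inv x) = (g x)⁻¹) (hr : ∀ r ∈ rels, (r.map g).prod = 1) (hH : ∀ r ∈ subs, (r.map g).prod ∈ H)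
    (j u : ℕ) (hu : u < M) (h : dp_bi_6 j u = true) : Good (fa g) T MG M (cP g H) Lt.bi u := by
  unfold dp_bi_6 at h
  rcases brec_true h with h | h
  · exact lS_good (T := T) (x := Lt.bi) (by decide) hu [Lt.c, Lt.fi, Lt.di, Lt.ci, Lt.b, Lt.di, Lt.f] (hole_rel hinv hr (by decide +kernel)) h
  · exact lF_good (T := T) (x := Lt.bi) (by decide) [Lt.f, Lt.c, Lt.bi, Lt.fi, Lt.c, Lt.d, Lt.d] (hole_rel hinv hr (by decide +kernel)) h
theorem dp_bi_7_s (hinv : ∀ x, g (inv x) = (g x)⁻¹) (hr : ∀ r ∈ rels, (r.map g).prod = 1) (hH : ∀ r ∈ subs, (r.map g).prod ∈ H)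
    (j u : ℕ) (hu : u < M) (h : dp_bi_7 j u = true) : Good (fa g) T MG M (cP g H) Lt.bi u := by
  unfold dp_bi_7 at h
  rcases brec_true h with h | h
  · exact dp_bi_5_s hinv hr hH j u hu h
  · exact dp_bi_6_s hinv hr hH j u hu h
theorem dp_bi_8_s (hinv : ∀ x, g (inv x) = (g x)⁻¹) (hr : ∀ r ∈ rels, (r.map g).prod = 1) (hH : ∀ r ∈ subs, (r.map g).prod ∈ H)
    (j u : ℕ) (hu : u < M) (h : dp_bi_8 j u = true) : Good (fa g) T MG M (cP g H) Lt.bi u := by
  unfold dp_bi_8 at h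
  rcases brec_true h with h | h
  · exact dp_bi_4_s hinv hr hH j u hu h
  · exact dp_bi_7_s hinv hr hH j u hu h
theorem dp_bi_9_s (hinv : ∀ x, g (inv x) = (g x)⁻¹) (hr : ∀ r ∈ rels, (r.map g).prod = 1) (hH : ∀ r ∈ subs, (r.map g).prod ∈ H)
    (j u : ℕ) (hu : u < M) (h : dp_bi_9 j u = true) : Good (fa g) T MG M (cP g H) Lt.bi u := by
  unfold dp_bi_9 at h
  rcases brec_true h with h | h
  · exact dp_bi_2_s hinv hr hH j u hu h
  · exact dp_bi_8_s hinv hr hH j u hu h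
theorem dp_bi_10_s (hinv : ∀ x, g (inv x) = (g x)⁻¹) (hr : ∀ r ∈ rels, (r.map g).prod = 1) (hH : ∀ r ∈ subs, (r.map g).prod ∈ H)
    (j u : ℕ) (hu : u < M) (h : dp_bi_10 j u = true) : Good (fa g) T MG M (cP g H) Lt.bi u := by
  unfold dp_bi_10 at h
  rcases brec_true h with h | h
  · exact lS_good (T := T) (x := Lt.bi) (by decide) hu [Lt.c, Lt.fi, Lt.ei, Lt.fi, Lt.b, Lt.f, Lt.d, Lt.ei] (hole_rel hinv hr (by decide +kernel)) h
  · exact lF_good (T := T) (x := Lt.bi) (by decide) [Lt.c, Lt.bi, Lt.c, Lt.bi, Lt.c, Lt.bi, Lt.c] (hole_rel hinv hr (by decide +kernel)) h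
theorem dp_bi_11_s (hinv : ∀ x, g (inv x) = (g x)⁻¹) (hr : ∀ r ∈ rels, (r.map g).prod = 1) (hH : ∀ r ∈ subs, (r.map g).prod ∈ H)
    (j u : ℕ) (hu : u < M) (h : dp_bi_11 j u = true) : Good (fa g) T MG M (cP g H) Lt.bi u := by
  unfold dp_bi_11 at h
  rcases brec_true h with h | h
  · exact lF_good (T := T) (x := Lt.bi) (by decide) [Lt.c, Lt.fi, Lt.di, Lt.ci, Lt.b, Lt.di, Lt.f] (hole_rel hinv hr (by decide +kernel)) h
  · exact lS_good (T := T) (x := Lt.bi) (by decide) hu [Lt.d, Lt.fi, Lt.di, Lt.b, Lt.c, Lt.d, Lt.ci] (hole_rel hinv hr (by decide +kernel)) h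
theorem dp_bi_12_s (hinv : ∀ x, g (inv x) = (g x)⁻¹) (hr : ∀ r ∈ rels, (r.map g).prod = 1) (hH : ∀ r ∈ subs, (r.map g).prod ∈ H)
    (j u : ℕ) (hu : u < M) (h : dp_bi_12 j u = true) : Good (fa g) T MG M (cP g H) Lt.bi u := by
  unfold dp_bi_12 at h
  rcases brec_true h with h | h
  · exact lF_good (T := T) (x := Lt.bi) (by decide) [Lt.di, Lt.c, Lt.bi, Lt.d, Lt.fi, Lt.c, Lt.fi] (hole_rel hinv hr (by decide +kernel)) h
  · exact dp_bi_11_s hinv hr hH j u hu h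
theorem dp_bi_13_s (hinv : ∀ x, g (inv x) = (g x)⁻¹) (hr : ∀ r ∈ rels, (r.map g).prod = 1) (hH : ∀ r ∈ subs, (r.map g).prod ∈ H)
    (j u : ℕ) (hu : u < M) (h : dp_bi_13 j u = true) : Good (fa g) T MG M (cP g H) Lt.bi u := by
  unfold dp_bi_13 at h
  rcases brec_true h with h | h
  · exact dp_bi_10_s hinv hr hH j u hu h
  · exact dp_bi_12_s hinv hr hH j u hu h
theorem dp_bi_14_s (hinv : ∀ x, g (inv x) = (g x)⁻¹) (hr : ∀ r ∈ rels, (r.map g).prod = 1) (hH : ∀ r ∈ subs, (r.map g).prod ∈ H)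
    (j u : ℕ) (hu : u < M) (h : dp_bi_14 j u = true) : Good (fa g) T MG M (cP g H) Lt.bi u := by
  unfold dp_bi_14 at h
  rcases brec_true h with h | h
  · exact lS_good (T := T) (x := Lt.bi) (by decide) hu [Lt.di, Lt.di, Lt.fi, Lt.bi, Lt.ci, Lt.di, Lt.f] (hole_rel hinv hr (by decide +kernel)) h
  · exact lS_good (T := T) (x := Lt.bi) (by decide) hu [Lt.fi, Lt.b, Lt.c, Lt.d, Lt.b, Lt.b, Lt.ci] (hole_rel hinv hr (by decide +kernel)) h
theorem dp_bi_15_s (hinv : ∀ x, g (inv x) = (g x)⁻¹) (hr : ∀ r ∈ rels, (r.map g).prod = 1) (hH : ∀ r ∈ subs, (r.map g).prod ∈ H)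
    (j u : ℕ) (hu : u < M) (h : dp_bi_15 j u = true) : Good (fa g) T MG M (cP g H) Lt.bi u := by
  unfold dp_bi_15 at h
  rcases brec_true h with h | h
  · exact lS_good (T := T) (x := Lt.bi) (by decide) hu [Lt.fi, Lt.c, Lt.d, Lt.d, Lt.bi, Lt.f, Lt.c] (hole_rel hinv hr (by decide +kernel)) h
  · exact lS_good (T := T) (x := Lt.bi) (by decide) hu [Lt.ci, Lt.b, Lt.d, Lt.f, Lt.f, Lt.c, Lt.di] (hole_rel hinv hr (by decide +kernel)) h
theorem dp_bi_16_s (hinv : ∀ x, g (inv x) = (g x)⁻¹) (hr : ∀ r ∈ rels, (r.map g).prod = 1) (hH : ∀ r ∈ subs, (r.map g).prod ∈ H)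
    (j u : ℕ) (hu : u < M) (h : dp_bi_16 j u = true) : Good (fa g) T MG M (cP g H) Lt.bi u := by
  unfold dp_bi_16 at h
  rcases brec_true h with h | h
  · exact lF_good (T := T) (x := Lt.bi) (by decide) [Lt.c, Lt.d, Lt.f, Lt.ci, Lt.b, Lt.fi, Lt.d] (hole_rel hinv hr (by decide +kernel)) h
  · exact dp_bi_15_s hinv hr hH j u hu h
theorem dp_bi_17_s (hinv : ∀ x, g (inv x) = (g x)⁻¹) (hr : ∀ r ∈ rels, (r.map g).prod = 1) (hH : ∀ r ∈ subs, (r.map g).prod ∈ H)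
    (j u : ℕ) (hu : u < M) (h : dp_bi_17 j u = true) : Good (fa g) T MG M (cP g H) Lt.bi u := by
  unfold dp_bi_17 at h
  rcases brec_true h with h | h
  · exact dp_bi_14_s hinv hr hH j u hu h
  · exact dp_bi_16_s hinv hr hH j u hu h
theorem dp_bi_18_s (hinv : ∀ x, g (inv x) = (g x)⁻¹) (hr : ∀ r ∈ rels, (r.map g).prod = 1) (hH : ∀ r ∈ subs, (r.map g).prod ∈ H)
    (j u : ℕ) (hu : u < M) (h : dp_bi_18 j u = true) : Good (fa g) T MG M (cP g H) Lt.bi u := by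
  unfold dp_bi_18 at h
  rcases brec_true h with h | h
  · exact dp_bi_13_s hinv hr hH j u hu h
  · exact dp_bi_17_s hinv hr hH j u hu h
theorem dp_bi_19_s (hinv : ∀ x, g (inv x) = (g x)⁻¹) (hr : ∀ r ∈ rels, (r.map g).prod = 1) (hH : ∀ r ∈ subs, (r.map g).prod ∈ H)
    (j u : ℕ) (hu : u < M) (h : dp_bi_19 j u = true) : Good (fa g) T MG M (cP g H) Lt.bi u := by
  unfold dp_bi_19 at h
  rcases brec_true h with h | h
  · exact lS_good (T := T) (x := Lt.bi) (by decide) hu [Lt.d, Lt.c, Lt.b, Lt.b, Lt.ci, Lt.fi, Lt.fi] (hole_rel hinv hr (by decide +kernel)) h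
  · exact lF_good (T := T) (x := Lt.bi) (by decide) [Lt.di, Lt.di, Lt.f, Lt.b, Lt.c, Lt.b, Lt.ci] (hole_rel hinv hr (by decide +kernel)) h
theorem dp_bi_20_s (hinv : ∀ x, g (inv x) = (g x)⁻¹) (hr : ∀ r ∈ rels, (r.map g).prod = 1) (hH : ∀ r ∈ subs, (r.map g).prod ∈ H)
    (j u : ℕ) (hu : u < M) (h : dp_bi_20 j u = true) : Good (fa g) T MG M (cP g H) Lt.bi u := by
  unfold dp_bi_20 at h
  rcases brec_true h with h | h
  · exact lS_good (T := T) (x := Lt.bi) (by decide) hu [Lt.ci, Lt.di, Lt.b, Lt.f, Lt.f, Lt.c, Lt.bi] (hole_rel hinv hr (by decide +kernel)) h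
  · exact dp_bi_19_s hinv hr hH j u hu h
theorem dp_bi_21_s (hinv : ∀ x, g (inv x) = (g x)⁻¹) (hr : ∀ r ∈ rels, (r.map g).prod = 1) (hH : ∀ r ∈ subs, (r.map g).prod ∈ H)
    (j u : ℕ) (hu : u < M) (h : dp_bi_21 j u = true) : Good (fa g) T MG M (cP g H) Lt.bi u := by
  unfold dp_bi_21 at h
  rcases brec_true h with h | h
  · exact lS_good (T := T) (x := Lt.bi) (by decide) hu [Lt.di, Lt.c, Lt.bi, Lt.d, Lt.fi, Lt.c, Lt.fi] (hole_rel hinv hr (by decide +kernel)) h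
  · exact lS_good (T := T) (x := Lt.bi) (by decide) hu [Lt.f, Lt.c, Lt.bi, Lt.fi, Lt.c, Lt.d, Lt.d] (hole_rel hinv hr (by decide +kernel)) h
theorem dp_bi_22_s (hinv : ∀ x, g (inv x) = (g x)⁻¹) (hr : ∀ r ∈ rels, (r.map g).prod = 1) (hH : ∀ r ∈ subs, (r.map g).prod ∈ H)
    (j u : ℕ) (hu : u < M) (h : dp_bi_22 j u = true) : Good (fa g) T MG M (cP g H) Lt.bi u := by
  unfold dp_bi_22 at h
  rcases brec_true h with h | h
  · exact lF_good (T := T) (x := Lt.bi) (by decide) [Lt.bi, Lt.di, Lt.ci, Lt.bi, Lt.f, Lt.b, Lt.c] (hole_rel hinv hr (by decide +kernel)) h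
  · exact dp_bi_21_s hinv hr hH j u hu h
theorem dp_bi_23_s (hinv : ∀ x, g (inv x) = (g x)⁻¹) (hr : ∀ r ∈ rels, (r.map g).prod = 1) (hH : ∀ r ∈ subs, (r.map g).prod ∈ H)
    (j u : ℕ) (hu : u < M) (h : dp_bi_23 j u = true) : Good (fa g) T MG M (cP g H) Lt.bi u := by
  unfold dp_bi_23 at h
  rcases brec_true h with h | h
  · exact dp_bi_20_s hinv hr hH j u hu h
  · exact dp_bi_22_s hinv hr hH j u hu h
theorem dp_bi_24_s (hinv : ∀ x, g (inv x) = (g x)⁻¹) (hr : ∀ r ∈ rels, (r.map g).prod = 1) (hH : ∀ r ∈ subs, (r.map g).prod ∈ H)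
    (j u : ℕ) (hu : u < M) (h : dp_bi_24 j u = true) : Good (fa g) T MG M (cP g H) Lt.bi u := by
  unfold dp_bi_24 at h
  rcases brec_true h with h | h
  · exact lF_good (T := T) (x := Lt.bi) (by decide) [Lt.c, Lt.c, Lt.di, Lt.bi, Lt.c, Lt.c, Lt.di] (hole_rel hinv hr (by decide +kernel)) h
  · exact lS_good (T := T) (x := Lt.bi) (by decide) hu [Lt.d, Lt.d, Lt.b, Lt.d, Lt.bi, Lt.d, Lt.d] (hole_rel hinv hr (by decide +kernel)) h
theorem dp_bi_25_s (hinv : ∀ x, g (inv x) = (g x)⁻¹) (hr : ∀ r ∈ rels, (r.map g).prod = 1) (hH : ∀ r ∈ subs, (r.map g).prod ∈ H)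
    (j u : ℕ) (hu : u < M) (h : dp_bi_25 j u = true) : Good (fa g) T MG M (cP g H) Lt.bi u := by
  unfold dp_bi_25 at h
  rcases brec_true h with h | h
  · exact lS_good (T := T) (x := Lt.bi) (by decide) hu [Lt.di, Lt.di, Lt.b, Lt.di, Lt.di, Lt.b, Lt.di] (hole_rel hinv hr (by decide +kernel)) h
  · exact dp_bi_24_s hinv hr hH j u hu h
theorem dp_bi_26_s (hinv : ∀ x, g (inv x) = (g x)⁻¹) (hr : ∀ r ∈ rels, (r.map g).prod = 1) (hH : ∀ r ∈ subs, (r.map g).prod ∈ H)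
    (j u : ℕ) (hu : u < M) (h : dp_bi_26 j u = true) : Good (fa g) T MG M (cP g H) Lt.bi u := by
  unfold dp_bi_26 at h
  rcases brec_true h with h | h
  · exact lF_good (T := T) (x := Lt.bi) (by decide) [Lt.fi, Lt.d, Lt.d, Lt.b, Lt.c, Lt.bi, Lt.ci] (hole_rel hinv hr (by decide +kernel)) h
  · exact lS_good (T := T) (x := Lt.bi) (by decide) hu [Lt.bi, Lt.ci, Lt.di, Lt.b, Lt.f, Lt.f, Lt.c] (hole_rel hinv hr (by decide +kernel)) h
theorem dp_bi_27_s (hinv : ∀ x, g (inv x) = (g x)⁻¹) (hr : ∀ r ∈ rels, (r.map g).prod = 1) (hH : ∀ r ∈ subs, (r.map g).prod ∈ H)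
    (j u : ℕ) (hu : u < M) (h : dp_bi_27 j u = true) : Good (fa g) T MG M (cP g H) Lt.bi u := by
  unfold dp_bi_27 at h
  rcases brec_true h with h | h
  · exact lS_good (T := T) (x := Lt.bi) (by decide) hu [Lt.ci, Lt.bi, Lt.fi, Lt.d, Lt.d, Lt.b, Lt.c] (hole_rel hinv hr (by decide +kernel)) h
  · exact dp_bi_26_s hinv hr hH j u hu h
theorem dp_bi_28_s (hinv : ∀ x, g (inv x) = (g x)⁻¹) (hr : ∀ r ∈ rels, (r.map g).prod = 1) (hH : ∀ r ∈ subs, (r.map g).prod ∈ H)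
    (j u : ℕ) (hu : u < M) (h : dp_bi_28 j u = true) : Good (fa g) T MG M (cP g H) Lt.bi u := by
  unfold dp_bi_28 at h
  rcases brec_true h with h | h
  · exact dp_bi_25_s hinv hr hH j u hu h
  · exact dp_bi_27_s hinv hr hH j u hu h
theorem dp_bi_29_s (hinv : ∀ x, g (inv x) = (g x)⁻¹) (hr : ∀ r ∈ rels, (r.map g).prod = 1) (hH : ∀ r ∈ subs, (r.map g).prod ∈ H)
    (j u : ℕ) (hu : u < M) (h : dp_bi_29 j u = true) : Good (fa g) T MG M (cP g H) Lt.bi u := by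
  unfold dp_bi_29 at h
  rcases brec_true h with h | h
  · exact dp_bi_23_s hinv hr hH j u hu h
  · exact dp_bi_28_s hinv hr hH j u hu h
theorem dp_bi_30_s (hinv : ∀ x, g (inv x) = (g x)⁻¹) (hr : ∀ r ∈ rels, (r.map g).prod = 1) (hH : ∀ r ∈ subs, (r.map g).prod ∈ H)
    (j u : ℕ) (hu : u < M) (h : dp_bi_30 j u = true) : Good (fa g) T MG M (cP g H) Lt.bi u := by
  unfold dp_bi_30 at h
  rcases brec_true h with h | h
  · exact dp_bi_18_s hinv hr hH j u hu h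
  · exact dp_bi_29_s hinv hr hH j u hu h
theorem dp_bi_31_s (hinv : ∀ x, g (inv x) = (g x)⁻¹) (hr : ∀ r ∈ rels, (r.map g).prod = 1) (hH : ∀ r ∈ subs, (r.map g).prod ∈ H)
    (j u : ℕ) (hu : u < M) (h : dp_bi_31 j u = true) : Good (fa g) T MG M (cP g H) Lt.bi u := by
  unfold dp_bi_31 at h
  rcases brec_true h with h | h
  · exact dp_bi_9_s hinv hr hH j u hu h
  · exact dp_bi_30_s hinv hr hH j u hu h
theorem dp_bi_32_s (hinv : ∀ x, g (inv x) = (g x)⁻¹) (hr : ∀ r ∈ rels, (r.map g).prod = 1) (hH : ∀ r ∈ subs, (r.map g).prod ∈ H)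
    (j u : ℕ) (hu : u < M) (h : dp_bi_32 j u = true) : Good (fa g) T MG M (cP g H) Lt.bi u := by
  unfold dp_bi_32 at h
  rcases brec_true h with h | h
  · exact lF_good (T := T) (x := Lt.bi) (by decide) [Lt.bi, Lt.f, Lt.b, Lt.f, Lt.di, Lt.c, Lt.fi] (hole_rel hinv hr (by decide +kernel)) h
  · exact lF_good (T := T) (x := Lt.bi) (by decide) [Lt.bi, Lt.ci, Lt.di, Lt.b, Lt.f, Lt.f, Lt.c] (hole_rel hinv hr (by decide +kernel)) h
theorem dp_bi_33_s (hinv : ∀ x, g (inv x) = (g x)⁻¹) (hr : ∀ r ∈ rels, (r.map g).prod = 1) (hH : ∀ r ∈ subs, (r.map g).prod ∈ H)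
    (j u : ℕ) (hu : u < M) (h : dp_bi_33 j u = true) : Good (fa g) T MG M (cP g H) Lt.bi u := by
  unfold dp_bi_33 at h
  rcases brec_true h with h | h
  · exact lF_good (T := T) (x := Lt.bi) (by decide) [Lt.ci, Lt.b, Lt.d, Lt.f, Lt.f, Lt.c, Lt.di] (hole_rel hinv hr (by decide +kernel)) h
  · exact dp_bi_32_s hinv hr hH j u hu h
theorem dp_bi_34_s (hinv : ∀ x, g (inv x) = (g x)⁻¹) (hr : ∀ r ∈ rels, (r.map g).prod = 1) (hH : ∀ r ∈ subs, (r.map g).prod ∈ H)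
    (j u : ℕ) (hu : u < M) (h : dp_bi_34 j u = true) : Good (fa g) T MG M (cP g H) Lt.bi u := by
  unfold dp_bi_34 at h
  rcases brec_true h with h | h
  · exact lS_good (T := T) (x := Lt.bi) (by decide) hu [Lt.d, Lt.fi, Lt.c, Lt.fi, Lt.bi, Lt.di, Lt.c] (hole_rel hinv hr (by decide +kernel)) h
  · exact lS_good (T := T) (x := Lt.bi) (by decide) hu [Lt.bi, Lt.di, Lt.ci, Lt.bi, Lt.f, Lt.b, Lt.c] (hole_rel hinv hr (by decide +kernel)) h
theorem dp_bi_35_s (hinv : ∀ x, g (inv x) = (g x)⁻¹) (hr : ∀ r ∈ rels, (r.map g).prod = 1) (hH : ∀ r ∈ subs, (r.map g).prod ∈ H)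
    (j u : ℕ) (hu : u < M) (h : dp_bi_35 j u = true) : Good (fa g) T MG M (cP g H) Lt.bi u := by
  unfold dp_bi_35 at h
  rcases brec_true h with h | h
  · exact lF_good (T := T) (x := Lt.bi) (by decide) [Lt.ci, Lt.di, Lt.b, Lt.f, Lt.f, Lt.c, Lt.bi] (hole_rel hinv hr (by decide +kernel)) h
  · exact dp_bi_34_s hinv hr hH j u hu h
theorem dp_bi_36_s (hinv : ∀ x, g (inv x) = (g x)⁻¹) (hr : ∀ r ∈ rels, (r.map g).prod = 1) (hH : ∀ r ∈ subs, (r.map g).prod ∈ H)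
    (j u : ℕ) (hu : u < M) (h : dp_bi_36 j u = true) : Good (fa g) T MG M (cP g H) Lt.bi u := by
  unfold dp_bi_36 at h
  rcases brec_true h with h | h
  · exact dp_bi_33_s hinv hr hH j u hu h
  · exact dp_bi_35_s hinv hr hH j u hu h
theorem dp_bi_37_s (hinv : ∀ x, g (inv x) = (g x)⁻¹) (hr : ∀ r ∈ rels, (r.map g).prod = 1) (hH : ∀ r ∈ subs, (r.map g).prod ∈ H)
    (j u : ℕ) (hu : u < M) (h : dp_bi_37 j u = true) : Good (fa g) T MG M (cP g H) Lt.bi u := by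
  unfold dp_bi_37 at h
  rcases brec_true h with h | h
  · exact lF_good (T := T) (x := Lt.bi) (by decide) [Lt.di, Lt.di, Lt.fi, Lt.bi, Lt.ci, Lt.di, Lt.f] (hole_rel hinv hr (by decide +kernel)) h
  · exact lF_good (T := T) (x := Lt.bi) (by decide) [Lt.d, Lt.f, Lt.di, Lt.b, Lt.c, Lt.di, Lt.ci] (hole_rel hinv hr (by decide +kernel)) h
theorem dp_bi_38_s (hinv : ∀ x, g (inv x) = (g x)⁻¹) (hr : ∀ r ∈ rels, (r.map g).prod = 1) (hH : ∀ r ∈ subs, (r.map g).prod ∈ H)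
    (j u : ℕ) (hu : u < M) (h : dp_bi_38 j u = true) : Good (fa g) T MG M (cP g H) Lt.bi u := by
  unfold dp_bi_38 at h
  rcases brec_true h with h | h
  · exact lS_good (T := T) (x := Lt.bi) (by decide) hu [Lt.fi, Lt.b, Lt.b, Lt.f, Lt.ci, Lt.d, Lt.fi] (hole_rel hinv hr (by decide +kernel)) h
  · exact dp_bi_37_s hinv hr hH j u hu h
theorem dp_bi_39_s (hinv : ∀ x, g (inv x) = (g x)⁻¹) (hr : ∀ r ∈ rels, (r.map g).prod = 1) (hH : ∀ r ∈ subs, (r.map g).prod ∈ H)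
    (j u : ℕ) (hu : u < M) (h : dp_bi_39 j u = true) : Good (fa g) T MG M (cP g H) Lt.bi u := by
  unfold dp_bi_39 at h
  rcases brec_true h with h | h
  · exact lF_good (T := T) (x := Lt.bi) (by decide) [Lt.ci, Lt.b, Lt.di, Lt.f, Lt.di, Lt.ci, Lt.ci] (hole_rel hinv hr (by decide +kernel)) h
  · exact lS_good (T := T) (x := Lt.bi) (by decide) hu [Lt.di, Lt.di, Lt.f, Lt.b, Lt.c, Lt.b, Lt.ci] (hole_rel hinv hr (by decide +kernel)) h
theorem dp_bi_40_s (hinv : ∀ x, g (inv x) = (g x)⁻¹) (hr : ∀ r ∈ rels, (r.map g).prod = 1) (hH : ∀ r ∈ subs, (r.map g).prod ∈ H)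
    (j u : ℕ) (hu : u < M) (h : dp_bi_40 j u = true) : Good (fa g) T MG M (cP g H) Lt.bi u := by
  unfold dp_bi_40 at h
  rcases brec_true h with h | h
  · exact lS_good (T := T) (x := Lt.bi) (by decide) hu [Lt.c, Lt.c, Lt.di, Lt.bi, Lt.c, Lt.c, Lt.di] (hole_rel hinv hr (by decide +kernel)) h
  · exact lS_good (T := T) (x := Lt.bi) (by decide) hu [Lt.di, Lt.ci, Lt.bi, Lt.f, Lt.b, Lt.c, Lt.bi] (hole_rel hinv hr (by decide +kernel)) h
theorem dp_bi_41_s (hinv : ∀ x, g (inv x) = (g x)⁻¹) (hr : ∀ r ∈ rels, (r.map g).prod = 1) (hH : ∀ r ∈ subs, (r.map g).prod ∈ H)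
    (j u : ℕ) (hu : u < M) (h : dp_bi_41 j u = true) : Good (fa g) T MG M (cP g H) Lt.bi u := by
  unfold dp_bi_41 at h
  rcases brec_true h with h | h
  · exact dp_bi_39_s hinv hr hH j u hu h
  · exact dp_bi_40_s hinv hr hH j u hu h
theorem dp_bi_42_s (hinv : ∀ x, g (inv x) = (g x)⁻¹) (hr : ∀ r ∈ rels, (r.map g).prod = 1) (hH : ∀ r ∈ subs, (r.map g).prod ∈ H)
    (j u : ℕ) (hu : u < M) (h : dp_bi_42 j u = true) : Good (fa g) T MG M (cP g H) Lt.bi u := by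
  unfold dp_bi_42 at h
  rcases brec_true h with h | h
  · exact dp_bi_38_s hinv hr hH j u hu h
  · exact dp_bi_41_s hinv hr hH j u hu h
theorem dp_bi_43_s (hinv : ∀ x, g (inv x) = (g x)⁻¹) (hr : ∀ r ∈ rels, (r.map g).prod = 1) (hH : ∀ r ∈ subs, (r.map g).prod ∈ H)
    (j u : ℕ) (hu : u < M) (h : dp_bi_43 j u = true) : Good (fa g) T MG M (cP g H) Lt.bi u := by
  unfold dp_bi_43 at h
  rcases brec_true h with h | h
  · exact dp_bi_36_s hinv hr hH j u hu h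
  · exact dp_bi_42_s hinv hr hH j u hu h
theorem dp_bi_44_s (hinv : ∀ x, g (inv x) = (g x)⁻¹) (hr : ∀ r ∈ rels, (r.map g).prod = 1) (hH : ∀ r ∈ subs, (r.map g).prod ∈ H)
    (j u : ℕ) (hu : u < M) (h : dp_bi_44 j u = true) : Good (fa g) T MG M (cP g H) Lt.bi u := by
  unfold dp_bi_44 at h
  rcases brec_true h with h | h
  · exact lS_good (T := T) (x := Lt.bi) (by decide) hu [Lt.fi, Lt.ci, Lt.b, Lt.f, Lt.ci, Lt.ci, Lt.f] (hole_rel hinv hr (by decide +kernel)) h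
  · exact lF_good (T := T) (x := Lt.bi) (by decide) [Lt.c, Lt.di, Lt.b, Lt.c, Lt.di, Lt.c, Lt.d] (hole_rel hinv hr (by decide +kernel)) h
theorem dp_bi_45_s (hinv : ∀ x, g (inv x) = (g x)⁻¹) (hr : ∀ r ∈ rels, (r.map g).prod = 1) (hH : ∀ r ∈ subs, (r.map g).prod ∈ H)
    (j u : ℕ) (hu : u < M) (h : dp_bi_45 j u = true) : Good (fa g) T MG M (cP g H) Lt.bi u := by
  unfold dp_bi_45 at h
  rcases brec_true h with h | h
  · exact lF_good (T := T) (x := Lt.bi) (by decide) [Lt.fi, Lt.di, Lt.ci, Lt.bi, Lt.ci, Lt.fi, Lt.d] (hole_rel hinv hr (by decide +kernel)) h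
  · exact dp_bi_44_s hinv hr hH j u hu h
theorem dp_bi_46_s (hinv : ∀ x, g (inv x) = (g x)⁻¹) (hr : ∀ r ∈ rels, (r.map g).prod = 1) (hH : ∀ r ∈ subs, (r.map g).prod ∈ H)
    (j u : ℕ) (hu : u < M) (h : dp_bi_46 j u = true) : Good (fa g) T MG M (cP g H) Lt.bi u := by
  unfold dp_bi_46 at h
  rcases brec_true h with h | h
  · exact lF_good (T := T) (x := Lt.bi) (by decide) [Lt.ci, Lt.bi, Lt.fi, Lt.d, Lt.d, Lt.b, Lt.c] (hole_rel hinv hr (by decide +kernel)) h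
  · exact lF_good (T := T) (x := Lt.bi) (by decide) [Lt.d, Lt.fi, Lt.c, Lt.fi, Lt.bi, Lt.di, Lt.c] (hole_rel hinv hr (by decide +kernel)) h
theorem dp_bi_47_s (hinv : ∀ x, g (inv x) = (g x)⁻¹) (hr : ∀ r ∈ rels, (r.map g).prod = 1) (hH : ∀ r ∈ subs, (r.map g).prod ∈ H)
    (j u : ℕ) (hu : u < M) (h : dp_bi_47 j u = true) : Good (fa g) T MG M (cP g H) Lt.bi u := by
  unfold dp_bi_47 at h
  rcases brec_true h with h | h
  · exact lS_good (T := T) (x := Lt.bi) (by decide) hu [Lt.ci, Lt.b, Lt.di, Lt.f, Lt.di, Lt.ci, Lt.ci] (hole_rel hinv hr (by decide +kernel)) h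
  · exact lF_good (T := T) (x := Lt.bi) (by decide) [Lt.d, Lt.c, Lt.b, Lt.b, Lt.ci, Lt.fi, Lt.fi] (hole_rel hinv hr (by decide +kernel)) h
theorem dp_bi_48_s (hinv : ∀ x, g (inv x) = (g x)⁻¹) (hr : ∀ r ∈ rels, (r.map g).prod = 1) (hH : ∀ r ∈ subs, (r.map g).prod ∈ H)
    (j u : ℕ) (hu : u < M) (h : dp_bi_48 j u = true) : Good (fa g) T MG M (cP g H) Lt.bi u := by
  unfold dp_bi_48 at h
  rcases brec_true h with h | h
  · exact dp_bi_46_s hinv hr hH j u hu h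
  · exact dp_bi_47_s hinv hr hH j u hu h
theorem dp_bi_49_s (hinv : ∀ x, g (inv x) = (g x)⁻¹) (hr : ∀ r ∈ rels, (r.map g).prod = 1) (hH : ∀ r ∈ subs, (r.map g).prod ∈ H)
    (j u : ℕ) (hu : u < M) (h : dp_bi_49 j u = true) : Good (fa g) T MG M (cP g H) Lt.bi u := by
  unfold dp_bi_49 at h
  rcases brec_true h with h | h
  · exact dp_bi_45_s hinv hr hH j u hu h
  · exact dp_bi_48_s hinv hr hH j u hu h
theorem dp_bi_50_s (hinv : ∀ x, g (inv x) = (g x)⁻¹) (hr : ∀ r ∈ rels, (r.map g).prod = 1) (hH : ∀ r ∈ subs, (r.map g).prod ∈ H)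
    (j u : ℕ) (hu : u < M) (h : dp_bi_50 j u = true) : Good (fa g) T MG M (cP g H) Lt.bi u := by
  unfold dp_bi_50 at h
  rcases brec_true h with h | h
  · exact lS_good (T := T) (x := Lt.bi) (by decide) hu [Lt.fi, Lt.d, Lt.d, Lt.b, Lt.c, Lt.bi, Lt.ci] (hole_rel hinv hr (by decide +kernel)) h
  · exact lS_good (T := T) (x := Lt.bi) (by decide) hu [Lt.ci, Lt.fi, Lt.d, Lt.bi, Lt.fi, Lt.di, Lt.ci] (hole_rel hinv hr (by decide +kernel)) h
theorem dp_bi_51_s (hinv : ∀ x, g (inv x) = (g x)⁻¹) (hr : ∀ r ∈ rels, (r.map g).prod = 1) (hH : ∀ r ∈ subs, (r.map g).prod ∈ H)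
    (j u : ℕ) (hu : u < M) (h : dp_bi_51 j u = true) : Good (fa g) T MG M (cP g H) Lt.bi u := by
  unfold dp_bi_51 at h
  rcases brec_true h with h | h
  · exact lF_good (T := T) (x := Lt.bi) (by decide) [Lt.c, Lt.fi, Lt.ei, Lt.fi, Lt.b, Lt.f, Lt.d, Lt.ei] (hole_rel hinv hr (by decide +kernel)) h
  · exact lS_good (T := T) (x := Lt.bi) (by decide) hu [Lt.f, Lt.d, Lt.b, Lt.c, Lt.d, Lt.b, Lt.ci] (hole_rel hinv hr (by decide +kernel)) h
theorem dp_bi_52_s (hinv : ∀ x, g (inv x) = (g x)⁻¹) (hr : ∀ r ∈ rels, (r.map g).prod = 1) (hH : ∀ r ∈ subs, (r.map g).prod ∈ H)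
    (j u : ℕ) (hu : u < M) (h : dp_bi_52 j u = true) : Good (fa g) T MG M (cP g H) Lt.bi u := by
  unfold dp_bi_52 at h
  rcases brec_true h with h | h
  · exact dp_bi_50_s hinv hr hH j u hu h
  · exact dp_bi_51_s hinv hr hH j u hu h
theorem dp_bi_53_s (hinv : ∀ x, g (inv x) = (g x)⁻¹) (hr : ∀ r ∈ rels, (r.map g).prod = 1) (hH : ∀ r ∈ subs, (r.map g).prod ∈ H)
    (j u : ℕ) (hu : u < M) (h : dp_bi_53 j u = true) : Good (fa g) T MG M (cP g H) Lt.bi u := by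
  unfold dp_bi_53 at h
  rcases brec_true h with h | h
  · exact lF_good (T := T) (x := Lt.bi) (by decide) [Lt.d, Lt.d, Lt.bi, Lt.d, Lt.d, Lt.b, Lt.d] (hole_rel hinv hr (by decide +kernel)) h
  · exact lF_good (T := T) (x := Lt.bi) (by decide) [Lt.di, Lt.ci, Lt.bi, Lt.di, Lt.fi, Lt.b, Lt.c] (hole_rel hinv hr (by decide +kernel)) h
theorem dp_bi_54_s (hinv : ∀ x, g (inv x) = (g x)⁻¹) (hr : ∀ r ∈ rels, (r.map g).prod = 1) (hH : ∀ r ∈ subs, (r.map g).prod ∈ H)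
    (j u : ℕ) (hu : u < M) (h : dp_bi_54 j u = true) : Good (fa g) T MG M (cP g H) Lt.bi u := by
  unfold dp_bi_54 at h
  rcases brec_true h with h | h
  · exact lS_good (T := T) (x := Lt.bi) (by decide) hu [Lt.d, Lt.d, Lt.bi, Lt.d, Lt.d, Lt.b, Lt.d] (hole_rel hinv hr (by decide +kernel)) h
  · exact lF_good (T := T) (x := Lt.bi) (by decide) [Lt.f, Lt.ci, Lt.d, Lt.b, Lt.ci, Lt.di, Lt.ci] (hole_rel hinv hr (by decide +kernel)) h
theorem dp_bi_55_s (hinv : ∀ x, g (inv x) = (g x)⁻¹) (hr : ∀ r ∈ rels, (r.map g).prod = 1) (hH : ∀ r ∈ subs, (r.map g).prod ∈ H)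
    (j u : ℕ) (hu : u < M) (h : dp_bi_55 j u = true) : Good (fa g) T MG M (cP g H) Lt.bi u := by
  unfold dp_bi_55 at h
  rcases brec_true h with h | h
  · exact dp_bi_53_s hinv hr hH j u hu h
  · exact dp_bi_54_s hinv hr hH j u hu h
theorem dp_bi_56_s (hinv : ∀ x, g (inv x) = (g x)⁻¹) (hr : ∀ r ∈ rels, (r.map g).prod = 1) (hH : ∀ r ∈ subs, (r.map g).prod ∈ H)
    (j u : ℕ) (hu : u < M) (h : dp_bi_56 j u = true) : Good (fa g) T MG M (cP g H) Lt.bi u := by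
  unfold dp_bi_56 at h
  rcases brec_true h with h | h
  · exact dp_bi_52_s hinv hr hH j u hu h
  · exact dp_bi_55_s hinv hr hH j u hu h
theorem dp_bi_57_s (hinv : ∀ x, g (inv x) = (g x)⁻¹) (hr : ∀ r ∈ rels, (r.map g).prod = 1) (hH : ∀ r ∈ subs, (r.map g).prod ∈ H)
    (j u : ℕ) (hu : u < M) (h : dp_bi_57 j u = true) : Good (fa g) T MG M (cP g H) Lt.bi u := by
  unfold dp_bi_57 at h
  rcases brec_true h with h | h
  · exact dp_bi_49_s hinv hr hH j u hu h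
  · exact dp_bi_56_s hinv hr hH j u hu h
theorem dp_bi_58_s (hinv : ∀ x, g (inv x) = (g x)⁻¹) (hr : ∀ r ∈ rels, (r.map g).prod = 1) (hH : ∀ r ∈ subs, (r.map g).prod ∈ H)
    (j u : ℕ) (hu : u < M) (h : dp_bi_58 j u = true) : Good (fa g) T MG M (cP g H) Lt.bi u := by
  unfold dp_bi_58 at h
  rcases brec_true h with h | h
  · exact dp_bi_43_s hinv hr hH j u hu h
  · exact dp_bi_57_s hinv hr hH j u hu h
theorem dp_bi_59_s (hinv : ∀ x, g (inv x) = (g x)⁻¹) (hr : ∀ r ∈ rels, (r.map g).prod = 1) (hH : ∀ r ∈ subs, (r.map g).prod ∈ H)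
    (j u : ℕ) (hu : u < M) (h : dp_bi_59 j u = true) : Good (fa g) T MG M (cP g H) Lt.bi u := by
  unfold dp_bi_59 at h
  rcases brec_true h with h | h
  · exact lF_good (T := T) (x := Lt.bi) (by decide) [Lt.ci, Lt.di, Lt.f, Lt.bi, Lt.di, Lt.di, Lt.fi] (hole_rel hinv hr (by decide +kernel)) h
  · exact lF_good (T := T) (x := Lt.bi) (by decide) [Lt.f, Lt.d, Lt.f, Lt.b, Lt.c, Lt.bi, Lt.ci] (hole_rel hinv hr (by decide +kernel)) h
theorem dp_bi_60_s (hinv : ∀ x, g (inv x) = (g x)⁻¹) (hr : ∀ r ∈ rels, (r.map g).prod = 1) (hH : ∀ r ∈ subs, (r.map g).prod ∈ H)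
    (j u : ℕ) (hu : u < M) (h : dp_bi_60 j u = true) : Good (fa g) T MG M (cP g H) Lt.bi u := by
  unfold dp_bi_60 at h
  rcases brec_true h with h | h
  · exact lS_good (T := T) (x := Lt.bi) (by decide) hu [Lt.di, Lt.c, Lt.fi, Lt.b, Lt.c, Lt.d, Lt.c] (hole_rel hinv hr (by decide +kernel)) h
  · exact lS_good (T := T) (x := Lt.bi) (by decide) hu [Lt.c, Lt.d, Lt.f, Lt.ci, Lt.b, Lt.fi, Lt.d] (hole_rel hinv hr (by decide +kernel)) h
theorem dp_bi_61_s (hinv : ∀ x, g (inv x) = (g x)⁻¹) (hr : ∀ r ∈ rels, (r.map g).prod = 1) (hH : ∀ r ∈ subs, (r.map g).prod ∈ H)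
    (j u : ℕ) (hu : u < M) (h : dp_bi_61 j u = true) : Good (fa g) T MG M (cP g H) Lt.bi u := by
  unfold dp_bi_61 at h
  rcases brec_true h with h | h
  · exact dp_bi_59_s hinv hr hH j u hu h
  · exact dp_bi_60_s hinv hr hH j u hu h
theorem dp_bi_62_s (hinv : ∀ x, g (inv x) = (g x)⁻¹) (hr : ∀ r ∈ rels, (r.map g).prod = 1) (hH : ∀ r ∈ subs, (r.map g).prod ∈ H)
    (j u : ℕ) (hu : u < M) (h : dp_bi_62 j u = true) : Good (fa g) T MG M (cP g H) Lt.bi u := by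
  unfold dp_bi_62 at h
  rcases brec_true h with h | h
  · exact lS_good (T := T) (x := Lt.bi) (by decide) hu [Lt.ci, Lt.d, Lt.c, Lt.bi, Lt.ci, Lt.d, Lt.c] (hole_rel hinv hr (by decide +kernel)) h
  · exact lF_good (T := T) (x := Lt.bi) (by decide) [Lt.ci, Lt.fi, Lt.d, Lt.bi, Lt.fi, Lt.di, Lt.ci] (hole_rel hinv hr (by decide +kernel)) h
theorem dp_bi_63_s (hinv : ∀ x, g (inv x) = (g x)⁻¹) (hr : ∀ r ∈ rels, (r.map g).prod = 1) (hH : ∀ r ∈ subs, (r.map g).prod ∈ H)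
    (j u : ℕ) (hu : u < M) (h : dp_bi_63 j u = true) : Good (fa g) T MG M (cP g H) Lt.bi u := by
  unfold dp_bi_63 at h
  rcases brec_true h with h | h
  · exact lF_good (T := T) (x := Lt.bi) (by decide) [Lt.ci, Lt.b, Lt.ci, Lt.ci, Lt.d, Lt.c, Lt.c] (hole_rel hinv hr (by decide +kernel)) h
  · exact lS_good (T := T) (x := Lt.bi) (by decide) hu [Lt.d, Lt.ci, Lt.fi, Lt.bi, Lt.d, Lt.ci, Lt.fi] (hole_rel hinv hr (by decide +kernel)) h
theorem dp_bi_64_s (hinv : ∀ x, g (inv x) = (g x)⁻¹) (hr : ∀ r ∈ rels, (r.map g).prod = 1) (hH : ∀ r ∈ subs, (r.map g).prod ∈ H)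
    (j u : ℕ) (hu : u < M) (h : dp_bi_64 j u = true) : Good (fa g) T MG M (cP g H) Lt.bi u := by
  unfold dp_bi_64 at h
  rcases brec_true h with h | h
  · exact dp_bi_62_s hinv hr hH j u hu h
  · exact dp_bi_63_s hinv hr hH j u hu h
theorem dp_bi_65_s (hinv : ∀ x, g (inv x) = (g x)⁻¹) (hr : ∀ r ∈ rels, (r.map g).prod = 1) (hH : ∀ r ∈ subs, (r.map g).prod ∈ H)
    (j u : ℕ) (hu : u < M) (h : dp_bi_65 j u = true) : Good (fa g) T MG M (cP g H) Lt.bi u := by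
  unfold dp_bi_65 at h
  rcases brec_true h with h | h
  · exact dp_bi_61_s hinv hr hH j u hu h
  · exact dp_bi_64_s hinv hr hH j u hu h
theorem dp_bi_66_s (hinv : ∀ x, g (inv x) = (g x)⁻¹) (hr : ∀ r ∈ rels, (r.map g).prod = 1) (hH : ∀ r ∈ subs, (r.map g).prod ∈ H)
    (j u : ℕ) (hu : u < M) (h : dp_bi_66 j u = true) : Good (fa g) T MG M (cP g H) Lt.bi u := by
  unfold dp_bi_66 at h
  rcases brec_true h with h | h
  · exact lF_good (T := T) (x := Lt.bi) (by decide) [Lt.ci, Lt.d, Lt.c, Lt.bi, Lt.ci, Lt.d, Lt.c] (hole_rel hinv hr (by decide +kernel)) h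
  · exact lF_good (T := T) (x := Lt.bi) (by decide) [Lt.di, Lt.c, Lt.fi, Lt.b, Lt.c, Lt.d, Lt.c] (hole_rel hinv hr (by decide +kernel)) h
theorem dp_bi_67_s (hinv : ∀ x, g (inv x) = (g x)⁻¹) (hr : ∀ r ∈ rels, (r.map g).prod = 1) (hH : ∀ r ∈ subs, (r.map g).prod ∈ H)
    (j u : ℕ) (hu : u < M) (h : dp_bi_67 j u = true) : Good (fa g) T MG M (cP g H) Lt.bi u := by
  unfold dp_bi_67 at h
  rcases brec_true h with h | h
  · exact lF_good (T := T) (x := Lt.bi) (by decide) [Lt.fi, Lt.ci, Lt.b, Lt.f, Lt.ci, Lt.ci, Lt.f] (hole_rel hinv hr (by decide +kernel)) h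
  · exact lF_good (T := T) (x := Lt.bi) (by decide) [Lt.fi, Lt.di, Lt.fi, Lt.b, Lt.c, Lt.b, Lt.ci] (hole_rel hinv hr (by decide +kernel)) h
theorem dp_bi_68_s (hinv : ∀ x, g (inv x) = (g x)⁻¹) (hr : ∀ r ∈ rels, (r.map g).prod = 1) (hH : ∀ r ∈ subs, (r.map g).prod ∈ H)
    (j u : ℕ) (hu : u < M) (h : dp_bi_68 j u = true) : Good (fa g) T MG M (cP g H) Lt.bi u := by
  unfold dp_bi_68 at h
  rcases brec_true h with h | h
  · exact lF_good (T := T) (x := Lt.bi) (by decide) [Lt.c, Lt.f, Lt.b, Lt.fi, Lt.c, Lt.c, Lt.fi] (hole_rel hinv hr (by decide +kernel)) h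
  · exact dp_bi_67_s hinv hr hH j u hu h
theorem dp_bi_69_s (hinv : ∀ x, g (inv x) = (g x)⁻¹) (hr : ∀ r ∈ rels, (r.map g).prod = 1) (hH : ∀ r ∈ subs, (r.map g).prod ∈ H)
    (j u : ℕ) (hu : u < M) (h : dp_bi_69 j u = true) : Good (fa g) T MG M (cP g H) Lt.bi u := by
  unfold dp_bi_69 at h
  rcases brec_true h with h | h
  · exact dp_bi_66_s hinv hr hH j u hu h
  · exact dp_bi_68_s hinv hr hH j u hu h
theorem dp_bi_70_s (hinv : ∀ x, g (inv x) = (g x)⁻¹) (hr : ∀ r ∈ rels, (r.map g).prod = 1) (hH : ∀ r ∈ subs, (r.map g).prod ∈ H)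
    (j u : ℕ) (hu : u < M) (h : dp_bi_70 j u = true) : Good (fa g) T MG M (cP g H) Lt.bi u := by
  unfold dp_bi_70 at h
  rcases brec_true h with h | h
  · exact lF_good (T := T) (x := Lt.bi) (by decide) [Lt.fi, Lt.b, Lt.b, Lt.f, Lt.ci, Lt.d, Lt.fi] (hole_rel hinv hr (by decide +kernel)) h
  · exact lF_good (T := T) (x := Lt.bi) (by decide) [Lt.di, Lt.ci, Lt.bi, Lt.f, Lt.b, Lt.c, Lt.bi] (hole_rel hinv hr (by decide +kernel)) h
theorem dp_bi_71_s (hinv : ∀ x, g (inv x) = (g x)⁻¹) (hr : ∀ r ∈ rels, (r.map g).prod = 1) (hH : ∀ r ∈ subs, (r.map g).prod ∈ H)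
    (j u : ℕ) (hu : u < M) (h : dp_bi_71 j u = true) : Good (fa g) T MG M (cP g H) Lt.bi u := by
  unfold dp_bi_71 at h
  rcases brec_true h with h | h
  · exact lF_good (T := T) (x := Lt.bi) (by decide) [Lt.c, Lt.b, Lt.ci, Lt.ci, Lt.di, Lt.c, Lt.c] (hole_rel hinv hr (by decide +kernel)) h
  · exact lS_good (T := T) (x := Lt.bi) (by decide) hu [Lt.c, Lt.di, Lt.b, Lt.c, Lt.di, Lt.c, Lt.d] (hole_rel hinv hr (by decide +kernel)) h
theorem dp_bi_72_s (hinv : ∀ x, g (inv x) = (g x)⁻¹) (hr : ∀ r ∈ rels, (r.map g).prod = 1) (hH : ∀ r ∈ subs, (r.map g).prod ∈ H)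
    (j u : ℕ) (hu : u < M) (h : dp_bi_72 j u = true) : Good (fa g) T MG M (cP g H) Lt.bi u := by
  unfold dp_bi_72 at h
  rcases brec_true h with h | h
  · exact lS_good (T := T) (x := Lt.bi) (by decide) hu [Lt.di, Lt.ci, Lt.bi, Lt.di, Lt.fi, Lt.b, Lt.c] (hole_rel hinv hr (by decide +kernel)) h
  · exact dp_bi_71_s hinv hr hH j u hu h
theorem dp_bi_73_s (hinv : ∀ x, g (inv x) = (g x)⁻¹) (hr : ∀ r ∈ rels, (r.map g).prod = 1) (hH : ∀ r ∈ subs, (r.map g).prod ∈ H)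
    (j u : ℕ) (hu : u < M) (h : dp_bi_73 j u = true) : Good (fa g) T MG M (cP g H) Lt.bi u := by
  unfold dp_bi_73 at h
  rcases brec_true h with h | h
  · exact dp_bi_70_s hinv hr hH j u hu h
  · exact dp_bi_72_s hinv hr hH j u hu h
theorem dp_bi_74_s (hinv : ∀ x, g (inv x) = (g x)⁻¹) (hr : ∀ r ∈ rels, (r.map g).prod = 1) (hH : ∀ r ∈ subs, (r.map g).prod ∈ H)
    (j u : ℕ) (hu : u < M) (h : dp_bi_74 j u = true) : Good (fa g) T MG M (cP g H) Lt.bi u := by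
  unfold dp_bi_74 at h
  rcases brec_true h with h | h
  · exact dp_bi_69_s hinv hr hH j u hu h
  · exact dp_bi_73_s hinv hr hH j u hu h
theorem dp_bi_75_s (hinv : ∀ x, g (inv x) = (g x)⁻¹) (hr : ∀ r ∈ rels, (r.map g).prod = 1) (hH : ∀ r ∈ subs, (r.map g).prod ∈ H)
    (j u : ℕ) (hu : u < M) (h : dp_bi_75 j u = true) : Good (fa g) T MG M (cP g H) Lt.bi u := by
  unfold dp_bi_75 at h
  rcases brec_true h with h | h
  · exact dp_bi_65_s hinv hr hH j u hu h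
  · exact dp_bi_74_s hinv hr hH j u hu h
theorem dp_bi_76_s (hinv : ∀ x, g (inv x) = (g x)⁻¹) (hr : ∀ r ∈ rels, (r.map g).prod = 1) (hH : ∀ r ∈ subs, (r.map g).prod ∈ H)
    (j u : ℕ) (hu : u < M) (h : dp_bi_76 j u = true) : Good (fa g) T MG M (cP g H) Lt.bi u := by
  unfold dp_bi_76 at h
  rcases brec_true h with h | h
  · exact lS_good (T := T) (x := Lt.bi) (by decide) hu [Lt.ci, Lt.b, Lt.ci, Lt.ci, Lt.d, Lt.c, Lt.c] (hole_rel hinv hr (by decide +kernel)) h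
  · exact lF_good (T := T) (x := Lt.bi) (by decide) [Lt.c, Lt.b, Lt.c, Lt.c, Lt.d, Lt.fi, Lt.d] (hole_rel hinv hr (by decide +kernel)) h
theorem dp_bi_77_s (hinv : ∀ x, g (inv x) = (g x)⁻¹) (hr : ∀ r ∈ rels, (r.map g).prod = 1) (hH : ∀ r ∈ subs, (r.map g).prod ∈ H)
    (j u : ℕ) (hu : u < M) (h : dp_bi_77 j u = true) : Good (fa g) T MG M (cP g H) Lt.bi u := by
  unfold dp_bi_77 at h
  rcases brec_true h with h | h
  · exact lF_good (T := T) (x := Lt.bi) (by decide) [Lt.di, Lt.fi, Lt.b, Lt.c, Lt.bi, Lt.di, Lt.ci] (hole_rel hinv hr (by decide +kernel)) h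
  · exact dp_bi_76_s hinv hr hH j u hu h
theorem dp_bi_78_s (hinv : ∀ x, g (inv x) = (g x)⁻¹) (hr : ∀ r ∈ rels, (r.map g).prod = 1) (hH : ∀ r ∈ subs, (r.map g).prod ∈ H)
    (j u : ℕ) (hu : u < M) (h : dp_bi_78 j u = true) : Good (fa g) T MG M (cP g H) Lt.bi u := by
  unfold dp_bi_78 at h
  rcases brec_true h with h | h
  · exact lF_good (T := T) (x := Lt.bi) (by decide) [Lt.fi, Lt.b, Lt.c, Lt.d, Lt.b, Lt.b, Lt.ci] (hole_rel hinv hr (by decide +kernel)) h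
  · exact lS_good (T := T) (x := Lt.bi) (by decide) hu [Lt.f, Lt.d, Lt.f, Lt.b, Lt.c, Lt.bi, Lt.ci] (hole_rel hinv hr (by decide +kernel)) h
theorem dp_bi_79_s (hinv : ∀ x, g (inv x) = (g x)⁻¹) (hr : ∀ r ∈ rels, (r.map g).prod = 1) (hH : ∀ r ∈ subs, (r.map g).prod ∈ H)
    (j u : ℕ) (hu : u < M) (h : dp_bi_79 j u = true) : Good (fa g) T MG M (cP g H) Lt.bi u := by
  unfold dp_bi_79 at h
  rcases brec_true h with h | h
  · exact lS_good (T := T) (x := Lt.bi) (by decide) hu [Lt.ci, Lt.di, Lt.f, Lt.bi, Lt.di, Lt.di, Lt.fi] (hole_rel hinv hr (by decide +kernel)) h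
  · exact dp_bi_78_s hinv hr hH j u hu h
theorem dp_bi_80_s (hinv : ∀ x, g (inv x) = (g x)⁻¹) (hr : ∀ r ∈ rels, (r.map g).prod = 1) (hH : ∀ r ∈ subs, (r.map g).prod ∈ H)
    (j u : ℕ) (hu : u < M) (h : dp_bi_80 j u = true) : Good (fa g) T MG M (cP g H) Lt.bi u := by
  unfold dp_bi_80 at h
  rcases brec_true h with h | h
  · exact dp_bi_77_s hinv hr hH j u hu h
  · exact dp_bi_79_s hinv hr hH j u hu h
theorem dp_bi_81_s (hinv : ∀ x, g (inv x) = (g x)⁻¹) (hr : ∀ r ∈ rels, (r.map g).prod = 1) (hH : ∀ r ∈ subs, (r.map g).prod ∈ H)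
    (j u : ℕ) (hu : u < M) (h : dp_bi_81 j u = true) : Good (fa g) T MG M (cP g H) Lt.bi u := by
  unfold dp_bi_81 at h
  rcases brec_true h with h | h
  · exact lF_good (T := T) (x := Lt.bi) (by decide) [Lt.di, Lt.di, Lt.b, Lt.di, Lt.di, Lt.b, Lt.di] (hole_rel hinv hr (by decide +kernel)) h
  · exact lS_good (T := T) (x := Lt.bi) (by decide) hu [Lt.d, Lt.ci, Lt.b, Lt.di, Lt.ci, Lt.d, Lt.ci] (hole_rel hinv hr (by decide +kernel)) h
theorem dp_bi_82_s (hinv : ∀ x, g (inv x) = (g x)⁻¹) (hr : ∀ r ∈ rels, (r.map g).prod = 1) (hH : ∀ r ∈ subs, (r.map g).prod ∈ H)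
    (j u : ℕ) (hu : u < M) (h : dp_bi_82 j u = true) : Good (fa g) T MG M (cP g H) Lt.bi u := by
  unfold dp_bi_82 at h
  rcases brec_true h with h | h
  · exact lF_good (T := T) (x := Lt.bi) (by decide) [Lt.d, Lt.ci, Lt.fi, Lt.bi, Lt.d, Lt.ci, Lt.fi] (hole_rel hinv hr (by decide +kernel)) h
  · exact dp_bi_81_s hinv hr hH j u hu h
theorem dp_bi_83_s (hinv : ∀ x, g (inv x) = (g x)⁻¹) (hr : ∀ r ∈ rels, (r.map g).prod = 1) (hH : ∀ r ∈ subs, (r.map g).prod ∈ H)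
    (j u : ℕ) (hu : u < M) (h : dp_bi_83 j u = true) : Good (fa g) T MG M (cP g H) Lt.bi u := by
  unfold dp_bi_83 at h
  rcases brec_true h with h | h
  · exact lF_good (T := T) (x := Lt.bi) (by decide) [Lt.d, Lt.fi, Lt.c, Lt.bi, Lt.c, Lt.d, Lt.d, Lt.f] (hole_rel hinv hr (by decide +kernel)) h
  · exact lF_good (T := T) (x := Lt.bi) (by decide) [Lt.f, Lt.d, Lt.b, Lt.c, Lt.d, Lt.b, Lt.ci] (hole_rel hinv hr (by decide +kernel)) h
theorem dp_bi_84_s (hinv : ∀ x, g (inv x) = (g x)⁻¹) (hr : ∀ r ∈ rels, (r.map g).prod = 1) (hH : ∀ r ∈ subs, (r.map g).prod ∈ H)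
    (j u : ℕ) (hu : u < M) (h : dp_bi_84 j u = true) : Good (fa g) T MG M (cP g H) Lt.bi u := by
  unfold dp_bi_84 at h
  rcases brec_true h with h | h
  · exact lS_good (T := T) (x := Lt.bi) (by decide) hu [Lt.f, Lt.e, Lt.f, Lt.ci, Lt.b, Lt.e, Lt.di, Lt.fi] (hole_rel hinv hr (by decide +kernel)) h
  · exact dp_bi_83_s hinv hr hH j u hu h
theorem dp_bi_85_s (hinv : ∀ x, g (inv x) = (g x)⁻¹) (hr : ∀ r ∈ rels, (r.map g).prod = 1) (hH : ∀ r ∈ subs, (r.map g).prod ∈ H)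
    (j u : ℕ) (hu : u < M) (h : dp_bi_85 j u = true) : Good (fa g) T MG M (cP g H) Lt.bi u := by
  unfold dp_bi_85 at h
  rcases brec_true h with h | h
  · exact dp_bi_82_s hinv hr hH j u hu h
  · exact dp_bi_84_s hinv hr hH j u hu h
theorem dp_bi_86_s (hinv : ∀ x, g (inv x) = (g x)⁻¹) (hr : ∀ r ∈ rels, (r.map g).prod = 1) (hH : ∀ r ∈ subs, (r.map g).prod ∈ H)
    (j u : ℕ) (hu : u < M) (h : dp_bi_86 j u = true) : Good (fa g) T MG M (cP g H) Lt.bi u := by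
  unfold dp_bi_86 at h
  rcases brec_true h with h | h
  · exact dp_bi_80_s hinv hr hH j u hu h
  · exact dp_bi_85_s hinv hr hH j u hu h
theorem dp_bi_87_s (hinv : ∀ x, g (inv x) = (g x)⁻¹) (hr : ∀ r ∈ rels, (r.map g).prod = 1) (hH : ∀ r ∈ subs, (r.map g).prod ∈ H)
    (j u : ℕ) (hu : u < M) (h : dp_bi_87 j u = true) : Good (fa g) T MG M (cP g H) Lt.bi u := by
  unfold dp_bi_87 at h
  rcases brec_true h with h | h
  · exact lS_good (T := T) (x := Lt.bi) (by decide) hu [Lt.f, Lt.ci, Lt.d, Lt.b, Lt.ci, Lt.di, Lt.ci] (hole_rel hinv hr (by decide +kernel)) h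
  · exact lS_good (T := T) (x := Lt.bi) (by decide) hu [Lt.c, Lt.b, Lt.ci, Lt.ci, Lt.di, Lt.c, Lt.c] (hole_rel hinv hr (by decide +kernel)) h
theorem dp_bi_88_s (hinv : ∀ x, g (inv x) = (g x)⁻¹) (hr : ∀ r ∈ rels, (r.map g).prod = 1) (hH : ∀ r ∈ subs, (r.map g).prod ∈ H)
    (j u : ℕ) (hu : u < M) (h : dp_bi_88 j u = true) : Good (fa g) T MG M (cP g H) Lt.bi u := by
  unfold dp_bi_88 at h
  rcases brec_true h with h | h
  · exact lF_good (T := T) (x := Lt.bi) (by decide) [Lt.d, Lt.d, Lt.b, Lt.d, Lt.bi, Lt.d, Lt.d] (hole_rel hinv hr (by decide +kernel)) h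
  · exact lS_good (T := T) (x := Lt.bi) (by decide) hu [Lt.d, Lt.f, Lt.di, Lt.b, Lt.c, Lt.di, Lt.ci] (hole_rel hinv hr (by decide +kernel)) h
theorem dp_bi_89_s (hinv : ∀ x, g (inv x) = (g x)⁻¹) (hr : ∀ r ∈ rels, (r.map g).prod = 1) (hH : ∀ r ∈ subs, (r.map g).prod ∈ H)
    (j u : ℕ) (hu : u < M) (h : dp_bi_89 j u = true) : Good (fa g) T MG M (cP g H) Lt.bi u := by
  unfold dp_bi_89 at h
  rcases brec_true h with h | h
  · exact dp_bi_87_s hinv hr hH j u hu h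
  · exact dp_bi_88_s hinv hr hH j u hu h
theorem dp_bi_90_s (hinv : ∀ x, g (inv x) = (g x)⁻¹) (hr : ∀ r ∈ rels, (r.map g).prod = 1) (hH : ∀ r ∈ subs, (r.map g).prod ∈ H)
    (j u : ℕ) (hu : u < M) (h : dp_bi_90 j u = true) : Good (fa g) T MG M (cP g H) Lt.bi u := by
  unfold dp_bi_90 at h
  rcases brec_true h with h | h
  · exact lS_good (T := T) (x := Lt.bi) (by decide) hu [Lt.c, Lt.f, Lt.b, Lt.fi, Lt.c, Lt.c, Lt.fi] (hole_rel hinv hr (by decide +kernel)) h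
  · exact lS_good (T := T) (x := Lt.bi) (by decide) hu [Lt.f, Lt.b, Lt.c, Lt.bi, Lt.bi, Lt.di, Lt.ci] (hole_rel hinv hr (by decide +kernel)) h
theorem dp_bi_91_s (hinv : ∀ x, g (inv x) = (g x)⁻¹) (hr : ∀ r ∈ rels, (r.map g).prod = 1) (hH : ∀ r ∈ subs, (r.map g).prod ∈ H)
    (j u : ℕ) (hu : u < M) (h : dp_bi_91 j u = true) : Good (fa g) T MG M (cP g H) Lt.bi u := by
  unfold dp_bi_91 at h
  rcases brec_true h with h | h
  · exact lS_good (T := T) (x := Lt.bi) (by decide) hu [Lt.c, Lt.b, Lt.c, Lt.c, Lt.d, Lt.fi, Lt.d] (hole_rel hinv hr (by decide +kernel)) h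
  · exact lS_good (T := T) (x := Lt.bi) (by decide) hu [Lt.c, Lt.bi, Lt.c, Lt.bi, Lt.c, Lt.bi, Lt.c] (hole_rel hinv hr (by decide +kernel)) h
theorem dp_bi_92_s (hinv : ∀ x, g (inv x) = (g x)⁻¹) (hr : ∀ r ∈ rels, (r.map g).prod = 1) (hH : ∀ r ∈ subs, (r.map g).prod ∈ H)
    (j u : ℕ) (hu : u < M) (h : dp_bi_92 j u = true) : Good (fa g) T MG M (cP g H) Lt.bi u := by
  unfold dp_bi_92 at h
  rcases brec_true h with h | h
  · exact dp_bi_90_s hinv hr hH j u hu h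
  · exact dp_bi_91_s hinv hr hH j u hu h
theorem dp_bi_93_s (hinv : ∀ x, g (inv x) = (g x)⁻¹) (hr : ∀ r ∈ rels, (r.map g).prod = 1) (hH : ∀ r ∈ subs, (r.map g).prod ∈ H)
    (j u : ℕ) (hu : u < M) (h : dp_bi_93 j u = true) : Good (fa g) T MG M (cP g H) Lt.bi u := by
  unfold dp_bi_93 at h
  rcases brec_true h with h | h
  · exact dp_bi_89_s hinv hr hH j u hu h
  · exact dp_bi_92_s hinv hr hH j u hu h
theorem dp_bi_94_s (hinv : ∀ x, g (inv x) = (g x)⁻¹) (hr : ∀ r ∈ rels, (r.map g).prod = 1) (hH : ∀ r ∈ subs, (r.map g).prod ∈ H)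
    (j u : ℕ) (hu : u < M) (h : dp_bi_94 j u = true) : Good (fa g) T MG M (cP g H) Lt.bi u := by
  unfold dp_bi_94 at h
  rcases brec_true h with h | h
  · exact lF_good (T := T) (x := Lt.bi) (by decide) [Lt.f, Lt.b, Lt.c, Lt.bi, Lt.bi, Lt.di, Lt.ci] (hole_rel hinv hr (by decide +kernel)) h
  · exact lS_good (T := T) (x := Lt.bi) (by decide) hu [Lt.fi, Lt.di, Lt.ci, Lt.bi, Lt.ci, Lt.fi, Lt.d] (hole_rel hinv hr (by decide +kernel)) h
theorem dp_bi_95_s (hinv : ∀ x, g (inv x) = (g x)⁻¹) (hr : ∀ r ∈ rels, (r.map g).prod = 1) (hH : ∀ r ∈ subs, (r.map g).prod ∈ H)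
    (j u : ℕ) (hu : u < M) (h : dp_bi_95 j u = true) : Good (fa g) T MG M (cP g H) Lt.bi u := by
  unfold dp_bi_95 at h
  rcases brec_true h with h | h
  · exact lS_good (T := T) (x := Lt.bi) (by decide) hu [Lt.di, Lt.fi, Lt.b, Lt.c, Lt.bi, Lt.di, Lt.ci] (hole_rel hinv hr (by decide +kernel)) h
  · exact lF_good (T := T) (x := Lt.bi) (by decide) [Lt.d, Lt.ci, Lt.b, Lt.di, Lt.ci, Lt.d, Lt.ci] (hole_rel hinv hr (by decide +kernel)) h
theorem dp_bi_96_s (hinv : ∀ x, g (inv x) = (g x)⁻¹) (hr : ∀ r ∈ rels, (r.map g).prod = 1) (hH : ∀ r ∈ subs, (r.map g).prod ∈ H)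
    (j u : ℕ) (hu : u < M) (h : dp_bi_96 j u = true) : Good (fa g) T MG M (cP g H) Lt.bi u := by
  unfold dp_bi_96 at h
  rcases brec_true h with h | h
  · exact dp_bi_94_s hinv hr hH j u hu h
  · exact dp_bi_95_s hinv hr hH j u hu h
theorem dp_bi_97_s (hinv : ∀ x, g (inv x) = (g x)⁻¹) (hr : ∀ r ∈ rels, (r.map g).prod = 1) (hH : ∀ r ∈ subs, (r.map g).prod ∈ H)
    (j u : ℕ) (hu : u < M) (h : dp_bi_97 j u = true) : Good (fa g) T MG M (cP g H) Lt.bi u := by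
  unfold dp_bi_97 at h
  rcases brec_true h with h | h
  · exact lF_good (T := T) (x := Lt.bi) (by decide) [Lt.ci, Lt.bi, Lt.f, Lt.d, Lt.f, Lt.b, Lt.c] (hole_rel hinv hr (by decide +kernel)) h
  · exact lF_good (T := T) (x := Lt.bi) (by decide) [Lt.f, Lt.c, Lt.di, Lt.f, Lt.c, Lt.bi, Lt.ci, Lt.ci] (hole_rel hinv hr (by decide +kernel)) h
theorem dp_bi_98_s (hinv : ∀ x, g (inv x) = (g x)⁻¹) (hr : ∀ r ∈ rels, (r.map g).prod = 1) (hH : ∀ r ∈ subs, (r.map g).prod ∈ H)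
    (j u : ℕ) (hu : u < M) (h : dp_bi_98 j u = true) : Good (fa g) T MG M (cP g H) Lt.bi u := by
  unfold dp_bi_98 at h
  rcases brec_true h with h | h
  · exact lS_good (T := T) (x := Lt.bi) (by decide) hu [Lt.fi, Lt.di, Lt.fi, Lt.b, Lt.c, Lt.b, Lt.ci] (hole_rel hinv hr (by decide +kernel)) h
  · exact dp_bi_97_s hinv hr hH j u hu h
theorem dp_bi_99_s (hinv : ∀ x, g (inv x) = (g x)⁻¹) (hr : ∀ r ∈ rels, (r.map g).prod = 1) (hH : ∀ r ∈ subs, (r.map g).prod ∈ H)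
    (j u : ℕ) (hu : u < M) (h : dp_bi_99 j u = true) : Good (fa g) T MG M (cP g H) Lt.bi u := by
  unfold dp_bi_99 at h
  rcases brec_true h with h | h
  · exact lS_good (T := T) (x := Lt.bi) (by decide) hu [Lt.ci, Lt.bi, Lt.f, Lt.d, Lt.f, Lt.b, Lt.c] (hole_rel hinv hr (by decide +kernel)) h
  · exact lF_good (T := T) (x := Lt.bi) (by decide) [Lt.ci, Lt.ci, Lt.bi, Lt.f, Lt.c, Lt.di, Lt.f, Lt.c] (hole_rel hinv hr (by decide +kernel)) h
theorem dp_bi_100_s (hinv : ∀ x, g (inv x) = (g x)⁻¹) (hr : ∀ r ∈ rels, (r.map g).prod = 1) (hH : ∀ r ∈ subs, (r.map g).prod ∈ H)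
    (j u : ℕ) (hu : u < M) (h : dp_bi_100 j u = true) : Good (fa g) T MG M (cP g H) Lt.bi u := by
  unfold dp_bi_100 at h
  rcases brec_true h with h | h
  · exact lF_good (T := T) (x := Lt.bi) (by decide) [Lt.f, Lt.e, Lt.f, Lt.ci, Lt.b, Lt.e, Lt.di, Lt.fi] (hole_rel hinv hr (by decide +kernel)) h
  · exact dp_bi_99_s hinv hr hH j u hu h
theorem dp_bi_101_s (hinv : ∀ x, g (inv x) = (g x)⁻¹) (hr : ∀ r ∈ rels, (r.map g).prod = 1) (hH : ∀ r ∈ subs, (r.map g).prod ∈ H)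
    (j u : ℕ) (hu : u < M) (h : dp_bi_101 j u = true) : Good (fa g) T MG M (cP g H) Lt.bi u := by
  unfold dp_bi_101 at h
  rcases brec_true h with h | h
  · exact lS_good (T := T) (x := Lt.bi) (by decide) hu [Lt.f, Lt.c, Lt.di, Lt.f, Lt.c, Lt.bi, Lt.ci, Lt.ci] (hole_rel hinv hr (by decide +kernel)) h
  · exact lS_good (T := T) (x := Lt.bi) (by decide) hu [Lt.c, Lt.d, Lt.d, Lt.f, Lt.bi, Lt.d, Lt.fi, Lt.c] (hole_rel hinv hr (by decide +kernel)) h
theorem dp_bi_102_s (hinv : ∀ x, g (inv x) = (g x)⁻¹) (hr : ∀ r ∈ rels, (r.map g).prod = 1) (hH : ∀ r ∈ subs, (r.map g).prod ∈ H)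
    (j u : ℕ) (hu : u < M) (h : dp_bi_102 j u = true) : Good (fa g) T MG M (cP g H) Lt.bi u := by
  unfold dp_bi_102 at h
  rcases brec_true h with h | h
  · exact lS_good (T := T) (x := Lt.bi) (by decide) hu [Lt.d, Lt.fi, Lt.c, Lt.bi, Lt.c, Lt.d, Lt.d, Lt.f] (hole_rel hinv hr (by decide +kernel)) h
  · exact dp_bi_101_s hinv hr hH j u hu h
theorem dp_bi_103_s (hinv : ∀ x, g (inv x) = (g x)⁻¹) (hr : ∀ r ∈ rels, (r.map g).prod = 1) (hH : ∀ r ∈ subs, (r.map g).prod ∈ H)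
    (j u : ℕ) (hu : u < M) (h : dp_bi_103 j u = true) : Good (fa g) T MG M (cP g H) Lt.bi u := by
  unfold dp_bi_103 at h
  rcases brec_true h with h | h
  · exact lS_good (T := T) (x := Lt.bi) (by decide) hu [Lt.fi, Lt.c, Lt.bi, Lt.f, Lt.d, Lt.d, Lt.b, Lt.f] (hole_rel hinv hr (by decide +kernel)) h
  · exact lF_good (T := T) (x := Lt.bi) (by decide) [Lt.bi, Lt.f, Lt.c, Lt.b, Lt.c, Lt.fi, Lt.fi, Lt.d] (hole_rel hinv hr (by decide +kernel)) h
theorem dp_bi_104_s (hinv : ∀ x, g (inv x) = (g x)⁻¹) (hr : ∀ r ∈ rels, (r.map g).prod = 1) (hH : ∀ r ∈ subs, (r.map g).prod ∈ H)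
    (j u : ℕ) (hu : u < M) (h : dp_bi_104 j u = true) : Good (fa g) T MG M (cP g H) Lt.bi u := by
  unfold dp_bi_104 at h
  rcases brec_true h with h | h
  · exact lF_good (T := T) (x := Lt.bi) (by decide) [Lt.bi, Lt.c, Lt.b, Lt.ci, Lt.di, Lt.bi, Lt.fi, Lt.d] (hole_rel hinv hr (by decide +kernel)) h
  · exact dp_bi_103_s hinv hr hH j u hu h
theorem dp_bi_105_s (hinv : ∀ x, g (inv x) = (g x)⁻¹) (hr : ∀ r ∈ rels, (r.map g).prod = 1) (hH : ∀ r ∈ subs, (r.map g).prod ∈ H)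
    (j u : ℕ) (hu : u < M) (h : dp_bi_105 j u = true) : Good (fa g) T MG M (cP g H) Lt.bi u := by
  unfold dp_bi_105 at h
  rcases brec_true h with h | h
  · exact lS_good (T := T) (x := Lt.bi) (by decide) hu [Lt.fi, Lt.d, Lt.bi, Lt.bi, Lt.c, Lt.b, Lt.ci, Lt.di] (hole_rel hinv hr (by decide +kernel)) h
  · exact lF_good (T := T) (x := Lt.bi) (by decide) [Lt.d, Lt.fi, Lt.bi, Lt.d, Lt.f, Lt.c, Lt.d, Lt.c] (hole_rel hinv hr (by decide +kernel)) h
theorem dp_bi_106_s (hinv : ∀ x, g (inv x) = (g x)⁻¹) (hr : ∀ r ∈ rels, (r.map g).prod = 1) (hH : ∀ r ∈ subs, (r.map g).prod ∈ H)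
    (j u : ℕ) (hu : u < M) (h : dp_bi_106 j u = true) : Good (fa g) T MG M (cP g H) Lt.bi u := by
  unfold dp_bi_106 at h
  rcases brec_true h with h | h
  · exact lF_good (T := T) (x := Lt.bi) (by decide) [Lt.fi, Lt.d, Lt.bi, Lt.bi, Lt.c, Lt.b, Lt.ci, Lt.di] (hole_rel hinv hr (by decide +kernel)) h
  · exact dp_bi_105_s hinv hr hH j u hu h
theorem dp_bi_107_s (hinv : ∀ x, g (inv x) = (g x)⁻¹) (hr : ∀ r ∈ rels, (r.map g).prod = 1) (hH : ∀ r ∈ subs, (r.map g).prod ∈ H)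
    (j u : ℕ) (hu : u < M) (h : dp_bi_107 j u = true) : Good (fa g) T MG M (cP g H) Lt.bi u := by
  unfold dp_bi_107 at h
  rcases brec_true h with h | h
  · exact dp_bi_104_s hinv hr hH j u hu h
  · exact dp_bi_106_s hinv hr hH j u hu h
theorem dp_bi_108_s (hinv : ∀ x, g (inv x) = (g x)⁻¹) (hr : ∀ r ∈ rels, (r.map g).prod = 1) (hH : ∀ r ∈ subs, (r.map g).prod ∈ H)
    (j u : ℕ) (hu : u < M) (h : dp_bi_108 j u = true) : Good (fa g) T MG M (cP g H) Lt.bi u := by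
  unfold dp_bi_108 at h
  rcases brec_true h with h | h
  · exact dp_bi_102_s hinv hr hH j u hu h
  · exact dp_bi_107_s hinv hr hH j u hu h
theorem dp_bi_109_s (hinv : ∀ x, g (inv x) = (g x)⁻¹) (hr : ∀ r ∈ rels, (r.map g).prod = 1) (hH : ∀ r ∈ subs, (r.map g).prod ∈ H)
    (j u : ℕ) (hu : u < M) (h : dp_bi_109 j u = true) : Good (fa g) T MG M (cP g H) Lt.bi u := by
  unfold dp_bi_109 at h
  rcases brec_true h with h | h
  · exact dp_bi_100_s hinv hr hH j u hu h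
  · exact dp_bi_108_s hinv hr hH j u hu h
theorem dp_bi_110_s (hinv : ∀ x, g (inv x) = (g x)⁻¹) (hr : ∀ r ∈ rels, (r.map g).prod = 1) (hH : ∀ r ∈ subs, (r.map g).prod ∈ H)
    (j u : ℕ) (hu : u < M) (h : dp_bi_110 j u = true) : Good (fa g) T MG M (cP g H) Lt.bi u := by
  unfold dp_bi_110 at h
  rcases brec_true h with h | h
  · exact dp_bi_98_s hinv hr hH j u hu h
  · exact dp_bi_109_s hinv hr hH j u hu h
theorem dp_bi_111_s (hinv : ∀ x, g (inv x) = (g x)⁻¹) (hr : ∀ r ∈ rels, (r.map g).prod = 1) (hH : ∀ r ∈ subs, (r.map g).prod ∈ H)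
    (j u : ℕ) (hu : u < M) (h : dp_bi_111 j u = true) : Good (fa g) T MG M (cP g H) Lt.bi u := by
  unfold dp_bi_111 at h
  rcases brec_true h with h | h
  · exact dp_bi_96_s hinv hr hH j u hu h
  · exact dp_bi_110_s hinv hr hH j u hu h
theorem dp_bi_112_s (hinv : ∀ x, g (inv x) = (g x)⁻¹) (hr : ∀ r ∈ rels, (r.map g).prod = 1) (hH : ∀ r ∈ subs, (r.map g).prod ∈ H)
    (j u : ℕ) (hu : u < M) (h : dp_bi_112 j u = true) : Good (fa g) T MG M (cP g H) Lt.bi u := by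
  unfold dp_bi_112 at h
  rcases brec_true h with h | h
  · exact dp_bi_93_s hinv hr hH j u hu h
  · exact dp_bi_111_s hinv hr hH j u hu h
theorem dp_bi_113_s (hinv : ∀ x, g (inv x) = (g x)⁻¹) (hr : ∀ r ∈ rels, (r.map g).prod = 1) (hH : ∀ r ∈ subs, (r.map g).prod ∈ H)
    (j u : ℕ) (hu : u < M) (h : dp_bi_113 j u = true) : Good (fa g) T MG M (cP g H) Lt.bi u := by
  unfold dp_bi_113 at h
  rcases brec_true h with h | h
  · exact dp_bi_86_s hinv hr hH j u hu h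
  · exact dp_bi_112_s hinv hr hH j u hu h
theorem dp_bi_114_s (hinv : ∀ x, g (inv x) = (g x)⁻¹) (hr : ∀ r ∈ rels, (r.map g).prod = 1) (hH : ∀ r ∈ subs, (r.map g).prod ∈ H)
    (j u : ℕ) (hu : u < M) (h : dp_bi_114 j u = true) : Good (fa g) T MG M (cP g H) Lt.bi u := by
  unfold dp_bi_114 at h
  rcases brec_true h with h | h
  · exact dp_bi_75_s hinv hr hH j u hu h
  · exact dp_bi_113_s hinv hr hH j u hu h
theorem dp_bi_115_s (hinv : ∀ x, g (inv x) = (g x)⁻¹) (hr : ∀ r ∈ rels, (r.map g).prod = 1) (hH : ∀ r ∈ subs, (r.map g).prod ∈ H)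
    (j u : ℕ) (hu : u < M) (h : dp_bi_115 j u = true) : Good (fa g) T MG M (cP g H) Lt.bi u := by
  unfold dp_bi_115 at h
  rcases brec_true h with h | h
  · exact dp_bi_58_s hinv hr hH j u hu h
  · exact dp_bi_114_s hinv hr hH j u hu h
theorem dp_bi_116_s (hinv : ∀ x, g (inv x) = (g x)⁻¹) (hr : ∀ r ∈ rels, (r.map g).prod = 1) (hH : ∀ r ∈ subs, (r.map g).prod ∈ H)
    (j u : ℕ) (hu : u < M) (h : dp_bi_116 j u = true) : Good (fa g) T MG M (cP g H) Lt.bi u := by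
  unfold dp_bi_116 at h
  rcases brec_true h with h | h
  · exact dp_bi_31_s hinv hr hH j u hu h
  · exact dp_bi_115_s hinv hr hH j u hu h
theorem snd_bi (hinv : ∀ x, g (inv x) = (g x)⁻¹) (hr : ∀ r ∈ rels, (r.map g).prod = 1) (hH : ∀ r ∈ subs, (r.map g).prod ∈ H)
    (j u : ℕ) (hu : u < M) (h : disp_bi j u = true) : Good (fa g) T MG M (cP g H) Lt.bi u := by
  unfold disp_bi at h
  rcases brec_true h with h | h
  · rcases brec_true h with h | h
    · exact lF1_good (T := T) (x := Lt.bi) (by decide) .b (hole_rel hinv hr (by decide +kernel)) h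
    · exact lDef_good (T := T) (x := Lt.bi) (by decide) rfl h
  · rcases brec_true h with h | h
    · rcases brec_true h with h | h
      · exact lPar_good (T := T) (x := Lt.bi) (x' := Lt.b) (by decide) rfl (inv_rel hinv _ _ rfl) h
      · exact lS_good (T := T) (x := Lt.bi) (by decide) hu [Lt.b] (hole_rel hinv hr (by decide +kernel)) h
    · exact dp_bi_116_s hinv hr hH j u hu h
theorem snc_bi (hinv : ∀ x, g (inv x) = (g x)⁻¹) (hr : ∀ r ∈ rels, (r.map g).prod = 1) (hH : ∀ r ∈ subs, (r.map g).prod ∈ H)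
    (j u : ℕ) (hu : u < M) (h : chk_bi j u = true) : (T Lt.bi u < A ∧ Good (fa g) T MG M (cP g H) Lt.bi u) ∨ (A ≤ T Lt.bi u ∧ MG u < A) := by
  unfold chk_bi at h
  cases hb : Nat.ble A (T_bi u) with
  | true => rw [hb] at h; exact Or.inr ⟨le_of_ble hb, le_of_ble h⟩
  | false => rw [hb] at h; exact Or.inl ⟨lt_of_ble_false hb, snd_bi hinv hr hH j u hu h⟩
theorem dp_d_0_s (hinv : ∀ x, g (inv x) = (g x)⁻¹) (hr : ∀ r ∈ rels, (r.map g).prod = 1) (hH : ∀ r ∈ subs, (r.map g).prod ∈ H)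
    (j u : ℕ) (hu : u < M) (h : dp_d_0 j u = true) : Good (fa g) T MG M (cP g H) Lt.d u := by
  unfold dp_d_0 at h
  rcases brec_true h with h | h
  · exact lF_good (T := T) (x := Lt.d) (by decide) [Lt.ci, Lt.fi, Lt.e, Lt.f, Lt.ei, Lt.fi, Lt.e, Lt.fi] (hole_rel hinv hr (by decide +kernel)) h
  · exact lF_good (T := T) (x := Lt.d) (by decide) [Lt.ci, Lt.bi, Lt.d, Lt.fi, Lt.di, Lt.b, Lt.c] (hole_rel hinv hr (by decide +kernel)) h
theorem dp_d_1_s (hinv : ∀ x, g (inv x) = (g x)⁻¹) (hr : ∀ r ∈ rels, (r.map g).prod = 1) (hH : ∀ r ∈ subs, (r.map g).prod ∈ H)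
    (j u : ℕ) (hu : u < M) (h : dp_d_1 j u = true) : Good (fa g) T MG M (cP g H) Lt.d u := by
  unfold dp_d_1 at h
  rcases brec_true h with h | h
  · exact lF_good (T := T) (x := Lt.d) (by decide) [Lt.ci, Lt.ei, Lt.fi, Lt.e, Lt.f, Lt.ei, Lt.fi, Lt.fi] (hole_rel hinv hr (by decide +kernel)) h
  · exact dp_d_0_s hinv hr hH j u hu h
theorem dp_d_2_s (hinv : ∀ x, g (inv x) = (g x)⁻¹) (hr : ∀ r ∈ rels, (r.map g).prod = 1) (hH : ∀ r ∈ subs, (r.map g).prod ∈ H)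
    (j u : ℕ) (hu : u < M) (h : dp_d_2 j u = true) : Good (fa g) T MG M (cP g H) Lt.d u := by
  unfold dp_d_2 at h
  rcases brec_true h with h | h
  · exact lS_good (T := T) (x := Lt.d) (by decide) hu [Lt.fi, Lt.di, Lt.b, Lt.c, Lt.d, Lt.ci, Lt.bi] (hole_rel hinv hr (by decide +kernel)) h
  · exact lS_good (T := T) (x := Lt.d) (by decide) hu [Lt.bi, Lt.d, Lt.d, Lt.bi, Lt.d, Lt.d, Lt.b] (hole_rel hinv hr (by decide +kernel)) h
theorem dp_d_3_s (hinv : ∀ x, g (inv x) = (g x)⁻¹) (hr : ∀ r ∈ rels, (r.map g).prod = 1) (hH : ∀ r ∈ subs, (r.map g).prod ∈ H)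
    (j u : ℕ) (hu : u < M) (h : dp_d_3 j u = true) : Good (fa g) T MG M (cP g H) Lt.d u := by
  unfold dp_d_3 at h
  rcases brec_true h with h | h
  · exact lF_good (T := T) (x := Lt.d) (by decide) [Lt.b, Lt.c, Lt.bi, Lt.ci, Lt.bi, Lt.fi, Lt.d] (hole_rel hinv hr (by decide +kernel)) h
  · exact lS_good (T := T) (x := Lt.d) (by decide) hu [Lt.b, Lt.c, Lt.bi, Lt.ci, Lt.bi, Lt.fi, Lt.d] (hole_rel hinv hr (by decide +kernel)) h
theorem dp_d_4_s (hinv : ∀ x, g (inv x) = (g x)⁻¹) (hr : ∀ r ∈ rels, (r.map g).prod = 1) (hH : ∀ r ∈ subs, (r.map g).prod ∈ H)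
    (j u : ℕ) (hu : u < M) (h : dp_d_4 j u = true) : Good (fa g) T MG M (cP g H) Lt.d u := by
  unfold dp_d_4 at h
  rcases brec_true h with h | h
  · exact dp_d_2_s hinv hr hH j u hu h
  · exact dp_d_3_s hinv hr hH j u hu h
theorem dp_d_5_s (hinv : ∀ x, g (inv x) = (g x)⁻¹) (hr : ∀ r ∈ rels, (r.map g).prod = 1) (hH : ∀ r ∈ subs, (r.map g).prod ∈ H)
    (j u : ℕ) (hu : u < M) (h : dp_d_5 j u = true) : Good (fa g) T MG M (cP g H) Lt.d u := by
  unfold dp_d_5 at h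
  rcases brec_true h with h | h
  · exact dp_d_1_s hinv hr hH j u hu h
  · exact dp_d_4_s hinv hr hH j u hu h
theorem dp_d_6_s (hinv : ∀ x, g (inv x) = (g x)⁻¹) (hr : ∀ r ∈ rels, (r.map g).prod = 1) (hH : ∀ r ∈ subs, (r.map g).prod ∈ H)
    (j u : ℕ) (hu : u < M) (h : dp_d_6 j u = true) : Good (fa g) T MG M (cP g H) Lt.d u := by
  unfold dp_d_6 at h
  rcases brec_true h with h | h
  · exact lS_good (T := T) (x := Lt.d) (by decide) hu [Lt.bi, Lt.c, Lt.d, Lt.f, Lt.ci, Lt.b, Lt.fi] (hole_rel hinv hr (by decide +kernel)) h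
  · exact lS_good (T := T) (x := Lt.d) (by decide) hu [Lt.b, Lt.c, Lt.d, Lt.b, Lt.ci, Lt.bi, Lt.f] (hole_rel hinv hr (by decide +kernel)) h
theorem dp_d_7_s (hinv : ∀ x, g (inv x) = (g x)⁻¹) (hr : ∀ r ∈ rels, (r.map g).prod = 1) (hH : ∀ r ∈ subs, (r.map g).prod ∈ H)
    (j u : ℕ) (hu : u < M) (h : dp_d_7 j u = true) : Good (fa g) T MG M (cP g H) Lt.d u := by
  unfold dp_d_7 at h
  rcases brec_true h with h | h
  · exact lS_good (T := T) (x := Lt.d) (by decide) hu [Lt.c, Lt.c, Lt.bi, Lt.ci, Lt.b, Lt.ci, Lt.ci] (hole_rel hinv hr (by decide +kernel)) h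
  · exact lF_good (T := T) (x := Lt.d) (by decide) [Lt.f, Lt.di, Lt.b, Lt.c, Lt.di, Lt.ci, Lt.bi] (hole_rel hinv hr (by decide +kernel)) h
theorem dp_d_8_s (hinv : ∀ x, g (inv x) = (g x)⁻¹) (hr : ∀ r ∈ rels, (r.map g).prod = 1) (hH : ∀ r ∈ subs, (r.map g).prod ∈ H)
    (j u : ℕ) (hu : u < M) (h : dp_d_8 j u = true) : Good (fa g) T MG M (cP g H) Lt.d u := by
  unfold dp_d_8 at h
  rcases brec_true h with h | h
  · exact dp_d_6_s hinv hr hH j u hu h
  · exact dp_d_7_s hinv hr hH j u hu h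
theorem dp_d_9_s (hinv : ∀ x, g (inv x) = (g x)⁻¹) (hr : ∀ r ∈ rels, (r.map g).prod = 1) (hH : ∀ r ∈ subs, (r.map g).prod ∈ H)
    (j u : ℕ) (hu : u < M) (h : dp_d_9 j u = true) : Good (fa g) T MG M (cP g H) Lt.d u := by
  unfold dp_d_9 at h
  rcases brec_true h with h | h
  · exact lF_good (T := T) (x := Lt.d) (by decide) [Lt.fi, Lt.d, Lt.bi, Lt.c, Lt.b, Lt.c, Lt.c] (hole_rel hinv hr (by decide +kernel)) h
  · exact lS_good (T := T) (x := Lt.d) (by decide) hu [Lt.ci, Lt.bi, Lt.d, Lt.ci, Lt.b, Lt.di, Lt.ci] (hole_rel hinv hr (by decide +kernel)) h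
theorem dp_d_10_s (hinv : ∀ x, g (inv x) = (g x)⁻¹) (hr : ∀ r ∈ rels, (r.map g).prod = 1) (hH : ∀ r ∈ subs, (r.map g).prod ∈ H)
    (j u : ℕ) (hu : u < M) (h : dp_d_10 j u = true) : Good (fa g) T MG M (cP g H) Lt.d u := by
  unfold dp_d_10 at h
  rcases brec_true h with h | h
  · exact lF_good (T := T) (x := Lt.d) (by decide) [Lt.bi, Lt.f, Lt.c, Lt.bi, Lt.fi, Lt.c, Lt.d] (hole_rel hinv hr (by decide +kernel)) h
  · exact lS_good (T := T) (x := Lt.d) (by decide) hu [Lt.bi, Lt.f, Lt.c, Lt.bi, Lt.fi, Lt.c, Lt.d] (hole_rel hinv hr (by decide +kernel)) h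
theorem dp_d_11_s (hinv : ∀ x, g (inv x) = (g x)⁻¹) (hr : ∀ r ∈ rels, (r.map g).prod = 1) (hH : ∀ r ∈ subs, (r.map g).prod ∈ H)
    (j u : ℕ) (hu : u < M) (h : dp_d_11 j u = true) : Good (fa g) T MG M (cP g H) Lt.d u := by
  unfold dp_d_11 at h
  rcases brec_true h with h | h
  · exact dp_d_9_s hinv hr hH j u hu h
  · exact dp_d_10_s hinv hr hH j u hu h
theorem dp_d_12_s (hinv : ∀ x, g (inv x) = (g x)⁻¹) (hr : ∀ r ∈ rels, (r.map g).prod = 1) (hH : ∀ r ∈ subs, (r.map g).prod ∈ H)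
    (j u : ℕ) (hu : u < M) (h : dp_d_12 j u = true) : Good (fa g) T MG M (cP g H) Lt.d u := by
  unfold dp_d_12 at h
  rcases brec_true h with h | h
  · exact dp_d_8_s hinv hr hH j u hu h
  · exact dp_d_11_s hinv hr hH j u hu h
theorem dp_d_13_s (hinv : ∀ x, g (inv x) = (g x)⁻¹) (hr : ∀ r ∈ rels, (r.map g).prod = 1) (hH : ∀ r ∈ subs, (r.map g).prod ∈ H)
    (j u : ℕ) (hu : u < M) (h : dp_d_13 j u = true) : Good (fa g) T MG M (cP g H) Lt.d u := by
  unfold dp_d_13 at h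
  rcases brec_true h with h | h
  · exact dp_d_5_s hinv hr hH j u hu h
  · exact dp_d_12_s hinv hr hH j u hu h
theorem dp_d_14_s (hinv : ∀ x, g (inv x) = (g x)⁻¹) (hr : ∀ r ∈ rels, (r.map g).prod = 1) (hH : ∀ r ∈ subs, (r.map g).prod ∈ H)
    (j u : ℕ) (hu : u < M) (h : dp_d_14 j u = true) : Good (fa g) T MG M (cP g H) Lt.d u := by
  unfold dp_d_14 at h
  rcases brec_true h with h | h
  · exact lS_good (T := T) (x := Lt.d) (by decide) hu [Lt.f, Lt.di, Lt.b, Lt.c, Lt.di, Lt.ci, Lt.bi] (hole_rel hinv hr (by decide +kernel)) h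
  · exact lF_good (T := T) (x := Lt.d) (by decide) [Lt.c, Lt.bi, Lt.ci, Lt.d, Lt.c, Lt.bi, Lt.ci] (hole_rel hinv hr (by decide +kernel)) h
theorem dp_d_15_s (hinv : ∀ x, g (inv x) = (g x)⁻¹) (hr : ∀ r ∈ rels, (r.map g).prod = 1) (hH : ∀ r ∈ subs, (r.map g).prod ∈ H)
    (j u : ℕ) (hu : u < M) (h : dp_d_15 j u = true) : Good (fa g) T MG M (cP g H) Lt.d u := by
  unfold dp_d_15 at h
  rcases brec_true h with h | h
  · exact lS_good (T := T) (x := Lt.d) (by decide) hu [Lt.fi, Lt.d, Lt.bi, Lt.c, Lt.b, Lt.c, Lt.c] (hole_rel hinv hr (by decide +kernel)) h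
  · exact lS_good (T := T) (x := Lt.d) (by decide) hu [Lt.ci, Lt.fi, Lt.fi, Lt.di, Lt.bi, Lt.c, Lt.b] (hole_rel hinv hr (by decide +kernel)) h
theorem dp_d_16_s (hinv : ∀ x, g (inv x) = (g x)⁻¹) (hr : ∀ r ∈ rels, (r.map g).prod = 1) (hH : ∀ r ∈ subs, (r.map g).prod ∈ H)
    (j u : ℕ) (hu : u < M) (h : dp_d_16 j u = true) : Good (fa g) T MG M (cP g H) Lt.d u := by
  unfold dp_d_16 at h
  rcases brec_true h with h | h
  · exact lF_good (T := T) (x := Lt.d) (by decide) [Lt.ci, Lt.fi, Lt.fi, Lt.di, Lt.bi, Lt.c, Lt.b] (hole_rel hinv hr (by decide +kernel)) h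
  · exact dp_d_15_s hinv hr hH j u hu h
theorem dp_d_17_s (hinv : ∀ x, g (inv x) = (g x)⁻¹) (hr : ∀ r ∈ rels, (r.map g).prod = 1) (hH : ∀ r ∈ subs, (r.map g).prod ∈ H)
    (j u : ℕ) (hu : u < M) (h : dp_d_17 j u = true) : Good (fa g) T MG M (cP g H) Lt.d u := by
  unfold dp_d_17 at h
  rcases brec_true h with h | h
  · exact dp_d_14_s hinv hr hH j u hu h
  · exact dp_d_16_s hinv hr hH j u hu h
theorem dp_d_18_s (hinv : ∀ x, g (inv x) = (g x)⁻¹) (hr : ∀ r ∈ rels, (r.map g).prod = 1) (hH : ∀ r ∈ subs, (r.map g).prod ∈ H)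
    (j u : ℕ) (hu : u < M) (h : dp_d_18 j u = true) : Good (fa g) T MG M (cP g H) Lt.d u := by
  unfold dp_d_18 at h
  rcases brec_true h with h | h
  · exact lS_good (T := T) (x := Lt.d) (by decide) hu [Lt.ci, Lt.fi, Lt.e, Lt.f, Lt.ei, Lt.fi, Lt.e, Lt.fi] (hole_rel hinv hr (by decide +kernel)) h
  · exact lS_good (T := T) (x := Lt.d) (by decide) hu [Lt.c, Lt.bi, Lt.ci, Lt.d, Lt.c, Lt.bi, Lt.ci] (hole_rel hinv hr (by decide +kernel)) h
theorem dp_d_19_s (hinv : ∀ x, g (inv x) = (g x)⁻¹) (hr : ∀ r ∈ rels, (r.map g).prod = 1) (hH : ∀ r ∈ subs, (r.map g).prod ∈ H)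
    (j u : ℕ) (hu : u < M) (h : dp_d_19 j u = true) : Good (fa g) T MG M (cP g H) Lt.d u := by
  unfold dp_d_19 at h
  rcases brec_true h with h | h
  · exact lS_good (T := T) (x := Lt.d) (by decide) hu [Lt.f, Lt.b, Lt.c, Lt.bi, Lt.ci, Lt.bi, Lt.f] (hole_rel hinv hr (by decide +kernel)) h
  · exact lF_good (T := T) (x := Lt.d) (by decide) [Lt.f, Lt.ci, Lt.b, Lt.fi, Lt.d, Lt.bi, Lt.c] (hole_rel hinv hr (by decide +kernel)) h
theorem dp_d_20_s (hinv : ∀ x, g (inv x) = (g x)⁻¹) (hr : ∀ r ∈ rels, (r.map g).prod = 1) (hH : ∀ r ∈ subs, (r.map g).prod ∈ H)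
    (j u : ℕ) (hu : u < M) (h : dp_d_20 j u = true) : Good (fa g) T MG M (cP g H) Lt.d u := by
  unfold dp_d_20 at h
  rcases brec_true h with h | h
  · exact lS_good (T := T) (x := Lt.d) (by decide) hu [Lt.d, Lt.b, Lt.c, Lt.bi, Lt.ci, Lt.bi, Lt.fi] (hole_rel hinv hr (by decide +kernel)) h
  · exact dp_d_19_s hinv hr hH j u hu h
theorem dp_d_21_s (hinv : ∀ x, g (inv x) = (g x)⁻¹) (hr : ∀ r ∈ rels, (r.map g).prod = 1) (hH : ∀ r ∈ subs, (r.map g).prod ∈ H)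
    (j u : ℕ) (hu : u < M) (h : dp_d_21 j u = true) : Good (fa g) T MG M (cP g H) Lt.d u := by
  unfold dp_d_21 at h
  rcases brec_true h with h | h
  · exact dp_d_18_s hinv hr hH j u hu h
  · exact dp_d_20_s hinv hr hH j u hu h
theorem dp_d_22_s (hinv : ∀ x, g (inv x) = (g x)⁻¹) (hr : ∀ r ∈ rels, (r.map g).prod = 1) (hH : ∀ r ∈ subs, (r.map g).prod ∈ H)
    (j u : ℕ) (hu : u < M) (h : dp_d_22 j u = true) : Good (fa g) T MG M (cP g H) Lt.d u := by
  unfold dp_d_22 at h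
  rcases brec_true h with h | h
  · exact dp_d_17_s hinv hr hH j u hu h
  · exact dp_d_21_s hinv hr hH j u hu h
theorem dp_d_23_s (hinv : ∀ x, g (inv x) = (g x)⁻¹) (hr : ∀ r ∈ rels, (r.map g).prod = 1) (hH : ∀ r ∈ subs, (r.map g).prod ∈ H)
    (j u : ℕ) (hu : u < M) (h : dp_d_23 j u = true) : Good (fa g) T MG M (cP g H) Lt.d u := by
  unfold dp_d_23 at h
  rcases brec_true h with h | h
  · exact lS_good (T := T) (x := Lt.d) (by decide) hu [Lt.b, Lt.f, Lt.ci, Lt.f, Lt.di, Lt.b, Lt.ci] (hole_rel hinv hr (by decide +kernel)) h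
  · exact lS_good (T := T) (x := Lt.d) (by decide) hu [Lt.ci, Lt.ei, Lt.fi, Lt.e, Lt.f, Lt.ei, Lt.fi, Lt.fi] (hole_rel hinv hr (by decide +kernel)) h
theorem dp_d_24_s (hinv : ∀ x, g (inv x) = (g x)⁻¹) (hr : ∀ r ∈ rels, (r.map g).prod = 1) (hH : ∀ r ∈ subs, (r.map g).prod ∈ H)
    (j u : ℕ) (hu : u < M) (h : dp_d_24 j u = true) : Good (fa g) T MG M (cP g H) Lt.d u := by
  unfold dp_d_24 at h
  rcases brec_true h with h | h
  · exact lF_good (T := T) (x := Lt.d) (by decide) [Lt.f, Lt.b, Lt.c, Lt.bi, Lt.ci, Lt.bi, Lt.f] (hole_rel hinv hr (by decide +kernel)) h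
  · exact lS_good (T := T) (x := Lt.d) (by decide) hu [Lt.ci, Lt.bi, Lt.d, Lt.fi, Lt.di, Lt.b, Lt.c] (hole_rel hinv hr (by decide +kernel)) h
theorem dp_d_25_s (hinv : ∀ x, g (inv x) = (g x)⁻¹) (hr : ∀ r ∈ rels, (r.map g).prod = 1) (hH : ∀ r ∈ subs, (r.map g).prod ∈ H)
    (j u : ℕ) (hu : u < M) (h : dp_d_25 j u = true) : Good (fa g) T MG M (cP g H) Lt.d u := by
  unfold dp_d_25 at h
  rcases brec_true h with h | h
  · exact lS_good (T := T) (x := Lt.d) (by decide) hu [Lt.bi, Lt.c, Lt.di, Lt.b, Lt.c, Lt.di, Lt.c] (hole_rel hinv hr (by decide +kernel)) h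
  · exact dp_d_24_s hinv hr hH j u hu h
theorem dp_d_26_s (hinv : ∀ x, g (inv x) = (g x)⁻¹) (hr : ∀ r ∈ rels, (r.map g).prod = 1) (hH : ∀ r ∈ subs, (r.map g).prod ∈ H)
    (j u : ℕ) (hu : u < M) (h : dp_d_26 j u = true) : Good (fa g) T MG M (cP g H) Lt.d u := by
  unfold dp_d_26 at h
  rcases brec_true h with h | h
  · exact dp_d_23_s hinv hr hH j u hu h
  · exact dp_d_25_s hinv hr hH j u hu h
theorem dp_d_27_s (hinv : ∀ x, g (inv x) = (g x)⁻¹) (hr : ∀ r ∈ rels, (r.map g).prod = 1) (hH : ∀ r ∈ subs, (r.map g).prod ∈ H)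
    (j u : ℕ) (hu : u < M) (h : dp_d_27 j u = true) : Good (fa g) T MG M (cP g H) Lt.d u := by
  unfold dp_d_27 at h
  rcases brec_true h with h | h
  · exact lF_good (T := T) (x := Lt.d) (by decide) [Lt.ci, Lt.bi, Lt.d, Lt.ci, Lt.b, Lt.di, Lt.ci] (hole_rel hinv hr (by decide +kernel)) h
  · exact lF_good (T := T) (x := Lt.d) (by decide) [Lt.b, Lt.fi, Lt.d, Lt.c, Lt.b, Lt.f, Lt.d] (hole_rel hinv hr (by decide +kernel)) h
theorem dp_d_28_s (hinv : ∀ x, g (inv x) = (g x)⁻¹) (hr : ∀ r ∈ rels, (r.map g).prod = 1) (hH : ∀ r ∈ subs, (r.map g).prod ∈ H)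
    (j u : ℕ) (hu : u < M) (h : dp_d_28 j u = true) : Good (fa g) T MG M (cP g H) Lt.d u := by
  unfold dp_d_28 at h
  rcases brec_true h with h | h
  · exact lF_good (T := T) (x := Lt.d) (by decide) [Lt.bi, Lt.fi, Lt.di, Lt.ci, Lt.bi, Lt.ci, Lt.fi] (hole_rel hinv hr (by decide +kernel)) h
  · exact dp_d_27_s hinv hr hH j u hu h
theorem dp_d_29_s (hinv : ∀ x, g (inv x) = (g x)⁻¹) (hr : ∀ r ∈ rels, (r.map g).prod = 1) (hH : ∀ r ∈ subs, (r.map g).prod ∈ H)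
    (j u : ℕ) (hu : u < M) (h : dp_d_29 j u = true) : Good (fa g) T MG M (cP g H) Lt.d u := by
  unfold dp_d_29 at h
  rcases brec_true h with h | h
  · exact lF_good (T := T) (x := Lt.d) (by decide) [Lt.bi, Lt.c, Lt.di, Lt.b, Lt.c, Lt.di, Lt.c] (hole_rel hinv hr (by decide +kernel)) h
  · exact lF_good (T := T) (x := Lt.d) (by decide) [Lt.f, Lt.f, Lt.c, Lt.di, Lt.bi, Lt.ci, Lt.b] (hole_rel hinv hr (by decide +kernel)) h
theorem dp_d_30_s (hinv : ∀ x, g (inv x) = (g x)⁻¹) (hr : ∀ r ∈ rels, (r.map g).prod = 1) (hH : ∀ r ∈ subs, (r.map g).prod ∈ H)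
    (j u : ℕ) (hu : u < M) (h : dp_d_30 j u = true) : Good (fa g) T MG M (cP g H) Lt.d u := by
  unfold dp_d_30 at h
  rcases brec_true h with h | h
  · exact lS_good (T := T) (x := Lt.d) (by decide) hu [Lt.c, Lt.b, Lt.f, Lt.d, Lt.d, Lt.b, Lt.fi] (hole_rel hinv hr (by decide +kernel)) h
  · exact dp_d_29_s hinv hr hH j u hu h
theorem dp_d_31_s (hinv : ∀ x, g (inv x) = (g x)⁻¹) (hr : ∀ r ∈ rels, (r.map g).prod = 1) (hH : ∀ r ∈ subs, (r.map g).prod ∈ H)
    (j u : ℕ) (hu : u < M) (h : dp_d_31 j u = true) : Good (fa g) T MG M (cP g H) Lt.d u := by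
  unfold dp_d_31 at h
  rcases brec_true h with h | h
  · exact dp_d_28_s hinv hr hH j u hu h
  · exact dp_d_30_s hinv hr hH j u hu h
theorem dp_d_32_s (hinv : ∀ x, g (inv x) = (g x)⁻¹) (hr : ∀ r ∈ rels, (r.map g).prod = 1) (hH : ∀ r ∈ subs, (r.map g).prod ∈ H)
    (j u : ℕ) (hu : u < M) (h : dp_d_32 j u = true) : Good (fa g) T MG M (cP g H) Lt.d u := by
  unfold dp_d_32 at h
  rcases brec_true h with h | h
  · exact dp_d_26_s hinv hr hH j u hu h
  · exact dp_d_31_s hinv hr hH j u hu h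
theorem dp_d_33_s (hinv : ∀ x, g (inv x) = (g x)⁻¹) (hr : ∀ r ∈ rels, (r.map g).prod = 1) (hH : ∀ r ∈ subs, (r.map g).prod ∈ H)
    (j u : ℕ) (hu : u < M) (h : dp_d_33 j u = true) : Good (fa g) T MG M (cP g H) Lt.d u := by
  unfold dp_d_33 at h
  rcases brec_true h with h | h
  · exact dp_d_22_s hinv hr hH j u hu h
  · exact dp_d_32_s hinv hr hH j u hu h
theorem dp_d_34_s (hinv : ∀ x, g (inv x) = (g x)⁻¹) (hr : ∀ r ∈ rels, (r.map g).prod = 1) (hH : ∀ r ∈ subs, (r.map g).prod ∈ H)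
    (j u : ℕ) (hu : u < M) (h : dp_d_34 j u = true) : Good (fa g) T MG M (cP g H) Lt.d u := by
  unfold dp_d_34 at h
  rcases brec_true h with h | h
  · exact dp_d_13_s hinv hr hH j u hu h
  · exact dp_d_33_s hinv hr hH j u hu h
theorem dp_d_35_s (hinv : ∀ x, g (inv x) = (g x)⁻¹) (hr : ∀ r ∈ rels, (r.map g).prod = 1) (hH : ∀ r ∈ subs, (r.map g).prod ∈ H)
    (j u : ℕ) (hu : u < M) (h : dp_d_35 j u = true) : Good (fa g) T MG M (cP g H) Lt.d u := by
  unfold dp_d_35 at h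
  rcases brec_true h with h | h
  · exact lS_good (T := T) (x := Lt.d) (by decide) hu [Lt.f, Lt.ci, Lt.b, Lt.fi, Lt.d, Lt.bi, Lt.c] (hole_rel hinv hr (by decide +kernel)) h
  · exact lF_good (T := T) (x := Lt.d) (by decide) [Lt.b, Lt.ci, Lt.di, Lt.ci, Lt.bi, Lt.f, Lt.ci] (hole_rel hinv hr (by decide +kernel)) h
theorem dp_d_36_s (hinv : ∀ x, g (inv x) = (g x)⁻¹) (hr : ∀ r ∈ rels, (r.map g).prod = 1) (hH : ∀ r ∈ subs, (r.map g).prod ∈ H)
    (j u : ℕ) (hu : u < M) (h : dp_d_36 j u = true) : Good (fa g) T MG M (cP g H) Lt.d u := by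
  unfold dp_d_36 at h
  rcases brec_true h with h | h
  · exact lS_good (T := T) (x := Lt.d) (by decide) hu [Lt.f, Lt.f, Lt.c, Lt.di, Lt.bi, Lt.ci, Lt.b] (hole_rel hinv hr (by decide +kernel)) h
  · exact dp_d_35_s hinv hr hH j u hu h
theorem dp_d_37_s (hinv : ∀ x, g (inv x) = (g x)⁻¹) (hr : ∀ r ∈ rels, (r.map g).prod = 1) (hH : ∀ r ∈ subs, (r.map g).prod ∈ H)
    (j u : ℕ) (hu : u < M) (h : dp_d_37 j u = true) : Good (fa g) T MG M (cP g H) Lt.d u := by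
  unfold dp_d_37 at h
  rcases brec_true h with h | h
  · exact lS_good (T := T) (x := Lt.d) (by decide) hu [Lt.d, Lt.bi, Lt.d, Lt.d, Lt.b, Lt.d, Lt.bi] (hole_rel hinv hr (by decide +kernel)) h
  · exact lS_good (T := T) (x := Lt.d) (by decide) hu [Lt.bi, Lt.fi, Lt.di, Lt.ci, Lt.bi, Lt.ci, Lt.fi] (hole_rel hinv hr (by decide +kernel)) h
theorem dp_d_38_s (hinv : ∀ x, g (inv x) = (g x)⁻¹) (hr : ∀ r ∈ rels, (r.map g).prod = 1) (hH : ∀ r ∈ subs, (r.map g).prod ∈ H)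
    (j u : ℕ) (hu : u < M) (h : dp_d_38 j u = true) : Good (fa g) T MG M (cP g H) Lt.d u := by
  unfold dp_d_38 at h
  rcases brec_true h with h | h
  · exact lS_good (T := T) (x := Lt.d) (by decide) hu [Lt.d, Lt.ci, Lt.f, Lt.d, Lt.d, Lt.ci, Lt.f] (hole_rel hinv hr (by decide +kernel)) h
  · exact dp_d_37_s hinv hr hH j u hu h
theorem dp_d_39_s (hinv : ∀ x, g (inv x) = (g x)⁻¹) (hr : ∀ r ∈ rels, (r.map g).prod = 1) (hH : ∀ r ∈ subs, (r.map g).prod ∈ H)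
    (j u : ℕ) (hu : u < M) (h : dp_d_39 j u = true) : Good (fa g) T MG M (cP g H) Lt.d u := by
  unfold dp_d_39 at h
  rcases brec_true h with h | h
  · exact dp_d_36_s hinv hr hH j u hu h
  · exact dp_d_38_s hinv hr hH j u hu h
theorem dp_d_40_s (hinv : ∀ x, g (inv x) = (g x)⁻¹) (hr : ∀ r ∈ rels, (r.map g).prod = 1) (hH : ∀ r ∈ subs, (r.map g).prod ∈ H)
    (j u : ℕ) (hu : u < M) (h : dp_d_40 j u = true) : Good (fa g) T MG M (cP g H) Lt.d u := by
  unfold dp_d_40 at h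
  rcases brec_true h with h | h
  · exact lS_good (T := T) (x := Lt.d) (by decide) hu [Lt.ci, Lt.fi, Lt.bi, Lt.d, Lt.ci, Lt.fi, Lt.bi] (hole_rel hinv hr (by decide +kernel)) h
  · exact lF_good (T := T) (x := Lt.d) (by decide) [Lt.ci, Lt.fi, Lt.bi, Lt.d, Lt.ci, Lt.fi, Lt.bi] (hole_rel hinv hr (by decide +kernel)) h
theorem dp_d_41_s (hinv : ∀ x, g (inv x) = (g x)⁻¹) (hr : ∀ r ∈ rels, (r.map g).prod = 1) (hH : ∀ r ∈ subs, (r.map g).prod ∈ H)
    (j u : ℕ) (hu : u < M) (h : dp_d_41 j u = true) : Good (fa g) T MG M (cP g H) Lt.d u := by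
  unfold dp_d_41 at h
  rcases brec_true h with h | h
  · exact lF_good (T := T) (x := Lt.d) (by decide) [Lt.c, Lt.c, Lt.bi, Lt.ci, Lt.b, Lt.ci, Lt.ci] (hole_rel hinv hr (by decide +kernel)) h
  · exact dp_d_40_s hinv hr hH j u hu h
theorem dp_d_42_s (hinv : ∀ x, g (inv x) = (g x)⁻¹) (hr : ∀ r ∈ rels, (r.map g).prod = 1) (hH : ∀ r ∈ subs, (r.map g).prod ∈ H)
    (j u : ℕ) (hu : u < M) (h : dp_d_42 j u = true) : Good (fa g) T MG M (cP g H) Lt.d u := by
  unfold dp_d_42 at h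
  rcases brec_true h with h | h
  · exact lS_good (T := T) (x := Lt.d) (by decide) hu [Lt.b, Lt.ci, Lt.di, Lt.ci, Lt.bi, Lt.f, Lt.ci] (hole_rel hinv hr (by decide +kernel)) h
  · exact lF_good (T := T) (x := Lt.d) (by decide) [Lt.c, Lt.bi, Lt.di, Lt.c, Lt.fi, Lt.b, Lt.c] (hole_rel hinv hr (by decide +kernel)) h
theorem dp_d_43_s (hinv : ∀ x, g (inv x) = (g x)⁻¹) (hr : ∀ r ∈ rels, (r.map g).prod = 1) (hH : ∀ r ∈ subs, (r.map g).prod ∈ H)
    (j u : ℕ) (hu : u < M) (h : dp_d_43 j u = true) : Good (fa g) T MG M (cP g H) Lt.d u := by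
  unfold dp_d_43 at h
  rcases brec_true h with h | h
  · exact lS_good (T := T) (x := Lt.d) (by decide) hu [Lt.fi, Lt.d, Lt.d, Lt.f, Lt.d, Lt.fi, Lt.fi] (hole_rel hinv hr (by decide +kernel)) h
  · exact lF_good (T := T) (x := Lt.d) (by decide) [Lt.fi, Lt.fi, Lt.d, Lt.fi, Lt.d, Lt.d, Lt.f] (hole_rel hinv hr (by decide +kernel)) h
theorem dp_d_44_s (hinv : ∀ x, g (inv x) = (g x)⁻¹) (hr : ∀ r ∈ rels, (r.map g).prod = 1) (hH : ∀ r ∈ subs, (r.map g).prod ∈ H)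
    (j u : ℕ) (hu : u < M) (h : dp_d_44 j u = true) : Good (fa g) T MG M (cP g H) Lt.d u := by
  unfold dp_d_44 at h
  rcases brec_true h with h | h
  · exact dp_d_42_s hinv hr hH j u hu h
  · exact dp_d_43_s hinv hr hH j u hu h
theorem dp_d_45_s (hinv : ∀ x, g (inv x) = (g x)⁻¹) (hr : ∀ r ∈ rels, (r.map g).prod = 1) (hH : ∀ r ∈ subs, (r.map g).prod ∈ H)
    (j u : ℕ) (hu : u < M) (h : dp_d_45 j u = true) : Good (fa g) T MG M (cP g H) Lt.d u := by
  unfold dp_d_45 at h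
  rcases brec_true h with h | h
  · exact dp_d_41_s hinv hr hH j u hu h
  · exact dp_d_44_s hinv hr hH j u hu h
theorem dp_d_46_s (hinv : ∀ x, g (inv x) = (g x)⁻¹) (hr : ∀ r ∈ rels, (r.map g).prod = 1) (hH : ∀ r ∈ subs, (r.map g).prod ∈ H)
    (j u : ℕ) (hu : u < M) (h : dp_d_46 j u = true) : Good (fa g) T MG M (cP g H) Lt.d u := by
  unfold dp_d_46 at h
  rcases brec_true h with h | h
  · exact dp_d_39_s hinv hr hH j u hu h
  · exact dp_d_45_s hinv hr hH j u hu h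
theorem dp_d_47_s (hinv : ∀ x, g (inv x) = (g x)⁻¹) (hr : ∀ r ∈ rels, (r.map g).prod = 1) (hH : ∀ r ∈ subs, (r.map g).prod ∈ H)
    (j u : ℕ) (hu : u < M) (h : dp_d_47 j u = true) : Good (fa g) T MG M (cP g H) Lt.d u := by
  unfold dp_d_47 at h
  rcases brec_true h with h | h
  · exact lF_good (T := T) (x := Lt.d) (by decide) [Lt.bi, Lt.d, Lt.d, Lt.bi, Lt.d, Lt.d, Lt.b] (hole_rel hinv hr (by decide +kernel)) h
  · exact lF_good (T := T) (x := Lt.d) (by decide) [Lt.bi, Lt.c, Lt.b, Lt.c, Lt.c, Lt.d, Lt.fi] (hole_rel hinv hr (by decide +kernel)) h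
theorem dp_d_48_s (hinv : ∀ x, g (inv x) = (g x)⁻¹) (hr : ∀ r ∈ rels, (r.map g).prod = 1) (hH : ∀ r ∈ subs, (r.map g).prod ∈ H)
    (j u : ℕ) (hu : u < M) (h : dp_d_48 j u = true) : Good (fa g) T MG M (cP g H) Lt.d u := by
  unfold dp_d_48 at h
  rcases brec_true h with h | h
  · exact lS_good (T := T) (x := Lt.d) (by decide) hu [Lt.f, Lt.b, Lt.di, Lt.f, Lt.c, Lt.b, Lt.c] (hole_rel hinv hr (by decide +kernel)) h
  · exact dp_d_47_s hinv hr hH j u hu h
theorem dp_d_49_s (hinv : ∀ x, g (inv x) = (g x)⁻¹) (hr : ∀ r ∈ rels, (r.map g).prod = 1) (hH : ∀ r ∈ subs, (r.map g).prod ∈ H)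
    (j u : ℕ) (hu : u < M) (h : dp_d_49 j u = true) : Good (fa g) T MG M (cP g H) Lt.d u := by
  unfold dp_d_49 at h
  rcases brec_true h with h | h
  · exact lF_good (T := T) (x := Lt.d) (by decide) [Lt.fi, Lt.bi, Lt.fi, Lt.b, Lt.b, Lt.f, Lt.ci] (hole_rel hinv hr (by decide +kernel)) h
  · exact lS_good (T := T) (x := Lt.d) (by decide) hu [Lt.d, Lt.bi, Lt.f, Lt.c, Lt.bi, Lt.fi, Lt.c] (hole_rel hinv hr (by decide +kernel)) h
theorem dp_d_50_s (hinv : ∀ x, g (inv x) = (g x)⁻¹) (hr : ∀ r ∈ rels, (r.map g).prod = 1) (hH : ∀ r ∈ subs, (r.map g).prod ∈ H)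
    (j u : ℕ) (hu : u < M) (h : dp_d_50 j u = true) : Good (fa g) T MG M (cP g H) Lt.d u := by
  unfold dp_d_50 at h
  rcases brec_true h with h | h
  · exact lF_good (T := T) (x := Lt.d) (by decide) [Lt.b, Lt.c, Lt.d, Lt.b, Lt.ci, Lt.bi, Lt.f] (hole_rel hinv hr (by decide +kernel)) h
  · exact lF_good (T := T) (x := Lt.d) (by decide) [Lt.b, Lt.ci, Lt.bi, Lt.f, Lt.d, Lt.b, Lt.c] (hole_rel hinv hr (by decide +kernel)) h
theorem dp_d_51_s (hinv : ∀ x, g (inv x) = (g x)⁻¹) (hr : ∀ r ∈ rels, (r.map g).prod = 1) (hH : ∀ r ∈ subs, (r.map g).prod ∈ H)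
    (j u : ℕ) (hu : u < M) (h : dp_d_51 j u = true) : Good (fa g) T MG M (cP g H) Lt.d u := by
  unfold dp_d_51 at h
  rcases brec_true h with h | h
  · exact dp_d_49_s hinv hr hH j u hu h
  · exact dp_d_50_s hinv hr hH j u hu h
theorem dp_d_52_s (hinv : ∀ x, g (inv x) = (g x)⁻¹) (hr : ∀ r ∈ rels, (r.map g).prod = 1) (hH : ∀ r ∈ subs, (r.map g).prod ∈ H)
    (j u : ℕ) (hu : u < M) (h : dp_d_52 j u = true) : Good (fa g) T MG M (cP g H) Lt.d u := by
  unfold dp_d_52 at h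
  rcases brec_true h with h | h
  · exact dp_d_48_s hinv hr hH j u hu h
  · exact dp_d_51_s hinv hr hH j u hu h
theorem dp_d_53_s (hinv : ∀ x, g (inv x) = (g x)⁻¹) (hr : ∀ r ∈ rels, (r.map g).prod = 1) (hH : ∀ r ∈ subs, (r.map g).prod ∈ H)
    (j u : ℕ) (hu : u < M) (h : dp_d_53 j u = true) : Good (fa g) T MG M (cP g H) Lt.d u := by
  unfold dp_d_53 at h
  rcases brec_true h with h | h
  · exact lS_good (T := T) (x := Lt.d) (by decide) hu [Lt.c, Lt.b, Lt.b, Lt.ci, Lt.fi, Lt.fi, Lt.bi] (hole_rel hinv hr (by decide +kernel)) h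
  · exact lF_good (T := T) (x := Lt.d) (by decide) [Lt.bi, Lt.d, Lt.d, Lt.b, Lt.d, Lt.bi, Lt.d] (hole_rel hinv hr (by decide +kernel)) h
theorem dp_d_54_s (hinv : ∀ x, g (inv x) = (g x)⁻¹) (hr : ∀ r ∈ rels, (r.map g).prod = 1) (hH : ∀ r ∈ subs, (r.map g).prod ∈ H)
    (j u : ℕ) (hu : u < M) (h : dp_d_54 j u = true) : Good (fa g) T MG M (cP g H) Lt.d u := by
  unfold dp_d_54 at h
  rcases brec_true h with h | h
  · exact lS_good (T := T) (x := Lt.d) (by decide) hu [Lt.fi, Lt.bi, Lt.fi, Lt.b, Lt.b, Lt.f, Lt.ci] (hole_rel hinv hr (by decide +kernel)) h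
  · exact dp_d_53_s hinv hr hH j u hu h
theorem dp_d_55_s (hinv : ∀ x, g (inv x) = (g x)⁻¹) (hr : ∀ r ∈ rels, (r.map g).prod = 1) (hH : ∀ r ∈ subs, (r.map g).prod ∈ H)
    (j u : ℕ) (hu : u < M) (h : dp_d_55 j u = true) : Good (fa g) T MG M (cP g H) Lt.d u := by
  unfold dp_d_55 at h
  rcases brec_true h with h | h
  · exact lS_good (T := T) (x := Lt.d) (by decide) hu [Lt.bi, Lt.d, Lt.d, Lt.b, Lt.d, Lt.bi, Lt.d] (hole_rel hinv hr (by decide +kernel)) h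
  · exact lS_good (T := T) (x := Lt.d) (by decide) hu [Lt.b, Lt.d, Lt.bi, Lt.d, Lt.d, Lt.bi, Lt.d] (hole_rel hinv hr (by decide +kernel)) h
theorem dp_d_56_s (hinv : ∀ x, g (inv x) = (g x)⁻¹) (hr : ∀ r ∈ rels, (r.map g).prod = 1) (hH : ∀ r ∈ subs, (r.map g).prod ∈ H)
    (j u : ℕ) (hu : u < M) (h : dp_d_56 j u = true) : Good (fa g) T MG M (cP g H) Lt.d u := by
  unfold dp_d_56 at h
  rcases brec_true h with h | h
  · exact lF_good (T := T) (x := Lt.d) (by decide) [Lt.ci, Lt.b, Lt.di, Lt.ci, Lt.d, Lt.ci, Lt.bi] (hole_rel hinv hr (by decide +kernel)) h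
  · exact lF_good (T := T) (x := Lt.d) (by decide) [Lt.c, Lt.b, Lt.f, Lt.d, Lt.d, Lt.b, Lt.fi] (hole_rel hinv hr (by decide +kernel)) h
theorem dp_d_57_s (hinv : ∀ x, g (inv x) = (g x)⁻¹) (hr : ∀ r ∈ rels, (r.map g).prod = 1) (hH : ∀ r ∈ subs, (r.map g).prod ∈ H)
    (j u : ℕ) (hu : u < M) (h : dp_d_57 j u = true) : Good (fa g) T MG M (cP g H) Lt.d u := by
  unfold dp_d_57 at h
  rcases brec_true h with h | h
  · exact dp_d_55_s hinv hr hH j u hu h
  · exact dp_d_56_s hinv hr hH j u hu h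
theorem dp_d_58_s (hinv : ∀ x, g (inv x) = (g x)⁻¹) (hr : ∀ r ∈ rels, (r.map g).prod = 1) (hH : ∀ r ∈ subs, (r.map g).prod ∈ H)
    (j u : ℕ) (hu : u < M) (h : dp_d_58 j u = true) : Good (fa g) T MG M (cP g H) Lt.d u := by
  unfold dp_d_58 at h
  rcases brec_true h with h | h
  · exact dp_d_54_s hinv hr hH j u hu h
  · exact dp_d_57_s hinv hr hH j u hu h
theorem dp_d_59_s (hinv : ∀ x, g (inv x) = (g x)⁻¹) (hr : ∀ r ∈ rels, (r.map g).prod = 1) (hH : ∀ r ∈ subs, (r.map g).prod ∈ H)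
    (j u : ℕ) (hu : u < M) (h : dp_d_59 j u = true) : Good (fa g) T MG M (cP g H) Lt.d u := by
  unfold dp_d_59 at h
  rcases brec_true h with h | h
  · exact dp_d_52_s hinv hr hH j u hu h
  · exact dp_d_58_s hinv hr hH j u hu h
theorem dp_d_60_s (hinv : ∀ x, g (inv x) = (g x)⁻¹) (hr : ∀ r ∈ rels, (r.map g).prod = 1) (hH : ∀ r ∈ subs, (r.map g).prod ∈ H)
    (j u : ℕ) (hu : u < M) (h : dp_d_60 j u = true) : Good (fa g) T MG M (cP g H) Lt.d u := by
  unfold dp_d_60 at h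
  rcases brec_true h with h | h
  · exact dp_d_46_s hinv hr hH j u hu h
  · exact dp_d_59_s hinv hr hH j u hu h
theorem dp_d_61_s (hinv : ∀ x, g (inv x) = (g x)⁻¹) (hr : ∀ r ∈ rels, (r.map g).prod = 1) (hH : ∀ r ∈ subs, (r.map g).prod ∈ H)
    (j u : ℕ) (hu : u < M) (h : dp_d_61 j u = true) : Good (fa g) T MG M (cP g H) Lt.d u := by
  unfold dp_d_61 at h
  rcases brec_true h with h | h
  · exact lF_good (T := T) (x := Lt.d) (by decide) [Lt.b, Lt.f, Lt.ci, Lt.f, Lt.di, Lt.b, Lt.ci] (hole_rel hinv hr (by decide +kernel)) h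
  · exact lF_good (T := T) (x := Lt.d) (by decide) [Lt.d, Lt.ci, Lt.f, Lt.d, Lt.d, Lt.ci, Lt.f] (hole_rel hinv hr (by decide +kernel)) h
theorem dp_d_62_s (hinv : ∀ x, g (inv x) = (g x)⁻¹) (hr : ∀ r ∈ rels, (r.map g).prod = 1) (hH : ∀ r ∈ subs, (r.map g).prod ∈ H)
    (j u : ℕ) (hu : u < M) (h : dp_d_62 j u = true) : Good (fa g) T MG M (cP g H) Lt.d u := by
  unfold dp_d_62 at h
  rcases brec_true h with h | h
  · exact lF_good (T := T) (x := Lt.d) (by decide) [Lt.d, Lt.bi, Lt.f, Lt.c, Lt.bi, Lt.fi, Lt.c] (hole_rel hinv hr (by decide +kernel)) h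
  · exact lS_good (T := T) (x := Lt.d) (by decide) hu [Lt.d, Lt.b, Lt.fi, Lt.d, Lt.c, Lt.b, Lt.f] (hole_rel hinv hr (by decide +kernel)) h
theorem dp_d_63_s (hinv : ∀ x, g (inv x) = (g x)⁻¹) (hr : ∀ r ∈ rels, (r.map g).prod = 1) (hH : ∀ r ∈ subs, (r.map g).prod ∈ H)
    (j u : ℕ) (hu : u < M) (h : dp_d_63 j u = true) : Good (fa g) T MG M (cP g H) Lt.d u := by
  unfold dp_d_63 at h
  rcases brec_true h with h | h
  · exact dp_d_61_s hinv hr hH j u hu h
  · exact dp_d_62_s hinv hr hH j u hu h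
theorem dp_d_64_s (hinv : ∀ x, g (inv x) = (g x)⁻¹) (hr : ∀ r ∈ rels, (r.map g).prod = 1) (hH : ∀ r ∈ subs, (r.map g).prod ∈ H)
    (j u : ℕ) (hu : u < M) (h : dp_d_64 j u = true) : Good (fa g) T MG M (cP g H) Lt.d u := by
  unfold dp_d_64 at h
  rcases brec_true h with h | h
  · exact lS_good (T := T) (x := Lt.d) (by decide) hu [Lt.c, Lt.bi, Lt.di, Lt.c, Lt.fi, Lt.b, Lt.c] (hole_rel hinv hr (by decide +kernel)) h
  · exact lF_good (T := T) (x := Lt.d) (by decide) [Lt.d, Lt.b, Lt.c, Lt.bi, Lt.ci, Lt.bi, Lt.fi] (hole_rel hinv hr (by decide +kernel)) h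
theorem dp_d_65_s (hinv : ∀ x, g (inv x) = (g x)⁻¹) (hr : ∀ r ∈ rels, (r.map g).prod = 1) (hH : ∀ r ∈ subs, (r.map g).prod ∈ H)
    (j u : ℕ) (hu : u < M) (h : dp_d_65 j u = true) : Good (fa g) T MG M (cP g H) Lt.d u := by
  unfold dp_d_65 at h
  rcases brec_true h with h | h
  · exact lF_good (T := T) (x := Lt.d) (by decide) [Lt.d, Lt.bi, Lt.d, Lt.d, Lt.b, Lt.d, Lt.bi] (hole_rel hinv hr (by decide +kernel)) h
  · exact lS_good (T := T) (x := Lt.d) (by decide) hu [Lt.b, Lt.fi, Lt.d, Lt.c, Lt.b, Lt.f, Lt.d] (hole_rel hinv hr (by decide +kernel)) h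
theorem dp_d_66_s (hinv : ∀ x, g (inv x) = (g x)⁻¹) (hr : ∀ r ∈ rels, (r.map g).prod = 1) (hH : ∀ r ∈ subs, (r.map g).prod ∈ H)
    (j u : ℕ) (hu : u < M) (h : dp_d_66 j u = true) : Good (fa g) T MG M (cP g H) Lt.d u := by
  unfold dp_d_66 at h
  rcases brec_true h with h | h
  · exact dp_d_64_s hinv hr hH j u hu h
  · exact dp_d_65_s hinv hr hH j u hu h
theorem dp_d_67_s (hinv : ∀ x, g (inv x) = (g x)⁻¹) (hr : ∀ r ∈ rels, (r.map g).prod = 1) (hH : ∀ r ∈ subs, (r.map g).prod ∈ H)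
    (j u : ℕ) (hu : u < M) (h : dp_d_67 j u = true) : Good (fa g) T MG M (cP g H) Lt.d u := by
  unfold dp_d_67 at h
  rcases brec_true h with h | h
  · exact dp_d_63_s hinv hr hH j u hu h
  · exact dp_d_66_s hinv hr hH j u hu h
theorem dp_d_68_s (hinv : ∀ x, g (inv x) = (g x)⁻¹) (hr : ∀ r ∈ rels, (r.map g).prod = 1) (hH : ∀ r ∈ subs, (r.map g).prod ∈ H)
    (j u : ℕ) (hu : u < M) (h : dp_d_68 j u = true) : Good (fa g) T MG M (cP g H) Lt.d u := by
  unfold dp_d_68 at h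
  rcases brec_true h with h | h
  · exact lS_good (T := T) (x := Lt.d) (by decide) hu [Lt.fi, Lt.c, Lt.fi, Lt.bi, Lt.di, Lt.c, Lt.bi] (hole_rel hinv hr (by decide +kernel)) h
  · exact lF_good (T := T) (x := Lt.d) (by decide) [Lt.ei, Lt.bi, Lt.c, Lt.fi, Lt.ei, Lt.fi, Lt.b, Lt.f] (hole_rel hinv hr (by decide +kernel)) h
theorem dp_d_69_s (hinv : ∀ x, g (inv x) = (g x)⁻¹) (hr : ∀ r ∈ rels, (r.map g).prod = 1) (hH : ∀ r ∈ subs, (r.map g).prod ∈ H)
    (j u : ℕ) (hu : u < M) (h : dp_d_69 j u = true) : Good (fa g) T MG M (cP g H) Lt.d u := by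
  unfold dp_d_69 at h
  rcases brec_true h with h | h
  · exact lF_good (T := T) (x := Lt.d) (by decide) [Lt.d, Lt.f, Lt.d, Lt.fi, Lt.fi, Lt.d, Lt.fi] (hole_rel hinv hr (by decide +kernel)) h
  · exact lF_good (T := T) (x := Lt.d) (by decide) [Lt.d, Lt.b, Lt.fi, Lt.d, Lt.c, Lt.b, Lt.f] (hole_rel hinv hr (by decide +kernel)) h
theorem dp_d_70_s (hinv : ∀ x, g (inv x) = (g x)⁻¹) (hr : ∀ r ∈ rels, (r.map g).prod = 1) (hH : ∀ r ∈ subs, (r.map g).prod ∈ H)
    (j u : ℕ) (hu : u < M) (h : dp_d_70 j u = true) : Good (fa g) T MG M (cP g H) Lt.d u := by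
  unfold dp_d_70 at h
  rcases brec_true h with h | h
  · exact dp_d_68_s hinv hr hH j u hu h
  · exact dp_d_69_s hinv hr hH j u hu h
theorem dp_d_71_s (hinv : ∀ x, g (inv x) = (g x)⁻¹) (hr : ∀ r ∈ rels, (r.map g).prod = 1) (hH : ∀ r ∈ subs, (r.map g).prod ∈ H)
    (j u : ℕ) (hu : u < M) (h : dp_d_71 j u = true) : Good (fa g) T MG M (cP g H) Lt.d u := by
  unfold dp_d_71 at h
  rcases brec_true h with h | h
  · exact lS_good (T := T) (x := Lt.d) (by decide) hu [Lt.f, Lt.d, Lt.fi, Lt.fi, Lt.d, Lt.fi, Lt.d] (hole_rel hinv hr (by decide +kernel)) h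
  · exact lF_good (T := T) (x := Lt.d) (by decide) [Lt.bi, Lt.c, Lt.d, Lt.f, Lt.ci, Lt.b, Lt.fi] (hole_rel hinv hr (by decide +kernel)) h
theorem dp_d_72_s (hinv : ∀ x, g (inv x) = (g x)⁻¹) (hr : ∀ r ∈ rels, (r.map g).prod = 1) (hH : ∀ r ∈ subs, (r.map g).prod ∈ H)
    (j u : ℕ) (hu : u < M) (h : dp_d_72 j u = true) : Good (fa g) T MG M (cP g H) Lt.d u := by
  unfold dp_d_72 at h
  rcases brec_true h with h | h
  · exact lF_good (T := T) (x := Lt.d) (by decide) [Lt.ci, Lt.ci, Lt.b, Lt.d, Lt.ci, Lt.ci, Lt.b] (hole_rel hinv hr (by decide +kernel)) h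
  · exact lS_good (T := T) (x := Lt.d) (by decide) hu [Lt.d, Lt.f, Lt.d, Lt.fi, Lt.fi, Lt.d, Lt.fi] (hole_rel hinv hr (by decide +kernel)) h
theorem dp_d_73_s (hinv : ∀ x, g (inv x) = (g x)⁻¹) (hr : ∀ r ∈ rels, (r.map g).prod = 1) (hH : ∀ r ∈ subs, (r.map g).prod ∈ H)
    (j u : ℕ) (hu : u < M) (h : dp_d_73 j u = true) : Good (fa g) T MG M (cP g H) Lt.d u := by
  unfold dp_d_73 at h
  rcases brec_true h with h | h
  · exact lS_good (T := T) (x := Lt.d) (by decide) hu [Lt.ci, Lt.ci, Lt.b, Lt.d, Lt.ci, Lt.ci, Lt.b] (hole_rel hinv hr (by decide +kernel)) h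
  · exact dp_d_72_s hinv hr hH j u hu h
theorem dp_d_74_s (hinv : ∀ x, g (inv x) = (g x)⁻¹) (hr : ∀ r ∈ rels, (r.map g).prod = 1) (hH : ∀ r ∈ subs, (r.map g).prod ∈ H)
    (j u : ℕ) (hu : u < M) (h : dp_d_74 j u = true) : Good (fa g) T MG M (cP g H) Lt.d u := by
  unfold dp_d_74 at h
  rcases brec_true h with h | h
  · exact dp_d_71_s hinv hr hH j u hu h
  · exact dp_d_73_s hinv hr hH j u hu h
theorem dp_d_75_s (hinv : ∀ x, g (inv x) = (g x)⁻¹) (hr : ∀ r ∈ rels, (r.map g).prod = 1) (hH : ∀ r ∈ subs, (r.map g).prod ∈ H)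
    (j u : ℕ) (hu : u < M) (h : dp_d_75 j u = true) : Good (fa g) T MG M (cP g H) Lt.d u := by
  unfold dp_d_75 at h
  rcases brec_true h with h | h
  · exact dp_d_70_s hinv hr hH j u hu h
  · exact dp_d_74_s hinv hr hH j u hu h
theorem dp_d_76_s (hinv : ∀ x, g (inv x) = (g x)⁻¹) (hr : ∀ r ∈ rels, (r.map g).prod = 1) (hH : ∀ r ∈ subs, (r.map g).prod ∈ H)
    (j u : ℕ) (hu : u < M) (h : dp_d_76 j u = true) : Good (fa g) T MG M (cP g H) Lt.d u := by
  unfold dp_d_76 at h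
  rcases brec_true h with h | h
  · exact dp_d_67_s hinv hr hH j u hu h
  · exact dp_d_75_s hinv hr hH j u hu h
theorem dp_d_77_s (hinv : ∀ x, g (inv x) = (g x)⁻¹) (hr : ∀ r ∈ rels, (r.map g).prod = 1) (hH : ∀ r ∈ subs, (r.map g).prod ∈ H)
    (j u : ℕ) (hu : u < M) (h : dp_d_77 j u = true) : Good (fa g) T MG M (cP g H) Lt.d u := by
  unfold dp_d_77 at h
  rcases brec_true h with h | h
  · exact lS_good (T := T) (x := Lt.d) (by decide) hu [Lt.ci, Lt.f, Lt.d, Lt.d, Lt.ci, Lt.f, Lt.d] (hole_rel hinv hr (by decide +kernel)) h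
  · exact lS_good (T := T) (x := Lt.d) (by decide) hu [Lt.b, Lt.b, Lt.ci, Lt.bi, Lt.fi, Lt.b, Lt.c] (hole_rel hinv hr (by decide +kernel)) h
theorem dp_d_78_s (hinv : ∀ x, g (inv x) = (g x)⁻¹) (hr : ∀ r ∈ rels, (r.map g).prod = 1) (hH : ∀ r ∈ subs, (r.map g).prod ∈ H)
    (j u : ℕ) (hu : u < M) (h : dp_d_78 j u = true) : Good (fa g) T MG M (cP g H) Lt.d u := by
  unfold dp_d_78 at h
  rcases brec_true h with h | h
  · exact lF_good (T := T) (x := Lt.d) (by decide) [Lt.f, Lt.d, Lt.fi, Lt.fi, Lt.d, Lt.fi, Lt.d] (hole_rel hinv hr (by decide +kernel)) h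
  · exact lS_good (T := T) (x := Lt.d) (by decide) hu [Lt.fi, Lt.fi, Lt.d, Lt.fi, Lt.d, Lt.d, Lt.f] (hole_rel hinv hr (by decide +kernel)) h
theorem dp_d_79_s (hinv : ∀ x, g (inv x) = (g x)⁻¹) (hr : ∀ r ∈ rels, (r.map g).prod = 1) (hH : ∀ r ∈ subs, (r.map g).prod ∈ H)
    (j u : ℕ) (hu : u < M) (h : dp_d_79 j u = true) : Good (fa g) T MG M (cP g H) Lt.d u := by
  unfold dp_d_79 at h
  rcases brec_true h with h | h
  · exact lF_good (T := T) (x := Lt.d) (by decide) [Lt.f, Lt.b, Lt.di, Lt.f, Lt.c, Lt.b, Lt.c] (hole_rel hinv hr (by decide +kernel)) h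
  · exact dp_d_78_s hinv hr hH j u hu h
theorem dp_d_80_s (hinv : ∀ x, g (inv x) = (g x)⁻¹) (hr : ∀ r ∈ rels, (r.map g).prod = 1) (hH : ∀ r ∈ subs, (r.map g).prod ∈ H)
    (j u : ℕ) (hu : u < M) (h : dp_d_80 j u = true) : Good (fa g) T MG M (cP g H) Lt.d u := by
  unfold dp_d_80 at h
  rcases brec_true h with h | h
  · exact dp_d_77_s hinv hr hH j u hu h
  · exact dp_d_79_s hinv hr hH j u hu h
theorem dp_d_81_s (hinv : ∀ x, g (inv x) = (g x)⁻¹) (hr : ∀ r ∈ rels, (r.map g).prod = 1) (hH : ∀ r ∈ subs, (r.map g).prod ∈ H)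
    (j u : ℕ) (hu : u < M) (h : dp_d_81 j u = true) : Good (fa g) T MG M (cP g H) Lt.d u := by
  unfold dp_d_81 at h
  rcases brec_true h with h | h
  · exact lS_good (T := T) (x := Lt.d) (by decide) hu [Lt.ci, Lt.b, Lt.di, Lt.ci, Lt.d, Lt.ci, Lt.bi] (hole_rel hinv hr (by decide +kernel)) h
  · exact lF_good (T := T) (x := Lt.d) (by decide) [Lt.c, Lt.b, Lt.b, Lt.ci, Lt.fi, Lt.fi, Lt.bi] (hole_rel hinv hr (by decide +kernel)) h
theorem dp_d_82_s (hinv : ∀ x, g (inv x) = (g x)⁻¹) (hr : ∀ r ∈ rels, (r.map g).prod = 1) (hH : ∀ r ∈ subs, (r.map g).prod ∈ H)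
    (j u : ℕ) (hu : u < M) (h : dp_d_82 j u = true) : Good (fa g) T MG M (cP g H) Lt.d u := by
  unfold dp_d_82 at h
  rcases brec_true h with h | h
  · exact lS_good (T := T) (x := Lt.d) (by decide) hu [Lt.b, Lt.ci, Lt.bi, Lt.f, Lt.d, Lt.b, Lt.c] (hole_rel hinv hr (by decide +kernel)) h
  · exact lF_good (T := T) (x := Lt.d) (by decide) [Lt.b, Lt.b, Lt.ci, Lt.bi, Lt.fi, Lt.b, Lt.c] (hole_rel hinv hr (by decide +kernel)) h
theorem dp_d_83_s (hinv : ∀ x, g (inv x) = (g x)⁻¹) (hr : ∀ r ∈ rels, (r.map g).prod = 1) (hH : ∀ r ∈ subs, (r.map g).prod ∈ H)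
    (j u : ℕ) (hu : u < M) (h : dp_d_83 j u = true) : Good (fa g) T MG M (cP g H) Lt.d u := by
  unfold dp_d_83 at h
  rcases brec_true h with h | h
  · exact lF_good (T := T) (x := Lt.d) (by decide) [Lt.ci, Lt.f, Lt.d, Lt.d, Lt.ci, Lt.f, Lt.d] (hole_rel hinv hr (by decide +kernel)) h
  · exact dp_d_82_s hinv hr hH j u hu h
theorem dp_d_84_s (hinv : ∀ x, g (inv x) = (g x)⁻¹) (hr : ∀ r ∈ rels, (r.map g).prod = 1) (hH : ∀ r ∈ subs, (r.map g).prod ∈ H)
    (j u : ℕ) (hu : u < M) (h : dp_d_84 j u = true) : Good (fa g) T MG M (cP g H) Lt.d u := by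
  unfold dp_d_84 at h
  rcases brec_true h with h | h
  · exact dp_d_81_s hinv hr hH j u hu h
  · exact dp_d_83_s hinv hr hH j u hu h
theorem dp_d_85_s (hinv : ∀ x, g (inv x) = (g x)⁻¹) (hr : ∀ r ∈ rels, (r.map g).prod = 1) (hH : ∀ r ∈ subs, (r.map g).prod ∈ H)
    (j u : ℕ) (hu : u < M) (h : dp_d_85 j u = true) : Good (fa g) T MG M (cP g H) Lt.d u := by
  unfold dp_d_85 at h
  rcases brec_true h with h | h
  · exact dp_d_80_s hinv hr hH j u hu h
  · exact dp_d_84_s hinv hr hH j u hu h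
theorem dp_d_86_s (hinv : ∀ x, g (inv x) = (g x)⁻¹) (hr : ∀ r ∈ rels, (r.map g).prod = 1) (hH : ∀ r ∈ subs, (r.map g).prod ∈ H)
    (j u : ℕ) (hu : u < M) (h : dp_d_86 j u = true) : Good (fa g) T MG M (cP g H) Lt.d u := by
  unfold dp_d_86 at h
  rcases brec_true h with h | h
  · exact lS_good (T := T) (x := Lt.d) (by decide) hu [Lt.d, Lt.b, Lt.d, Lt.bi, Lt.d, Lt.d, Lt.bi] (hole_rel hinv hr (by decide +kernel)) h
  · exact lF_good (T := T) (x := Lt.d) (by decide) [Lt.d, Lt.b, Lt.d, Lt.bi, Lt.d, Lt.d, Lt.bi] (hole_rel hinv hr (by decide +kernel)) h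
theorem dp_d_87_s (hinv : ∀ x, g (inv x) = (g x)⁻¹) (hr : ∀ r ∈ rels, (r.map g).prod = 1) (hH : ∀ r ∈ subs, (r.map g).prod ∈ H)
    (j u : ℕ) (hu : u < M) (h : dp_d_87 j u = true) : Good (fa g) T MG M (cP g H) Lt.d u := by
  unfold dp_d_87 at h
  rcases brec_true h with h | h
  · exact lF_good (T := T) (x := Lt.d) (by decide) [Lt.fi, Lt.c, Lt.fi, Lt.bi, Lt.di, Lt.c, Lt.bi] (hole_rel hinv hr (by decide +kernel)) h
  · exact dp_d_86_s hinv hr hH j u hu h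
theorem dp_d_88_s (hinv : ∀ x, g (inv x) = (g x)⁻¹) (hr : ∀ r ∈ rels, (r.map g).prod = 1) (hH : ∀ r ∈ subs, (r.map g).prod ∈ H)
    (j u : ℕ) (hu : u < M) (h : dp_d_88 j u = true) : Good (fa g) T MG M (cP g H) Lt.d u := by
  unfold dp_d_88 at h
  rcases brec_true h with h | h
  · exact lF_good (T := T) (x := Lt.d) (by decide) [Lt.fi, Lt.d, Lt.d, Lt.f, Lt.d, Lt.fi, Lt.fi] (hole_rel hinv hr (by decide +kernel)) h
  · exact lS_good (T := T) (x := Lt.d) (by decide) hu [Lt.fi, Lt.di, Lt.e, Lt.fi, Lt.ei, Lt.f, Lt.e, Lt.c] (hole_rel hinv hr (by decide +kernel)) h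
theorem dp_d_89_s (hinv : ∀ x, g (inv x) = (g x)⁻¹) (hr : ∀ r ∈ rels, (r.map g).prod = 1) (hH : ∀ r ∈ subs, (r.map g).prod ∈ H)
    (j u : ℕ) (hu : u < M) (h : dp_d_89 j u = true) : Good (fa g) T MG M (cP g H) Lt.d u := by
  unfold dp_d_89 at h
  rcases brec_true h with h | h
  · exact lS_good (T := T) (x := Lt.d) (by decide) hu [Lt.bi, Lt.c, Lt.b, Lt.c, Lt.c, Lt.d, Lt.fi] (hole_rel hinv hr (by decide +kernel)) h
  · exact dp_d_88_s hinv hr hH j u hu h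
theorem dp_d_90_s (hinv : ∀ x, g (inv x) = (g x)⁻¹) (hr : ∀ r ∈ rels, (r.map g).prod = 1) (hH : ∀ r ∈ subs, (r.map g).prod ∈ H)
    (j u : ℕ) (hu : u < M) (h : dp_d_90 j u = true) : Good (fa g) T MG M (cP g H) Lt.d u := by
  unfold dp_d_90 at h
  rcases brec_true h with h | h
  · exact dp_d_87_s hinv hr hH j u hu h
  · exact dp_d_89_s hinv hr hH j u hu h
theorem dp_d_91_s (hinv : ∀ x, g (inv x) = (g x)⁻¹) (hr : ∀ r ∈ rels, (r.map g).prod = 1) (hH : ∀ r ∈ subs, (r.map g).prod ∈ H)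
    (j u : ℕ) (hu : u < M) (h : dp_d_91 j u = true) : Good (fa g) T MG M (cP g H) Lt.d u := by
  unfold dp_d_91 at h
  rcases brec_true h with h | h
  · exact lS_good (T := T) (x := Lt.d) (by decide) hu [Lt.ei, Lt.bi, Lt.c, Lt.fi, Lt.ei, Lt.fi, Lt.b, Lt.f] (hole_rel hinv hr (by decide +kernel)) h
  · exact lF_good (T := T) (x := Lt.d) (by decide) [Lt.fi, Lt.di, Lt.e, Lt.fi, Lt.ei, Lt.f, Lt.e, Lt.c] (hole_rel hinv hr (by decide +kernel)) h
theorem dp_d_92_s (hinv : ∀ x, g (inv x) = (g x)⁻¹) (hr : ∀ r ∈ rels, (r.map g).prod = 1) (hH : ∀ r ∈ subs, (r.map g).prod ∈ H)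
    (j u : ℕ) (hu : u < M) (h : dp_d_92 j u = true) : Good (fa g) T MG M (cP g H) Lt.d u := by
  unfold dp_d_92 at h
  rcases brec_true h with h | h
  · exact lF_good (T := T) (x := Lt.d) (by decide) [Lt.b, Lt.d, Lt.bi, Lt.d, Lt.d, Lt.bi, Lt.d] (hole_rel hinv hr (by decide +kernel)) h
  · exact lF_good (T := T) (x := Lt.d) (by decide) [Lt.f, Lt.di, Lt.ci, Lt.ei, Lt.fi, Lt.e, Lt.f, Lt.ei] (hole_rel hinv hr (by decide +kernel)) h
theorem dp_d_93_s (hinv : ∀ x, g (inv x) = (g x)⁻¹) (hr : ∀ r ∈ rels, (r.map g).prod = 1) (hH : ∀ r ∈ subs, (r.map g).prod ∈ H)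
    (j u : ℕ) (hu : u < M) (h : dp_d_93 j u = true) : Good (fa g) T MG M (cP g H) Lt.d u := by
  unfold dp_d_93 at h
  rcases brec_true h with h | h
  · exact dp_d_91_s hinv hr hH j u hu h
  · exact dp_d_92_s hinv hr hH j u hu h
theorem dp_d_94_s (hinv : ∀ x, g (inv x) = (g x)⁻¹) (hr : ∀ r ∈ rels, (r.map g).prod = 1) (hH : ∀ r ∈ subs, (r.map g).prod ∈ H)
    (j u : ℕ) (hu : u < M) (h : dp_d_94 j u = true) : Good (fa g) T MG M (cP g H) Lt.d u := by
  unfold dp_d_94 at h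
  rcases brec_true h with h | h
  · exact lF_good (T := T) (x := Lt.d) (by decide) [Lt.c, Lt.c, Lt.f, Lt.f, Lt.c, Lt.di, Lt.c, Lt.f] (hole_rel hinv hr (by decide +kernel)) h
  · exact lS_good (T := T) (x := Lt.d) (by decide) hu [Lt.f, Lt.di, Lt.ci, Lt.ei, Lt.fi, Lt.e, Lt.f, Lt.ei] (hole_rel hinv hr (by decide +kernel)) h
theorem dp_d_95_s (hinv : ∀ x, g (inv x) = (g x)⁻¹) (hr : ∀ r ∈ rels, (r.map g).prod = 1) (hH : ∀ r ∈ subs, (r.map g).prod ∈ H)
    (j u : ℕ) (hu : u < M) (h : dp_d_95 j u = true) : Good (fa g) T MG M (cP g H) Lt.d u := by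
  unfold dp_d_95 at h
  rcases brec_true h with h | h
  · exact lS_good (T := T) (x := Lt.d) (by decide) hu [Lt.ci, Lt.fi, Lt.d, Lt.c, Lt.di, Lt.c, Lt.f, Lt.d] (hole_rel hinv hr (by decide +kernel)) h
  · exact lS_good (T := T) (x := Lt.d) (by decide) hu [Lt.fi, Lt.c, Lt.bi, Lt.c, Lt.d, Lt.d, Lt.f, Lt.bi] (hole_rel hinv hr (by decide +kernel)) h
theorem dp_d_96_s (hinv : ∀ x, g (inv x) = (g x)⁻¹) (hr : ∀ r ∈ rels, (r.map g).prod = 1) (hH : ∀ r ∈ subs, (r.map g).prod ∈ H)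
    (j u : ℕ) (hu : u < M) (h : dp_d_96 j u = true) : Good (fa g) T MG M (cP g H) Lt.d u := by
  unfold dp_d_96 at h
  rcases brec_true h with h | h
  · exact lF_good (T := T) (x := Lt.d) (by decide) [Lt.fi, Lt.c, Lt.bi, Lt.c, Lt.d, Lt.d, Lt.f, Lt.bi] (hole_rel hinv hr (by decide +kernel)) h
  · exact dp_d_95_s hinv hr hH j u hu h
theorem dp_d_97_s (hinv : ∀ x, g (inv x) = (g x)⁻¹) (hr : ∀ r ∈ rels, (r.map g).prod = 1) (hH : ∀ r ∈ subs, (r.map g).prod ∈ H)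
    (j u : ℕ) (hu : u < M) (h : dp_d_97 j u = true) : Good (fa g) T MG M (cP g H) Lt.d u := by
  unfold dp_d_97 at h
  rcases brec_true h with h | h
  · exact dp_d_94_s hinv hr hH j u hu h
  · exact dp_d_96_s hinv hr hH j u hu h
theorem dp_d_98_s (hinv : ∀ x, g (inv x) = (g x)⁻¹) (hr : ∀ r ∈ rels, (r.map g).prod = 1) (hH : ∀ r ∈ subs, (r.map g).prod ∈ H)
    (j u : ℕ) (hu : u < M) (h : dp_d_98 j u = true) : Good (fa g) T MG M (cP g H) Lt.d u := by
  unfold dp_d_98 at h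
  rcases brec_true h with h | h
  · exact lH_good (T := T) (x := Lt.d) (by decide) [] [] (by rw [show cP g H 0 = _ from cc_zero]; exact sub_rel hinv (hH _ (by decide))) h
  · exact lF_good (T := T) (x := Lt.d) (by decide) [Lt.c, Lt.c, Lt.fi, Lt.di, Lt.fi, Lt.di, Lt.ci, Lt.f] (hole_rel hinv hr (by decide +kernel)) h
theorem dp_d_99_s (hinv : ∀ x, g (inv x) = (g x)⁻¹) (hr : ∀ r ∈ rels, (r.map g).prod = 1) (hH : ∀ r ∈ subs, (r.map g).prod ∈ H)
    (j u : ℕ) (hu : u < M) (h : dp_d_99 j u = true) : Good (fa g) T MG M (cP g H) Lt.d u := by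
  unfold dp_d_99 at h
  rcases brec_true h with h | h
  · exact lS_good (T := T) (x := Lt.d) (by decide) hu [Lt.c, Lt.c, Lt.f, Lt.f, Lt.c, Lt.di, Lt.c, Lt.f] (hole_rel hinv hr (by decide +kernel)) h
  · exact dp_d_98_s hinv hr hH j u hu h
theorem dp_d_100_s (hinv : ∀ x, g (inv x) = (g x)⁻¹) (hr : ∀ r ∈ rels, (r.map g).prod = 1) (hH : ∀ r ∈ subs, (r.map g).prod ∈ H)
    (j u : ℕ) (hu : u < M) (h : dp_d_100 j u = true) : Good (fa g) T MG M (cP g H) Lt.d u := by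
  unfold dp_d_100 at h
  rcases brec_true h with h | h
  · exact lF_good (T := T) (x := Lt.d) (by decide) [Lt.b, Lt.f, Lt.bi, Lt.fi, Lt.c, Lt.bi, Lt.f, Lt.d] (hole_rel hinv hr (by decide +kernel)) h
  · exact lS_good (T := T) (x := Lt.d) (by decide) hu [Lt.ci, Lt.di, Lt.c, Lt.f, Lt.bi, Lt.bi, Lt.bi, Lt.f] (hole_rel hinv hr (by decide +kernel)) h
theorem dp_d_101_s (hinv : ∀ x, g (inv x) = (g x)⁻¹) (hr : ∀ r ∈ rels, (r.map g).prod = 1) (hH : ∀ r ∈ subs, (r.map g).prod ∈ H)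
    (j u : ℕ) (hu : u < M) (h : dp_d_101 j u = true) : Good (fa g) T MG M (cP g H) Lt.d u := by
  unfold dp_d_101 at h
  rcases brec_true h with h | h
  · exact lF_good (T := T) (x := Lt.d) (by decide) [Lt.c, Lt.bi, Lt.ci, Lt.b, Lt.b, Lt.di, Lt.f, Lt.b] (hole_rel hinv hr (by decide +kernel)) h
  · exact lF_good (T := T) (x := Lt.d) (by decide) [Lt.ci, Lt.di, Lt.f, Lt.c, Lt.di, Lt.di, Lt.fi, Lt.ci] (hole_rel hinv hr (by decide +kernel)) h
theorem dp_d_102_s (hinv : ∀ x, g (inv x) = (g x)⁻¹) (hr : ∀ r ∈ rels, (r.map g).prod = 1) (hH : ∀ r ∈ subs, (r.map g).prod ∈ H)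
    (j u : ℕ) (hu : u < M) (h : dp_d_102 j u = true) : Good (fa g) T MG M (cP g H) Lt.d u := by
  unfold dp_d_102 at h
  rcases brec_true h with h | h
  · exact dp_d_100_s hinv hr hH j u hu h
  · exact dp_d_101_s hinv hr hH j u hu h
theorem dp_d_103_s (hinv : ∀ x, g (inv x) = (g x)⁻¹) (hr : ∀ r ∈ rels, (r.map g).prod = 1) (hH : ∀ r ∈ subs, (r.map g).prod ∈ H)
    (j u : ℕ) (hu : u < M) (h : dp_d_103 j u = true) : Good (fa g) T MG M (cP g H) Lt.d u := by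
  unfold dp_d_103 at h
  rcases brec_true h with h | h
  · exact dp_d_99_s hinv hr hH j u hu h
  · exact dp_d_102_s hinv hr hH j u hu h
theorem dp_d_104_s (hinv : ∀ x, g (inv x) = (g x)⁻¹) (hr : ∀ r ∈ rels, (r.map g).prod = 1) (hH : ∀ r ∈ subs, (r.map g).prod ∈ H)
    (j u : ℕ) (hu : u < M) (h : dp_d_104 j u = true) : Good (fa g) T MG M (cP g H) Lt.d u := by
  unfold dp_d_104 at h
  rcases brec_true h with h | h
  · exact lS_good (T := T) (x := Lt.d) (by decide) hu [Lt.b, Lt.b, Lt.c, Lt.bi, Lt.bi, Lt.bi, Lt.fi, Lt.ci] (hole_rel hinv hr (by decide +kernel)) h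
  · exact lS_good (T := T) (x := Lt.d) (by decide) hu [Lt.c, Lt.bi, Lt.ci, Lt.b, Lt.b, Lt.di, Lt.f, Lt.b] (hole_rel hinv hr (by decide +kernel)) h
theorem dp_d_105_s (hinv : ∀ x, g (inv x) = (g x)⁻¹) (hr : ∀ r ∈ rels, (r.map g).prod = 1) (hH : ∀ r ∈ subs, (r.map g).prod ∈ H)
    (j u : ℕ) (hu : u < M) (h : dp_d_105 j u = true) : Good (fa g) T MG M (cP g H) Lt.d u := by
  unfold dp_d_105 at h
  rcases brec_true h with h | h
  · exact lS_good (T := T) (x := Lt.d) (by decide) hu [Lt.ci, Lt.di, Lt.f, Lt.c, Lt.di, Lt.di, Lt.fi, Lt.ci] (hole_rel hinv hr (by decide +kernel)) h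
  · exact lF_good (T := T) (x := Lt.d) (by decide) [Lt.f, Lt.c, Lt.d, Lt.c, Lt.bi, Lt.d, Lt.fi, Lt.bi] (hole_rel hinv hr (by decide +kernel)) h
theorem dp_d_106_s (hinv : ∀ x, g (inv x) = (g x)⁻¹) (hr : ∀ r ∈ rels, (r.map g).prod = 1) (hH : ∀ r ∈ subs, (r.map g).prod ∈ H)
    (j u : ℕ) (hu : u < M) (h : dp_d_106 j u = true) : Good (fa g) T MG M (cP g H) Lt.d u := by
  unfold dp_d_106 at h
  rcases brec_true h with h | h
  · exact dp_d_104_s hinv hr hH j u hu h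
  · exact dp_d_105_s hinv hr hH j u hu h
theorem dp_d_107_s (hinv : ∀ x, g (inv x) = (g x)⁻¹) (hr : ∀ r ∈ rels, (r.map g).prod = 1) (hH : ∀ r ∈ subs, (r.map g).prod ∈ H)
    (j u : ℕ) (hu : u < M) (h : dp_d_107 j u = true) : Good (fa g) T MG M (cP g H) Lt.d u := by
  unfold dp_d_107 at h
  rcases brec_true h with h | h
  · exact lF_good (T := T) (x := Lt.d) (by decide) [Lt.b, Lt.b, Lt.c, Lt.bi, Lt.bi, Lt.bi, Lt.fi, Lt.ci] (hole_rel hinv hr (by decide +kernel)) h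
  · exact lF_good (T := T) (x := Lt.d) (by decide) [Lt.f, Lt.ci, Lt.ci, Lt.di, Lt.fi, Lt.c, Lt.d, Lt.f] (hole_rel hinv hr (by decide +kernel)) h
theorem dp_d_108_s (hinv : ∀ x, g (inv x) = (g x)⁻¹) (hr : ∀ r ∈ rels, (r.map g).prod = 1) (hH : ∀ r ∈ subs, (r.map g).prod ∈ H)
    (j u : ℕ) (hu : u < M) (h : dp_d_108 j u = true) : Good (fa g) T MG M (cP g H) Lt.d u := by
  unfold dp_d_108 at h
  rcases brec_true h with h | h
  · exact lS_good (T := T) (x := Lt.d) (by decide) hu [Lt.c, Lt.bi, Lt.d, Lt.c, Lt.di, Lt.b, Lt.ci, Lt.fi] (hole_rel hinv hr (by decide +kernel)) h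
  · exact lF_good (T := T) (x := Lt.d) (by decide) [Lt.f, Lt.d, Lt.f, Lt.ci, Lt.ci, Lt.di, Lt.fi, Lt.c] (hole_rel hinv hr (by decide +kernel)) h
theorem dp_d_109_s (hinv : ∀ x, g (inv x) = (g x)⁻¹) (hr : ∀ r ∈ rels, (r.map g).prod = 1) (hH : ∀ r ∈ subs, (r.map g).prod ∈ H)
    (j u : ℕ) (hu : u < M) (h : dp_d_109 j u = true) : Good (fa g) T MG M (cP g H) Lt.d u := by
  unfold dp_d_109 at h
  rcases brec_true h with h | h
  · exact lF_good (T := T) (x := Lt.d) (by decide) [Lt.c, Lt.di, Lt.c, Lt.f, Lt.d, Lt.d, Lt.ci, Lt.fi] (hole_rel hinv hr (by decide +kernel)) h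
  · exact dp_d_108_s hinv hr hH j u hu h
theorem dp_d_110_s (hinv : ∀ x, g (inv x) = (g x)⁻¹) (hr : ∀ r ∈ rels, (r.map g).prod = 1) (hH : ∀ r ∈ subs, (r.map g).prod ∈ H)
    (j u : ℕ) (hu : u < M) (h : dp_d_110 j u = true) : Good (fa g) T MG M (cP g H) Lt.d u := by
  unfold dp_d_110 at h
  rcases brec_true h with h | h
  · exact dp_d_107_s hinv hr hH j u hu h
  · exact dp_d_109_s hinv hr hH j u hu h
theorem dp_d_111_s (hinv : ∀ x, g (inv x) = (g x)⁻¹) (hr : ∀ r ∈ rels, (r.map g).prod = 1) (hH : ∀ r ∈ subs, (r.map g).prod ∈ H)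
    (j u : ℕ) (hu : u < M) (h : dp_d_111 j u = true) : Good (fa g) T MG M (cP g H) Lt.d u := by
  unfold dp_d_111 at h
  rcases brec_true h with h | h
  · exact dp_d_106_s hinv hr hH j u hu h
  · exact dp_d_110_s hinv hr hH j u hu h
theorem dp_d_112_s (hinv : ∀ x, g (inv x) = (g x)⁻¹) (hr : ∀ r ∈ rels, (r.map g).prod = 1) (hH : ∀ r ∈ subs, (r.map g).prod ∈ H)
    (j u : ℕ) (hu : u < M) (h : dp_d_112 j u = true) : Good (fa g) T MG M (cP g H) Lt.d u := by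
  unfold dp_d_112 at h
  rcases brec_true h with h | h
  · exact dp_d_103_s hinv hr hH j u hu h
  · exact dp_d_111_s hinv hr hH j u hu h
theorem dp_d_113_s (hinv : ∀ x, g (inv x) = (g x)⁻¹) (hr : ∀ r ∈ rels, (r.map g).prod = 1) (hH : ∀ r ∈ subs, (r.map g).prod ∈ H)
    (j u : ℕ) (hu : u < M) (h : dp_d_113 j u = true) : Good (fa g) T MG M (cP g H) Lt.d u := by
  unfold dp_d_113 at h
  rcases brec_true h with h | h
  · exact dp_d_97_s hinv hr hH j u hu h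
  · exact dp_d_112_s hinv hr hH j u hu h
theorem dp_d_114_s (hinv : ∀ x, g (inv x) = (g x)⁻¹) (hr : ∀ r ∈ rels, (r.map g).prod = 1) (hH : ∀ r ∈ subs, (r.map g).prod ∈ H)
    (j u : ℕ) (hu : u < M) (h : dp_d_114 j u = true) : Good (fa g) T MG M (cP g H) Lt.d u := by
  unfold dp_d_114 at h
  rcases brec_true h with h | h
  · exact dp_d_93_s hinv hr hH j u hu h
  · exact dp_d_113_s hinv hr hH j u hu h
theorem dp_d_115_s (hinv : ∀ x, g (inv x) = (g x)⁻¹) (hr : ∀ r ∈ rels, (r.map g).prod = 1) (hH : ∀ r ∈ subs, (r.map g).prod ∈ H)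
    (j u : ℕ) (hu : u < M) (h : dp_d_115 j u = true) : Good (fa g) T MG M (cP g H) Lt.d u := by
  unfold dp_d_115 at h
  rcases brec_true h with h | h
  · exact dp_d_90_s hinv hr hH j u hu h
  · exact dp_d_114_s hinv hr hH j u hu h
theorem dp_d_116_s (hinv : ∀ x, g (inv x) = (g x)⁻¹) (hr : ∀ r ∈ rels, (r.map g).prod = 1) (hH : ∀ r ∈ subs, (r.map g).prod ∈ H)
    (j u : ℕ) (hu : u < M) (h : dp_d_116 j u = true) : Good (fa g) T MG M (cP g H) Lt.d u := by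
  unfold dp_d_116 at h
  rcases brec_true h with h | h
  · exact dp_d_85_s hinv hr hH j u hu h
  · exact dp_d_115_s hinv hr hH j u hu h
theorem dp_d_117_s (hinv : ∀ x, g (inv x) = (g x)⁻¹) (hr : ∀ r ∈ rels, (r.map g).prod = 1) (hH : ∀ r ∈ subs, (r.map g).prod ∈ H)
    (j u : ℕ) (hu : u < M) (h : dp_d_117 j u = true) : Good (fa g) T MG M (cP g H) Lt.d u := by
  unfold dp_d_117 at h
  rcases brec_true h with h | h
  · exact dp_d_76_s hinv hr hH j u hu h
  · exact dp_d_116_s hinv hr hH j u hu h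
theorem dp_d_118_s (hinv : ∀ x, g (inv x) = (g x)⁻¹) (hr : ∀ r ∈ rels, (r.map g).prod = 1) (hH : ∀ r ∈ subs, (r.map g).prod ∈ H)
    (j u : ℕ) (hu : u < M) (h : dp_d_118 j u = true) : Good (fa g) T MG M (cP g H) Lt.d u := by
  unfold dp_d_118 at h
  rcases brec_true h with h | h
  · exact dp_d_60_s hinv hr hH j u hu h
  · exact dp_d_117_s hinv hr hH j u hu h
theorem dp_d_119_s (hinv : ∀ x, g (inv x) = (g x)⁻¹) (hr : ∀ r ∈ rels, (r.map g).prod = 1) (hH : ∀ r ∈ subs, (r.map g).prod ∈ H)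
    (j u : ℕ) (hu : u < M) (h : dp_d_119 j u = true) : Good (fa g) T MG M (cP g H) Lt.d u := by
  unfold dp_d_119 at h
  rcases brec_true h with h | h
  · exact dp_d_34_s hinv hr hH j u hu h
  · exact dp_d_118_s hinv hr hH j u hu h
theorem snd_d (hinv : ∀ x, g (inv x) = (g x)⁻¹) (hr : ∀ r ∈ rels, (r.map g).prod = 1) (hH : ∀ r ∈ subs, (r.map g).prod ∈ H)
    (j u : ℕ) (hu : u < M) (h : disp_d j u = true) : Good (fa g) T MG M (cP g H) Lt.d u := by
  unfold disp_d at h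
  rcases brec_true h with h | h
  · rcases brec_true h with h | h
    · exact lF1_good (T := T) (x := Lt.d) (by decide) .di (hole_rel hinv hr (by decide +kernel)) h
    · exact lDef_good (T := T) (x := Lt.d) (by decide) rfl h
  · rcases brec_true h with h | h
    · rcases brec_true h with h | h
      · exact lPar_good (T := T) (x := Lt.d) (x' := Lt.di) (by decide) rfl (inv_rel hinv _ _ rfl) h
      · rcases brec_true h with h | h
        · exact lS_good (T := T) (x := Lt.d) (by decide) hu [Lt.di] (hole_rel hinv hr (by decide +kernel)) h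
        · exact lF_good (T := T) (x := Lt.d) (by decide) [Lt.fi, Lt.di, Lt.b, Lt.c, Lt.d, Lt.ci, Lt.bi] (hole_rel hinv hr (by decide +kernel)) h
    · exact dp_d_119_s hinv hr hH j u hu h
theorem snc_d (hinv : ∀ x, g (inv x) = (g x)⁻¹) (hr : ∀ r ∈ rels, (r.map g).prod = 1) (hH : ∀ r ∈ subs, (r.map g).prod ∈ H)
    (j u : ℕ) (hu : u < M) (h : chk_d j u = true) : (T Lt.d u < A ∧ Good (fa g) T MG M (cP g H) Lt.d u) ∨ (A ≤ T Lt.d u ∧ MG u < A) := by
  unfold chk_d at h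
  cases hb : Nat.ble A (T_d u) with
  | true => rw [hb] at h; exact Or.inr ⟨le_of_ble hb, le_of_ble h⟩
  | false => rw [hb] at h; exact Or.inl ⟨lt_of_ble_false hb, snd_d hinv hr hH j u hu h⟩
theorem dp_di_0_s (hinv : ∀ x, g (inv x) = (g x)⁻¹) (hr : ∀ r ∈ rels, (r.map g).prod = 1) (hH : ∀ r ∈ subs, (r.map g).prod ∈ H)
    (j u : ℕ) (hu : u < M) (h : dp_di_0 j u = true) : Good (fa g) T MG M (cP g H) Lt.di u := by
  unfold dp_di_0 at h
  rcases brec_true h with h | h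
  · exact lF_good (T := T) (x := Lt.di) (by decide) [Lt.di, Lt.ci, Lt.f, Lt.b, Lt.ci, Lt.fi, Lt.b] (hole_rel hinv hr (by decide +kernel)) h
  · exact lF_good (T := T) (x := Lt.di) (by decide) [Lt.fi, Lt.b, Lt.c, Lt.b, Lt.ci, Lt.bi, Lt.fi] (hole_rel hinv hr (by decide +kernel)) h
theorem dp_di_1_s (hinv : ∀ x, g (inv x) = (g x)⁻¹) (hr : ∀ r ∈ rels, (r.map g).prod = 1) (hH : ∀ r ∈ subs, (r.map g).prod ∈ H)
    (j u : ℕ) (hu : u < M) (h : dp_di_1 j u = true) : Good (fa g) T MG M (cP g H) Lt.di u := by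
  unfold dp_di_1 at h
  rcases brec_true h with h | h
  · exact lF_good (T := T) (x := Lt.di) (by decide) [Lt.b, Lt.c, Lt.d, Lt.ci, Lt.bi, Lt.d, Lt.fi] (hole_rel hinv hr (by decide +kernel)) h
  · exact dp_di_0_s hinv hr hH j u hu h
theorem dp_di_2_s (hinv : ∀ x, g (inv x) = (g x)⁻¹) (hr : ∀ r ∈ rels, (r.map g).prod = 1) (hH : ∀ r ∈ subs, (r.map g).prod ∈ H)
    (j u : ℕ) (hu : u < M) (h : dp_di_2 j u = true) : Good (fa g) T MG M (cP g H) Lt.di u := by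
  unfold dp_di_2 at h
  rcases brec_true h with h | h
  · exact lF_good (T := T) (x := Lt.di) (by decide) [Lt.bi, Lt.c, Lt.b, Lt.d, Lt.ci, Lt.fi, Lt.fi] (hole_rel hinv hr (by decide +kernel)) h
  · exact lS_good (T := T) (x := Lt.di) (by decide) hu [Lt.fi, Lt.b, Lt.c, Lt.b, Lt.ci, Lt.bi, Lt.fi] (hole_rel hinv hr (by decide +kernel)) h
theorem dp_di_3_s (hinv : ∀ x, g (inv x) = (g x)⁻¹) (hr : ∀ r ∈ rels, (r.map g).prod = 1) (hH : ∀ r ∈ subs, (r.map g).prod ∈ H)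
    (j u : ℕ) (hu : u < M) (h : dp_di_3 j u = true) : Good (fa g) T MG M (cP g H) Lt.di u := by
  unfold dp_di_3 at h
  rcases brec_true h with h | h
  · exact lF_good (T := T) (x := Lt.di) (by decide) [Lt.f, Lt.ei, Lt.f, Lt.e, Lt.fi, Lt.ei, Lt.f, Lt.c] (hole_rel hinv hr (by decide +kernel)) h
  · exact dp_di_2_s hinv hr hH j u hu h
theorem dp_di_4_s (hinv : ∀ x, g (inv x) = (g x)⁻¹) (hr : ∀ r ∈ rels, (r.map g).prod = 1) (hH : ∀ r ∈ subs, (r.map g).prod ∈ H)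
    (j u : ℕ) (hu : u < M) (h : dp_di_4 j u = true) : Good (fa g) T MG M (cP g H) Lt.di u := by
  unfold dp_di_4 at h
  rcases brec_true h with h | h
  · exact dp_di_1_s hinv hr hH j u hu h
  · exact dp_di_3_s hinv hr hH j u hu h
theorem dp_di_5_s (hinv : ∀ x, g (inv x) = (g x)⁻¹) (hr : ∀ r ∈ rels, (r.map g).prod = 1) (hH : ∀ r ∈ subs, (r.map g).prod ∈ H)
    (j u : ℕ) (hu : u < M) (h : dp_di_5 j u = true) : Good (fa g) T MG M (cP g H) Lt.di u := by
  unfold dp_di_5 at h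
  rcases brec_true h with h | h
  · exact lS_good (T := T) (x := Lt.di) (by decide) hu [Lt.bi, Lt.c, Lt.b, Lt.d, Lt.ci, Lt.fi, Lt.fi] (hole_rel hinv hr (by decide +kernel)) h
  · exact lF_good (T := T) (x := Lt.di) (by decide) [Lt.ci, Lt.bi, Lt.f, Lt.ci, Lt.d, Lt.b, Lt.ci] (hole_rel hinv hr (by decide +kernel)) h
theorem dp_di_6_s (hinv : ∀ x, g (inv x) = (g x)⁻¹) (hr : ∀ r ∈ rels, (r.map g).prod = 1) (hH : ∀ r ∈ subs, (r.map g).prod ∈ H)
    (j u : ℕ) (hu : u < M) (h : dp_di_6 j u = true) : Good (fa g) T MG M (cP g H) Lt.di u := by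
  unfold dp_di_6 at h
  rcases brec_true h with h | h
  · exact lF_good (T := T) (x := Lt.di) (by decide) [Lt.ci, Lt.d, Lt.ci, Lt.bi, Lt.d, Lt.ci, Lt.b] (hole_rel hinv hr (by decide +kernel)) h
  · exact lF_good (T := T) (x := Lt.di) (by decide) [Lt.b, Lt.c, Lt.di, Lt.ci, Lt.bi, Lt.d, Lt.f] (hole_rel hinv hr (by decide +kernel)) h
theorem dp_di_7_s (hinv : ∀ x, g (inv x) = (g x)⁻¹) (hr : ∀ r ∈ rels, (r.map g).prod = 1) (hH : ∀ r ∈ subs, (r.map g).prod ∈ H)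
    (j u : ℕ) (hu : u < M) (h : dp_di_7 j u = true) : Good (fa g) T MG M (cP g H) Lt.di u := by
  unfold dp_di_7 at h
  rcases brec_true h with h | h
  · exact dp_di_5_s hinv hr hH j u hu h
  · exact dp_di_6_s hinv hr hH j u hu h
theorem dp_di_8_s (hinv : ∀ x, g (inv x) = (g x)⁻¹) (hr : ∀ r ∈ rels, (r.map g).prod = 1) (hH : ∀ r ∈ subs, (r.map g).prod ∈ H)
    (j u : ℕ) (hu : u < M) (h : dp_di_8 j u = true) : Good (fa g) T MG M (cP g H) Lt.di u := by
  unfold dp_di_8 at h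
  rcases brec_true h with h | h
  · exact lF_good (T := T) (x := Lt.di) (by decide) [Lt.ci, Lt.bi, Lt.d, Lt.f, Lt.di, Lt.b, Lt.c] (hole_rel hinv hr (by decide +kernel)) h
  · exact lS_good (T := T) (x := Lt.di) (by decide) hu [Lt.ci, Lt.bi, Lt.d, Lt.f, Lt.di, Lt.b, Lt.c] (hole_rel hinv hr (by decide +kernel)) h
theorem dp_di_9_s (hinv : ∀ x, g (inv x) = (g x)⁻¹) (hr : ∀ r ∈ rels, (r.map g).prod = 1) (hH : ∀ r ∈ subs, (r.map g).prod ∈ H)
    (j u : ℕ) (hu : u < M) (h : dp_di_9 j u = true) : Good (fa g) T MG M (cP g H) Lt.di u := by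
  unfold dp_di_9 at h
  rcases brec_true h with h | h
  · exact lS_good (T := T) (x := Lt.di) (by decide) hu [Lt.f, Lt.f, Lt.e, Lt.fi, Lt.ei, Lt.f, Lt.e, Lt.c] (hole_rel hinv hr (by decide +kernel)) h
  · exact lF_good (T := T) (x := Lt.di) (by decide) [Lt.di, Lt.f, Lt.b, Lt.c, Lt.b, Lt.ci, Lt.bi] (hole_rel hinv hr (by decide +kernel)) h
theorem dp_di_10_s (hinv : ∀ x, g (inv x) = (g x)⁻¹) (hr : ∀ r ∈ rels, (r.map g).prod = 1) (hH : ∀ r ∈ subs, (r.map g).prod ∈ H)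
    (j u : ℕ) (hu : u < M) (h : dp_di_10 j u = true) : Good (fa g) T MG M (cP g H) Lt.di u := by
  unfold dp_di_10 at h
  rcases brec_true h with h | h
  · exact dp_di_8_s hinv hr hH j u hu h
  · exact dp_di_9_s hinv hr hH j u hu h
theorem dp_di_11_s (hinv : ∀ x, g (inv x) = (g x)⁻¹) (hr : ∀ r ∈ rels, (r.map g).prod = 1) (hH : ∀ r ∈ subs, (r.map g).prod ∈ H)
    (j u : ℕ) (hu : u < M) (h : dp_di_11 j u = true) : Good (fa g) T MG M (cP g H) Lt.di u := by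
  unfold dp_di_11 at h
  rcases brec_true h with h | h
  · exact dp_di_7_s hinv hr hH j u hu h
  · exact dp_di_10_s hinv hr hH j u hu h
theorem dp_di_12_s (hinv : ∀ x, g (inv x) = (g x)⁻¹) (hr : ∀ r ∈ rels, (r.map g).prod = 1) (hH : ∀ r ∈ subs, (r.map g).prod ∈ H)
    (j u : ℕ) (hu : u < M) (h : dp_di_12 j u = true) : Good (fa g) T MG M (cP g H) Lt.di u := by
  unfold dp_di_12 at h
  rcases brec_true h with h | h
  · exact dp_di_4_s hinv hr hH j u hu h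
  · exact dp_di_11_s hinv hr hH j u hu h
theorem dp_di_13_s (hinv : ∀ x, g (inv x) = (g x)⁻¹) (hr : ∀ r ∈ rels, (r.map g).prod = 1) (hH : ∀ r ∈ subs, (r.map g).prod ∈ H)
    (j u : ℕ) (hu : u < M) (h : dp_di_13 j u = true) : Good (fa g) T MG M (cP g H) Lt.di u := by
  unfold dp_di_13 at h
  rcases brec_true h with h | h
  · exact lF_good (T := T) (x := Lt.di) (by decide) [Lt.f, Lt.bi, Lt.c, Lt.fi, Lt.di, Lt.ci, Lt.b] (hole_rel hinv hr (by decide +kernel)) h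
  · exact lS_good (T := T) (x := Lt.di) (by decide) hu [Lt.bi, Lt.di, Lt.di, Lt.b, Lt.di, Lt.di, Lt.b] (hole_rel hinv hr (by decide +kernel)) h
theorem dp_di_14_s (hinv : ∀ x, g (inv x) = (g x)⁻¹) (hr : ∀ r ∈ rels, (r.map g).prod = 1) (hH : ∀ r ∈ subs, (r.map g).prod ∈ H)
    (j u : ℕ) (hu : u < M) (h : dp_di_14 j u = true) : Good (fa g) T MG M (cP g H) Lt.di u := by
  unfold dp_di_14 at h
  rcases brec_true h with h | h
  · exact lS_good (T := T) (x := Lt.di) (by decide) hu [Lt.c, Lt.c, Lt.bi, Lt.c, Lt.b, Lt.ci, Lt.ci] (hole_rel hinv hr (by decide +kernel)) h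
  · exact lS_good (T := T) (x := Lt.di) (by decide) hu [Lt.b, Lt.ci, Lt.d, Lt.b, Lt.f, Lt.ci, Lt.f] (hole_rel hinv hr (by decide +kernel)) h
theorem dp_di_15_s (hinv : ∀ x, g (inv x) = (g x)⁻¹) (hr : ∀ r ∈ rels, (r.map g).prod = 1) (hH : ∀ r ∈ subs, (r.map g).prod ∈ H)
    (j u : ℕ) (hu : u < M) (h : dp_di_15 j u = true) : Good (fa g) T MG M (cP g H) Lt.di u := by
  unfold dp_di_15 at h
  rcases brec_true h with h | h
  · exact lS_good (T := T) (x := Lt.di) (by decide) hu [Lt.b, Lt.c, Lt.d, Lt.ci, Lt.bi, Lt.d, Lt.fi] (hole_rel hinv hr (by decide +kernel)) h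
  · exact dp_di_14_s hinv hr hH j u hu h
theorem dp_di_16_s (hinv : ∀ x, g (inv x) = (g x)⁻¹) (hr : ∀ r ∈ rels, (r.map g).prod = 1) (hH : ∀ r ∈ subs, (r.map g).prod ∈ H)
    (j u : ℕ) (hu : u < M) (h : dp_di_16 j u = true) : Good (fa g) T MG M (cP g H) Lt.di u := by
  unfold dp_di_16 at h
  rcases brec_true h with h | h
  · exact dp_di_13_s hinv hr hH j u hu h
  · exact dp_di_15_s hinv hr hH j u hu h
theorem dp_di_17_s (hinv : ∀ x, g (inv x) = (g x)⁻¹) (hr : ∀ r ∈ rels, (r.map g).prod = 1) (hH : ∀ r ∈ subs, (r.map g).prod ∈ H)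
    (j u : ℕ) (hu : u < M) (h : dp_di_17 j u = true) : Good (fa g) T MG M (cP g H) Lt.di u := by
  unfold dp_di_17 at h
  rcases brec_true h with h | h
  · exact lS_good (T := T) (x := Lt.di) (by decide) hu [Lt.c, Lt.b, Lt.ci, Lt.di, Lt.c, Lt.b, Lt.ci] (hole_rel hinv hr (by decide +kernel)) h
  · exact lS_good (T := T) (x := Lt.di) (by decide) hu [Lt.di, Lt.ci, Lt.f, Lt.b, Lt.ci, Lt.fi, Lt.b] (hole_rel hinv hr (by decide +kernel)) h
theorem dp_di_18_s (hinv : ∀ x, g (inv x) = (g x)⁻¹) (hr : ∀ r ∈ rels, (r.map g).prod = 1) (hH : ∀ r ∈ subs, (r.map g).prod ∈ H)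
    (j u : ℕ) (hu : u < M) (h : dp_di_18 j u = true) : Good (fa g) T MG M (cP g H) Lt.di u := by
  unfold dp_di_18 at h
  rcases brec_true h with h | h
  · exact lS_good (T := T) (x := Lt.di) (by decide) hu [Lt.ci, Lt.d, Lt.ci, Lt.bi, Lt.d, Lt.ci, Lt.b] (hole_rel hinv hr (by decide +kernel)) h
  · exact lS_good (T := T) (x := Lt.di) (by decide) hu [Lt.ci, Lt.b, Lt.di, Lt.f, Lt.bi, Lt.c, Lt.fi] (hole_rel hinv hr (by decide +kernel)) h
theorem dp_di_19_s (hinv : ∀ x, g (inv x) = (g x)⁻¹) (hr : ∀ r ∈ rels, (r.map g).prod = 1) (hH : ∀ r ∈ subs, (r.map g).prod ∈ H)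
    (j u : ℕ) (hu : u < M) (h : dp_di_19 j u = true) : Good (fa g) T MG M (cP g H) Lt.di u := by
  unfold dp_di_19 at h
  rcases brec_true h with h | h
  · exact lF_good (T := T) (x := Lt.di) (by decide) [Lt.f, Lt.bi, Lt.di, Lt.di, Lt.fi, Lt.bi, Lt.ci] (hole_rel hinv hr (by decide +kernel)) h
  · exact dp_di_18_s hinv hr hH j u hu h
theorem dp_di_20_s (hinv : ∀ x, g (inv x) = (g x)⁻¹) (hr : ∀ r ∈ rels, (r.map g).prod = 1) (hH : ∀ r ∈ subs, (r.map g).prod ∈ H)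
    (j u : ℕ) (hu : u < M) (h : dp_di_20 j u = true) : Good (fa g) T MG M (cP g H) Lt.di u := by
  unfold dp_di_20 at h
  rcases brec_true h with h | h
  · exact dp_di_17_s hinv hr hH j u hu h
  · exact dp_di_19_s hinv hr hH j u hu h
theorem dp_di_21_s (hinv : ∀ x, g (inv x) = (g x)⁻¹) (hr : ∀ r ∈ rels, (r.map g).prod = 1) (hH : ∀ r ∈ subs, (r.map g).prod ∈ H)
    (j u : ℕ) (hu : u < M) (h : dp_di_21 j u = true) : Good (fa g) T MG M (cP g H) Lt.di u := by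
  unfold dp_di_21 at h
  rcases brec_true h with h | h
  · exact dp_di_16_s hinv hr hH j u hu h
  · exact dp_di_20_s hinv hr hH j u hu h
theorem dp_di_22_s (hinv : ∀ x, g (inv x) = (g x)⁻¹) (hr : ∀ r ∈ rels, (r.map g).prod = 1) (hH : ∀ r ∈ subs, (r.map g).prod ∈ H)
    (j u : ℕ) (hu : u < M) (h : dp_di_22 j u = true) : Good (fa g) T MG M (cP g H) Lt.di u := by
  unfold dp_di_22 at h
  rcases brec_true h with h | h
  · exact lS_good (T := T) (x := Lt.di) (by decide) hu [Lt.c, Lt.fi, Lt.b, Lt.c, Lt.d, Lt.c, Lt.bi] (hole_rel hinv hr (by decide +kernel)) h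
  · exact lS_good (T := T) (x := Lt.di) (by decide) hu [Lt.ci, Lt.f, Lt.b, Lt.ci, Lt.fi, Lt.b, Lt.di] (hole_rel hinv hr (by decide +kernel)) h
theorem dp_di_23_s (hinv : ∀ x, g (inv x) = (g x)⁻¹) (hr : ∀ r ∈ rels, (r.map g).prod = 1) (hH : ∀ r ∈ subs, (r.map g).prod ∈ H)
    (j u : ℕ) (hu : u < M) (h : dp_di_23 j u = true) : Good (fa g) T MG M (cP g H) Lt.di u := by
  unfold dp_di_23 at h
  rcases brec_true h with h | h
  · exact lS_good (T := T) (x := Lt.di) (by decide) hu [Lt.di, Lt.f, Lt.b, Lt.c, Lt.b, Lt.ci, Lt.bi] (hole_rel hinv hr (by decide +kernel)) h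
  · exact lF_good (T := T) (x := Lt.di) (by decide) [Lt.ci, Lt.ci, Lt.bi, Lt.ci, Lt.b, Lt.di, Lt.f] (hole_rel hinv hr (by decide +kernel)) h
theorem dp_di_24_s (hinv : ∀ x, g (inv x) = (g x)⁻¹) (hr : ∀ r ∈ rels, (r.map g).prod = 1) (hH : ∀ r ∈ subs, (r.map g).prod ∈ H)
    (j u : ℕ) (hu : u < M) (h : dp_di_24 j u = true) : Good (fa g) T MG M (cP g H) Lt.di u := by
  unfold dp_di_24 at h
  rcases brec_true h with h | h
  · exact lF_good (T := T) (x := Lt.di) (by decide) [Lt.fi, Lt.c, Lt.di, Lt.di, Lt.fi, Lt.c, Lt.di] (hole_rel hinv hr (by decide +kernel)) h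
  · exact dp_di_23_s hinv hr hH j u hu h
theorem dp_di_25_s (hinv : ∀ x, g (inv x) = (g x)⁻¹) (hr : ∀ r ∈ rels, (r.map g).prod = 1) (hH : ∀ r ∈ subs, (r.map g).prod ∈ H)
    (j u : ℕ) (hu : u < M) (h : dp_di_25 j u = true) : Good (fa g) T MG M (cP g H) Lt.di u := by
  unfold dp_di_25 at h
  rcases brec_true h with h | h
  · exact dp_di_22_s hinv hr hH j u hu h
  · exact dp_di_24_s hinv hr hH j u hu h
theorem dp_di_26_s (hinv : ∀ x, g (inv x) = (g x)⁻¹) (hr : ∀ r ∈ rels, (r.map g).prod = 1) (hH : ∀ r ∈ subs, (r.map g).prod ∈ H)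
    (j u : ℕ) (hu : u < M) (h : dp_di_26 j u = true) : Good (fa g) T MG M (cP g H) Lt.di u := by
  unfold dp_di_26 at h
  rcases brec_true h with h | h
  · exact lF_good (T := T) (x := Lt.di) (by decide) [Lt.c, Lt.d, Lt.bi, Lt.c, Lt.di, Lt.b, Lt.c] (hole_rel hinv hr (by decide +kernel)) h
  · exact lF_good (T := T) (x := Lt.di) (by decide) [Lt.c, Lt.c, Lt.bi, Lt.c, Lt.b, Lt.ci, Lt.ci] (hole_rel hinv hr (by decide +kernel)) h
theorem dp_di_27_s (hinv : ∀ x, g (inv x) = (g x)⁻¹) (hr : ∀ r ∈ rels, (r.map g).prod = 1) (hH : ∀ r ∈ subs, (r.map g).prod ∈ H)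
    (j u : ℕ) (hu : u < M) (h : dp_di_27 j u = true) : Good (fa g) T MG M (cP g H) Lt.di u := by
  unfold dp_di_27 at h
  rcases brec_true h with h | h
  · exact lF_good (T := T) (x := Lt.di) (by decide) [Lt.c, Lt.fi, Lt.bi, Lt.bi, Lt.f, Lt.b, Lt.f] (hole_rel hinv hr (by decide +kernel)) h
  · exact dp_di_26_s hinv hr hH j u hu h
theorem dp_di_28_s (hinv : ∀ x, g (inv x) = (g x)⁻¹) (hr : ∀ r ∈ rels, (r.map g).prod = 1) (hH : ∀ r ∈ subs, (r.map g).prod ∈ H)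
    (j u : ℕ) (hu : u < M) (h : dp_di_28 j u = true) : Good (fa g) T MG M (cP g H) Lt.di u := by
  unfold dp_di_28 at h
  rcases brec_true h with h | h
  · exact lS_good (T := T) (x := Lt.di) (by decide) hu [Lt.di, Lt.fi, Lt.bi, Lt.ci, Lt.di, Lt.f, Lt.bi] (hole_rel hinv hr (by decide +kernel)) h
  · exact lS_good (T := T) (x := Lt.di) (by decide) hu [Lt.f, Lt.b, Lt.c, Lt.b, Lt.ci, Lt.bi, Lt.di] (hole_rel hinv hr (by decide +kernel)) h
theorem dp_di_29_s (hinv : ∀ x, g (inv x) = (g x)⁻¹) (hr : ∀ r ∈ rels, (r.map g).prod = 1) (hH : ∀ r ∈ subs, (r.map g).prod ∈ H)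
    (j u : ℕ) (hu : u < M) (h : dp_di_29 j u = true) : Good (fa g) T MG M (cP g H) Lt.di u := by
  unfold dp_di_29 at h
  rcases brec_true h with h | h
  · exact lS_good (T := T) (x := Lt.di) (by decide) hu [Lt.c, Lt.d, Lt.bi, Lt.c, Lt.di, Lt.b, Lt.c] (hole_rel hinv hr (by decide +kernel)) h
  · exact dp_di_28_s hinv hr hH j u hu h
theorem dp_di_30_s (hinv : ∀ x, g (inv x) = (g x)⁻¹) (hr : ∀ r ∈ rels, (r.map g).prod = 1) (hH : ∀ r ∈ subs, (r.map g).prod ∈ H)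
    (j u : ℕ) (hu : u < M) (h : dp_di_30 j u = true) : Good (fa g) T MG M (cP g H) Lt.di u := by
  unfold dp_di_30 at h
  rcases brec_true h with h | h
  · exact dp_di_27_s hinv hr hH j u hu h
  · exact dp_di_29_s hinv hr hH j u hu h
theorem dp_di_31_s (hinv : ∀ x, g (inv x) = (g x)⁻¹) (hr : ∀ r ∈ rels, (r.map g).prod = 1) (hH : ∀ r ∈ subs, (r.map g).prod ∈ H)
    (j u : ℕ) (hu : u < M) (h : dp_di_31 j u = true) : Good (fa g) T MG M (cP g H) Lt.di u := by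
  unfold dp_di_31 at h
  rcases brec_true h with h | h
  · exact dp_di_25_s hinv hr hH j u hu h
  · exact dp_di_30_s hinv hr hH j u hu h
theorem dp_di_32_s (hinv : ∀ x, g (inv x) = (g x)⁻¹) (hr : ∀ r ∈ rels, (r.map g).prod = 1) (hH : ∀ r ∈ subs, (r.map g).prod ∈ H)
    (j u : ℕ) (hu : u < M) (h : dp_di_32 j u = true) : Good (fa g) T MG M (cP g H) Lt.di u := by
  unfold dp_di_32 at h
  rcases brec_true h with h | h
  · exact dp_di_21_s hinv hr hH j u hu h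
  · exact dp_di_31_s hinv hr hH j u hu h
theorem dp_di_33_s (hinv : ∀ x, g (inv x) = (g x)⁻¹) (hr : ∀ r ∈ rels, (r.map g).prod = 1) (hH : ∀ r ∈ subs, (r.map g).prod ∈ H)
    (j u : ℕ) (hu : u < M) (h : dp_di_33 j u = true) : Good (fa g) T MG M (cP g H) Lt.di u := by
  unfold dp_di_33 at h
  rcases brec_true h with h | h
  · exact dp_di_12_s hinv hr hH j u hu h
  · exact dp_di_32_s hinv hr hH j u hu h
theorem dp_di_34_s (hinv : ∀ x, g (inv x) = (g x)⁻¹) (hr : ∀ r ∈ rels, (r.map g).prod = 1) (hH : ∀ r ∈ subs, (r.map g).prod ∈ H)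
    (j u : ℕ) (hu : u < M) (h : dp_di_34 j u = true) : Good (fa g) T MG M (cP g H) Lt.di u := by
  unfold dp_di_34 at h
  rcases brec_true h with h | h
  · exact lS_good (T := T) (x := Lt.di) (by decide) hu [Lt.f, Lt.bi, Lt.di, Lt.di, Lt.fi, Lt.bi, Lt.ci] (hole_rel hinv hr (by decide +kernel)) h
  · exact lS_good (T := T) (x := Lt.di) (by decide) hu [Lt.c, Lt.fi, Lt.bi, Lt.bi, Lt.f, Lt.b, Lt.f] (hole_rel hinv hr (by decide +kernel)) h
theorem dp_di_35_s (hinv : ∀ x, g (inv x) = (g x)⁻¹) (hr : ∀ r ∈ rels, (r.map g).prod = 1) (hH : ∀ r ∈ subs, (r.map g).prod ∈ H)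
    (j u : ℕ) (hu : u < M) (h : dp_di_35 j u = true) : Good (fa g) T MG M (cP g H) Lt.di u := by
  unfold dp_di_35 at h
  rcases brec_true h with h | h
  · exact lS_good (T := T) (x := Lt.di) (by decide) hu [Lt.bi, Lt.c, Lt.c, Lt.di, Lt.bi, Lt.c, Lt.c] (hole_rel hinv hr (by decide +kernel)) h
  · exact dp_di_34_s hinv hr hH j u hu h
theorem dp_di_36_s (hinv : ∀ x, g (inv x) = (g x)⁻¹) (hr : ∀ r ∈ rels, (r.map g).prod = 1) (hH : ∀ r ∈ subs, (r.map g).prod ∈ H)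
    (j u : ℕ) (hu : u < M) (h : dp_di_36 j u = true) : Good (fa g) T MG M (cP g H) Lt.di u := by
  unfold dp_di_36 at h
  rcases brec_true h with h | h
  · exact lS_good (T := T) (x := Lt.di) (by decide) hu [Lt.f, Lt.bi, Lt.c, Lt.fi, Lt.di, Lt.ci, Lt.b] (hole_rel hinv hr (by decide +kernel)) h
  · exact lS_good (T := T) (x := Lt.di) (by decide) hu [Lt.b, Lt.c, Lt.di, Lt.ci, Lt.bi, Lt.d, Lt.f] (hole_rel hinv hr (by decide +kernel)) h
theorem dp_di_37_s (hinv : ∀ x, g (inv x) = (g x)⁻¹) (hr : ∀ r ∈ rels, (r.map g).prod = 1) (hH : ∀ r ∈ subs, (r.map g).prod ∈ H)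
    (j u : ℕ) (hu : u < M) (h : dp_di_37 j u = true) : Good (fa g) T MG M (cP g H) Lt.di u := by
  unfold dp_di_37 at h
  rcases brec_true h with h | h
  · exact lF_good (T := T) (x := Lt.di) (by decide) [Lt.b, Lt.f, Lt.c, Lt.di, Lt.b, Lt.f, Lt.c] (hole_rel hinv hr (by decide +kernel)) h
  · exact dp_di_36_s hinv hr hH j u hu h
theorem dp_di_38_s (hinv : ∀ x, g (inv x) = (g x)⁻¹) (hr : ∀ r ∈ rels, (r.map g).prod = 1) (hH : ∀ r ∈ subs, (r.map g).prod ∈ H)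
    (j u : ℕ) (hu : u < M) (h : dp_di_38 j u = true) : Good (fa g) T MG M (cP g H) Lt.di u := by
  unfold dp_di_38 at h
  rcases brec_true h with h | h
  · exact dp_di_35_s hinv hr hH j u hu h
  · exact dp_di_37_s hinv hr hH j u hu h
theorem dp_di_39_s (hinv : ∀ x, g (inv x) = (g x)⁻¹) (hr : ∀ r ∈ rels, (r.map g).prod = 1) (hH : ∀ r ∈ subs, (r.map g).prod ∈ H)
    (j u : ℕ) (hu : u < M) (h : dp_di_39 j u = true) : Good (fa g) T MG M (cP g H) Lt.di u := by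
  unfold dp_di_39 at h
  rcases brec_true h with h | h
  · exact lF_good (T := T) (x := Lt.di) (by decide) [Lt.fi, Lt.di, Lt.di, Lt.f, Lt.di, Lt.f, Lt.f] (hole_rel hinv hr (by decide +kernel)) h
  · exact lS_good (T := T) (x := Lt.di) (by decide) hu [Lt.di, Lt.fi, Lt.c, Lt.di, Lt.di, Lt.fi, Lt.c] (hole_rel hinv hr (by decide +kernel)) h
theorem dp_di_40_s (hinv : ∀ x, g (inv x) = (g x)⁻¹) (hr : ∀ r ∈ rels, (r.map g).prod = 1) (hH : ∀ r ∈ subs, (r.map g).prod ∈ H)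
    (j u : ℕ) (hu : u < M) (h : dp_di_40 j u = true) : Good (fa g) T MG M (cP g H) Lt.di u := by
  unfold dp_di_40 at h
  rcases brec_true h with h | h
  · exact lS_good (T := T) (x := Lt.di) (by decide) hu [Lt.ci, Lt.ci, Lt.bi, Lt.ci, Lt.b, Lt.di, Lt.f] (hole_rel hinv hr (by decide +kernel)) h
  · exact dp_di_39_s hinv hr hH j u hu h
theorem dp_di_41_s (hinv : ∀ x, g (inv x) = (g x)⁻¹) (hr : ∀ r ∈ rels, (r.map g).prod = 1) (hH : ∀ r ∈ subs, (r.map g).prod ∈ H)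
    (j u : ℕ) (hu : u < M) (h : dp_di_41 j u = true) : Good (fa g) T MG M (cP g H) Lt.di u := by
  unfold dp_di_41 at h
  rcases brec_true h with h | h
  · exact lF_good (T := T) (x := Lt.di) (by decide) [Lt.f, Lt.c, Lt.b, Lt.c, Lt.d, Lt.f, Lt.b] (hole_rel hinv hr (by decide +kernel)) h
  · exact lS_good (T := T) (x := Lt.di) (by decide) hu [Lt.f, Lt.c, Lt.b, Lt.c, Lt.d, Lt.f, Lt.b] (hole_rel hinv hr (by decide +kernel)) h
theorem dp_di_42_s (hinv : ∀ x, g (inv x) = (g x)⁻¹) (hr : ∀ r ∈ rels, (r.map g).prod = 1) (hH : ∀ r ∈ subs, (r.map g).prod ∈ H)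
    (j u : ℕ) (hu : u < M) (h : dp_di_42 j u = true) : Good (fa g) T MG M (cP g H) Lt.di u := by
  unfold dp_di_42 at h
  rcases brec_true h with h | h
  · exact lF_good (T := T) (x := Lt.di) (by decide) [Lt.b, Lt.c, Lt.di, Lt.c, Lt.d, Lt.bi, Lt.c] (hole_rel hinv hr (by decide +kernel)) h
  · exact dp_di_41_s hinv hr hH j u hu h
theorem dp_di_43_s (hinv : ∀ x, g (inv x) = (g x)⁻¹) (hr : ∀ r ∈ rels, (r.map g).prod = 1) (hH : ∀ r ∈ subs, (r.map g).prod ∈ H)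
    (j u : ℕ) (hu : u < M) (h : dp_di_43 j u = true) : Good (fa g) T MG M (cP g H) Lt.di u := by
  unfold dp_di_43 at h
  rcases brec_true h with h | h
  · exact dp_di_40_s hinv hr hH j u hu h
  · exact dp_di_42_s hinv hr hH j u hu h
theorem dp_di_44_s (hinv : ∀ x, g (inv x) = (g x)⁻¹) (hr : ∀ r ∈ rels, (r.map g).prod = 1) (hH : ∀ r ∈ subs, (r.map g).prod ∈ H)
    (j u : ℕ) (hu : u < M) (h : dp_di_44 j u = true) : Good (fa g) T MG M (cP g H) Lt.di u := by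
  unfold dp_di_44 at h
  rcases brec_true h with h | h
  · exact dp_di_38_s hinv hr hH j u hu h
  · exact dp_di_43_s hinv hr hH j u hu h
theorem dp_di_45_s (hinv : ∀ x, g (inv x) = (g x)⁻¹) (hr : ∀ r ∈ rels, (r.map g).prod = 1) (hH : ∀ r ∈ subs, (r.map g).prod ∈ H)
    (j u : ℕ) (hu : u < M) (h : dp_di_45 j u = true) : Good (fa g) T MG M (cP g H) Lt.di u := by
  unfold dp_di_45 at h
  rcases brec_true h with h | h
  · exact lS_good (T := T) (x := Lt.di) (by decide) hu [Lt.f, Lt.ei, Lt.f, Lt.e, Lt.fi, Lt.ei, Lt.f, Lt.c] (hole_rel hinv hr (by decide +kernel)) h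
  · exact lF_good (T := T) (x := Lt.di) (by decide) [Lt.ci, Lt.bi, Lt.di, Lt.fi, Lt.b, Lt.c, Lt.bi] (hole_rel hinv hr (by decide +kernel)) h
theorem dp_di_46_s (hinv : ∀ x, g (inv x) = (g x)⁻¹) (hr : ∀ r ∈ rels, (r.map g).prod = 1) (hH : ∀ r ∈ subs, (r.map g).prod ∈ H)
    (j u : ℕ) (hu : u < M) (h : dp_di_46 j u = true) : Good (fa g) T MG M (cP g H) Lt.di u := by
  unfold dp_di_46 at h
  rcases brec_true h with h | h
  · exact lS_good (T := T) (x := Lt.di) (by decide) hu [Lt.b, Lt.c, Lt.di, Lt.c, Lt.d, Lt.bi, Lt.c] (hole_rel hinv hr (by decide +kernel)) h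
  · exact dp_di_45_s hinv hr hH j u hu h
theorem dp_di_47_s (hinv : ∀ x, g (inv x) = (g x)⁻¹) (hr : ∀ r ∈ rels, (r.map g).prod = 1) (hH : ∀ r ∈ subs, (r.map g).prod ∈ H)
    (j u : ℕ) (hu : u < M) (h : dp_di_47 j u = true) : Good (fa g) T MG M (cP g H) Lt.di u := by
  unfold dp_di_47 at h
  rcases brec_true h with h | h
  · exact lF_good (T := T) (x := Lt.di) (by decide) [Lt.ci, Lt.b, Lt.di, Lt.f, Lt.bi, Lt.c, Lt.fi] (hole_rel hinv hr (by decide +kernel)) h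
  · exact lF_good (T := T) (x := Lt.di) (by decide) [Lt.bi, Lt.ci, Lt.b, Lt.d, Lt.f, Lt.f, Lt.c] (hole_rel hinv hr (by decide +kernel)) h
theorem dp_di_48_s (hinv : ∀ x, g (inv x) = (g x)⁻¹) (hr : ∀ r ∈ rels, (r.map g).prod = 1) (hH : ∀ r ∈ subs, (r.map g).prod ∈ H)
    (j u : ℕ) (hu : u < M) (h : dp_di_48 j u = true) : Good (fa g) T MG M (cP g H) Lt.di u := by
  unfold dp_di_48 at h
  rcases brec_true h with h | h
  · exact lS_good (T := T) (x := Lt.di) (by decide) hu [Lt.b, Lt.di, Lt.di, Lt.b, Lt.di, Lt.bi, Lt.di] (hole_rel hinv hr (by decide +kernel)) h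
  · exact lS_good (T := T) (x := Lt.di) (by decide) hu [Lt.bi, Lt.ci, Lt.b, Lt.d, Lt.f, Lt.f, Lt.c] (hole_rel hinv hr (by decide +kernel)) h
theorem dp_di_49_s (hinv : ∀ x, g (inv x) = (g x)⁻¹) (hr : ∀ r ∈ rels, (r.map g).prod = 1) (hH : ∀ r ∈ subs, (r.map g).prod ∈ H)
    (j u : ℕ) (hu : u < M) (h : dp_di_49 j u = true) : Good (fa g) T MG M (cP g H) Lt.di u := by
  unfold dp_di_49 at h
  rcases brec_true h with h | h
  · exact dp_di_47_s hinv hr hH j u hu h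
  · exact dp_di_48_s hinv hr hH j u hu h
theorem dp_di_50_s (hinv : ∀ x, g (inv x) = (g x)⁻¹) (hr : ∀ r ∈ rels, (r.map g).prod = 1) (hH : ∀ r ∈ subs, (r.map g).prod ∈ H)
    (j u : ℕ) (hu : u < M) (h : dp_di_50 j u = true) : Good (fa g) T MG M (cP g H) Lt.di u := by
  unfold dp_di_50 at h
  rcases brec_true h with h | h
  · exact dp_di_46_s hinv hr hH j u hu h
  · exact dp_di_49_s hinv hr hH j u hu h
theorem dp_di_51_s (hinv : ∀ x, g (inv x) = (g x)⁻¹) (hr : ∀ r ∈ rels, (r.map g).prod = 1) (hH : ∀ r ∈ subs, (r.map g).prod ∈ H)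
    (j u : ℕ) (hu : u < M) (h : dp_di_51 j u = true) : Good (fa g) T MG M (cP g H) Lt.di u := by
  unfold dp_di_51 at h
  rcases brec_true h with h | h
  · exact lS_good (T := T) (x := Lt.di) (by decide) hu [Lt.fi, Lt.c, Lt.di, Lt.di, Lt.fi, Lt.c, Lt.di] (hole_rel hinv hr (by decide +kernel)) h
  · exact lF_good (T := T) (x := Lt.di) (by decide) [Lt.ci, Lt.bi, Lt.ci, Lt.fi, Lt.d, Lt.bi, Lt.fi] (hole_rel hinv hr (by decide +kernel)) h
theorem dp_di_52_s (hinv : ∀ x, g (inv x) = (g x)⁻¹) (hr : ∀ r ∈ rels, (r.map g).prod = 1) (hH : ∀ r ∈ subs, (r.map g).prod ∈ H)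
    (j u : ℕ) (hu : u < M) (h : dp_di_52 j u = true) : Good (fa g) T MG M (cP g H) Lt.di u := by
  unfold dp_di_52 at h
  rcases brec_true h with h | h
  · exact lF_good (T := T) (x := Lt.di) (by decide) [Lt.c, Lt.b, Lt.ci, Lt.di, Lt.c, Lt.b, Lt.ci] (hole_rel hinv hr (by decide +kernel)) h
  · exact dp_di_51_s hinv hr hH j u hu h
theorem dp_di_53_s (hinv : ∀ x, g (inv x) = (g x)⁻¹) (hr : ∀ r ∈ rels, (r.map g).prod = 1) (hH : ∀ r ∈ subs, (r.map g).prod ∈ H)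
    (j u : ℕ) (hu : u < M) (h : dp_di_53 j u = true) : Good (fa g) T MG M (cP g H) Lt.di u := by
  unfold dp_di_53 at h
  rcases brec_true h with h | h
  · exact lS_good (T := T) (x := Lt.di) (by decide) hu [Lt.di, Lt.b, Lt.di, Lt.di, Lt.b, Lt.di, Lt.bi] (hole_rel hinv hr (by decide +kernel)) h
  · exact lF_good (T := T) (x := Lt.di) (by decide) [Lt.f, Lt.b, Lt.c, Lt.b, Lt.ci, Lt.bi, Lt.di] (hole_rel hinv hr (by decide +kernel)) h
theorem dp_di_54_s (hinv : ∀ x, g (inv x) = (g x)⁻¹) (hr : ∀ r ∈ rels, (r.map g).prod = 1) (hH : ∀ r ∈ subs, (r.map g).prod ∈ H)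
    (j u : ℕ) (hu : u < M) (h : dp_di_54 j u = true) : Good (fa g) T MG M (cP g H) Lt.di u := by
  unfold dp_di_54 at h
  rcases brec_true h with h | h
  · exact lF_good (T := T) (x := Lt.di) (by decide) [Lt.b, Lt.di, Lt.di, Lt.b, Lt.di, Lt.bi, Lt.di] (hole_rel hinv hr (by decide +kernel)) h
  · exact lF_good (T := T) (x := Lt.di) (by decide) [Lt.ci, Lt.f, Lt.b, Lt.ci, Lt.fi, Lt.b, Lt.di] (hole_rel hinv hr (by decide +kernel)) h
theorem dp_di_55_s (hinv : ∀ x, g (inv x) = (g x)⁻¹) (hr : ∀ r ∈ rels, (r.map g).prod = 1) (hH : ∀ r ∈ subs, (r.map g).prod ∈ H)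
    (j u : ℕ) (hu : u < M) (h : dp_di_55 j u = true) : Good (fa g) T MG M (cP g H) Lt.di u := by
  unfold dp_di_55 at h
  rcases brec_true h with h | h
  · exact dp_di_53_s hinv hr hH j u hu h
  · exact dp_di_54_s hinv hr hH j u hu h
theorem dp_di_56_s (hinv : ∀ x, g (inv x) = (g x)⁻¹) (hr : ∀ r ∈ rels, (r.map g).prod = 1) (hH : ∀ r ∈ subs, (r.map g).prod ∈ H)
    (j u : ℕ) (hu : u < M) (h : dp_di_56 j u = true) : Good (fa g) T MG M (cP g H) Lt.di u := by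
  unfold dp_di_56 at h
  rcases brec_true h with h | h
  · exact dp_di_52_s hinv hr hH j u hu h
  · exact dp_di_55_s hinv hr hH j u hu h
theorem dp_di_57_s (hinv : ∀ x, g (inv x) = (g x)⁻¹) (hr : ∀ r ∈ rels, (r.map g).prod = 1) (hH : ∀ r ∈ subs, (r.map g).prod ∈ H)
    (j u : ℕ) (hu : u < M) (h : dp_di_57 j u = true) : Good (fa g) T MG M (cP g H) Lt.di u := by
  unfold dp_di_57 at h
  rcases brec_true h with h | h
  · exact dp_di_50_s hinv hr hH j u hu h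
  · exact dp_di_56_s hinv hr hH j u hu h
theorem dp_di_58_s (hinv : ∀ x, g (inv x) = (g x)⁻¹) (hr : ∀ r ∈ rels, (r.map g).prod = 1) (hH : ∀ r ∈ subs, (r.map g).prod ∈ H)
    (j u : ℕ) (hu : u < M) (h : dp_di_58 j u = true) : Good (fa g) T MG M (cP g H) Lt.di u := by
  unfold dp_di_58 at h
  rcases brec_true h with h | h
  · exact dp_di_44_s hinv hr hH j u hu h
  · exact dp_di_57_s hinv hr hH j u hu h
theorem dp_di_59_s (hinv : ∀ x, g (inv x) = (g x)⁻¹) (hr : ∀ r ∈ rels, (r.map g).prod = 1) (hH : ∀ r ∈ subs, (r.map g).prod ∈ H)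
    (j u : ℕ) (hu : u < M) (h : dp_di_59 j u = true) : Good (fa g) T MG M (cP g H) Lt.di u := by
  unfold dp_di_59 at h
  rcases brec_true h with h | h
  · exact lS_good (T := T) (x := Lt.di) (by decide) hu [Lt.ci, Lt.bi, Lt.di, Lt.fi, Lt.b, Lt.c, Lt.bi] (hole_rel hinv hr (by decide +kernel)) h
  · exact lS_good (T := T) (x := Lt.di) (by decide) hu [Lt.fi, Lt.di, Lt.di, Lt.f, Lt.di, Lt.f, Lt.f] (hole_rel hinv hr (by decide +kernel)) h
theorem dp_di_60_s (hinv : ∀ x, g (inv x) = (g x)⁻¹) (hr : ∀ r ∈ rels, (r.map g).prod = 1) (hH : ∀ r ∈ subs, (r.map g).prod ∈ H)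
    (j u : ℕ) (hu : u < M) (h : dp_di_60 j u = true) : Good (fa g) T MG M (cP g H) Lt.di u := by
  unfold dp_di_60 at h
  rcases brec_true h with h | h
  · exact lF_good (T := T) (x := Lt.di) (by decide) [Lt.fi, Lt.b, Lt.c, Lt.bi, Lt.di, Lt.ci, Lt.bi] (hole_rel hinv hr (by decide +kernel)) h
  · exact lF_good (T := T) (x := Lt.di) (by decide) [Lt.bi, Lt.c, Lt.c, Lt.di, Lt.bi, Lt.c, Lt.c] (hole_rel hinv hr (by decide +kernel)) h
theorem dp_di_61_s (hinv : ∀ x, g (inv x) = (g x)⁻¹) (hr : ∀ r ∈ rels, (r.map g).prod = 1) (hH : ∀ r ∈ subs, (r.map g).prod ∈ H)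
    (j u : ℕ) (hu : u < M) (h : dp_di_61 j u = true) : Good (fa g) T MG M (cP g H) Lt.di u := by
  unfold dp_di_61 at h
  rcases brec_true h with h | h
  · exact dp_di_59_s hinv hr hH j u hu h
  · exact dp_di_60_s hinv hr hH j u hu h
theorem dp_di_62_s (hinv : ∀ x, g (inv x) = (g x)⁻¹) (hr : ∀ r ∈ rels, (r.map g).prod = 1) (hH : ∀ r ∈ subs, (r.map g).prod ∈ H)
    (j u : ℕ) (hu : u < M) (h : dp_di_62 j u = true) : Good (fa g) T MG M (cP g H) Lt.di u := by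
  unfold dp_di_62 at h
  rcases brec_true h with h | h
  · exact lS_good (T := T) (x := Lt.di) (by decide) hu [Lt.ci, Lt.bi, Lt.f, Lt.b, Lt.c, Lt.bi, Lt.bi] (hole_rel hinv hr (by decide +kernel)) h
  · exact lF_good (T := T) (x := Lt.di) (by decide) [Lt.b, Lt.ci, Lt.d, Lt.b, Lt.f, Lt.ci, Lt.f] (hole_rel hinv hr (by decide +kernel)) h
theorem dp_di_63_s (hinv : ∀ x, g (inv x) = (g x)⁻¹) (hr : ∀ r ∈ rels, (r.map g).prod = 1) (hH : ∀ r ∈ subs, (r.map g).prod ∈ H)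
    (j u : ℕ) (hu : u < M) (h : dp_di_63 j u = true) : Good (fa g) T MG M (cP g H) Lt.di u := by
  unfold dp_di_63 at h
  rcases brec_true h with h | h
  · exact lF_good (T := T) (x := Lt.di) (by decide) [Lt.c, Lt.fi, Lt.b, Lt.c, Lt.d, Lt.c, Lt.bi] (hole_rel hinv hr (by decide +kernel)) h
  · exact lS_good (T := T) (x := Lt.di) (by decide) hu [Lt.fi, Lt.bi, Lt.ci, Lt.di, Lt.f, Lt.bi, Lt.di] (hole_rel hinv hr (by decide +kernel)) h
theorem dp_di_64_s (hinv : ∀ x, g (inv x) = (g x)⁻¹) (hr : ∀ r ∈ rels, (r.map g).prod = 1) (hH : ∀ r ∈ subs, (r.map g).prod ∈ H)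
    (j u : ℕ) (hu : u < M) (h : dp_di_64 j u = true) : Good (fa g) T MG M (cP g H) Lt.di u := by
  unfold dp_di_64 at h
  rcases brec_true h with h | h
  · exact dp_di_62_s hinv hr hH j u hu h
  · exact dp_di_63_s hinv hr hH j u hu h
theorem dp_di_65_s (hinv : ∀ x, g (inv x) = (g x)⁻¹) (hr : ∀ r ∈ rels, (r.map g).prod = 1) (hH : ∀ r ∈ subs, (r.map g).prod ∈ H)
    (j u : ℕ) (hu : u < M) (h : dp_di_65 j u = true) : Good (fa g) T MG M (cP g H) Lt.di u := by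
  unfold dp_di_65 at h
  rcases brec_true h with h | h
  · exact dp_di_61_s hinv hr hH j u hu h
  · exact dp_di_64_s hinv hr hH j u hu h
theorem dp_di_66_s (hinv : ∀ x, g (inv x) = (g x)⁻¹) (hr : ∀ r ∈ rels, (r.map g).prod = 1) (hH : ∀ r ∈ subs, (r.map g).prod ∈ H)
    (j u : ℕ) (hu : u < M) (h : dp_di_66 j u = true) : Good (fa g) T MG M (cP g H) Lt.di u := by
  unfold dp_di_66 at h
  rcases brec_true h with h | h
  · exact lF_good (T := T) (x := Lt.di) (by decide) [Lt.f, Lt.f, Lt.di, Lt.fi, Lt.di, Lt.di, Lt.f] (hole_rel hinv hr (by decide +kernel)) h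
  · exact lS_good (T := T) (x := Lt.di) (by decide) hu [Lt.ci, Lt.bi, Lt.f, Lt.ci, Lt.d, Lt.b, Lt.ci] (hole_rel hinv hr (by decide +kernel)) h
theorem dp_di_67_s (hinv : ∀ x, g (inv x) = (g x)⁻¹) (hr : ∀ r ∈ rels, (r.map g).prod = 1) (hH : ∀ r ∈ subs, (r.map g).prod ∈ H)
    (j u : ℕ) (hu : u < M) (h : dp_di_67 j u = true) : Good (fa g) T MG M (cP g H) Lt.di u := by
  unfold dp_di_67 at h
  rcases brec_true h with h | h
  · exact lF_good (T := T) (x := Lt.di) (by decide) [Lt.di, Lt.b, Lt.di, Lt.di, Lt.b, Lt.di, Lt.bi] (hole_rel hinv hr (by decide +kernel)) h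
  · exact lS_good (T := T) (x := Lt.di) (by decide) hu [Lt.fi, Lt.bi, Lt.f, Lt.e, Lt.f, Lt.ci, Lt.b, Lt.e] (hole_rel hinv hr (by decide +kernel)) h
theorem dp_di_68_s (hinv : ∀ x, g (inv x) = (g x)⁻¹) (hr : ∀ r ∈ rels, (r.map g).prod = 1) (hH : ∀ r ∈ subs, (r.map g).prod ∈ H)
    (j u : ℕ) (hu : u < M) (h : dp_di_68 j u = true) : Good (fa g) T MG M (cP g H) Lt.di u := by
  unfold dp_di_68 at h
  rcases brec_true h with h | h
  · exact dp_di_66_s hinv hr hH j u hu h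
  · exact dp_di_67_s hinv hr hH j u hu h
theorem dp_di_69_s (hinv : ∀ x, g (inv x) = (g x)⁻¹) (hr : ∀ r ∈ rels, (r.map g).prod = 1) (hH : ∀ r ∈ subs, (r.map g).prod ∈ H)
    (j u : ℕ) (hu : u < M) (h : dp_di_69 j u = true) : Good (fa g) T MG M (cP g H) Lt.di u := by
  unfold dp_di_69 at h
  rcases brec_true h with h | h
  · exact lS_good (T := T) (x := Lt.di) (by decide) hu [Lt.f, Lt.f, Lt.di, Lt.fi, Lt.di, Lt.di, Lt.f] (hole_rel hinv hr (by decide +kernel)) h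
  · exact lF_good (T := T) (x := Lt.di) (by decide) [Lt.b, Lt.f, Lt.f, Lt.c, Lt.bi, Lt.bi, Lt.ci] (hole_rel hinv hr (by decide +kernel)) h
theorem dp_di_70_s (hinv : ∀ x, g (inv x) = (g x)⁻¹) (hr : ∀ r ∈ rels, (r.map g).prod = 1) (hH : ∀ r ∈ subs, (r.map g).prod ∈ H)
    (j u : ℕ) (hu : u < M) (h : dp_di_70 j u = true) : Good (fa g) T MG M (cP g H) Lt.di u := by
  unfold dp_di_70 at h
  rcases brec_true h with h | h
  · exact lF_good (T := T) (x := Lt.di) (by decide) [Lt.bi, Lt.di, Lt.di, Lt.b, Lt.di, Lt.di, Lt.b] (hole_rel hinv hr (by decide +kernel)) h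
  · exact lF_good (T := T) (x := Lt.di) (by decide) [Lt.ci, Lt.bi, Lt.f, Lt.b, Lt.c, Lt.bi, Lt.bi] (hole_rel hinv hr (by decide +kernel)) h
theorem dp_di_71_s (hinv : ∀ x, g (inv x) = (g x)⁻¹) (hr : ∀ r ∈ rels, (r.map g).prod = 1) (hH : ∀ r ∈ subs, (r.map g).prod ∈ H)
    (j u : ℕ) (hu : u < M) (h : dp_di_71 j u = true) : Good (fa g) T MG M (cP g H) Lt.di u := by
  unfold dp_di_71 at h
  rcases brec_true h with h | h
  · exact lF_good (T := T) (x := Lt.di) (by decide) [Lt.fi, Lt.bi, Lt.ci, Lt.di, Lt.f, Lt.bi, Lt.di] (hole_rel hinv hr (by decide +kernel)) h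
  · exact dp_di_70_s hinv hr hH j u hu h
theorem dp_di_72_s (hinv : ∀ x, g (inv x) = (g x)⁻¹) (hr : ∀ r ∈ rels, (r.map g).prod = 1) (hH : ∀ r ∈ subs, (r.map g).prod ∈ H)
    (j u : ℕ) (hu : u < M) (h : dp_di_72 j u = true) : Good (fa g) T MG M (cP g H) Lt.di u := by
  unfold dp_di_72 at h
  rcases brec_true h with h | h
  · exact dp_di_69_s hinv hr hH j u hu h
  · exact dp_di_71_s hinv hr hH j u hu h
theorem dp_di_73_s (hinv : ∀ x, g (inv x) = (g x)⁻¹) (hr : ∀ r ∈ rels, (r.map g).prod = 1) (hH : ∀ r ∈ subs, (r.map g).prod ∈ H)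
    (j u : ℕ) (hu : u < M) (h : dp_di_73 j u = true) : Good (fa g) T MG M (cP g H) Lt.di u := by
  unfold dp_di_73 at h
  rcases brec_true h with h | h
  · exact dp_di_68_s hinv hr hH j u hu h
  · exact dp_di_72_s hinv hr hH j u hu h
theorem dp_di_74_s (hinv : ∀ x, g (inv x) = (g x)⁻¹) (hr : ∀ r ∈ rels, (r.map g).prod = 1) (hH : ∀ r ∈ subs, (r.map g).prod ∈ H)
    (j u : ℕ) (hu : u < M) (h : dp_di_74 j u = true) : Good (fa g) T MG M (cP g H) Lt.di u := by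
  unfold dp_di_74 at h
  rcases brec_true h with h | h
  · exact dp_di_65_s hinv hr hH j u hu h
  · exact dp_di_73_s hinv hr hH j u hu h
theorem dp_di_75_s (hinv : ∀ x, g (inv x) = (g x)⁻¹) (hr : ∀ r ∈ rels, (r.map g).prod = 1) (hH : ∀ r ∈ subs, (r.map g).prod ∈ H)
    (j u : ℕ) (hu : u < M) (h : dp_di_75 j u = true) : Good (fa g) T MG M (cP g H) Lt.di u := by
  unfold dp_di_75 at h
  rcases brec_true h with h | h
  · exact lS_good (T := T) (x := Lt.di) (by decide) hu [Lt.f, Lt.di, Lt.f, Lt.f, Lt.di, Lt.fi, Lt.di] (hole_rel hinv hr (by decide +kernel)) h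
  · exact lF_good (T := T) (x := Lt.di) (by decide) [Lt.di, Lt.f, Lt.di, Lt.f, Lt.f, Lt.di, Lt.fi] (hole_rel hinv hr (by decide +kernel)) h
theorem dp_di_76_s (hinv : ∀ x, g (inv x) = (g x)⁻¹) (hr : ∀ r ∈ rels, (r.map g).prod = 1) (hH : ∀ r ∈ subs, (r.map g).prod ∈ H)
    (j u : ℕ) (hu : u < M) (h : dp_di_76 j u = true) : Good (fa g) T MG M (cP g H) Lt.di u := by
  unfold dp_di_76 at h
  rcases brec_true h with h | h
  · exact lF_good (T := T) (x := Lt.di) (by decide) [Lt.f, Lt.di, Lt.ci, Lt.ci, Lt.bi, Lt.ci, Lt.b] (hole_rel hinv hr (by decide +kernel)) h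
  · exact lS_good (T := T) (x := Lt.di) (by decide) hu [Lt.fi, Lt.b, Lt.c, Lt.bi, Lt.di, Lt.ci, Lt.bi] (hole_rel hinv hr (by decide +kernel)) h
theorem dp_di_77_s (hinv : ∀ x, g (inv x) = (g x)⁻¹) (hr : ∀ r ∈ rels, (r.map g).prod = 1) (hH : ∀ r ∈ subs, (r.map g).prod ∈ H)
    (j u : ℕ) (hu : u < M) (h : dp_di_77 j u = true) : Good (fa g) T MG M (cP g H) Lt.di u := by
  unfold dp_di_77 at h
  rcases brec_true h with h | h
  · exact lF_good (T := T) (x := Lt.di) (by decide) [Lt.fi, Lt.bi, Lt.f, Lt.e, Lt.f, Lt.ci, Lt.b, Lt.e] (hole_rel hinv hr (by decide +kernel)) h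
  · exact dp_di_76_s hinv hr hH j u hu h
theorem dp_di_78_s (hinv : ∀ x, g (inv x) = (g x)⁻¹) (hr : ∀ r ∈ rels, (r.map g).prod = 1) (hH : ∀ r ∈ subs, (r.map g).prod ∈ H)
    (j u : ℕ) (hu : u < M) (h : dp_di_78 j u = true) : Good (fa g) T MG M (cP g H) Lt.di u := by
  unfold dp_di_78 at h
  rcases brec_true h with h | h
  · exact dp_di_75_s hinv hr hH j u hu h
  · exact dp_di_77_s hinv hr hH j u hu h
theorem dp_di_79_s (hinv : ∀ x, g (inv x) = (g x)⁻¹) (hr : ∀ r ∈ rels, (r.map g).prod = 1) (hH : ∀ r ∈ subs, (r.map g).prod ∈ H)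
    (j u : ℕ) (hu : u < M) (h : dp_di_79 j u = true) : Good (fa g) T MG M (cP g H) Lt.di u := by
  unfold dp_di_79 at h
  rcases brec_true h with h | h
  · exact lS_good (T := T) (x := Lt.di) (by decide) hu [Lt.ci, Lt.bi, Lt.ci, Lt.fi, Lt.d, Lt.bi, Lt.fi] (hole_rel hinv hr (by decide +kernel)) h
  · exact lS_good (T := T) (x := Lt.di) (by decide) hu [Lt.b, Lt.f, Lt.c, Lt.di, Lt.b, Lt.f, Lt.c] (hole_rel hinv hr (by decide +kernel)) h
theorem dp_di_80_s (hinv : ∀ x, g (inv x) = (g x)⁻¹) (hr : ∀ r ∈ rels, (r.map g).prod = 1) (hH : ∀ r ∈ subs, (r.map g).prod ∈ H)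
    (j u : ℕ) (hu : u < M) (h : dp_di_80 j u = true) : Good (fa g) T MG M (cP g H) Lt.di u := by
  unfold dp_di_80 at h
  rcases brec_true h with h | h
  · exact lS_good (T := T) (x := Lt.di) (by decide) hu [Lt.di, Lt.f, Lt.di, Lt.f, Lt.f, Lt.di, Lt.fi] (hole_rel hinv hr (by decide +kernel)) h
  · exact dp_di_79_s hinv hr hH j u hu h
theorem dp_di_81_s (hinv : ∀ x, g (inv x) = (g x)⁻¹) (hr : ∀ r ∈ rels, (r.map g).prod = 1) (hH : ∀ r ∈ subs, (r.map g).prod ∈ H)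
    (j u : ℕ) (hu : u < M) (h : dp_di_81 j u = true) : Good (fa g) T MG M (cP g H) Lt.di u := by
  unfold dp_di_81 at h
  rcases brec_true h with h | h
  · exact lF_good (T := T) (x := Lt.di) (by decide) [Lt.di, Lt.b, Lt.di, Lt.bi, Lt.di, Lt.di, Lt.b] (hole_rel hinv hr (by decide +kernel)) h
  · exact lF_good (T := T) (x := Lt.di) (by decide) [Lt.di, Lt.fi, Lt.c, Lt.di, Lt.di, Lt.fi, Lt.c] (hole_rel hinv hr (by decide +kernel)) h
theorem dp_di_82_s (hinv : ∀ x, g (inv x) = (g x)⁻¹) (hr : ∀ r ∈ rels, (r.map g).prod = 1) (hH : ∀ r ∈ subs, (r.map g).prod ∈ H)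
    (j u : ℕ) (hu : u < M) (h : dp_di_82 j u = true) : Good (fa g) T MG M (cP g H) Lt.di u := by
  unfold dp_di_82 at h
  rcases brec_true h with h | h
  · exact lS_good (T := T) (x := Lt.di) (by decide) hu [Lt.c, Lt.bi, Lt.d, Lt.fi, Lt.c, Lt.fi, Lt.bi] (hole_rel hinv hr (by decide +kernel)) h
  · exact dp_di_81_s hinv hr hH j u hu h
theorem dp_di_83_s (hinv : ∀ x, g (inv x) = (g x)⁻¹) (hr : ∀ r ∈ rels, (r.map g).prod = 1) (hH : ∀ r ∈ subs, (r.map g).prod ∈ H)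
    (j u : ℕ) (hu : u < M) (h : dp_di_83 j u = true) : Good (fa g) T MG M (cP g H) Lt.di u := by
  unfold dp_di_83 at h
  rcases brec_true h with h | h
  · exact dp_di_80_s hinv hr hH j u hu h
  · exact dp_di_82_s hinv hr hH j u hu h
theorem dp_di_84_s (hinv : ∀ x, g (inv x) = (g x)⁻¹) (hr : ∀ r ∈ rels, (r.map g).prod = 1) (hH : ∀ r ∈ subs, (r.map g).prod ∈ H)
    (j u : ℕ) (hu : u < M) (h : dp_di_84 j u = true) : Good (fa g) T MG M (cP g H) Lt.di u := by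
  unfold dp_di_84 at h
  rcases brec_true h with h | h
  · exact dp_di_78_s hinv hr hH j u hu h
  · exact dp_di_83_s hinv hr hH j u hu h
theorem dp_di_85_s (hinv : ∀ x, g (inv x) = (g x)⁻¹) (hr : ∀ r ∈ rels, (r.map g).prod = 1) (hH : ∀ r ∈ subs, (r.map g).prod ∈ H)
    (j u : ℕ) (hu : u < M) (h : dp_di_85 j u = true) : Good (fa g) T MG M (cP g H) Lt.di u := by
  unfold dp_di_85 at h
  rcases brec_true h with h | h
  · exact lF_good (T := T) (x := Lt.di) (by decide) [Lt.b, Lt.di, Lt.bi, Lt.di, Lt.di, Lt.b, Lt.di] (hole_rel hinv hr (by decide +kernel)) h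
  · exact lS_good (T := T) (x := Lt.di) (by decide) hu [Lt.b, Lt.f, Lt.f, Lt.c, Lt.bi, Lt.bi, Lt.ci] (hole_rel hinv hr (by decide +kernel)) h
theorem dp_di_86_s (hinv : ∀ x, g (inv x) = (g x)⁻¹) (hr : ∀ r ∈ rels, (r.map g).prod = 1) (hH : ∀ r ∈ subs, (r.map g).prod ∈ H)
    (j u : ℕ) (hu : u < M) (h : dp_di_86 j u = true) : Good (fa g) T MG M (cP g H) Lt.di u := by
  unfold dp_di_86 at h
  rcases brec_true h with h | h
  · exact lS_good (T := T) (x := Lt.di) (by decide) hu [Lt.f, Lt.di, Lt.ci, Lt.ci, Lt.bi, Lt.ci, Lt.b] (hole_rel hinv hr (by decide +kernel)) h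
  · exact dp_di_85_s hinv hr hH j u hu h
theorem dp_di_87_s (hinv : ∀ x, g (inv x) = (g x)⁻¹) (hr : ∀ r ∈ rels, (r.map g).prod = 1) (hH : ∀ r ∈ subs, (r.map g).prod ∈ H)
    (j u : ℕ) (hu : u < M) (h : dp_di_87 j u = true) : Good (fa g) T MG M (cP g H) Lt.di u := by
  unfold dp_di_87 at h
  rcases brec_true h with h | h
  · exact lF_good (T := T) (x := Lt.di) (by decide) [Lt.c, Lt.bi, Lt.d, Lt.fi, Lt.c, Lt.fi, Lt.bi] (hole_rel hinv hr (by decide +kernel)) h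
  · exact lF_good (T := T) (x := Lt.di) (by decide) [Lt.di, Lt.fi, Lt.bi, Lt.ci, Lt.di, Lt.f, Lt.bi] (hole_rel hinv hr (by decide +kernel)) h
theorem dp_di_88_s (hinv : ∀ x, g (inv x) = (g x)⁻¹) (hr : ∀ r ∈ rels, (r.map g).prod = 1) (hH : ∀ r ∈ subs, (r.map g).prod ∈ H)
    (j u : ℕ) (hu : u < M) (h : dp_di_88 j u = true) : Good (fa g) T MG M (cP g H) Lt.di u := by
  unfold dp_di_88 at h
  rcases brec_true h with h | h
  · exact lS_good (T := T) (x := Lt.di) (by decide) hu [Lt.b, Lt.di, Lt.bi, Lt.di, Lt.di, Lt.b, Lt.di] (hole_rel hinv hr (by decide +kernel)) h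
  · exact dp_di_87_s hinv hr hH j u hu h
theorem dp_di_89_s (hinv : ∀ x, g (inv x) = (g x)⁻¹) (hr : ∀ r ∈ rels, (r.map g).prod = 1) (hH : ∀ r ∈ subs, (r.map g).prod ∈ H)
    (j u : ℕ) (hu : u < M) (h : dp_di_89 j u = true) : Good (fa g) T MG M (cP g H) Lt.di u := by
  unfold dp_di_89 at h
  rcases brec_true h with h | h
  · exact dp_di_86_s hinv hr hH j u hu h
  · exact dp_di_88_s hinv hr hH j u hu h
theorem dp_di_90_s (hinv : ∀ x, g (inv x) = (g x)⁻¹) (hr : ∀ r ∈ rels, (r.map g).prod = 1) (hH : ∀ r ∈ subs, (r.map g).prod ∈ H)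
    (j u : ℕ) (hu : u < M) (h : dp_di_90 j u = true) : Good (fa g) T MG M (cP g H) Lt.di u := by
  unfold dp_di_90 at h
  rcases brec_true h with h | h
  · exact lF_good (T := T) (x := Lt.di) (by decide) [Lt.f, Lt.di, Lt.f, Lt.f, Lt.di, Lt.fi, Lt.di] (hole_rel hinv hr (by decide +kernel)) h
  · exact lS_good (T := T) (x := Lt.di) (by decide) hu [Lt.di, Lt.b, Lt.di, Lt.bi, Lt.di, Lt.di, Lt.b] (hole_rel hinv hr (by decide +kernel)) h
theorem dp_di_91_s (hinv : ∀ x, g (inv x) = (g x)⁻¹) (hr : ∀ r ∈ rels, (r.map g).prod = 1) (hH : ∀ r ∈ subs, (r.map g).prod ∈ H)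
    (j u : ℕ) (hu : u < M) (h : dp_di_91 j u = true) : Good (fa g) T MG M (cP g H) Lt.di u := by
  unfold dp_di_91 at h
  rcases brec_true h with h | h
  · exact lF_good (T := T) (x := Lt.di) (by decide) [Lt.ci, Lt.ei, Lt.fi, Lt.e, Lt.f, Lt.ei, Lt.d, Lt.f] (hole_rel hinv hr (by decide +kernel)) h
  · exact lS_good (T := T) (x := Lt.di) (by decide) hu [Lt.ci, Lt.ei, Lt.fi, Lt.e, Lt.f, Lt.ei, Lt.d, Lt.f] (hole_rel hinv hr (by decide +kernel)) h
theorem dp_di_92_s (hinv : ∀ x, g (inv x) = (g x)⁻¹) (hr : ∀ r ∈ rels, (r.map g).prod = 1) (hH : ∀ r ∈ subs, (r.map g).prod ∈ H)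
    (j u : ℕ) (hu : u < M) (h : dp_di_92 j u = true) : Good (fa g) T MG M (cP g H) Lt.di u := by
  unfold dp_di_92 at h
  rcases brec_true h with h | h
  · exact lF_good (T := T) (x := Lt.di) (by decide) [Lt.e, Lt.fi, Lt.ei, Lt.f, Lt.e, Lt.c, Lt.d, Lt.fi] (hole_rel hinv hr (by decide +kernel)) h
  · exact dp_di_91_s hinv hr hH j u hu h
theorem dp_di_93_s (hinv : ∀ x, g (inv x) = (g x)⁻¹) (hr : ∀ r ∈ rels, (r.map g).prod = 1) (hH : ∀ r ∈ subs, (r.map g).prod ∈ H)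
    (j u : ℕ) (hu : u < M) (h : dp_di_93 j u = true) : Good (fa g) T MG M (cP g H) Lt.di u := by
  unfold dp_di_93 at h
  rcases brec_true h with h | h
  · exact dp_di_90_s hinv hr hH j u hu h
  · exact dp_di_92_s hinv hr hH j u hu h
theorem dp_di_94_s (hinv : ∀ x, g (inv x) = (g x)⁻¹) (hr : ∀ r ∈ rels, (r.map g).prod = 1) (hH : ∀ r ∈ subs, (r.map g).prod ∈ H)
    (j u : ℕ) (hu : u < M) (h : dp_di_94 j u = true) : Good (fa g) T MG M (cP g H) Lt.di u := by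
  unfold dp_di_94 at h
  rcases brec_true h with h | h
  · exact lS_good (T := T) (x := Lt.di) (by decide) hu [Lt.c, Lt.f, Lt.d, Lt.d, Lt.ci, Lt.fi, Lt.d, Lt.c] (hole_rel hinv hr (by decide +kernel)) h
  · exact lF_good (T := T) (x := Lt.di) (by decide) [Lt.f, Lt.b, Lt.d, Lt.c, Lt.bi, Lt.ci, Lt.b, Lt.b] (hole_rel hinv hr (by decide +kernel)) h
theorem dp_di_95_s (hinv : ∀ x, g (inv x) = (g x)⁻¹) (hr : ∀ r ∈ rels, (r.map g).prod = 1) (hH : ∀ r ∈ subs, (r.map g).prod ∈ H)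
    (j u : ℕ) (hu : u < M) (h : dp_di_95 j u = true) : Good (fa g) T MG M (cP g H) Lt.di u := by
  unfold dp_di_95 at h
  rcases brec_true h with h | h
  · exact lF_good (T := T) (x := Lt.di) (by decide) [Lt.b, Lt.f, Lt.di, Lt.b, Lt.ci, Lt.di, Lt.ci, Lt.fi] (hole_rel hinv hr (by decide +kernel)) h
  · exact lF_good (T := T) (x := Lt.di) (by decide) [Lt.fi, Lt.ci, Lt.d, Lt.ci, Lt.fi, Lt.fi, Lt.ci, Lt.ci] (hole_rel hinv hr (by decide +kernel)) h
theorem dp_di_96_s (hinv : ∀ x, g (inv x) = (g x)⁻¹) (hr : ∀ r ∈ rels, (r.map g).prod = 1) (hH : ∀ r ∈ subs, (r.map g).prod ∈ H)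
    (j u : ℕ) (hu : u < M) (h : dp_di_96 j u = true) : Good (fa g) T MG M (cP g H) Lt.di u := by
  unfold dp_di_96 at h
  rcases brec_true h with h | h
  · exact lF_good (T := T) (x := Lt.di) (by decide) [Lt.f, Lt.c, Lt.bi, Lt.d, Lt.ci, Lt.di, Lt.b, Lt.ci] (hole_rel hinv hr (by decide +kernel)) h
  · exact lS_good (T := T) (x := Lt.di) (by decide) hu [Lt.e, Lt.fi, Lt.ei, Lt.f, Lt.e, Lt.c, Lt.d, Lt.fi] (hole_rel hinv hr (by decide +kernel)) h
theorem dp_di_97_s (hinv : ∀ x, g (inv x) = (g x)⁻¹) (hr : ∀ r ∈ rels, (r.map g).prod = 1) (hH : ∀ r ∈ subs, (r.map g).prod ∈ H)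
    (j u : ℕ) (hu : u < M) (h : dp_di_97 j u = true) : Good (fa g) T MG M (cP g H) Lt.di u := by
  unfold dp_di_97 at h
  rcases brec_true h with h | h
  · exact dp_di_95_s hinv hr hH j u hu h
  · exact dp_di_96_s hinv hr hH j u hu h
theorem dp_di_98_s (hinv : ∀ x, g (inv x) = (g x)⁻¹) (hr : ∀ r ∈ rels, (r.map g).prod = 1) (hH : ∀ r ∈ subs, (r.map g).prod ∈ H)
    (j u : ℕ) (hu : u < M) (h : dp_di_98 j u = true) : Good (fa g) T MG M (cP g H) Lt.di u := by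
  unfold dp_di_98 at h
  rcases brec_true h with h | h
  · exact dp_di_94_s hinv hr hH j u hu h
  · exact dp_di_97_s hinv hr hH j u hu h
theorem dp_di_99_s (hinv : ∀ x, g (inv x) = (g x)⁻¹) (hr : ∀ r ∈ rels, (r.map g).prod = 1) (hH : ∀ r ∈ subs, (r.map g).prod ∈ H)
    (j u : ℕ) (hu : u < M) (h : dp_di_99 j u = true) : Good (fa g) T MG M (cP g H) Lt.di u := by
  unfold dp_di_99 at h
  rcases brec_true h with h | h
  · exact lS_good (T := T) (x := Lt.di) (by decide) hu [Lt.f, Lt.c, Lt.di, Lt.di, Lt.fi, Lt.ci, Lt.d, Lt.ci] (hole_rel hinv hr (by decide +kernel)) h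
  · exact lS_good (T := T) (x := Lt.di) (by decide) hu [Lt.f, Lt.c, Lt.bi, Lt.d, Lt.ci, Lt.di, Lt.b, Lt.ci] (hole_rel hinv hr (by decide +kernel)) h
theorem dp_di_100_s (hinv : ∀ x, g (inv x) = (g x)⁻¹) (hr : ∀ r ∈ rels, (r.map g).prod = 1) (hH : ∀ r ∈ subs, (r.map g).prod ∈ H)
    (j u : ℕ) (hu : u < M) (h : dp_di_100 j u = true) : Good (fa g) T MG M (cP g H) Lt.di u := by
  unfold dp_di_100 at h
  rcases brec_true h with h | h
  · exact lS_good (T := T) (x := Lt.di) (by decide) hu [Lt.fi, Lt.ci, Lt.d, Lt.ci, Lt.di, Lt.f, Lt.c, Lt.di] (hole_rel hinv hr (by decide +kernel)) h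
  · exact lF_good (T := T) (x := Lt.di) (by decide) [Lt.c, Lt.f, Lt.b, Lt.b, Lt.b, Lt.ci, Lt.bi, Lt.bi] (hole_rel hinv hr (by decide +kernel)) h
theorem dp_di_101_s (hinv : ∀ x, g (inv x) = (g x)⁻¹) (hr : ∀ r ∈ rels, (r.map g).prod = 1) (hH : ∀ r ∈ subs, (r.map g).prod ∈ H)
    (j u : ℕ) (hu : u < M) (h : dp_di_101 j u = true) : Good (fa g) T MG M (cP g H) Lt.di u := by
  unfold dp_di_101 at h
  rcases brec_true h with h | h
  · exact lS_good (T := T) (x := Lt.di) (by decide) hu [Lt.fi, Lt.b, Lt.ci, Lt.f, Lt.b, Lt.fi, Lt.bi, Lt.di] (hole_rel hinv hr (by decide +kernel)) h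
  · exact lS_good (T := T) (x := Lt.di) (by decide) hu [Lt.f, Lt.f, Lt.ci, Lt.bi, Lt.ci, Lt.fi, Lt.b, Lt.b] (hole_rel hinv hr (by decide +kernel)) h
theorem dp_di_102_s (hinv : ∀ x, g (inv x) = (g x)⁻¹) (hr : ∀ r ∈ rels, (r.map g).prod = 1) (hH : ∀ r ∈ subs, (r.map g).prod ∈ H)
    (j u : ℕ) (hu : u < M) (h : dp_di_102 j u = true) : Good (fa g) T MG M (cP g H) Lt.di u := by
  unfold dp_di_102 at h
  rcases brec_true h with h | h
  · exact dp_di_100_s hinv hr hH j u hu h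
  · exact dp_di_101_s hinv hr hH j u hu h
theorem dp_di_103_s (hinv : ∀ x, g (inv x) = (g x)⁻¹) (hr : ∀ r ∈ rels, (r.map g).prod = 1) (hH : ∀ r ∈ subs, (r.map g).prod ∈ H)
    (j u : ℕ) (hu : u < M) (h : dp_di_103 j u = true) : Good (fa g) T MG M (cP g H) Lt.di u := by
  unfold dp_di_103 at h
  rcases brec_true h with h | h
  · exact dp_di_99_s hinv hr hH j u hu h
  · exact dp_di_102_s hinv hr hH j u hu h
theorem dp_di_104_s (hinv : ∀ x, g (inv x) = (g x)⁻¹) (hr : ∀ r ∈ rels, (r.map g).prod = 1) (hH : ∀ r ∈ subs, (r.map g).prod ∈ H)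
    (j u : ℕ) (hu : u < M) (h : dp_di_104 j u = true) : Good (fa g) T MG M (cP g H) Lt.di u := by
  unfold dp_di_104 at h
  rcases brec_true h with h | h
  · exact lF_good (T := T) (x := Lt.di) (by decide) [Lt.f, Lt.c, Lt.di, Lt.di, Lt.fi, Lt.ci, Lt.d, Lt.ci] (hole_rel hinv hr (by decide +kernel)) h
  · exact lF_good (T := T) (x := Lt.di) (by decide) [Lt.c, Lt.f, Lt.d, Lt.d, Lt.ci, Lt.fi, Lt.d, Lt.c] (hole_rel hinv hr (by decide +kernel)) h
theorem dp_di_105_s (hinv : ∀ x, g (inv x) = (g x)⁻¹) (hr : ∀ r ∈ rels, (r.map g).prod = 1) (hH : ∀ r ∈ subs, (r.map g).prod ∈ H)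
    (j u : ℕ) (hu : u < M) (h : dp_di_105 j u = true) : Good (fa g) T MG M (cP g H) Lt.di u := by
  unfold dp_di_105 at h
  rcases brec_true h with h | h
  · exact lS_good (T := T) (x := Lt.di) (by decide) hu [Lt.bi, Lt.fi, Lt.d, Lt.bi, Lt.bi, Lt.c, Lt.b, Lt.ci] (hole_rel hinv hr (by decide +kernel)) h
  · exact lF_good (T := T) (x := Lt.di) (by decide) [Lt.b, Lt.fi, Lt.di, Lt.di, Lt.ci, Lt.b, Lt.ci, Lt.f] (hole_rel hinv hr (by decide +kernel)) h
theorem dp_di_106_s (hinv : ∀ x, g (inv x) = (g x)⁻¹) (hr : ∀ r ∈ rels, (r.map g).prod = 1) (hH : ∀ r ∈ subs, (r.map g).prod ∈ H)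
    (j u : ℕ) (hu : u < M) (h : dp_di_106 j u = true) : Good (fa g) T MG M (cP g H) Lt.di u := by
  unfold dp_di_106 at h
  rcases brec_true h with h | h
  · exact dp_di_104_s hinv hr hH j u hu h
  · exact dp_di_105_s hinv hr hH j u hu h
theorem dp_di_107_s (hinv : ∀ x, g (inv x) = (g x)⁻¹) (hr : ∀ r ∈ rels, (r.map g).prod = 1) (hH : ∀ r ∈ subs, (r.map g).prod ∈ H)
    (j u : ℕ) (hu : u < M) (h : dp_di_107 j u = true) : Good (fa g) T MG M (cP g H) Lt.di u := by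
  unfold dp_di_107 at h
  rcases brec_true h with h | h
  · exact lS_good (T := T) (x := Lt.di) (by decide) hu [Lt.f, Lt.b, Lt.d, Lt.c, Lt.bi, Lt.ci, Lt.b, Lt.b] (hole_rel hinv hr (by decide +kernel)) h
  · exact lF_good (T := T) (x := Lt.di) (by decide) [Lt.fi, Lt.b, Lt.ci, Lt.f, Lt.b, Lt.fi, Lt.bi, Lt.di] (hole_rel hinv hr (by decide +kernel)) h
theorem dp_di_108_s (hinv : ∀ x, g (inv x) = (g x)⁻¹) (hr : ∀ r ∈ rels, (r.map g).prod = 1) (hH : ∀ r ∈ subs, (r.map g).prod ∈ H)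
    (j u : ℕ) (hu : u < M) (h : dp_di_108 j u = true) : Good (fa g) T MG M (cP g H) Lt.di u := by
  unfold dp_di_108 at h
  rcases brec_true h with h | h
  · exact lS_good (T := T) (x := Lt.di) (by decide) hu [Lt.b, Lt.ci, Lt.di, Lt.f, Lt.c, Lt.bi, Lt.d, Lt.ci] (hole_rel hinv hr (by decide +kernel)) h
  · exact lS_good (T := T) (x := Lt.di) (by decide) hu [Lt.c, Lt.f, Lt.b, Lt.b, Lt.b, Lt.ci, Lt.bi, Lt.bi] (hole_rel hinv hr (by decide +kernel)) h
theorem dp_di_109_s (hinv : ∀ x, g (inv x) = (g x)⁻¹) (hr : ∀ r ∈ rels, (r.map g).prod = 1) (hH : ∀ r ∈ subs, (r.map g).prod ∈ H)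
    (j u : ℕ) (hu : u < M) (h : dp_di_109 j u = true) : Good (fa g) T MG M (cP g H) Lt.di u := by
  unfold dp_di_109 at h
  rcases brec_true h with h | h
  · exact dp_di_107_s hinv hr hH j u hu h
  · exact dp_di_108_s hinv hr hH j u hu h
theorem dp_di_110_s (hinv : ∀ x, g (inv x) = (g x)⁻¹) (hr : ∀ r ∈ rels, (r.map g).prod = 1) (hH : ∀ r ∈ subs, (r.map g).prod ∈ H)
    (j u : ℕ) (hu : u < M) (h : dp_di_110 j u = true) : Good (fa g) T MG M (cP g H) Lt.di u := by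
  unfold dp_di_110 at h
  rcases brec_true h with h | h
  · exact dp_di_106_s hinv hr hH j u hu h
  · exact dp_di_109_s hinv hr hH j u hu h
theorem dp_di_111_s (hinv : ∀ x, g (inv x) = (g x)⁻¹) (hr : ∀ r ∈ rels, (r.map g).prod = 1) (hH : ∀ r ∈ subs, (r.map g).prod ∈ H)
    (j u : ℕ) (hu : u < M) (h : dp_di_111 j u = true) : Good (fa g) T MG M (cP g H) Lt.di u := by
  unfold dp_di_111 at h
  rcases brec_true h with h | h
  · exact dp_di_103_s hinv hr hH j u hu h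
  · exact dp_di_110_s hinv hr hH j u hu h
theorem dp_di_112_s (hinv : ∀ x, g (inv x) = (g x)⁻¹) (hr : ∀ r ∈ rels, (r.map g).prod = 1) (hH : ∀ r ∈ subs, (r.map g).prod ∈ H)
    (j u : ℕ) (hu : u < M) (h : dp_di_112 j u = true) : Good (fa g) T MG M (cP g H) Lt.di u := by
  unfold dp_di_112 at h
  rcases brec_true h with h | h
  · exact dp_di_98_s hinv hr hH j u hu h
  · exact dp_di_111_s hinv hr hH j u hu h
theorem dp_di_113_s (hinv : ∀ x, g (inv x) = (g x)⁻¹) (hr : ∀ r ∈ rels, (r.map g).prod = 1) (hH : ∀ r ∈ subs, (r.map g).prod ∈ H)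
    (j u : ℕ) (hu : u < M) (h : dp_di_113 j u = true) : Good (fa g) T MG M (cP g H) Lt.di u := by
  unfold dp_di_113 at h
  rcases brec_true h with h | h
  · exact dp_di_93_s hinv hr hH j u hu h
  · exact dp_di_112_s hinv hr hH j u hu h
theorem dp_di_114_s (hinv : ∀ x, g (inv x) = (g x)⁻¹) (hr : ∀ r ∈ rels, (r.map g).prod = 1) (hH : ∀ r ∈ subs, (r.map g).prod ∈ H)
    (j u : ℕ) (hu : u < M) (h : dp_di_114 j u = true) : Good (fa g) T MG M (cP g H) Lt.di u := by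
  unfold dp_di_114 at h
  rcases brec_true h with h | h
  · exact dp_di_89_s hinv hr hH j u hu h
  · exact dp_di_113_s hinv hr hH j u hu h
theorem dp_di_115_s (hinv : ∀ x, g (inv x) = (g x)⁻¹) (hr : ∀ r ∈ rels, (r.map g).prod = 1) (hH : ∀ r ∈ subs, (r.map g).prod ∈ H)
    (j u : ℕ) (hu : u < M) (h : dp_di_115 j u = true) : Good (fa g) T MG M (cP g H) Lt.di u := by
  unfold dp_di_115 at h
  rcases brec_true h with h | h
  · exact dp_di_84_s hinv hr hH j u hu h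
  · exact dp_di_114_s hinv hr hH j u hu h
theorem dp_di_116_s (hinv : ∀ x, g (inv x) = (g x)⁻¹) (hr : ∀ r ∈ rels, (r.map g).prod = 1) (hH : ∀ r ∈ subs, (r.map g).prod ∈ H)
    (j u : ℕ) (hu : u < M) (h : dp_di_116 j u = true) : Good (fa g) T MG M (cP g H) Lt.di u := by
  unfold dp_di_116 at h
  rcases brec_true h with h | h
  · exact dp_di_74_s hinv hr hH j u hu h
  · exact dp_di_115_s hinv hr hH j u hu h
theorem dp_di_117_s (hinv : ∀ x, g (inv x) = (g x)⁻¹) (hr : ∀ r ∈ rels, (r.map g).prod = 1) (hH : ∀ r ∈ subs, (r.map g).prod ∈ H)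
    (j u : ℕ) (hu : u < M) (h : dp_di_117 j u = true) : Good (fa g) T MG M (cP g H) Lt.di u := by
  unfold dp_di_117 at h
  rcases brec_true h with h | h
  · exact dp_di_58_s hinv hr hH j u hu h
  · exact dp_di_116_s hinv hr hH j u hu h
theorem dp_di_118_s (hinv : ∀ x, g (inv x) = (g x)⁻¹) (hr : ∀ r ∈ rels, (r.map g).prod = 1) (hH : ∀ r ∈ subs, (r.map g).prod ∈ H)
    (j u : ℕ) (hu : u < M) (h : dp_di_118 j u = true) : Good (fa g) T MG M (cP g H) Lt.di u := by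
  unfold dp_di_118 at h
  rcases brec_true h with h | h
  · exact dp_di_33_s hinv hr hH j u hu h
  · exact dp_di_117_s hinv hr hH j u hu h
theorem snd_di (hinv : ∀ x, g (inv x) = (g x)⁻¹) (hr : ∀ r ∈ rels, (r.map g).prod = 1) (hH : ∀ r ∈ subs, (r.map g).prod ∈ H)
    (j u : ℕ) (hu : u < M) (h : disp_di j u = true) : Good (fa g) T MG M (cP g H) Lt.di u := by
  unfold disp_di at h
  rcases brec_true h with h | h
  · rcases brec_true h with h | h
    · exact lF1_good (T := T) (x := Lt.di) (by decide) .d (hole_rel hinv hr (by decide +kernel)) h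
    · exact lPar_good (T := T) (x := Lt.di) (x' := Lt.d) (by decide) rfl (inv_rel hinv _ _ rfl) h
  · rcases brec_true h with h | h
    · rcases brec_true h with h | h
      · exact lDef_good (T := T) (x := Lt.di) (by decide) rfl h
      · rcases brec_true h with h | h
        · exact lS_good (T := T) (x := Lt.di) (by decide) hu [Lt.d] (hole_rel hinv hr (by decide +kernel)) h
        · exact lF_good (T := T) (x := Lt.di) (by decide) [Lt.f, Lt.f, Lt.e, Lt.fi, Lt.ei, Lt.f, Lt.e, Lt.c] (hole_rel hinv hr (by decide +kernel)) h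
    · exact dp_di_118_s hinv hr hH j u hu h
theorem snc_di (hinv : ∀ x, g (inv x) = (g x)⁻¹) (hr : ∀ r ∈ rels, (r.map g).prod = 1) (hH : ∀ r ∈ subs, (r.map g).prod ∈ H)
    (j u : ℕ) (hu : u < M) (h : chk_di j u = true) : (T Lt.di u < A ∧ Good (fa g) T MG M (cP g H) Lt.di u) ∨ (A ≤ T Lt.di u ∧ MG u < A) := by
  unfold chk_di at h
  cases hb : Nat.ble A (T_di u) with
  | true => rw [hb] at h; exact Or.inr ⟨le_of_ble hb, le_of_ble h⟩
  | false => rw [hb] at h; exact Or.inl ⟨lt_of_ble_false hb, snd_di hinv hr hH j u hu h⟩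
theorem dp_c_0_s (hinv : ∀ x, g (inv x) = (g x)⁻¹) (hr : ∀ r ∈ rels, (r.map g).prod = 1) (hH : ∀ r ∈ subs, (r.map g).prod ∈ H)
    (j u : ℕ) (hu : u < M) (h : dp_c_0 j u = true) : Good (fa g) T MG M (cP g H) Lt.c u := by
  unfold dp_c_0 at h
  rcases brec_true h with h | h
  · exact lS_good (T := T) (x := Lt.c) (by decide) hu [Lt.fi, Lt.ei, Lt.fi, Lt.b, Lt.f, Lt.d, Lt.ei, Lt.bi] (hole_rel hinv hr (by decide +kernel)) h
  · exact lF_good (T := T) (x := Lt.c) (by decide) [Lt.e, Lt.bi, Lt.e, Lt.c, Lt.e, Lt.bi, Lt.e] (hole_rel hinv hr (by decide +kernel)) h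
theorem dp_c_1_s (hinv : ∀ x, g (inv x) = (g x)⁻¹) (hr : ∀ r ∈ rels, (r.map g).prod = 1) (hH : ∀ r ∈ subs, (r.map g).prod ∈ H)
    (j u : ℕ) (hu : u < M) (h : dp_c_1 j u = true) : Good (fa g) T MG M (cP g H) Lt.c u := by
  unfold dp_c_1 at h
  rcases brec_true h with h | h
  · exact lS_good (T := T) (x := Lt.c) (by decide) hu [Lt.e, Lt.bi, Lt.e, Lt.c, Lt.e, Lt.bi, Lt.e] (hole_rel hinv hr (by decide +kernel)) h
  · exact dp_c_0_s hinv hr hH j u hu h
theorem dp_c_2_s (hinv : ∀ x, g (inv x) = (g x)⁻¹) (hr : ∀ r ∈ rels, (r.map g).prod = 1) (hH : ∀ r ∈ subs, (r.map g).prod ∈ H)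
    (j u : ℕ) (hu : u < M) (h : dp_c_2 j u = true) : Good (fa g) T MG M (cP g H) Lt.c u := by
  unfold dp_c_2 at h
  rcases brec_true h with h | h
  · exact lF_good (T := T) (x := Lt.c) (by decide) [Lt.d, Lt.bi, Lt.c, Lt.di, Lt.b, Lt.c, Lt.di] (hole_rel hinv hr (by decide +kernel)) h
  · exact lF_good (T := T) (x := Lt.c) (by decide) [Lt.fi, Lt.di, Lt.ci, Lt.b, Lt.di, Lt.f, Lt.bi] (hole_rel hinv hr (by decide +kernel)) h
theorem dp_c_3_s (hinv : ∀ x, g (inv x) = (g x)⁻¹) (hr : ∀ r ∈ rels, (r.map g).prod = 1) (hH : ∀ r ∈ subs, (r.map g).prod ∈ H)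
    (j u : ℕ) (hu : u < M) (h : dp_c_3 j u = true) : Good (fa g) T MG M (cP g H) Lt.c u := by
  unfold dp_c_3 at h
  rcases brec_true h with h | h
  · exact lF_good (T := T) (x := Lt.c) (by decide) [Lt.b, Lt.d, Lt.ci, Lt.fi, Lt.fi, Lt.di, Lt.bi] (hole_rel hinv hr (by decide +kernel)) h
  · exact dp_c_2_s hinv hr hH j u hu h
theorem dp_c_4_s (hinv : ∀ x, g (inv x) = (g x)⁻¹) (hr : ∀ r ∈ rels, (r.map g).prod = 1) (hH : ∀ r ∈ subs, (r.map g).prod ∈ H)
    (j u : ℕ) (hu : u < M) (h : dp_c_4 j u = true) : Good (fa g) T MG M (cP g H) Lt.c u := by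
  unfold dp_c_4 at h
  rcases brec_true h with h | h
  · exact dp_c_1_s hinv hr hH j u hu h
  · exact dp_c_3_s hinv hr hH j u hu h
theorem dp_c_5_s (hinv : ∀ x, g (inv x) = (g x)⁻¹) (hr : ∀ r ∈ rels, (r.map g).prod = 1) (hH : ∀ r ∈ subs, (r.map g).prod ∈ H)
    (j u : ℕ) (hu : u < M) (h : dp_c_5 j u = true) : Good (fa g) T MG M (cP g H) Lt.c u := by
  unfold dp_c_5 at h
  rcases brec_true h with h | h
  · exact lF_good (T := T) (x := Lt.c) (by decide) [Lt.fi, Lt.b, Lt.c, Lt.d, Lt.c, Lt.bi, Lt.di] (hole_rel hinv hr (by decide +kernel)) h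
  · exact lF_good (T := T) (x := Lt.c) (by decide) [Lt.d, Lt.fi, Lt.d, Lt.bi, Lt.c, Lt.b, Lt.c] (hole_rel hinv hr (by decide +kernel)) h
theorem dp_c_6_s (hinv : ∀ x, g (inv x) = (g x)⁻¹) (hr : ∀ r ∈ rels, (r.map g).prod = 1) (hH : ∀ r ∈ subs, (r.map g).prod ∈ H)
    (j u : ℕ) (hu : u < M) (h : dp_c_6 j u = true) : Good (fa g) T MG M (cP g H) Lt.c u := by
  unfold dp_c_6 at h
  rcases brec_true h with h | h
  · exact lF_good (T := T) (x := Lt.c) (by decide) [Lt.bi, Lt.fi, Lt.c, Lt.d, Lt.d, Lt.bi, Lt.f] (hole_rel hinv hr (by decide +kernel)) h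
  · exact lS_good (T := T) (x := Lt.c) (by decide) hu [Lt.bi, Lt.fi, Lt.c, Lt.d, Lt.d, Lt.bi, Lt.f] (hole_rel hinv hr (by decide +kernel)) h
theorem dp_c_7_s (hinv : ∀ x, g (inv x) = (g x)⁻¹) (hr : ∀ r ∈ rels, (r.map g).prod = 1) (hH : ∀ r ∈ subs, (r.map g).prod ∈ H)
    (j u : ℕ) (hu : u < M) (h : dp_c_7 j u = true) : Good (fa g) T MG M (cP g H) Lt.c u := by
  unfold dp_c_7 at h
  rcases brec_true h with h | h
  · exact dp_c_5_s hinv hr hH j u hu h
  · exact dp_c_6_s hinv hr hH j u hu h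
theorem dp_c_8_s (hinv : ∀ x, g (inv x) = (g x)⁻¹) (hr : ∀ r ∈ rels, (r.map g).prod = 1) (hH : ∀ r ∈ subs, (r.map g).prod ∈ H)
    (j u : ℕ) (hu : u < M) (h : dp_c_8 j u = true) : Good (fa g) T MG M (cP g H) Lt.c u := by
  unfold dp_c_8 at h
  rcases brec_true h with h | h
  · exact lF_good (T := T) (x := Lt.c) (by decide) [Lt.d, Lt.f, Lt.ci, Lt.b, Lt.fi, Lt.d, Lt.bi] (hole_rel hinv hr (by decide +kernel)) h
  · exact lS_good (T := T) (x := Lt.c) (by decide) hu [Lt.fi, Lt.b, Lt.c, Lt.d, Lt.c, Lt.bi, Lt.di] (hole_rel hinv hr (by decide +kernel)) h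
theorem dp_c_9_s (hinv : ∀ x, g (inv x) = (g x)⁻¹) (hr : ∀ r ∈ rels, (r.map g).prod = 1) (hH : ∀ r ∈ subs, (r.map g).prod ∈ H)
    (j u : ℕ) (hu : u < M) (h : dp_c_9 j u = true) : Good (fa g) T MG M (cP g H) Lt.c u := by
  unfold dp_c_9 at h
  rcases brec_true h with h | h
  · exact lS_good (T := T) (x := Lt.c) (by decide) hu [Lt.b, Lt.d, Lt.ci, Lt.fi, Lt.fi, Lt.di, Lt.bi] (hole_rel hinv hr (by decide +kernel)) h
  · exact lF_good (T := T) (x := Lt.c) (by decide) [Lt.d, Lt.ci, Lt.bi, Lt.d, Lt.fi, Lt.di, Lt.b] (hole_rel hinv hr (by decide +kernel)) h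
theorem dp_c_10_s (hinv : ∀ x, g (inv x) = (g x)⁻¹) (hr : ∀ r ∈ rels, (r.map g).prod = 1) (hH : ∀ r ∈ subs, (r.map g).prod ∈ H)
    (j u : ℕ) (hu : u < M) (h : dp_c_10 j u = true) : Good (fa g) T MG M (cP g H) Lt.c u := by
  unfold dp_c_10 at h
  rcases brec_true h with h | h
  · exact dp_c_8_s hinv hr hH j u hu h
  · exact dp_c_9_s hinv hr hH j u hu h
theorem dp_c_11_s (hinv : ∀ x, g (inv x) = (g x)⁻¹) (hr : ∀ r ∈ rels, (r.map g).prod = 1) (hH : ∀ r ∈ subs, (r.map g).prod ∈ H)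
    (j u : ℕ) (hu : u < M) (h : dp_c_11 j u = true) : Good (fa g) T MG M (cP g H) Lt.c u := by
  unfold dp_c_11 at h
  rcases brec_true h with h | h
  · exact dp_c_7_s hinv hr hH j u hu h
  · exact dp_c_10_s hinv hr hH j u hu h
theorem dp_c_12_s (hinv : ∀ x, g (inv x) = (g x)⁻¹) (hr : ∀ r ∈ rels, (r.map g).prod = 1) (hH : ∀ r ∈ subs, (r.map g).prod ∈ H)
    (j u : ℕ) (hu : u < M) (h : dp_c_12 j u = true) : Good (fa g) T MG M (cP g H) Lt.c u := by
  unfold dp_c_12 at h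
  rcases brec_true h with h | h
  · exact dp_c_4_s hinv hr hH j u hu h
  · exact dp_c_11_s hinv hr hH j u hu h
theorem dp_c_13_s (hinv : ∀ x, g (inv x) = (g x)⁻¹) (hr : ∀ r ∈ rels, (r.map g).prod = 1) (hH : ∀ r ∈ subs, (r.map g).prod ∈ H)
    (j u : ℕ) (hu : u < M) (h : dp_c_13 j u = true) : Good (fa g) T MG M (cP g H) Lt.c u := by
  unfold dp_c_13 at h
  rcases brec_true h with h | h
  · exact lF_good (T := T) (x := Lt.c) (by decide) [Lt.fi, Lt.ei, Lt.fi, Lt.b, Lt.f, Lt.d, Lt.ei, Lt.bi] (hole_rel hinv hr (by decide +kernel)) h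
  · exact lS_good (T := T) (x := Lt.c) (by decide) hu [Lt.bi, Lt.di, Lt.c, Lt.fi, Lt.b, Lt.c, Lt.d] (hole_rel hinv hr (by decide +kernel)) h
theorem dp_c_14_s (hinv : ∀ x, g (inv x) = (g x)⁻¹) (hr : ∀ r ∈ rels, (r.map g).prod = 1) (hH : ∀ r ∈ subs, (r.map g).prod ∈ H)
    (j u : ℕ) (hu : u < M) (h : dp_c_14 j u = true) : Good (fa g) T MG M (cP g H) Lt.c u := by
  unfold dp_c_14 at h
  rcases brec_true h with h | h
  · exact lS_good (T := T) (x := Lt.c) (by decide) hu [Lt.d, Lt.fi, Lt.d, Lt.bi, Lt.c, Lt.b, Lt.c] (hole_rel hinv hr (by decide +kernel)) h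
  · exact lF_good (T := T) (x := Lt.c) (by decide) [Lt.d, Lt.d, Lt.bi, Lt.f, Lt.c, Lt.bi, Lt.fi] (hole_rel hinv hr (by decide +kernel)) h
theorem dp_c_15_s (hinv : ∀ x, g (inv x) = (g x)⁻¹) (hr : ∀ r ∈ rels, (r.map g).prod = 1) (hH : ∀ r ∈ subs, (r.map g).prod ∈ H)
    (j u : ℕ) (hu : u < M) (h : dp_c_15 j u = true) : Good (fa g) T MG M (cP g H) Lt.c u := by
  unfold dp_c_15 at h
  rcases brec_true h with h | h
  · exact lS_good (T := T) (x := Lt.c) (by decide) hu [Lt.d, Lt.ci, Lt.bi, Lt.d, Lt.fi, Lt.di, Lt.b] (hole_rel hinv hr (by decide +kernel)) h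
  · exact dp_c_14_s hinv hr hH j u hu h
theorem dp_c_16_s (hinv : ∀ x, g (inv x) = (g x)⁻¹) (hr : ∀ r ∈ rels, (r.map g).prod = 1) (hH : ∀ r ∈ subs, (r.map g).prod ∈ H)
    (j u : ℕ) (hu : u < M) (h : dp_c_16 j u = true) : Good (fa g) T MG M (cP g H) Lt.c u := by
  unfold dp_c_16 at h
  rcases brec_true h with h | h
  · exact dp_c_13_s hinv hr hH j u hu h
  · exact dp_c_15_s hinv hr hH j u hu h
theorem dp_c_17_s (hinv : ∀ x, g (inv x) = (g x)⁻¹) (hr : ∀ r ∈ rels, (r.map g).prod = 1) (hH : ∀ r ∈ subs, (r.map g).prod ∈ H)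
    (j u : ℕ) (hu : u < M) (h : dp_c_17 j u = true) : Good (fa g) T MG M (cP g H) Lt.c u := by
  unfold dp_c_17 at h
  rcases brec_true h with h | h
  · exact lF_good (T := T) (x := Lt.c) (by decide) [Lt.di, Lt.bi, Lt.ci, Lt.b, Lt.d, Lt.f, Lt.f] (hole_rel hinv hr (by decide +kernel)) h
  · exact lF_good (T := T) (x := Lt.c) (by decide) [Lt.c, Lt.bi, Lt.ci, Lt.b, Lt.ci, Lt.ci, Lt.d] (hole_rel hinv hr (by decide +kernel)) h
theorem dp_c_18_s (hinv : ∀ x, g (inv x) = (g x)⁻¹) (hr : ∀ r ∈ rels, (r.map g).prod = 1) (hH : ∀ r ∈ subs, (r.map g).prod ∈ H)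
    (j u : ℕ) (hu : u < M) (h : dp_c_18 j u = true) : Good (fa g) T MG M (cP g H) Lt.c u := by
  unfold dp_c_18 at h
  rcases brec_true h with h | h
  · exact lF_good (T := T) (x := Lt.c) (by decide) [Lt.f, Lt.b, Lt.fi, Lt.c, Lt.c, Lt.fi, Lt.bi] (hole_rel hinv hr (by decide +kernel)) h
  · exact lS_good (T := T) (x := Lt.c) (by decide) hu [Lt.d, Lt.d, Lt.bi, Lt.f, Lt.c, Lt.bi, Lt.fi] (hole_rel hinv hr (by decide +kernel)) h
theorem dp_c_19_s (hinv : ∀ x, g (inv x) = (g x)⁻¹) (hr : ∀ r ∈ rels, (r.map g).prod = 1) (hH : ∀ r ∈ subs, (r.map g).prod ∈ H)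
    (j u : ℕ) (hu : u < M) (h : dp_c_19 j u = true) : Good (fa g) T MG M (cP g H) Lt.c u := by
  unfold dp_c_19 at h
  rcases brec_true h with h | h
  · exact lF_good (T := T) (x := Lt.c) (by decide) [Lt.c, Lt.d, Lt.fi, Lt.d, Lt.bi, Lt.c, Lt.b] (hole_rel hinv hr (by decide +kernel)) h
  · exact dp_c_18_s hinv hr hH j u hu h
theorem dp_c_20_s (hinv : ∀ x, g (inv x) = (g x)⁻¹) (hr : ∀ r ∈ rels, (r.map g).prod = 1) (hH : ∀ r ∈ subs, (r.map g).prod ∈ H)
    (j u : ℕ) (hu : u < M) (h : dp_c_20 j u = true) : Good (fa g) T MG M (cP g H) Lt.c u := by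
  unfold dp_c_20 at h
  rcases brec_true h with h | h
  · exact dp_c_17_s hinv hr hH j u hu h
  · exact dp_c_19_s hinv hr hH j u hu h
theorem dp_c_21_s (hinv : ∀ x, g (inv x) = (g x)⁻¹) (hr : ∀ r ∈ rels, (r.map g).prod = 1) (hH : ∀ r ∈ subs, (r.map g).prod ∈ H)
    (j u : ℕ) (hu : u < M) (h : dp_c_21 j u = true) : Good (fa g) T MG M (cP g H) Lt.c u := by
  unfold dp_c_21 at h
  rcases brec_true h with h | h
  · exact dp_c_16_s hinv hr hH j u hu h
  · exact dp_c_20_s hinv hr hH j u hu h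
theorem dp_c_22_s (hinv : ∀ x, g (inv x) = (g x)⁻¹) (hr : ∀ r ∈ rels, (r.map g).prod = 1) (hH : ∀ r ∈ subs, (r.map g).prod ∈ H)
    (j u : ℕ) (hu : u < M) (h : dp_c_22 j u = true) : Good (fa g) T MG M (cP g H) Lt.c u := by
  unfold dp_c_22 at h
  rcases brec_true h with h | h
  · exact lS_good (T := T) (x := Lt.c) (by decide) hu [Lt.di, Lt.bi, Lt.ci, Lt.b, Lt.d, Lt.f, Lt.f] (hole_rel hinv hr (by decide +kernel)) h
  · exact lS_good (T := T) (x := Lt.c) (by decide) hu [Lt.f, Lt.b, Lt.fi, Lt.c, Lt.c, Lt.fi, Lt.bi] (hole_rel hinv hr (by decide +kernel)) h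
theorem dp_c_23_s (hinv : ∀ x, g (inv x) = (g x)⁻¹) (hr : ∀ r ∈ rels, (r.map g).prod = 1) (hH : ∀ r ∈ subs, (r.map g).prod ∈ H)
    (j u : ℕ) (hu : u < M) (h : dp_c_23 j u = true) : Good (fa g) T MG M (cP g H) Lt.c u := by
  unfold dp_c_23 at h
  rcases brec_true h with h | h
  · exact lS_good (T := T) (x := Lt.c) (by decide) hu [Lt.fi, Lt.di, Lt.ci, Lt.b, Lt.di, Lt.f, Lt.bi] (hole_rel hinv hr (by decide +kernel)) h
  · exact lS_good (T := T) (x := Lt.c) (by decide) hu [Lt.b, Lt.b, Lt.ci, Lt.fi, Lt.fi, Lt.bi, Lt.d] (hole_rel hinv hr (by decide +kernel)) h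
theorem dp_c_24_s (hinv : ∀ x, g (inv x) = (g x)⁻¹) (hr : ∀ r ∈ rels, (r.map g).prod = 1) (hH : ∀ r ∈ subs, (r.map g).prod ∈ H)
    (j u : ℕ) (hu : u < M) (h : dp_c_24 j u = true) : Good (fa g) T MG M (cP g H) Lt.c u := by
  unfold dp_c_24 at h
  rcases brec_true h with h | h
  · exact lS_good (T := T) (x := Lt.c) (by decide) hu [Lt.c, Lt.bi, Lt.ci, Lt.b, Lt.ci, Lt.ci, Lt.d] (hole_rel hinv hr (by decide +kernel)) h
  · exact dp_c_23_s hinv hr hH j u hu h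
theorem dp_c_25_s (hinv : ∀ x, g (inv x) = (g x)⁻¹) (hr : ∀ r ∈ rels, (r.map g).prod = 1) (hH : ∀ r ∈ subs, (r.map g).prod ∈ H)
    (j u : ℕ) (hu : u < M) (h : dp_c_25 j u = true) : Good (fa g) T MG M (cP g H) Lt.c u := by
  unfold dp_c_25 at h
  rcases brec_true h with h | h
  · exact dp_c_22_s hinv hr hH j u hu h
  · exact dp_c_24_s hinv hr hH j u hu h
theorem dp_c_26_s (hinv : ∀ x, g (inv x) = (g x)⁻¹) (hr : ∀ r ∈ rels, (r.map g).prod = 1) (hH : ∀ r ∈ subs, (r.map g).prod ∈ H)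
    (j u : ℕ) (hu : u < M) (h : dp_c_26 j u = true) : Good (fa g) T MG M (cP g H) Lt.c u := by
  unfold dp_c_26 at h
  rcases brec_true h with h | h
  · exact lS_good (T := T) (x := Lt.c) (by decide) hu [Lt.di, Lt.b, Lt.f, Lt.c, Lt.di, Lt.b, Lt.f] (hole_rel hinv hr (by decide +kernel)) h
  · exact lF_good (T := T) (x := Lt.c) (by decide) [Lt.c, Lt.di, Lt.bi, Lt.c, Lt.c, Lt.di, Lt.bi] (hole_rel hinv hr (by decide +kernel)) h
theorem dp_c_27_s (hinv : ∀ x, g (inv x) = (g x)⁻¹) (hr : ∀ r ∈ rels, (r.map g).prod = 1) (hH : ∀ r ∈ subs, (r.map g).prod ∈ H)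
    (j u : ℕ) (hu : u < M) (h : dp_c_27 j u = true) : Good (fa g) T MG M (cP g H) Lt.c u := by
  unfold dp_c_27 at h
  rcases brec_true h with h | h
  · exact lF_good (T := T) (x := Lt.c) (by decide) [Lt.di, Lt.b, Lt.c, Lt.di, Lt.c, Lt.d, Lt.bi] (hole_rel hinv hr (by decide +kernel)) h
  · exact dp_c_26_s hinv hr hH j u hu h
theorem dp_c_28_s (hinv : ∀ x, g (inv x) = (g x)⁻¹) (hr : ∀ r ∈ rels, (r.map g).prod = 1) (hH : ∀ r ∈ subs, (r.map g).prod ∈ H)
    (j u : ℕ) (hu : u < M) (h : dp_c_28 j u = true) : Good (fa g) T MG M (cP g H) Lt.c u := by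
  unfold dp_c_28 at h
  rcases brec_true h with h | h
  · exact lS_good (T := T) (x := Lt.c) (by decide) hu [Lt.fi, Lt.bi, Lt.di, Lt.c, Lt.bi, Lt.d, Lt.fi] (hole_rel hinv hr (by decide +kernel)) h
  · exact lF_good (T := T) (x := Lt.c) (by decide) [Lt.c, Lt.bi, Lt.c, Lt.b, Lt.ci, Lt.ci, Lt.di] (hole_rel hinv hr (by decide +kernel)) h
theorem dp_c_29_s (hinv : ∀ x, g (inv x) = (g x)⁻¹) (hr : ∀ r ∈ rels, (r.map g).prod = 1) (hH : ∀ r ∈ subs, (r.map g).prod ∈ H)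
    (j u : ℕ) (hu : u < M) (h : dp_c_29 j u = true) : Good (fa g) T MG M (cP g H) Lt.c u := by
  unfold dp_c_29 at h
  rcases brec_true h with h | h
  · exact lS_good (T := T) (x := Lt.c) (by decide) hu [Lt.c, Lt.fi, Lt.bi, Lt.c, Lt.f, Lt.b, Lt.fi] (hole_rel hinv hr (by decide +kernel)) h
  · exact dp_c_28_s hinv hr hH j u hu h
theorem dp_c_30_s (hinv : ∀ x, g (inv x) = (g x)⁻¹) (hr : ∀ r ∈ rels, (r.map g).prod = 1) (hH : ∀ r ∈ subs, (r.map g).prod ∈ H)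
    (j u : ℕ) (hu : u < M) (h : dp_c_30 j u = true) : Good (fa g) T MG M (cP g H) Lt.c u := by
  unfold dp_c_30 at h
  rcases brec_true h with h | h
  · exact dp_c_27_s hinv hr hH j u hu h
  · exact dp_c_29_s hinv hr hH j u hu h
theorem dp_c_31_s (hinv : ∀ x, g (inv x) = (g x)⁻¹) (hr : ∀ r ∈ rels, (r.map g).prod = 1) (hH : ∀ r ∈ subs, (r.map g).prod ∈ H)
    (j u : ℕ) (hu : u < M) (h : dp_c_31 j u = true) : Good (fa g) T MG M (cP g H) Lt.c u := by
  unfold dp_c_31 at h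
  rcases brec_true h with h | h
  · exact dp_c_25_s hinv hr hH j u hu h
  · exact dp_c_30_s hinv hr hH j u hu h
theorem dp_c_32_s (hinv : ∀ x, g (inv x) = (g x)⁻¹) (hr : ∀ r ∈ rels, (r.map g).prod = 1) (hH : ∀ r ∈ subs, (r.map g).prod ∈ H)
    (j u : ℕ) (hu : u < M) (h : dp_c_32 j u = true) : Good (fa g) T MG M (cP g H) Lt.c u := by
  unfold dp_c_32 at h
  rcases brec_true h with h | h
  · exact dp_c_21_s hinv hr hH j u hu h
  · exact dp_c_31_s hinv hr hH j u hu h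
theorem dp_c_33_s (hinv : ∀ x, g (inv x) = (g x)⁻¹) (hr : ∀ r ∈ rels, (r.map g).prod = 1) (hH : ∀ r ∈ subs, (r.map g).prod ∈ H)
    (j u : ℕ) (hu : u < M) (h : dp_c_33 j u = true) : Good (fa g) T MG M (cP g H) Lt.c u := by
  unfold dp_c_33 at h
  rcases brec_true h with h | h
  · exact dp_c_12_s hinv hr hH j u hu h
  · exact dp_c_32_s hinv hr hH j u hu h
theorem dp_c_34_s (hinv : ∀ x, g (inv x) = (g x)⁻¹) (hr : ∀ r ∈ rels, (r.map g).prod = 1) (hH : ∀ r ∈ subs, (r.map g).prod ∈ H)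
    (j u : ℕ) (hu : u < M) (h : dp_c_34 j u = true) : Good (fa g) T MG M (cP g H) Lt.c u := by
  unfold dp_c_34 at h
  rcases brec_true h with h | h
  · exact lS_good (T := T) (x := Lt.c) (by decide) hu [Lt.bi, Lt.d, Lt.fi, Lt.c, Lt.fi, Lt.bi, Lt.di] (hole_rel hinv hr (by decide +kernel)) h
  · exact lF_good (T := T) (x := Lt.c) (by decide) [Lt.di, Lt.f, Lt.f, Lt.e, Lt.fi, Lt.ei, Lt.f, Lt.e] (hole_rel hinv hr (by decide +kernel)) h
theorem dp_c_35_s (hinv : ∀ x, g (inv x) = (g x)⁻¹) (hr : ∀ r ∈ rels, (r.map g).prod = 1) (hH : ∀ r ∈ subs, (r.map g).prod ∈ H)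
    (j u : ℕ) (hu : u < M) (h : dp_c_35 j u = true) : Good (fa g) T MG M (cP g H) Lt.c u := by
  unfold dp_c_35 at h
  rcases brec_true h with h | h
  · exact lS_good (T := T) (x := Lt.c) (by decide) hu [Lt.di, Lt.b, Lt.c, Lt.di, Lt.c, Lt.d, Lt.bi] (hole_rel hinv hr (by decide +kernel)) h
  · exact dp_c_34_s hinv hr hH j u hu h
theorem dp_c_36_s (hinv : ∀ x, g (inv x) = (g x)⁻¹) (hr : ∀ r ∈ rels, (r.map g).prod = 1) (hH : ∀ r ∈ subs, (r.map g).prod ∈ H)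
    (j u : ℕ) (hu : u < M) (h : dp_c_36 j u = true) : Good (fa g) T MG M (cP g H) Lt.c u := by
  unfold dp_c_36 at h
  rcases brec_true h with h | h
  · exact lS_good (T := T) (x := Lt.c) (by decide) hu [Lt.c, Lt.d, Lt.fi, Lt.d, Lt.bi, Lt.c, Lt.b] (hole_rel hinv hr (by decide +kernel)) h
  · exact lS_good (T := T) (x := Lt.c) (by decide) hu [Lt.b, Lt.f, Lt.d, Lt.d, Lt.b, Lt.fi, Lt.d] (hole_rel hinv hr (by decide +kernel)) h
theorem dp_c_37_s (hinv : ∀ x, g (inv x) = (g x)⁻¹) (hr : ∀ r ∈ rels, (r.map g).prod = 1) (hH : ∀ r ∈ subs, (r.map g).prod ∈ H)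
    (j u : ℕ) (hu : u < M) (h : dp_c_37 j u = true) : Good (fa g) T MG M (cP g H) Lt.c u := by
  unfold dp_c_37 at h
  rcases brec_true h with h | h
  · exact lF_good (T := T) (x := Lt.c) (by decide) [Lt.di, Lt.b, Lt.f, Lt.c, Lt.di, Lt.b, Lt.f] (hole_rel hinv hr (by decide +kernel)) h
  · exact dp_c_36_s hinv hr hH j u hu h
theorem dp_c_38_s (hinv : ∀ x, g (inv x) = (g x)⁻¹) (hr : ∀ r ∈ rels, (r.map g).prod = 1) (hH : ∀ r ∈ subs, (r.map g).prod ∈ H)
    (j u : ℕ) (hu : u < M) (h : dp_c_38 j u = true) : Good (fa g) T MG M (cP g H) Lt.c u := by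
  unfold dp_c_38 at h
  rcases brec_true h with h | h
  · exact dp_c_35_s hinv hr hH j u hu h
  · exact dp_c_37_s hinv hr hH j u hu h
theorem dp_c_39_s (hinv : ∀ x, g (inv x) = (g x)⁻¹) (hr : ∀ r ∈ rels, (r.map g).prod = 1) (hH : ∀ r ∈ subs, (r.map g).prod ∈ H)
    (j u : ℕ) (hu : u < M) (h : dp_c_39 j u = true) : Good (fa g) T MG M (cP g H) Lt.c u := by
  unfold dp_c_39 at h
  rcases brec_true h with h | h
  · exact lF_good (T := T) (x := Lt.c) (by decide) [Lt.b, Lt.f, Lt.d, Lt.d, Lt.b, Lt.fi, Lt.d] (hole_rel hinv hr (by decide +kernel)) h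
  · exact lS_good (T := T) (x := Lt.c) (by decide) hu [Lt.bi, Lt.bi, Lt.di, Lt.ci, Lt.bi, Lt.f, Lt.b] (hole_rel hinv hr (by decide +kernel)) h
theorem dp_c_40_s (hinv : ∀ x, g (inv x) = (g x)⁻¹) (hr : ∀ r ∈ rels, (r.map g).prod = 1) (hH : ∀ r ∈ subs, (r.map g).prod ∈ H)
    (j u : ℕ) (hu : u < M) (h : dp_c_40 j u = true) : Good (fa g) T MG M (cP g H) Lt.c u := by
  unfold dp_c_40 at h
  rcases brec_true h with h | h
  · exact lF_good (T := T) (x := Lt.c) (by decide) [Lt.bi, Lt.bi, Lt.ci, Lt.di, Lt.b, Lt.f, Lt.f] (hole_rel hinv hr (by decide +kernel)) h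
  · exact dp_c_39_s hinv hr hH j u hu h
theorem dp_c_41_s (hinv : ∀ x, g (inv x) = (g x)⁻¹) (hr : ∀ r ∈ rels, (r.map g).prod = 1) (hH : ∀ r ∈ subs, (r.map g).prod ∈ H)
    (j u : ℕ) (hu : u < M) (h : dp_c_41 j u = true) : Good (fa g) T MG M (cP g H) Lt.c u := by
  unfold dp_c_41 at h
  rcases brec_true h with h | h
  · exact lF_good (T := T) (x := Lt.c) (by decide) [Lt.di, Lt.ci, Lt.bi, Lt.d, Lt.f, Lt.di, Lt.b] (hole_rel hinv hr (by decide +kernel)) h
  · exact lF_good (T := T) (x := Lt.c) (by decide) [Lt.b, Lt.ci, Lt.di, Lt.c, Lt.b, Lt.ci, Lt.di] (hole_rel hinv hr (by decide +kernel)) h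
theorem dp_c_42_s (hinv : ∀ x, g (inv x) = (g x)⁻¹) (hr : ∀ r ∈ rels, (r.map g).prod = 1) (hH : ∀ r ∈ subs, (r.map g).prod ∈ H)
    (j u : ℕ) (hu : u < M) (h : dp_c_42 j u = true) : Good (fa g) T MG M (cP g H) Lt.c u := by
  unfold dp_c_42 at h
  rcases brec_true h with h | h
  · exact lF_good (T := T) (x := Lt.c) (by decide) [Lt.fi, Lt.bi, Lt.di, Lt.c, Lt.bi, Lt.d, Lt.fi] (hole_rel hinv hr (by decide +kernel)) h
  · exact lF_good (T := T) (x := Lt.c) (by decide) [Lt.b, Lt.c, Lt.d, Lt.f, Lt.b, Lt.di, Lt.f] (hole_rel hinv hr (by decide +kernel)) h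
theorem dp_c_43_s (hinv : ∀ x, g (inv x) = (g x)⁻¹) (hr : ∀ r ∈ rels, (r.map g).prod = 1) (hH : ∀ r ∈ subs, (r.map g).prod ∈ H)
    (j u : ℕ) (hu : u < M) (h : dp_c_43 j u = true) : Good (fa g) T MG M (cP g H) Lt.c u := by
  unfold dp_c_43 at h
  rcases brec_true h with h | h
  · exact dp_c_41_s hinv hr hH j u hu h
  · exact dp_c_42_s hinv hr hH j u hu h
theorem dp_c_44_s (hinv : ∀ x, g (inv x) = (g x)⁻¹) (hr : ∀ r ∈ rels, (r.map g).prod = 1) (hH : ∀ r ∈ subs, (r.map g).prod ∈ H)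
    (j u : ℕ) (hu : u < M) (h : dp_c_44 j u = true) : Good (fa g) T MG M (cP g H) Lt.c u := by
  unfold dp_c_44 at h
  rcases brec_true h with h | h
  · exact dp_c_40_s hinv hr hH j u hu h
  · exact dp_c_43_s hinv hr hH j u hu h
theorem dp_c_45_s (hinv : ∀ x, g (inv x) = (g x)⁻¹) (hr : ∀ r ∈ rels, (r.map g).prod = 1) (hH : ∀ r ∈ subs, (r.map g).prod ∈ H)
    (j u : ℕ) (hu : u < M) (h : dp_c_45 j u = true) : Good (fa g) T MG M (cP g H) Lt.c u := by
  unfold dp_c_45 at h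
  rcases brec_true h with h | h
  · exact dp_c_38_s hinv hr hH j u hu h
  · exact dp_c_44_s hinv hr hH j u hu h
theorem dp_c_46_s (hinv : ∀ x, g (inv x) = (g x)⁻¹) (hr : ∀ r ∈ rels, (r.map g).prod = 1) (hH : ∀ r ∈ subs, (r.map g).prod ∈ H)
    (j u : ℕ) (hu : u < M) (h : dp_c_46 j u = true) : Good (fa g) T MG M (cP g H) Lt.c u := by
  unfold dp_c_46 at h
  rcases brec_true h with h | h
  · exact lS_good (T := T) (x := Lt.c) (by decide) hu [Lt.bi, Lt.ci, Lt.b, Lt.ci, Lt.ci, Lt.d, Lt.c] (hole_rel hinv hr (by decide +kernel)) h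
  · exact lF_good (T := T) (x := Lt.c) (by decide) [Lt.di, Lt.c, Lt.d, Lt.bi, Lt.c, Lt.di, Lt.b] (hole_rel hinv hr (by decide +kernel)) h
theorem dp_c_47_s (hinv : ∀ x, g (inv x) = (g x)⁻¹) (hr : ∀ r ∈ rels, (r.map g).prod = 1) (hH : ∀ r ∈ subs, (r.map g).prod ∈ H)
    (j u : ℕ) (hu : u < M) (h : dp_c_47 j u = true) : Good (fa g) T MG M (cP g H) Lt.c u := by
  unfold dp_c_47 at h
  rcases brec_true h with h | h
  · exact lS_good (T := T) (x := Lt.c) (by decide) hu [Lt.di, Lt.ci, Lt.bi, Lt.d, Lt.f, Lt.di, Lt.b] (hole_rel hinv hr (by decide +kernel)) h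
  · exact dp_c_46_s hinv hr hH j u hu h
theorem dp_c_48_s (hinv : ∀ x, g (inv x) = (g x)⁻¹) (hr : ∀ r ∈ rels, (r.map g).prod = 1) (hH : ∀ r ∈ subs, (r.map g).prod ∈ H)
    (j u : ℕ) (hu : u < M) (h : dp_c_48 j u = true) : Good (fa g) T MG M (cP g H) Lt.c u := by
  unfold dp_c_48 at h
  rcases brec_true h with h | h
  · exact lF_good (T := T) (x := Lt.c) (by decide) [Lt.bi, Lt.ci, Lt.d, Lt.c, Lt.bi, Lt.ci, Lt.d] (hole_rel hinv hr (by decide +kernel)) h
  · exact lS_good (T := T) (x := Lt.c) (by decide) hu [Lt.bi, Lt.c, Lt.bi, Lt.c, Lt.bi, Lt.c, Lt.bi] (hole_rel hinv hr (by decide +kernel)) h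
theorem dp_c_49_s (hinv : ∀ x, g (inv x) = (g x)⁻¹) (hr : ∀ r ∈ rels, (r.map g).prod = 1) (hH : ∀ r ∈ subs, (r.map g).prod ∈ H)
    (j u : ℕ) (hu : u < M) (h : dp_c_49 j u = true) : Good (fa g) T MG M (cP g H) Lt.c u := by
  unfold dp_c_49 at h
  rcases brec_true h with h | h
  · exact lS_good (T := T) (x := Lt.c) (by decide) hu [Lt.b, Lt.ci, Lt.di, Lt.c, Lt.b, Lt.ci, Lt.di] (hole_rel hinv hr (by decide +kernel)) h
  · exact lF_good (T := T) (x := Lt.c) (by decide) [Lt.bi, Lt.c, Lt.b, Lt.ci, Lt.ci, Lt.di, Lt.c] (hole_rel hinv hr (by decide +kernel)) h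
theorem dp_c_50_s (hinv : ∀ x, g (inv x) = (g x)⁻¹) (hr : ∀ r ∈ rels, (r.map g).prod = 1) (hH : ∀ r ∈ subs, (r.map g).prod ∈ H)
    (j u : ℕ) (hu : u < M) (h : dp_c_50 j u = true) : Good (fa g) T MG M (cP g H) Lt.c u := by
  unfold dp_c_50 at h
  rcases brec_true h with h | h
  · exact dp_c_48_s hinv hr hH j u hu h
  · exact dp_c_49_s hinv hr hH j u hu h
theorem dp_c_51_s (hinv : ∀ x, g (inv x) = (g x)⁻¹) (hr : ∀ r ∈ rels, (r.map g).prod = 1) (hH : ∀ r ∈ subs, (r.map g).prod ∈ H)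
    (j u : ℕ) (hu : u < M) (h : dp_c_51 j u = true) : Good (fa g) T MG M (cP g H) Lt.c u := by
  unfold dp_c_51 at h
  rcases brec_true h with h | h
  · exact dp_c_47_s hinv hr hH j u hu h
  · exact dp_c_50_s hinv hr hH j u hu h
theorem dp_c_52_s (hinv : ∀ x, g (inv x) = (g x)⁻¹) (hr : ∀ r ∈ rels, (r.map g).prod = 1) (hH : ∀ r ∈ subs, (r.map g).prod ∈ H)
    (j u : ℕ) (hu : u < M) (h : dp_c_52 j u = true) : Good (fa g) T MG M (cP g H) Lt.c u := by
  unfold dp_c_52 at h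
  rcases brec_true h with h | h
  · exact lS_good (T := T) (x := Lt.c) (by decide) hu [Lt.c, Lt.di, Lt.bi, Lt.c, Lt.c, Lt.di, Lt.bi] (hole_rel hinv hr (by decide +kernel)) h
  · exact lS_good (T := T) (x := Lt.c) (by decide) hu [Lt.b, Lt.c, Lt.d, Lt.f, Lt.b, Lt.di, Lt.f] (hole_rel hinv hr (by decide +kernel)) h
theorem dp_c_53_s (hinv : ∀ x, g (inv x) = (g x)⁻¹) (hr : ∀ r ∈ rels, (r.map g).prod = 1) (hH : ∀ r ∈ subs, (r.map g).prod ∈ H)
    (j u : ℕ) (hu : u < M) (h : dp_c_53 j u = true) : Good (fa g) T MG M (cP g H) Lt.c u := by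
  unfold dp_c_53 at h
  rcases brec_true h with h | h
  · exact lS_good (T := T) (x := Lt.c) (by decide) hu [Lt.b, Lt.c, Lt.c, Lt.d, Lt.fi, Lt.d, Lt.bi] (hole_rel hinv hr (by decide +kernel)) h
  · exact lS_good (T := T) (x := Lt.c) (by decide) hu [Lt.fi, Lt.bi, Lt.c, Lt.f, Lt.b, Lt.fi, Lt.c] (hole_rel hinv hr (by decide +kernel)) h
theorem dp_c_54_s (hinv : ∀ x, g (inv x) = (g x)⁻¹) (hr : ∀ r ∈ rels, (r.map g).prod = 1) (hH : ∀ r ∈ subs, (r.map g).prod ∈ H)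
    (j u : ℕ) (hu : u < M) (h : dp_c_54 j u = true) : Good (fa g) T MG M (cP g H) Lt.c u := by
  unfold dp_c_54 at h
  rcases brec_true h with h | h
  · exact dp_c_52_s hinv hr hH j u hu h
  · exact dp_c_53_s hinv hr hH j u hu h
theorem dp_c_55_s (hinv : ∀ x, g (inv x) = (g x)⁻¹) (hr : ∀ r ∈ rels, (r.map g).prod = 1) (hH : ∀ r ∈ subs, (r.map g).prod ∈ H)
    (j u : ℕ) (hu : u < M) (h : dp_c_55 j u = true) : Good (fa g) T MG M (cP g H) Lt.c u := by
  unfold dp_c_55 at h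
  rcases brec_true h with h | h
  · exact lS_good (T := T) (x := Lt.c) (by decide) hu [Lt.di, Lt.di, Lt.fi, Lt.c, Lt.di, Lt.di, Lt.fi] (hole_rel hinv hr (by decide +kernel)) h
  · exact lS_good (T := T) (x := Lt.c) (by decide) hu [Lt.b, Lt.ci, Lt.bi, Lt.di, Lt.di, Lt.f, Lt.b] (hole_rel hinv hr (by decide +kernel)) h
theorem dp_c_56_s (hinv : ∀ x, g (inv x) = (g x)⁻¹) (hr : ∀ r ∈ rels, (r.map g).prod = 1) (hH : ∀ r ∈ subs, (r.map g).prod ∈ H)
    (j u : ℕ) (hu : u < M) (h : dp_c_56 j u = true) : Good (fa g) T MG M (cP g H) Lt.c u := by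
  unfold dp_c_56 at h
  rcases brec_true h with h | h
  · exact lF_good (T := T) (x := Lt.c) (by decide) [Lt.bi, Lt.di, Lt.ci, Lt.bi, Lt.di, Lt.fi, Lt.b] (hole_rel hinv hr (by decide +kernel)) h
  · exact lS_good (T := T) (x := Lt.c) (by decide) hu [Lt.bi, Lt.bi, Lt.ci, Lt.di, Lt.b, Lt.f, Lt.f] (hole_rel hinv hr (by decide +kernel)) h
theorem dp_c_57_s (hinv : ∀ x, g (inv x) = (g x)⁻¹) (hr : ∀ r ∈ rels, (r.map g).prod = 1) (hH : ∀ r ∈ subs, (r.map g).prod ∈ H)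
    (j u : ℕ) (hu : u < M) (h : dp_c_57 j u = true) : Good (fa g) T MG M (cP g H) Lt.c u := by
  unfold dp_c_57 at h
  rcases brec_true h with h | h
  · exact dp_c_55_s hinv hr hH j u hu h
  · exact dp_c_56_s hinv hr hH j u hu h
theorem dp_c_58_s (hinv : ∀ x, g (inv x) = (g x)⁻¹) (hr : ∀ r ∈ rels, (r.map g).prod = 1) (hH : ∀ r ∈ subs, (r.map g).prod ∈ H)
    (j u : ℕ) (hu : u < M) (h : dp_c_58 j u = true) : Good (fa g) T MG M (cP g H) Lt.c u := by
  unfold dp_c_58 at h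
  rcases brec_true h with h | h
  · exact dp_c_54_s hinv hr hH j u hu h
  · exact dp_c_57_s hinv hr hH j u hu h
theorem dp_c_59_s (hinv : ∀ x, g (inv x) = (g x)⁻¹) (hr : ∀ r ∈ rels, (r.map g).prod = 1) (hH : ∀ r ∈ subs, (r.map g).prod ∈ H)
    (j u : ℕ) (hu : u < M) (h : dp_c_59 j u = true) : Good (fa g) T MG M (cP g H) Lt.c u := by
  unfold dp_c_59 at h
  rcases brec_true h with h | h
  · exact dp_c_51_s hinv hr hH j u hu h
  · exact dp_c_58_s hinv hr hH j u hu h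
theorem dp_c_60_s (hinv : ∀ x, g (inv x) = (g x)⁻¹) (hr : ∀ r ∈ rels, (r.map g).prod = 1) (hH : ∀ r ∈ subs, (r.map g).prod ∈ H)
    (j u : ℕ) (hu : u < M) (h : dp_c_60 j u = true) : Good (fa g) T MG M (cP g H) Lt.c u := by
  unfold dp_c_60 at h
  rcases brec_true h with h | h
  · exact dp_c_45_s hinv hr hH j u hu h
  · exact dp_c_59_s hinv hr hH j u hu h
theorem dp_c_61_s (hinv : ∀ x, g (inv x) = (g x)⁻¹) (hr : ∀ r ∈ rels, (r.map g).prod = 1) (hH : ∀ r ∈ subs, (r.map g).prod ∈ H)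
    (j u : ℕ) (hu : u < M) (h : dp_c_61 j u = true) : Good (fa g) T MG M (cP g H) Lt.c u := by
  unfold dp_c_61 at h
  rcases brec_true h with h | h
  · exact lF_good (T := T) (x := Lt.c) (by decide) [Lt.bi, Lt.ci, Lt.bi, Lt.fi, Lt.d, Lt.d, Lt.b] (hole_rel hinv hr (by decide +kernel)) h
  · exact lS_good (T := T) (x := Lt.c) (by decide) hu [Lt.d, Lt.f, Lt.ci, Lt.b, Lt.fi, Lt.d, Lt.bi] (hole_rel hinv hr (by decide +kernel)) h
theorem dp_c_62_s (hinv : ∀ x, g (inv x) = (g x)⁻¹) (hr : ∀ r ∈ rels, (r.map g).prod = 1) (hH : ∀ r ∈ subs, (r.map g).prod ∈ H)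
    (j u : ℕ) (hu : u < M) (h : dp_c_62 j u = true) : Good (fa g) T MG M (cP g H) Lt.c u := by
  unfold dp_c_62 at h
  rcases brec_true h with h | h
  · exact lS_good (T := T) (x := Lt.c) (by decide) hu [Lt.di, Lt.bi, Lt.c, Lt.c, Lt.di, Lt.bi, Lt.c] (hole_rel hinv hr (by decide +kernel)) h
  · exact lF_good (T := T) (x := Lt.c) (by decide) [Lt.b, Lt.ci, Lt.ci, Lt.di, Lt.c, Lt.c, Lt.bi] (hole_rel hinv hr (by decide +kernel)) h
theorem dp_c_63_s (hinv : ∀ x, g (inv x) = (g x)⁻¹) (hr : ∀ r ∈ rels, (r.map g).prod = 1) (hH : ∀ r ∈ subs, (r.map g).prod ∈ H)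
    (j u : ℕ) (hu : u < M) (h : dp_c_63 j u = true) : Good (fa g) T MG M (cP g H) Lt.c u := by
  unfold dp_c_63 at h
  rcases brec_true h with h | h
  · exact dp_c_61_s hinv hr hH j u hu h
  · exact dp_c_62_s hinv hr hH j u hu h
theorem dp_c_64_s (hinv : ∀ x, g (inv x) = (g x)⁻¹) (hr : ∀ r ∈ rels, (r.map g).prod = 1) (hH : ∀ r ∈ subs, (r.map g).prod ∈ H)
    (j u : ℕ) (hu : u < M) (h : dp_c_64 j u = true) : Good (fa g) T MG M (cP g H) Lt.c u := by
  unfold dp_c_64 at h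
  rcases brec_true h with h | h
  · exact lS_good (T := T) (x := Lt.c) (by decide) hu [Lt.bi, Lt.c, Lt.b, Lt.ci, Lt.ci, Lt.di, Lt.c] (hole_rel hinv hr (by decide +kernel)) h
  · exact lS_good (T := T) (x := Lt.c) (by decide) hu [Lt.c, Lt.bi, Lt.c, Lt.b, Lt.ci, Lt.ci, Lt.di] (hole_rel hinv hr (by decide +kernel)) h
theorem dp_c_65_s (hinv : ∀ x, g (inv x) = (g x)⁻¹) (hr : ∀ r ∈ rels, (r.map g).prod = 1) (hH : ∀ r ∈ subs, (r.map g).prod ∈ H)
    (j u : ℕ) (hu : u < M) (h : dp_c_65 j u = true) : Good (fa g) T MG M (cP g H) Lt.c u := by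
  unfold dp_c_65 at h
  rcases brec_true h with h | h
  · exact lF_good (T := T) (x := Lt.c) (by decide) [Lt.c, Lt.fi, Lt.bi, Lt.c, Lt.f, Lt.b, Lt.fi] (hole_rel hinv hr (by decide +kernel)) h
  · exact lF_good (T := T) (x := Lt.c) (by decide) [Lt.b, Lt.c, Lt.c, Lt.d, Lt.fi, Lt.d, Lt.bi] (hole_rel hinv hr (by decide +kernel)) h
theorem dp_c_66_s (hinv : ∀ x, g (inv x) = (g x)⁻¹) (hr : ∀ r ∈ rels, (r.map g).prod = 1) (hH : ∀ r ∈ subs, (r.map g).prod ∈ H)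
    (j u : ℕ) (hu : u < M) (h : dp_c_66 j u = true) : Good (fa g) T MG M (cP g H) Lt.c u := by
  unfold dp_c_66 at h
  rcases brec_true h with h | h
  · exact dp_c_64_s hinv hr hH j u hu h
  · exact dp_c_65_s hinv hr hH j u hu h
theorem dp_c_67_s (hinv : ∀ x, g (inv x) = (g x)⁻¹) (hr : ∀ r ∈ rels, (r.map g).prod = 1) (hH : ∀ r ∈ subs, (r.map g).prod ∈ H)
    (j u : ℕ) (hu : u < M) (h : dp_c_67 j u = true) : Good (fa g) T MG M (cP g H) Lt.c u := by
  unfold dp_c_67 at h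
  rcases brec_true h with h | h
  · exact dp_c_63_s hinv hr hH j u hu h
  · exact dp_c_66_s hinv hr hH j u hu h
theorem dp_c_68_s (hinv : ∀ x, g (inv x) = (g x)⁻¹) (hr : ∀ r ∈ rels, (r.map g).prod = 1) (hH : ∀ r ∈ subs, (r.map g).prod ∈ H)
    (j u : ℕ) (hu : u < M) (h : dp_c_68 j u = true) : Good (fa g) T MG M (cP g H) Lt.c u := by
  unfold dp_c_68 at h
  rcases brec_true h with h | h
  · exact lF_good (T := T) (x := Lt.c) (by decide) [Lt.b, Lt.ci, Lt.bi, Lt.di, Lt.di, Lt.f, Lt.b] (hole_rel hinv hr (by decide +kernel)) h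
  · exact lS_good (T := T) (x := Lt.c) (by decide) hu [Lt.bi, Lt.di, Lt.ci, Lt.bi, Lt.di, Lt.fi, Lt.b] (hole_rel hinv hr (by decide +kernel)) h
theorem dp_c_69_s (hinv : ∀ x, g (inv x) = (g x)⁻¹) (hr : ∀ r ∈ rels, (r.map g).prod = 1) (hH : ∀ r ∈ subs, (r.map g).prod ∈ H)
    (j u : ℕ) (hu : u < M) (h : dp_c_69 j u = true) : Good (fa g) T MG M (cP g H) Lt.c u := by
  unfold dp_c_69 at h
  rcases brec_true h with h | h
  · exact lS_good (T := T) (x := Lt.c) (by decide) hu [Lt.fi, Lt.bi, Lt.bi, Lt.f, Lt.b, Lt.f, Lt.di] (hole_rel hinv hr (by decide +kernel)) h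
  · exact lS_good (T := T) (x := Lt.c) (by decide) hu [Lt.d, Lt.c, Lt.bi, Lt.di, Lt.c, Lt.fi, Lt.b] (hole_rel hinv hr (by decide +kernel)) h
theorem dp_c_70_s (hinv : ∀ x, g (inv x) = (g x)⁻¹) (hr : ∀ r ∈ rels, (r.map g).prod = 1) (hH : ∀ r ∈ subs, (r.map g).prod ∈ H)
    (j u : ℕ) (hu : u < M) (h : dp_c_70 j u = true) : Good (fa g) T MG M (cP g H) Lt.c u := by
  unfold dp_c_70 at h
  rcases brec_true h with h | h
  · exact lF_good (T := T) (x := Lt.c) (by decide) [Lt.bi, Lt.c, Lt.bi, Lt.c, Lt.bi, Lt.c, Lt.bi] (hole_rel hinv hr (by decide +kernel)) h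
  · exact dp_c_69_s hinv hr hH j u hu h
theorem dp_c_71_s (hinv : ∀ x, g (inv x) = (g x)⁻¹) (hr : ∀ r ∈ rels, (r.map g).prod = 1) (hH : ∀ r ∈ subs, (r.map g).prod ∈ H)
    (j u : ℕ) (hu : u < M) (h : dp_c_71 j u = true) : Good (fa g) T MG M (cP g H) Lt.c u := by
  unfold dp_c_71 at h
  rcases brec_true h with h | h
  · exact dp_c_68_s hinv hr hH j u hu h
  · exact dp_c_70_s hinv hr hH j u hu h
theorem dp_c_72_s (hinv : ∀ x, g (inv x) = (g x)⁻¹) (hr : ∀ r ∈ rels, (r.map g).prod = 1) (hH : ∀ r ∈ subs, (r.map g).prod ∈ H)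
    (j u : ℕ) (hu : u < M) (h : dp_c_72 j u = true) : Good (fa g) T MG M (cP g H) Lt.c u := by
  unfold dp_c_72 at h
  rcases brec_true h with h | h
  · exact lF_good (T := T) (x := Lt.c) (by decide) [Lt.bi, Lt.di, Lt.c, Lt.fi, Lt.b, Lt.c, Lt.d] (hole_rel hinv hr (by decide +kernel)) h
  · exact lS_good (T := T) (x := Lt.c) (by decide) hu [Lt.bi, Lt.ci, Lt.bi, Lt.fi, Lt.d, Lt.d, Lt.b] (hole_rel hinv hr (by decide +kernel)) h
theorem dp_c_73_s (hinv : ∀ x, g (inv x) = (g x)⁻¹) (hr : ∀ r ∈ rels, (r.map g).prod = 1) (hH : ∀ r ∈ subs, (r.map g).prod ∈ H)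
    (j u : ℕ) (hu : u < M) (h : dp_c_73 j u = true) : Good (fa g) T MG M (cP g H) Lt.c u := by
  unfold dp_c_73 at h
  rcases brec_true h with h | h
  · exact lF_good (T := T) (x := Lt.c) (by decide) [Lt.b, Lt.b, Lt.ci, Lt.fi, Lt.fi, Lt.bi, Lt.d] (hole_rel hinv hr (by decide +kernel)) h
  · exact lS_good (T := T) (x := Lt.c) (by decide) hu [Lt.di, Lt.c, Lt.d, Lt.bi, Lt.c, Lt.di, Lt.b] (hole_rel hinv hr (by decide +kernel)) h
theorem dp_c_74_s (hinv : ∀ x, g (inv x) = (g x)⁻¹) (hr : ∀ r ∈ rels, (r.map g).prod = 1) (hH : ∀ r ∈ subs, (r.map g).prod ∈ H)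
    (j u : ℕ) (hu : u < M) (h : dp_c_74 j u = true) : Good (fa g) T MG M (cP g H) Lt.c u := by
  unfold dp_c_74 at h
  rcases brec_true h with h | h
  · exact lF_good (T := T) (x := Lt.c) (by decide) [Lt.bi, Lt.ci, Lt.b, Lt.ci, Lt.ci, Lt.d, Lt.c] (hole_rel hinv hr (by decide +kernel)) h
  · exact dp_c_73_s hinv hr hH j u hu h
theorem dp_c_75_s (hinv : ∀ x, g (inv x) = (g x)⁻¹) (hr : ∀ r ∈ rels, (r.map g).prod = 1) (hH : ∀ r ∈ subs, (r.map g).prod ∈ H)
    (j u : ℕ) (hu : u < M) (h : dp_c_75 j u = true) : Good (fa g) T MG M (cP g H) Lt.c u := by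
  unfold dp_c_75 at h
  rcases brec_true h with h | h
  · exact dp_c_72_s hinv hr hH j u hu h
  · exact dp_c_74_s hinv hr hH j u hu h
theorem dp_c_76_s (hinv : ∀ x, g (inv x) = (g x)⁻¹) (hr : ∀ r ∈ rels, (r.map g).prod = 1) (hH : ∀ r ∈ subs, (r.map g).prod ∈ H)
    (j u : ℕ) (hu : u < M) (h : dp_c_76 j u = true) : Good (fa g) T MG M (cP g H) Lt.c u := by
  unfold dp_c_76 at h
  rcases brec_true h with h | h
  · exact dp_c_71_s hinv hr hH j u hu h
  · exact dp_c_75_s hinv hr hH j u hu h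
theorem dp_c_77_s (hinv : ∀ x, g (inv x) = (g x)⁻¹) (hr : ∀ r ∈ rels, (r.map g).prod = 1) (hH : ∀ r ∈ subs, (r.map g).prod ∈ H)
    (j u : ℕ) (hu : u < M) (h : dp_c_77 j u = true) : Good (fa g) T MG M (cP g H) Lt.c u := by
  unfold dp_c_77 at h
  rcases brec_true h with h | h
  · exact dp_c_67_s hinv hr hH j u hu h
  · exact dp_c_76_s hinv hr hH j u hu h
theorem dp_c_78_s (hinv : ∀ x, g (inv x) = (g x)⁻¹) (hr : ∀ r ∈ rels, (r.map g).prod = 1) (hH : ∀ r ∈ subs, (r.map g).prod ∈ H)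
    (j u : ℕ) (hu : u < M) (h : dp_c_78 j u = true) : Good (fa g) T MG M (cP g H) Lt.c u := by
  unfold dp_c_78 at h
  rcases brec_true h with h | h
  · exact lS_good (T := T) (x := Lt.c) (by decide) hu [Lt.di, Lt.f, Lt.f, Lt.e, Lt.fi, Lt.ei, Lt.f, Lt.e] (hole_rel hinv hr (by decide +kernel)) h
  · exact lS_good (T := T) (x := Lt.c) (by decide) hu [Lt.di, Lt.f, Lt.ei, Lt.f, Lt.e, Lt.fi, Lt.ei, Lt.f] (hole_rel hinv hr (by decide +kernel)) h
theorem dp_c_79_s (hinv : ∀ x, g (inv x) = (g x)⁻¹) (hr : ∀ r ∈ rels, (r.map g).prod = 1) (hH : ∀ r ∈ subs, (r.map g).prod ∈ H)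
    (j u : ℕ) (hu : u < M) (h : dp_c_79 j u = true) : Good (fa g) T MG M (cP g H) Lt.c u := by
  unfold dp_c_79 at h
  rcases brec_true h with h | h
  · exact lS_good (T := T) (x := Lt.c) (by decide) hu [Lt.d, Lt.b, Lt.b, Lt.ci, Lt.bi, Lt.fi, Lt.b] (hole_rel hinv hr (by decide +kernel)) h
  · exact lF_good (T := T) (x := Lt.c) (by decide) [Lt.d, Lt.b, Lt.ci, Lt.bi, Lt.f, Lt.d, Lt.b] (hole_rel hinv hr (by decide +kernel)) h
theorem dp_c_80_s (hinv : ∀ x, g (inv x) = (g x)⁻¹) (hr : ∀ r ∈ rels, (r.map g).prod = 1) (hH : ∀ r ∈ subs, (r.map g).prod ∈ H)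
    (j u : ℕ) (hu : u < M) (h : dp_c_80 j u = true) : Good (fa g) T MG M (cP g H) Lt.c u := by
  unfold dp_c_80 at h
  rcases brec_true h with h | h
  · exact lF_good (T := T) (x := Lt.c) (by decide) [Lt.di, Lt.bi, Lt.c, Lt.c, Lt.di, Lt.bi, Lt.c] (hole_rel hinv hr (by decide +kernel)) h
  · exact dp_c_79_s hinv hr hH j u hu h
theorem dp_c_81_s (hinv : ∀ x, g (inv x) = (g x)⁻¹) (hr : ∀ r ∈ rels, (r.map g).prod = 1) (hH : ∀ r ∈ subs, (r.map g).prod ∈ H)
    (j u : ℕ) (hu : u < M) (h : dp_c_81 j u = true) : Good (fa g) T MG M (cP g H) Lt.c u := by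
  unfold dp_c_81 at h
  rcases brec_true h with h | h
  · exact dp_c_78_s hinv hr hH j u hu h
  · exact dp_c_80_s hinv hr hH j u hu h
theorem dp_c_82_s (hinv : ∀ x, g (inv x) = (g x)⁻¹) (hr : ∀ r ∈ rels, (r.map g).prod = 1) (hH : ∀ r ∈ subs, (r.map g).prod ∈ H)
    (j u : ℕ) (hu : u < M) (h : dp_c_82 j u = true) : Good (fa g) T MG M (cP g H) Lt.c u := by
  unfold dp_c_82 at h
  rcases brec_true h with h | h
  · exact lF_good (T := T) (x := Lt.c) (by decide) [Lt.di, Lt.di, Lt.fi, Lt.c, Lt.di, Lt.di, Lt.fi] (hole_rel hinv hr (by decide +kernel)) h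
  · exact lS_good (T := T) (x := Lt.c) (by decide) hu [Lt.d, Lt.f, Lt.b, Lt.di, Lt.f, Lt.c, Lt.b] (hole_rel hinv hr (by decide +kernel)) h
theorem dp_c_83_s (hinv : ∀ x, g (inv x) = (g x)⁻¹) (hr : ∀ r ∈ rels, (r.map g).prod = 1) (hH : ∀ r ∈ subs, (r.map g).prod ∈ H)
    (j u : ℕ) (hu : u < M) (h : dp_c_83 j u = true) : Good (fa g) T MG M (cP g H) Lt.c u := by
  unfold dp_c_83 at h
  rcases brec_true h with h | h
  · exact lS_good (T := T) (x := Lt.c) (by decide) hu [Lt.bi, Lt.ci, Lt.d, Lt.c, Lt.bi, Lt.ci, Lt.d] (hole_rel hinv hr (by decide +kernel)) h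
  · exact dp_c_82_s hinv hr hH j u hu h
theorem dp_c_84_s (hinv : ∀ x, g (inv x) = (g x)⁻¹) (hr : ∀ r ∈ rels, (r.map g).prod = 1) (hH : ∀ r ∈ subs, (r.map g).prod ∈ H)
    (j u : ℕ) (hu : u < M) (h : dp_c_84 j u = true) : Good (fa g) T MG M (cP g H) Lt.c u := by
  unfold dp_c_84 at h
  rcases brec_true h with h | h
  · exact lF_good (T := T) (x := Lt.c) (by decide) [Lt.d, Lt.c, Lt.bi, Lt.di, Lt.c, Lt.fi, Lt.b] (hole_rel hinv hr (by decide +kernel)) h
  · exact lF_good (T := T) (x := Lt.c) (by decide) [Lt.fi, Lt.bi, Lt.c, Lt.f, Lt.b, Lt.fi, Lt.c] (hole_rel hinv hr (by decide +kernel)) h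
theorem dp_c_85_s (hinv : ∀ x, g (inv x) = (g x)⁻¹) (hr : ∀ r ∈ rels, (r.map g).prod = 1) (hH : ∀ r ∈ subs, (r.map g).prod ∈ H)
    (j u : ℕ) (hu : u < M) (h : dp_c_85 j u = true) : Good (fa g) T MG M (cP g H) Lt.c u := by
  unfold dp_c_85 at h
  rcases brec_true h with h | h
  · exact lF_good (T := T) (x := Lt.c) (by decide) [Lt.bi, Lt.d, Lt.fi, Lt.c, Lt.fi, Lt.bi, Lt.di] (hole_rel hinv hr (by decide +kernel)) h
  · exact dp_c_84_s hinv hr hH j u hu h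
theorem dp_c_86_s (hinv : ∀ x, g (inv x) = (g x)⁻¹) (hr : ∀ r ∈ rels, (r.map g).prod = 1) (hH : ∀ r ∈ subs, (r.map g).prod ∈ H)
    (j u : ℕ) (hu : u < M) (h : dp_c_86 j u = true) : Good (fa g) T MG M (cP g H) Lt.c u := by
  unfold dp_c_86 at h
  rcases brec_true h with h | h
  · exact dp_c_83_s hinv hr hH j u hu h
  · exact dp_c_85_s hinv hr hH j u hu h
theorem dp_c_87_s (hinv : ∀ x, g (inv x) = (g x)⁻¹) (hr : ∀ r ∈ rels, (r.map g).prod = 1) (hH : ∀ r ∈ subs, (r.map g).prod ∈ H)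
    (j u : ℕ) (hu : u < M) (h : dp_c_87 j u = true) : Good (fa g) T MG M (cP g H) Lt.c u := by
  unfold dp_c_87 at h
  rcases brec_true h with h | h
  · exact dp_c_81_s hinv hr hH j u hu h
  · exact dp_c_86_s hinv hr hH j u hu h
theorem dp_c_88_s (hinv : ∀ x, g (inv x) = (g x)⁻¹) (hr : ∀ r ∈ rels, (r.map g).prod = 1) (hH : ∀ r ∈ subs, (r.map g).prod ∈ H)
    (j u : ℕ) (hu : u < M) (h : dp_c_88 j u = true) : Good (fa g) T MG M (cP g H) Lt.c u := by
  unfold dp_c_88 at h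
  rcases brec_true h with h | h
  · exact lS_good (T := T) (x := Lt.c) (by decide) hu [Lt.d, Lt.b, Lt.ci, Lt.bi, Lt.f, Lt.d, Lt.b] (hole_rel hinv hr (by decide +kernel)) h
  · exact lF_good (T := T) (x := Lt.c) (by decide) [Lt.d, Lt.f, Lt.b, Lt.di, Lt.f, Lt.c, Lt.b] (hole_rel hinv hr (by decide +kernel)) h
theorem dp_c_89_s (hinv : ∀ x, g (inv x) = (g x)⁻¹) (hr : ∀ r ∈ rels, (r.map g).prod = 1) (hH : ∀ r ∈ subs, (r.map g).prod ∈ H)
    (j u : ℕ) (hu : u < M) (h : dp_c_89 j u = true) : Good (fa g) T MG M (cP g H) Lt.c u := by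
  unfold dp_c_89 at h
  rcases brec_true h with h | h
  · exact lS_good (T := T) (x := Lt.c) (by decide) hu [Lt.d, Lt.bi, Lt.c, Lt.di, Lt.b, Lt.c, Lt.di] (hole_rel hinv hr (by decide +kernel)) h
  · exact dp_c_88_s hinv hr hH j u hu h
theorem dp_c_90_s (hinv : ∀ x, g (inv x) = (g x)⁻¹) (hr : ∀ r ∈ rels, (r.map g).prod = 1) (hH : ∀ r ∈ subs, (r.map g).prod ∈ H)
    (j u : ℕ) (hu : u < M) (h : dp_c_90 j u = true) : Good (fa g) T MG M (cP g H) Lt.c u := by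
  unfold dp_c_90 at h
  rcases brec_true h with h | h
  · exact lF_good (T := T) (x := Lt.c) (by decide) [Lt.bi, Lt.bi, Lt.di, Lt.ci, Lt.bi, Lt.f, Lt.b] (hole_rel hinv hr (by decide +kernel)) h
  · exact lS_good (T := T) (x := Lt.c) (by decide) hu [Lt.bi, Lt.ci, Lt.bi, Lt.f, Lt.d, Lt.f, Lt.b] (hole_rel hinv hr (by decide +kernel)) h
theorem dp_c_91_s (hinv : ∀ x, g (inv x) = (g x)⁻¹) (hr : ∀ r ∈ rels, (r.map g).prod = 1) (hH : ∀ r ∈ subs, (r.map g).prod ∈ H)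
    (j u : ℕ) (hu : u < M) (h : dp_c_91 j u = true) : Good (fa g) T MG M (cP g H) Lt.c u := by
  unfold dp_c_91 at h
  rcases brec_true h with h | h
  · exact lF_good (T := T) (x := Lt.c) (by decide) [Lt.b, Lt.ci, Lt.bi, Lt.fi, Lt.di, Lt.fi, Lt.b] (hole_rel hinv hr (by decide +kernel)) h
  · exact lF_good (T := T) (x := Lt.c) (by decide) [Lt.bi, Lt.ci, Lt.bi, Lt.f, Lt.d, Lt.f, Lt.b] (hole_rel hinv hr (by decide +kernel)) h
theorem dp_c_92_s (hinv : ∀ x, g (inv x) = (g x)⁻¹) (hr : ∀ r ∈ rels, (r.map g).prod = 1) (hH : ∀ r ∈ subs, (r.map g).prod ∈ H)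
    (j u : ℕ) (hu : u < M) (h : dp_c_92 j u = true) : Good (fa g) T MG M (cP g H) Lt.c u := by
  unfold dp_c_92 at h
  rcases brec_true h with h | h
  · exact dp_c_90_s hinv hr hH j u hu h
  · exact dp_c_91_s hinv hr hH j u hu h
theorem dp_c_93_s (hinv : ∀ x, g (inv x) = (g x)⁻¹) (hr : ∀ r ∈ rels, (r.map g).prod = 1) (hH : ∀ r ∈ subs, (r.map g).prod ∈ H)
    (j u : ℕ) (hu : u < M) (h : dp_c_93 j u = true) : Good (fa g) T MG M (cP g H) Lt.c u := by
  unfold dp_c_93 at h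
  rcases brec_true h with h | h
  · exact dp_c_89_s hinv hr hH j u hu h
  · exact dp_c_92_s hinv hr hH j u hu h
theorem dp_c_94_s (hinv : ∀ x, g (inv x) = (g x)⁻¹) (hr : ∀ r ∈ rels, (r.map g).prod = 1) (hH : ∀ r ∈ subs, (r.map g).prod ∈ H)
    (j u : ℕ) (hu : u < M) (h : dp_c_94 j u = true) : Good (fa g) T MG M (cP g H) Lt.c u := by
  unfold dp_c_94 at h
  rcases brec_true h with h | h
  · exact lF_good (T := T) (x := Lt.c) (by decide) [Lt.di, Lt.f, Lt.ei, Lt.f, Lt.e, Lt.fi, Lt.ei, Lt.f] (hole_rel hinv hr (by decide +kernel)) h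
  · exact lF_good (T := T) (x := Lt.c) (by decide) [Lt.d, Lt.b, Lt.b, Lt.ci, Lt.bi, Lt.fi, Lt.b] (hole_rel hinv hr (by decide +kernel)) h
theorem dp_c_95_s (hinv : ∀ x, g (inv x) = (g x)⁻¹) (hr : ∀ r ∈ rels, (r.map g).prod = 1) (hH : ∀ r ∈ subs, (r.map g).prod ∈ H)
    (j u : ℕ) (hu : u < M) (h : dp_c_95 j u = true) : Good (fa g) T MG M (cP g H) Lt.c u := by
  unfold dp_c_95 at h
  rcases brec_true h with h | h
  · exact lS_good (T := T) (x := Lt.c) (by decide) hu [Lt.d, Lt.fi, Lt.di, Lt.e, Lt.fi, Lt.ei, Lt.f, Lt.e] (hole_rel hinv hr (by decide +kernel)) h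
  · exact lS_good (T := T) (x := Lt.c) (by decide) hu [Lt.b, Lt.ci, Lt.bi, Lt.fi, Lt.di, Lt.fi, Lt.b] (hole_rel hinv hr (by decide +kernel)) h
theorem dp_c_96_s (hinv : ∀ x, g (inv x) = (g x)⁻¹) (hr : ∀ r ∈ rels, (r.map g).prod = 1) (hH : ∀ r ∈ subs, (r.map g).prod ∈ H)
    (j u : ℕ) (hu : u < M) (h : dp_c_96 j u = true) : Good (fa g) T MG M (cP g H) Lt.c u := by
  unfold dp_c_96 at h
  rcases brec_true h with h | h
  · exact lF_good (T := T) (x := Lt.c) (by decide) [Lt.fi, Lt.bi, Lt.bi, Lt.f, Lt.b, Lt.f, Lt.di] (hole_rel hinv hr (by decide +kernel)) h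
  · exact dp_c_95_s hinv hr hH j u hu h
theorem dp_c_97_s (hinv : ∀ x, g (inv x) = (g x)⁻¹) (hr : ∀ r ∈ rels, (r.map g).prod = 1) (hH : ∀ r ∈ subs, (r.map g).prod ∈ H)
    (j u : ℕ) (hu : u < M) (h : dp_c_97 j u = true) : Good (fa g) T MG M (cP g H) Lt.c u := by
  unfold dp_c_97 at h
  rcases brec_true h with h | h
  · exact dp_c_94_s hinv hr hH j u hu h
  · exact dp_c_96_s hinv hr hH j u hu h
theorem dp_c_98_s (hinv : ∀ x, g (inv x) = (g x)⁻¹) (hr : ∀ r ∈ rels, (r.map g).prod = 1) (hH : ∀ r ∈ subs, (r.map g).prod ∈ H)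
    (j u : ℕ) (hu : u < M) (h : dp_c_98 j u = true) : Good (fa g) T MG M (cP g H) Lt.c u := by
  unfold dp_c_98 at h
  rcases brec_true h with h | h
  · exact lS_good (T := T) (x := Lt.c) (by decide) hu [Lt.b, Lt.ci, Lt.ci, Lt.di, Lt.c, Lt.c, Lt.bi] (hole_rel hinv hr (by decide +kernel)) h
  · exact lF_good (T := T) (x := Lt.c) (by decide) [Lt.b, Lt.ci, Lt.fi, Lt.d, Lt.ci, Lt.fi, Lt.b, Lt.c] (hole_rel hinv hr (by decide +kernel)) h
theorem dp_c_99_s (hinv : ∀ x, g (inv x) = (g x)⁻¹) (hr : ∀ r ∈ rels, (r.map g).prod = 1) (hH : ∀ r ∈ subs, (r.map g).prod ∈ H)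
    (j u : ℕ) (hu : u < M) (h : dp_c_99 j u = true) : Good (fa g) T MG M (cP g H) Lt.c u := by
  unfold dp_c_99 at h
  rcases brec_true h with h | h
  · exact lF_good (T := T) (x := Lt.c) (by decide) [Lt.b, Lt.c, Lt.fi, Lt.fi, Lt.d, Lt.bi, Lt.bi, Lt.f] (hole_rel hinv hr (by decide +kernel)) h
  · exact lF_good (T := T) (x := Lt.c) (by decide) [Lt.c, Lt.f, Lt.d, Lt.c, Lt.bi, Lt.ci, Lt.ci, Lt.f] (hole_rel hinv hr (by decide +kernel)) h
theorem dp_c_100_s (hinv : ∀ x, g (inv x) = (g x)⁻¹) (hr : ∀ r ∈ rels, (r.map g).prod = 1) (hH : ∀ r ∈ subs, (r.map g).prod ∈ H)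
    (j u : ℕ) (hu : u < M) (h : dp_c_100 j u = true) : Good (fa g) T MG M (cP g H) Lt.c u := by
  unfold dp_c_100 at h
  rcases brec_true h with h | h
  · exact lF_good (T := T) (x := Lt.c) (by decide) [Lt.c, Lt.b, Lt.ci, Lt.fi, Lt.d, Lt.ci, Lt.fi, Lt.b] (hole_rel hinv hr (by decide +kernel)) h
  · exact lS_good (T := T) (x := Lt.c) (by decide) hu [Lt.bi, Lt.ci, Lt.ci, Lt.bi, Lt.f, Lt.c, Lt.di, Lt.f] (hole_rel hinv hr (by decide +kernel)) h
theorem dp_c_101_s (hinv : ∀ x, g (inv x) = (g x)⁻¹) (hr : ∀ r ∈ rels, (r.map g).prod = 1) (hH : ∀ r ∈ subs, (r.map g).prod ∈ H)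
    (j u : ℕ) (hu : u < M) (h : dp_c_101 j u = true) : Good (fa g) T MG M (cP g H) Lt.c u := by
  unfold dp_c_101 at h
  rcases brec_true h with h | h
  · exact dp_c_99_s hinv hr hH j u hu h
  · exact dp_c_100_s hinv hr hH j u hu h
theorem dp_c_102_s (hinv : ∀ x, g (inv x) = (g x)⁻¹) (hr : ∀ r ∈ rels, (r.map g).prod = 1) (hH : ∀ r ∈ subs, (r.map g).prod ∈ H)
    (j u : ℕ) (hu : u < M) (h : dp_c_102 j u = true) : Good (fa g) T MG M (cP g H) Lt.c u := by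
  unfold dp_c_102 at h
  rcases brec_true h with h | h
  · exact dp_c_98_s hinv hr hH j u hu h
  · exact dp_c_101_s hinv hr hH j u hu h
theorem dp_c_103_s (hinv : ∀ x, g (inv x) = (g x)⁻¹) (hr : ∀ r ∈ rels, (r.map g).prod = 1) (hH : ∀ r ∈ subs, (r.map g).prod ∈ H)
    (j u : ℕ) (hu : u < M) (h : dp_c_103 j u = true) : Good (fa g) T MG M (cP g H) Lt.c u := by
  unfold dp_c_103 at h
  rcases brec_true h with h | h
  · exact lH_good (T := T) (x := Lt.c) (by decide) [] [] (by rw [show cP g H 0 = _ from cc_zero]; exact sub_rel hinv (hH _ (by decide))) h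
  · exact lF_good (T := T) (x := Lt.c) (by decide) [Lt.d, Lt.c, Lt.bi, Lt.d, Lt.fi, Lt.bi, Lt.d, Lt.f] (hole_rel hinv hr (by decide +kernel)) h
theorem dp_c_104_s (hinv : ∀ x, g (inv x) = (g x)⁻¹) (hr : ∀ r ∈ rels, (r.map g).prod = 1) (hH : ∀ r ∈ subs, (r.map g).prod ∈ H)
    (j u : ℕ) (hu : u < M) (h : dp_c_104 j u = true) : Good (fa g) T MG M (cP g H) Lt.c u := by
  unfold dp_c_104 at h
  rcases brec_true h with h | h
  · exact lS_good (T := T) (x := Lt.c) (by decide) hu [Lt.b, Lt.ci, Lt.fi, Lt.d, Lt.ci, Lt.fi, Lt.b, Lt.c] (hole_rel hinv hr (by decide +kernel)) h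
  · exact dp_c_103_s hinv hr hH j u hu h
theorem dp_c_105_s (hinv : ∀ x, g (inv x) = (g x)⁻¹) (hr : ∀ r ∈ rels, (r.map g).prod = 1) (hH : ∀ r ∈ subs, (r.map g).prod ∈ H)
    (j u : ℕ) (hu : u < M) (h : dp_c_105 j u = true) : Good (fa g) T MG M (cP g H) Lt.c u := by
  unfold dp_c_105 at h
  rcases brec_true h with h | h
  · exact lF_good (T := T) (x := Lt.c) (by decide) [Lt.f, Lt.f, Lt.c, Lt.di, Lt.c, Lt.f, Lt.d, Lt.c] (hole_rel hinv hr (by decide +kernel)) h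
  · exact lF_good (T := T) (x := Lt.c) (by decide) [Lt.bi, Lt.ci, Lt.ci, Lt.bi, Lt.f, Lt.c, Lt.di, Lt.f] (hole_rel hinv hr (by decide +kernel)) h
theorem dp_c_106_s (hinv : ∀ x, g (inv x) = (g x)⁻¹) (hr : ∀ r ∈ rels, (r.map g).prod = 1) (hH : ∀ r ∈ subs, (r.map g).prod ∈ H)
    (j u : ℕ) (hu : u < M) (h : dp_c_106 j u = true) : Good (fa g) T MG M (cP g H) Lt.c u := by
  unfold dp_c_106 at h
  rcases brec_true h with h | h
  · exact lS_good (T := T) (x := Lt.c) (by decide) hu [Lt.f, Lt.f, Lt.c, Lt.di, Lt.c, Lt.f, Lt.d, Lt.c] (hole_rel hinv hr (by decide +kernel)) h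
  · exact lS_good (T := T) (x := Lt.c) (by decide) hu [Lt.c, Lt.f, Lt.d, Lt.c, Lt.bi, Lt.ci, Lt.ci, Lt.f] (hole_rel hinv hr (by decide +kernel)) h
theorem dp_c_107_s (hinv : ∀ x, g (inv x) = (g x)⁻¹) (hr : ∀ r ∈ rels, (r.map g).prod = 1) (hH : ∀ r ∈ subs, (r.map g).prod ∈ H)
    (j u : ℕ) (hu : u < M) (h : dp_c_107 j u = true) : Good (fa g) T MG M (cP g H) Lt.c u := by
  unfold dp_c_107 at h
  rcases brec_true h with h | h
  · exact lS_good (T := T) (x := Lt.c) (by decide) hu [Lt.bi, Lt.c, Lt.d, Lt.d, Lt.f, Lt.bi, Lt.d, Lt.fi] (hole_rel hinv hr (by decide +kernel)) h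
  · exact dp_c_106_s hinv hr hH j u hu h
theorem dp_c_108_s (hinv : ∀ x, g (inv x) = (g x)⁻¹) (hr : ∀ r ∈ rels, (r.map g).prod = 1) (hH : ∀ r ∈ subs, (r.map g).prod ∈ H)
    (j u : ℕ) (hu : u < M) (h : dp_c_108 j u = true) : Good (fa g) T MG M (cP g H) Lt.c u := by
  unfold dp_c_108 at h
  rcases brec_true h with h | h
  · exact dp_c_105_s hinv hr hH j u hu h
  · exact dp_c_107_s hinv hr hH j u hu h
theorem dp_c_109_s (hinv : ∀ x, g (inv x) = (g x)⁻¹) (hr : ∀ r ∈ rels, (r.map g).prod = 1) (hH : ∀ r ∈ subs, (r.map g).prod ∈ H)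
    (j u : ℕ) (hu : u < M) (h : dp_c_109 j u = true) : Good (fa g) T MG M (cP g H) Lt.c u := by
  unfold dp_c_109 at h
  rcases brec_true h with h | h
  · exact dp_c_104_s hinv hr hH j u hu h
  · exact dp_c_108_s hinv hr hH j u hu h
theorem dp_c_110_s (hinv : ∀ x, g (inv x) = (g x)⁻¹) (hr : ∀ r ∈ rels, (r.map g).prod = 1) (hH : ∀ r ∈ subs, (r.map g).prod ∈ H)
    (j u : ℕ) (hu : u < M) (h : dp_c_110 j u = true) : Good (fa g) T MG M (cP g H) Lt.c u := by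
  unfold dp_c_110 at h
  rcases brec_true h with h | h
  · exact lF_good (T := T) (x := Lt.c) (by decide) [Lt.f, Lt.bi, Lt.bi, Lt.bi, Lt.f, Lt.d, Lt.ci, Lt.di] (hole_rel hinv hr (by decide +kernel)) h
  · exact lF_good (T := T) (x := Lt.c) (by decide) [Lt.d, Lt.fi, Lt.di, Lt.e, Lt.fi, Lt.ei, Lt.f, Lt.e] (hole_rel hinv hr (by decide +kernel)) h
theorem dp_c_111_s (hinv : ∀ x, g (inv x) = (g x)⁻¹) (hr : ∀ r ∈ rels, (r.map g).prod = 1) (hH : ∀ r ∈ subs, (r.map g).prod ∈ H)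
    (j u : ℕ) (hu : u < M) (h : dp_c_111 j u = true) : Good (fa g) T MG M (cP g H) Lt.c u := by
  unfold dp_c_111 at h
  rcases brec_true h with h | h
  · exact lS_good (T := T) (x := Lt.c) (by decide) hu [Lt.b, Lt.c, Lt.fi, Lt.fi, Lt.d, Lt.bi, Lt.bi, Lt.f] (hole_rel hinv hr (by decide +kernel)) h
  · exact lS_good (T := T) (x := Lt.c) (by decide) hu [Lt.bi, Lt.d, Lt.c, Lt.di, Lt.b, Lt.ci, Lt.fi, Lt.d] (hole_rel hinv hr (by decide +kernel)) h
theorem dp_c_112_s (hinv : ∀ x, g (inv x) = (g x)⁻¹) (hr : ∀ r ∈ rels, (r.map g).prod = 1) (hH : ∀ r ∈ subs, (r.map g).prod ∈ H)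
    (j u : ℕ) (hu : u < M) (h : dp_c_112 j u = true) : Good (fa g) T MG M (cP g H) Lt.c u := by
  unfold dp_c_112 at h
  rcases brec_true h with h | h
  · exact dp_c_110_s hinv hr hH j u hu h
  · exact dp_c_111_s hinv hr hH j u hu h
theorem dp_c_113_s (hinv : ∀ x, g (inv x) = (g x)⁻¹) (hr : ∀ r ∈ rels, (r.map g).prod = 1) (hH : ∀ r ∈ subs, (r.map g).prod ∈ H)
    (j u : ℕ) (hu : u < M) (h : dp_c_113 j u = true) : Good (fa g) T MG M (cP g H) Lt.c u := by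
  unfold dp_c_113 at h
  rcases brec_true h with h | h
  · exact lF_good (T := T) (x := Lt.c) (by decide) [Lt.f, Lt.d, Lt.c, Lt.bi, Lt.ci, Lt.ci, Lt.f, Lt.c] (hole_rel hinv hr (by decide +kernel)) h
  · exact lF_good (T := T) (x := Lt.c) (by decide) [Lt.fi, Lt.fi, Lt.d, Lt.bi, Lt.bi, Lt.f, Lt.c, Lt.b] (hole_rel hinv hr (by decide +kernel)) h
theorem dp_c_114_s (hinv : ∀ x, g (inv x) = (g x)⁻¹) (hr : ∀ r ∈ rels, (r.map g).prod = 1) (hH : ∀ r ∈ subs, (r.map g).prod ∈ H)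
    (j u : ℕ) (hu : u < M) (h : dp_c_114 j u = true) : Good (fa g) T MG M (cP g H) Lt.c u := by
  unfold dp_c_114 at h
  rcases brec_true h with h | h
  · exact lF_good (T := T) (x := Lt.c) (by decide) [Lt.c, Lt.b, Lt.ci, Lt.di, Lt.fi, Lt.ci, Lt.ci, Lt.fi] (hole_rel hinv hr (by decide +kernel)) h
  · exact lS_good (T := T) (x := Lt.c) (by decide) hu [Lt.di, Lt.f, Lt.c, Lt.bi, Lt.ci, Lt.ci, Lt.bi, Lt.f] (hole_rel hinv hr (by decide +kernel)) h
theorem dp_c_115_s (hinv : ∀ x, g (inv x) = (g x)⁻¹) (hr : ∀ r ∈ rels, (r.map g).prod = 1) (hH : ∀ r ∈ subs, (r.map g).prod ∈ H)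
    (j u : ℕ) (hu : u < M) (h : dp_c_115 j u = true) : Good (fa g) T MG M (cP g H) Lt.c u := by
  unfold dp_c_115 at h
  rcases brec_true h with h | h
  · exact lS_good (T := T) (x := Lt.c) (by decide) hu [Lt.c, Lt.b, Lt.ci, Lt.fi, Lt.d, Lt.ci, Lt.fi, Lt.b] (hole_rel hinv hr (by decide +kernel)) h
  · exact dp_c_114_s hinv hr hH j u hu h
theorem dp_c_116_s (hinv : ∀ x, g (inv x) = (g x)⁻¹) (hr : ∀ r ∈ rels, (r.map g).prod = 1) (hH : ∀ r ∈ subs, (r.map g).prod ∈ H)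
    (j u : ℕ) (hu : u < M) (h : dp_c_116 j u = true) : Good (fa g) T MG M (cP g H) Lt.c u := by
  unfold dp_c_116 at h
  rcases brec_true h with h | h
  · exact dp_c_113_s hinv hr hH j u hu h
  · exact dp_c_115_s hinv hr hH j u hu h
theorem dp_c_117_s (hinv : ∀ x, g (inv x) = (g x)⁻¹) (hr : ∀ r ∈ rels, (r.map g).prod = 1) (hH : ∀ r ∈ subs, (r.map g).prod ∈ H)
    (j u : ℕ) (hu : u < M) (h : dp_c_117 j u = true) : Good (fa g) T MG M (cP g H) Lt.c u := by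
  unfold dp_c_117 at h
  rcases brec_true h with h | h
  · exact dp_c_112_s hinv hr hH j u hu h
  · exact dp_c_116_s hinv hr hH j u hu h
theorem dp_c_118_s (hinv : ∀ x, g (inv x) = (g x)⁻¹) (hr : ∀ r ∈ rels, (r.map g).prod = 1) (hH : ∀ r ∈ subs, (r.map g).prod ∈ H)
    (j u : ℕ) (hu : u < M) (h : dp_c_118 j u = true) : Good (fa g) T MG M (cP g H) Lt.c u := by
  unfold dp_c_118 at h
  rcases brec_true h with h | h
  · exact dp_c_109_s hinv hr hH j u hu h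
  · exact dp_c_117_s hinv hr hH j u hu h
theorem dp_c_119_s (hinv : ∀ x, g (inv x) = (g x)⁻¹) (hr : ∀ r ∈ rels, (r.map g).prod = 1) (hH : ∀ r ∈ subs, (r.map g).prod ∈ H)
    (j u : ℕ) (hu : u < M) (h : dp_c_119 j u = true) : Good (fa g) T MG M (cP g H) Lt.c u := by
  unfold dp_c_119 at h
  rcases brec_true h with h | h
  · exact dp_c_102_s hinv hr hH j u hu h
  · exact dp_c_118_s hinv hr hH j u hu h
theorem dp_c_120_s (hinv : ∀ x, g (inv x) = (g x)⁻¹) (hr : ∀ r ∈ rels, (r.map g).prod = 1) (hH : ∀ r ∈ subs, (r.map g).prod ∈ H)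
    (j u : ℕ) (hu : u < M) (h : dp_c_120 j u = true) : Good (fa g) T MG M (cP g H) Lt.c u := by
  unfold dp_c_120 at h
  rcases brec_true h with h | h
  · exact dp_c_97_s hinv hr hH j u hu h
  · exact dp_c_119_s hinv hr hH j u hu h
theorem dp_c_121_s (hinv : ∀ x, g (inv x) = (g x)⁻¹) (hr : ∀ r ∈ rels, (r.map g).prod = 1) (hH : ∀ r ∈ subs, (r.map g).prod ∈ H)
    (j u : ℕ) (hu : u < M) (h : dp_c_121 j u = true) : Good (fa g) T MG M (cP g H) Lt.c u := by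
  unfold dp_c_121 at h
  rcases brec_true h with h | h
  · exact dp_c_93_s hinv hr hH j u hu h
  · exact dp_c_120_s hinv hr hH j u hu h
theorem dp_c_122_s (hinv : ∀ x, g (inv x) = (g x)⁻¹) (hr : ∀ r ∈ rels, (r.map g).prod = 1) (hH : ∀ r ∈ subs, (r.map g).prod ∈ H)
    (j u : ℕ) (hu : u < M) (h : dp_c_122 j u = true) : Good (fa g) T MG M (cP g H) Lt.c u := by
  unfold dp_c_122 at h
  rcases brec_true h with h | h
  · exact dp_c_87_s hinv hr hH j u hu h
  · exact dp_c_121_s hinv hr hH j u hu h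
theorem dp_c_123_s (hinv : ∀ x, g (inv x) = (g x)⁻¹) (hr : ∀ r ∈ rels, (r.map g).prod = 1) (hH : ∀ r ∈ subs, (r.map g).prod ∈ H)
    (j u : ℕ) (hu : u < M) (h : dp_c_123 j u = true) : Good (fa g) T MG M (cP g H) Lt.c u := by
  unfold dp_c_123 at h
  rcases brec_true h with h | h
  · exact dp_c_77_s hinv hr hH j u hu h
  · exact dp_c_122_s hinv hr hH j u hu h
theorem dp_c_124_s (hinv : ∀ x, g (inv x) = (g x)⁻¹) (hr : ∀ r ∈ rels, (r.map g).prod = 1) (hH : ∀ r ∈ subs, (r.map g).prod ∈ H)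
    (j u : ℕ) (hu : u < M) (h : dp_c_124 j u = true) : Good (fa g) T MG M (cP g H) Lt.c u := by
  unfold dp_c_124 at h
  rcases brec_true h with h | h
  · exact dp_c_60_s hinv hr hH j u hu h
  · exact dp_c_123_s hinv hr hH j u hu h
theorem dp_c_125_s (hinv : ∀ x, g (inv x) = (g x)⁻¹) (hr : ∀ r ∈ rels, (r.map g).prod = 1) (hH : ∀ r ∈ subs, (r.map g).prod ∈ H)
    (j u : ℕ) (hu : u < M) (h : dp_c_125 j u = true) : Good (fa g) T MG M (cP g H) Lt.c u := by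
  unfold dp_c_125 at h
  rcases brec_true h with h | h
  · exact dp_c_33_s hinv hr hH j u hu h
  · exact dp_c_124_s hinv hr hH j u hu h
theorem snd_c (hinv : ∀ x, g (inv x) = (g x)⁻¹) (hr : ∀ r ∈ rels, (r.map g).prod = 1) (hH : ∀ r ∈ subs, (r.map g).prod ∈ H)
    (j u : ℕ) (hu : u < M) (h : disp_c j u = true) : Good (fa g) T MG M (cP g H) Lt.c u := by
  unfold disp_c at h
  rcases brec_true h with h | h
  · rcases brec_true h with h | h
    · exact lF1_good (T := T) (x := Lt.c) (by decide) .ci (hole_rel hinv hr (by decide +kernel)) h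
    · exact lDef_good (T := T) (x := Lt.c) (by decide) rfl h
  · rcases brec_true h with h | h
    · rcases brec_true h with h | h
      · exact lPar_good (T := T) (x := Lt.c) (x' := Lt.ci) (by decide) rfl (inv_rel hinv _ _ rfl) h
      · exact lS_good (T := T) (x := Lt.c) (by decide) hu [Lt.ci] (hole_rel hinv hr (by decide +kernel)) h
    · exact dp_c_125_s hinv hr hH j u hu h
theorem snc_c (hinv : ∀ x, g (inv x) = (g x)⁻¹) (hr : ∀ r ∈ rels, (r.map g).prod = 1) (hH : ∀ r ∈ subs, (r.map g).prod ∈ H)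
    (j u : ℕ) (hu : u < M) (h : chk_c j u = true) : (T Lt.c u < A ∧ Good (fa g) T MG M (cP g H) Lt.c u) ∨ (A ≤ T Lt.c u ∧ MG u < A) := by
  unfold chk_c at h
  cases hb : Nat.ble A (T_c u) with
  | true => rw [hb] at h; exact Or.inr ⟨le_of_ble hb, le_of_ble h⟩
  | false => rw [hb] at h; exact Or.inl ⟨lt_of_ble_false hb, snd_c hinv hr hH j u hu h⟩
theorem dp_ci_0_s (hinv : ∀ x, g (inv x) = (g x)⁻¹) (hr : ∀ r ∈ rels, (r.map g).prod = 1) (hH : ∀ r ∈ subs, (r.map g).prod ∈ H)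
    (j u : ℕ) (hu : u < M) (h : dp_ci_0 j u = true) : Good (fa g) T MG M (cP g H) Lt.ci u := by
  unfold dp_ci_0 at h
  rcases brec_true h with h | h
  · exact lS_good (T := T) (x := Lt.ci) (by decide) hu [Lt.ei, Lt.b, Lt.ei, Lt.ci, Lt.ei, Lt.b, Lt.ei] (hole_rel hinv hr (by decide +kernel)) h
  · exact lF_good (T := T) (x := Lt.ci) (by decide) [Lt.ei, Lt.b, Lt.ei, Lt.ci, Lt.ei, Lt.b, Lt.ei] (hole_rel hinv hr (by decide +kernel)) h
theorem dp_ci_1_s (hinv : ∀ x, g (inv x) = (g x)⁻¹) (hr : ∀ r ∈ rels, (r.map g).prod = 1) (hH : ∀ r ∈ subs, (r.map g).prod ∈ H)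
    (j u : ℕ) (hu : u < M) (h : dp_ci_1 j u = true) : Good (fa g) T MG M (cP g H) Lt.ci u := by
  unfold dp_ci_1 at h
  rcases brec_true h with h | h
  · exact lF_good (T := T) (x := Lt.ci) (by decide) [Lt.bi, Lt.ci, Lt.b, Lt.di, Lt.f, Lt.di, Lt.ci] (hole_rel hinv hr (by decide +kernel)) h
  · exact lS_good (T := T) (x := Lt.ci) (by decide) hu [Lt.b, Lt.d, Lt.f, Lt.f, Lt.c, Lt.di, Lt.bi] (hole_rel hinv hr (by decide +kernel)) h
theorem dp_ci_2_s (hinv : ∀ x, g (inv x) = (g x)⁻¹) (hr : ∀ r ∈ rels, (r.map g).prod = 1) (hH : ∀ r ∈ subs, (r.map g).prod ∈ H)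
    (j u : ℕ) (hu : u < M) (h : dp_ci_2 j u = true) : Good (fa g) T MG M (cP g H) Lt.ci u := by
  unfold dp_ci_2 at h
  rcases brec_true h with h | h
  · exact dp_ci_0_s hinv hr hH j u hu h
  · exact dp_ci_1_s hinv hr hH j u hu h
theorem dp_ci_3_s (hinv : ∀ x, g (inv x) = (g x)⁻¹) (hr : ∀ r ∈ rels, (r.map g).prod = 1) (hH : ∀ r ∈ subs, (r.map g).prod ∈ H)
    (j u : ℕ) (hu : u < M) (h : dp_ci_3 j u = true) : Good (fa g) T MG M (cP g H) Lt.ci u := by
  unfold dp_ci_3 at h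
  rcases brec_true h with h | h
  · exact lF_good (T := T) (x := Lt.ci) (by decide) [Lt.fi, Lt.b, Lt.di, Lt.di, Lt.ci, Lt.f, Lt.b] (hole_rel hinv hr (by decide +kernel)) h
  · exact lF_good (T := T) (x := Lt.ci) (by decide) [Lt.b, Lt.d, Lt.f, Lt.f, Lt.c, Lt.di, Lt.bi] (hole_rel hinv hr (by decide +kernel)) h
theorem dp_ci_4_s (hinv : ∀ x, g (inv x) = (g x)⁻¹) (hr : ∀ r ∈ rels, (r.map g).prod = 1) (hH : ∀ r ∈ subs, (r.map g).prod ∈ H)
    (j u : ℕ) (hu : u < M) (h : dp_ci_4 j u = true) : Good (fa g) T MG M (cP g H) Lt.ci u := by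
  unfold dp_ci_4 at h
  rcases brec_true h with h | h
  · exact lS_good (T := T) (x := Lt.ci) (by decide) hu [Lt.bi, Lt.d, Lt.fi, Lt.di, Lt.b, Lt.c, Lt.d] (hole_rel hinv hr (by decide +kernel)) h
  · exact lS_good (T := T) (x := Lt.ci) (by decide) hu [Lt.bi, Lt.ci, Lt.b, Lt.di, Lt.f, Lt.di, Lt.ci] (hole_rel hinv hr (by decide +kernel)) h
theorem dp_ci_5_s (hinv : ∀ x, g (inv x) = (g x)⁻¹) (hr : ∀ r ∈ rels, (r.map g).prod = 1) (hH : ∀ r ∈ subs, (r.map g).prod ∈ H)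
    (j u : ℕ) (hu : u < M) (h : dp_ci_5 j u = true) : Good (fa g) T MG M (cP g H) Lt.ci u := by
  unfold dp_ci_5 at h
  rcases brec_true h with h | h
  · exact dp_ci_3_s hinv hr hH j u hu h
  · exact dp_ci_4_s hinv hr hH j u hu h
theorem dp_ci_6_s (hinv : ∀ x, g (inv x) = (g x)⁻¹) (hr : ∀ r ∈ rels, (r.map g).prod = 1) (hH : ∀ r ∈ subs, (r.map g).prod ∈ H)
    (j u : ℕ) (hu : u < M) (h : dp_ci_6 j u = true) : Good (fa g) T MG M (cP g H) Lt.ci u := by
  unfold dp_ci_6 at h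
  rcases brec_true h with h | h
  · exact lF_good (T := T) (x := Lt.ci) (by decide) [Lt.d, Lt.ci, Lt.bi, Lt.d, Lt.ci, Lt.b, Lt.di] (hole_rel hinv hr (by decide +kernel)) h
  · exact lS_good (T := T) (x := Lt.ci) (by decide) hu [Lt.fi, Lt.b, Lt.di, Lt.di, Lt.ci, Lt.f, Lt.b] (hole_rel hinv hr (by decide +kernel)) h
theorem dp_ci_7_s (hinv : ∀ x, g (inv x) = (g x)⁻¹) (hr : ∀ r ∈ rels, (r.map g).prod = 1) (hH : ∀ r ∈ subs, (r.map g).prod ∈ H)
    (j u : ℕ) (hu : u < M) (h : dp_ci_7 j u = true) : Good (fa g) T MG M (cP g H) Lt.ci u := by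
  unfold dp_ci_7 at h
  rcases brec_true h with h | h
  · exact lF_good (T := T) (x := Lt.ci) (by decide) [Lt.ci, Lt.b, Lt.d, Lt.ci, Lt.ci, Lt.b, Lt.d] (hole_rel hinv hr (by decide +kernel)) h
  · exact lF_good (T := T) (x := Lt.ci) (by decide) [Lt.bi, Lt.d, Lt.fi, Lt.di, Lt.b, Lt.c, Lt.d] (hole_rel hinv hr (by decide +kernel)) h
theorem dp_ci_8_s (hinv : ∀ x, g (inv x) = (g x)⁻¹) (hr : ∀ r ∈ rels, (r.map g).prod = 1) (hH : ∀ r ∈ subs, (r.map g).prod ∈ H)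
    (j u : ℕ) (hu : u < M) (h : dp_ci_8 j u = true) : Good (fa g) T MG M (cP g H) Lt.ci u := by
  unfold dp_ci_8 at h
  rcases brec_true h with h | h
  · exact dp_ci_6_s hinv hr hH j u hu h
  · exact dp_ci_7_s hinv hr hH j u hu h
theorem dp_ci_9_s (hinv : ∀ x, g (inv x) = (g x)⁻¹) (hr : ∀ r ∈ rels, (r.map g).prod = 1) (hH : ∀ r ∈ subs, (r.map g).prod ∈ H)
    (j u : ℕ) (hu : u < M) (h : dp_ci_9 j u = true) : Good (fa g) T MG M (cP g H) Lt.ci u := by
  unfold dp_ci_9 at h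
  rcases brec_true h with h | h
  · exact dp_ci_5_s hinv hr hH j u hu h
  · exact dp_ci_8_s hinv hr hH j u hu h
theorem dp_ci_10_s (hinv : ∀ x, g (inv x) = (g x)⁻¹) (hr : ∀ r ∈ rels, (r.map g).prod = 1) (hH : ∀ r ∈ subs, (r.map g).prod ∈ H)
    (j u : ℕ) (hu : u < M) (h : dp_ci_10 j u = true) : Good (fa g) T MG M (cP g H) Lt.ci u := by
  unfold dp_ci_10 at h
  rcases brec_true h with h | h
  · exact dp_ci_2_s hinv hr hH j u hu h
  · exact dp_ci_9_s hinv hr hH j u hu h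
theorem dp_ci_11_s (hinv : ∀ x, g (inv x) = (g x)⁻¹) (hr : ∀ r ∈ rels, (r.map g).prod = 1) (hH : ∀ r ∈ subs, (r.map g).prod ∈ H)
    (j u : ℕ) (hu : u < M) (h : dp_ci_11 j u = true) : Good (fa g) T MG M (cP g H) Lt.ci u := by
  unfold dp_ci_11 at h
  rcases brec_true h with h | h
  · exact lS_good (T := T) (x := Lt.ci) (by decide) hu [Lt.f, Lt.di, Lt.b, Lt.ci, Lt.d, Lt.b, Lt.f] (hole_rel hinv hr (by decide +kernel)) h
  · exact lF_good (T := T) (x := Lt.ci) (by decide) [Lt.ci, Lt.bi, Lt.ci, Lt.b, Lt.di, Lt.f, Lt.di] (hole_rel hinv hr (by decide +kernel)) h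
theorem dp_ci_12_s (hinv : ∀ x, g (inv x) = (g x)⁻¹) (hr : ∀ r ∈ rels, (r.map g).prod = 1) (hH : ∀ r ∈ subs, (r.map g).prod ∈ H)
    (j u : ℕ) (hu : u < M) (h : dp_ci_12 j u = true) : Good (fa g) T MG M (cP g H) Lt.ci u := by
  unfold dp_ci_12 at h
  rcases brec_true h with h | h
  · exact lS_good (T := T) (x := Lt.ci) (by decide) hu [Lt.fi, Lt.fi, Lt.di, Lt.bi, Lt.c, Lt.b, Lt.d] (hole_rel hinv hr (by decide +kernel)) h
  · exact lS_good (T := T) (x := Lt.ci) (by decide) hu [Lt.b, Lt.fi, Lt.d, Lt.bi, Lt.c, Lt.d, Lt.f] (hole_rel hinv hr (by decide +kernel)) h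
theorem dp_ci_13_s (hinv : ∀ x, g (inv x) = (g x)⁻¹) (hr : ∀ r ∈ rels, (r.map g).prod = 1) (hH : ∀ r ∈ subs, (r.map g).prod ∈ H)
    (j u : ℕ) (hu : u < M) (h : dp_ci_13 j u = true) : Good (fa g) T MG M (cP g H) Lt.ci u := by
  unfold dp_ci_13 at h
  rcases brec_true h with h | h
  · exact lS_good (T := T) (x := Lt.ci) (by decide) hu [Lt.b, Lt.e, Lt.di, Lt.fi, Lt.bi, Lt.f, Lt.e, Lt.f] (hole_rel hinv hr (by decide +kernel)) h
  · exact dp_ci_12_s hinv hr hH j u hu h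
theorem dp_ci_14_s (hinv : ∀ x, g (inv x) = (g x)⁻¹) (hr : ∀ r ∈ rels, (r.map g).prod = 1) (hH : ∀ r ∈ subs, (r.map g).prod ∈ H)
    (j u : ℕ) (hu : u < M) (h : dp_ci_14 j u = true) : Good (fa g) T MG M (cP g H) Lt.ci u := by
  unfold dp_ci_14 at h
  rcases brec_true h with h | h
  · exact dp_ci_11_s hinv hr hH j u hu h
  · exact dp_ci_13_s hinv hr hH j u hu h
theorem dp_ci_15_s (hinv : ∀ x, g (inv x) = (g x)⁻¹) (hr : ∀ r ∈ rels, (r.map g).prod = 1) (hH : ∀ r ∈ subs, (r.map g).prod ∈ H)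
    (j u : ℕ) (hu : u < M) (h : dp_ci_15 j u = true) : Good (fa g) T MG M (cP g H) Lt.ci u := by
  unfold dp_ci_15 at h
  rcases brec_true h with h | h
  · exact lS_good (T := T) (x := Lt.ci) (by decide) hu [Lt.ci, Lt.bi, Lt.ci, Lt.b, Lt.di, Lt.f, Lt.di] (hole_rel hinv hr (by decide +kernel)) h
  · exact lF_good (T := T) (x := Lt.ci) (by decide) [Lt.b, Lt.e, Lt.di, Lt.fi, Lt.bi, Lt.f, Lt.e, Lt.f] (hole_rel hinv hr (by decide +kernel)) h
theorem dp_ci_16_s (hinv : ∀ x, g (inv x) = (g x)⁻¹) (hr : ∀ r ∈ rels, (r.map g).prod = 1) (hH : ∀ r ∈ subs, (r.map g).prod ∈ H)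
    (j u : ℕ) (hu : u < M) (h : dp_ci_16 j u = true) : Good (fa g) T MG M (cP g H) Lt.ci u := by
  unfold dp_ci_16 at h
  rcases brec_true h with h | h
  · exact lS_good (T := T) (x := Lt.ci) (by decide) hu [Lt.f, Lt.b, Lt.ci, Lt.fi, Lt.b, Lt.di, Lt.di] (hole_rel hinv hr (by decide +kernel)) h
  · exact lF_good (T := T) (x := Lt.ci) (by decide) [Lt.b, Lt.f, Lt.ci, Lt.ci, Lt.f, Lt.bi, Lt.fi] (hole_rel hinv hr (by decide +kernel)) h
theorem dp_ci_17_s (hinv : ∀ x, g (inv x) = (g x)⁻¹) (hr : ∀ r ∈ rels, (r.map g).prod = 1) (hH : ∀ r ∈ subs, (r.map g).prod ∈ H)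
    (j u : ℕ) (hu : u < M) (h : dp_ci_17 j u = true) : Good (fa g) T MG M (cP g H) Lt.ci u := by
  unfold dp_ci_17 at h
  rcases brec_true h with h | h
  · exact lF_good (T := T) (x := Lt.ci) (by decide) [Lt.d, Lt.c, Lt.c, Lt.bi, Lt.ci, Lt.b, Lt.ci] (hole_rel hinv hr (by decide +kernel)) h
  · exact dp_ci_16_s hinv hr hH j u hu h
theorem dp_ci_18_s (hinv : ∀ x, g (inv x) = (g x)⁻¹) (hr : ∀ r ∈ rels, (r.map g).prod = 1) (hH : ∀ r ∈ subs, (r.map g).prod ∈ H)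
    (j u : ℕ) (hu : u < M) (h : dp_ci_18 j u = true) : Good (fa g) T MG M (cP g H) Lt.ci u := by
  unfold dp_ci_18 at h
  rcases brec_true h with h | h
  · exact dp_ci_15_s hinv hr hH j u hu h
  · exact dp_ci_17_s hinv hr hH j u hu h
theorem dp_ci_19_s (hinv : ∀ x, g (inv x) = (g x)⁻¹) (hr : ∀ r ∈ rels, (r.map g).prod = 1) (hH : ∀ r ∈ subs, (r.map g).prod ∈ H)
    (j u : ℕ) (hu : u < M) (h : dp_ci_19 j u = true) : Good (fa g) T MG M (cP g H) Lt.ci u := by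
  unfold dp_ci_19 at h
  rcases brec_true h with h | h
  · exact dp_ci_14_s hinv hr hH j u hu h
  · exact dp_ci_18_s hinv hr hH j u hu h
theorem dp_ci_20_s (hinv : ∀ x, g (inv x) = (g x)⁻¹) (hr : ∀ r ∈ rels, (r.map g).prod = 1) (hH : ∀ r ∈ subs, (r.map g).prod ∈ H)
    (j u : ℕ) (hu : u < M) (h : dp_ci_20 j u = true) : Good (fa g) T MG M (cP g H) Lt.ci u := by
  unfold dp_ci_20 at h
  rcases brec_true h with h | h
  · exact lS_good (T := T) (x := Lt.ci) (by decide) hu [Lt.d, Lt.b, Lt.ci, Lt.di, Lt.ci, Lt.bi, Lt.f] (hole_rel hinv hr (by decide +kernel)) h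
  · exact lF_good (T := T) (x := Lt.ci) (by decide) [Lt.d, Lt.b, Lt.ci, Lt.di, Lt.ci, Lt.bi, Lt.f] (hole_rel hinv hr (by decide +kernel)) h
theorem dp_ci_21_s (hinv : ∀ x, g (inv x) = (g x)⁻¹) (hr : ∀ r ∈ rels, (r.map g).prod = 1) (hH : ∀ r ∈ subs, (r.map g).prod ∈ H)
    (j u : ℕ) (hu : u < M) (h : dp_ci_21 j u = true) : Good (fa g) T MG M (cP g H) Lt.ci u := by
  unfold dp_ci_21 at h
  rcases brec_true h with h | h
  · exact lS_good (T := T) (x := Lt.ci) (by decide) hu [Lt.d, Lt.ci, Lt.bi, Lt.d, Lt.ci, Lt.b, Lt.di] (hole_rel hinv hr (by decide +kernel)) h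
  · exact lF_good (T := T) (x := Lt.ci) (by decide) [Lt.f, Lt.b, Lt.ci, Lt.fi, Lt.b, Lt.di, Lt.di] (hole_rel hinv hr (by decide +kernel)) h
theorem dp_ci_22_s (hinv : ∀ x, g (inv x) = (g x)⁻¹) (hr : ∀ r ∈ rels, (r.map g).prod = 1) (hH : ∀ r ∈ subs, (r.map g).prod ∈ H)
    (j u : ℕ) (hu : u < M) (h : dp_ci_22 j u = true) : Good (fa g) T MG M (cP g H) Lt.ci u := by
  unfold dp_ci_22 at h
  rcases brec_true h with h | h
  · exact lS_good (T := T) (x := Lt.ci) (by decide) hu [Lt.fi, Lt.bi, Lt.d, Lt.ci, Lt.fi, Lt.bi, Lt.d] (hole_rel hinv hr (by decide +kernel)) h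
  · exact dp_ci_21_s hinv hr hH j u hu h
theorem dp_ci_23_s (hinv : ∀ x, g (inv x) = (g x)⁻¹) (hr : ∀ r ∈ rels, (r.map g).prod = 1) (hH : ∀ r ∈ subs, (r.map g).prod ∈ H)
    (j u : ℕ) (hu : u < M) (h : dp_ci_23 j u = true) : Good (fa g) T MG M (cP g H) Lt.ci u := by
  unfold dp_ci_23 at h
  rcases brec_true h with h | h
  · exact dp_ci_20_s hinv hr hH j u hu h
  · exact dp_ci_22_s hinv hr hH j u hu h
theorem dp_ci_24_s (hinv : ∀ x, g (inv x) = (g x)⁻¹) (hr : ∀ r ∈ rels, (r.map g).prod = 1) (hH : ∀ r ∈ subs, (r.map g).prod ∈ H)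
    (j u : ℕ) (hu : u < M) (h : dp_ci_24 j u = true) : Good (fa g) T MG M (cP g H) Lt.ci u := by
  unfold dp_ci_24 at h
  rcases brec_true h with h | h
  · exact lF_good (T := T) (x := Lt.ci) (by decide) [Lt.di, Lt.ci, Lt.bi, Lt.f, Lt.ci, Lt.d, Lt.b] (hole_rel hinv hr (by decide +kernel)) h
  · exact lS_good (T := T) (x := Lt.ci) (by decide) hu [Lt.f, Lt.bi, Lt.fi, Lt.ci, Lt.b, Lt.f, Lt.ci] (hole_rel hinv hr (by decide +kernel)) h
theorem dp_ci_25_s (hinv : ∀ x, g (inv x) = (g x)⁻¹) (hr : ∀ r ∈ rels, (r.map g).prod = 1) (hH : ∀ r ∈ subs, (r.map g).prod ∈ H)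
    (j u : ℕ) (hu : u < M) (h : dp_ci_25 j u = true) : Good (fa g) T MG M (cP g H) Lt.ci u := by
  unfold dp_ci_25 at h
  rcases brec_true h with h | h
  · exact lF_good (T := T) (x := Lt.ci) (by decide) [Lt.b, Lt.ci, Lt.b, Lt.ci, Lt.b, Lt.ci, Lt.b] (hole_rel hinv hr (by decide +kernel)) h
  · exact dp_ci_24_s hinv hr hH j u hu h
theorem dp_ci_26_s (hinv : ∀ x, g (inv x) = (g x)⁻¹) (hr : ∀ r ∈ rels, (r.map g).prod = 1) (hH : ∀ r ∈ subs, (r.map g).prod ∈ H)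
    (j u : ℕ) (hu : u < M) (h : dp_ci_26 j u = true) : Good (fa g) T MG M (cP g H) Lt.ci u := by
  unfold dp_ci_26 at h
  rcases brec_true h with h | h
  · exact lF_good (T := T) (x := Lt.ci) (by decide) [Lt.b, Lt.fi, Lt.d, Lt.bi, Lt.c, Lt.d, Lt.f] (hole_rel hinv hr (by decide +kernel)) h
  · exact lS_good (T := T) (x := Lt.ci) (by decide) hu [Lt.di, Lt.b, Lt.f, Lt.f, Lt.c, Lt.bi, Lt.bi] (hole_rel hinv hr (by decide +kernel)) h
theorem dp_ci_27_s (hinv : ∀ x, g (inv x) = (g x)⁻¹) (hr : ∀ r ∈ rels, (r.map g).prod = 1) (hH : ∀ r ∈ subs, (r.map g).prod ∈ H)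
    (j u : ℕ) (hu : u < M) (h : dp_ci_27 j u = true) : Good (fa g) T MG M (cP g H) Lt.ci u := by
  unfold dp_ci_27 at h
  rcases brec_true h with h | h
  · exact lF_good (T := T) (x := Lt.ci) (by decide) [Lt.f, Lt.di, Lt.b, Lt.ci, Lt.d, Lt.b, Lt.f] (hole_rel hinv hr (by decide +kernel)) h
  · exact dp_ci_26_s hinv hr hH j u hu h
theorem dp_ci_28_s (hinv : ∀ x, g (inv x) = (g x)⁻¹) (hr : ∀ r ∈ rels, (r.map g).prod = 1) (hH : ∀ r ∈ subs, (r.map g).prod ∈ H)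
    (j u : ℕ) (hu : u < M) (h : dp_ci_28 j u = true) : Good (fa g) T MG M (cP g H) Lt.ci u := by
  unfold dp_ci_28 at h
  rcases brec_true h with h | h
  · exact dp_ci_25_s hinv hr hH j u hu h
  · exact dp_ci_27_s hinv hr hH j u hu h
theorem dp_ci_29_s (hinv : ∀ x, g (inv x) = (g x)⁻¹) (hr : ∀ r ∈ rels, (r.map g).prod = 1) (hH : ∀ r ∈ subs, (r.map g).prod ∈ H)
    (j u : ℕ) (hu : u < M) (h : dp_ci_29 j u = true) : Good (fa g) T MG M (cP g H) Lt.ci u := by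
  unfold dp_ci_29 at h
  rcases brec_true h with h | h
  · exact dp_ci_23_s hinv hr hH j u hu h
  · exact dp_ci_28_s hinv hr hH j u hu h
theorem dp_ci_30_s (hinv : ∀ x, g (inv x) = (g x)⁻¹) (hr : ∀ r ∈ rels, (r.map g).prod = 1) (hH : ∀ r ∈ subs, (r.map g).prod ∈ H)
    (j u : ℕ) (hu : u < M) (h : dp_ci_30 j u = true) : Good (fa g) T MG M (cP g H) Lt.ci u := by
  unfold dp_ci_30 at h
  rcases brec_true h with h | h
  · exact dp_ci_19_s hinv hr hH j u hu h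
  · exact dp_ci_29_s hinv hr hH j u hu h
theorem dp_ci_31_s (hinv : ∀ x, g (inv x) = (g x)⁻¹) (hr : ∀ r ∈ rels, (r.map g).prod = 1) (hH : ∀ r ∈ subs, (r.map g).prod ∈ H)
    (j u : ℕ) (hu : u < M) (h : dp_ci_31 j u = true) : Good (fa g) T MG M (cP g H) Lt.ci u := by
  unfold dp_ci_31 at h
  rcases brec_true h with h | h
  · exact dp_ci_10_s hinv hr hH j u hu h
  · exact dp_ci_30_s hinv hr hH j u hu h
theorem dp_ci_32_s (hinv : ∀ x, g (inv x) = (g x)⁻¹) (hr : ∀ r ∈ rels, (r.map g).prod = 1) (hH : ∀ r ∈ subs, (r.map g).prod ∈ H)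
    (j u : ℕ) (hu : u < M) (h : dp_ci_32 j u = true) : Good (fa g) T MG M (cP g H) Lt.ci u := by
  unfold dp_ci_32 at h
  rcases brec_true h with h | h
  · exact lF_good (T := T) (x := Lt.ci) (by decide) [Lt.fi, Lt.fi, Lt.di, Lt.bi, Lt.c, Lt.b, Lt.d] (hole_rel hinv hr (by decide +kernel)) h
  · exact lF_good (T := T) (x := Lt.ci) (by decide) [Lt.b, Lt.di, Lt.ci, Lt.d, Lt.ci, Lt.bi, Lt.d] (hole_rel hinv hr (by decide +kernel)) h
theorem dp_ci_33_s (hinv : ∀ x, g (inv x) = (g x)⁻¹) (hr : ∀ r ∈ rels, (r.map g).prod = 1) (hH : ∀ r ∈ subs, (r.map g).prod ∈ H)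
    (j u : ℕ) (hu : u < M) (h : dp_ci_33 j u = true) : Good (fa g) T MG M (cP g H) Lt.ci u := by
  unfold dp_ci_33 at h
  rcases brec_true h with h | h
  · exact lS_good (T := T) (x := Lt.ci) (by decide) hu [Lt.d, Lt.c, Lt.bi, Lt.ci, Lt.d, Lt.c, Lt.bi] (hole_rel hinv hr (by decide +kernel)) h
  · exact dp_ci_32_s hinv hr hH j u hu h
theorem dp_ci_34_s (hinv : ∀ x, g (inv x) = (g x)⁻¹) (hr : ∀ r ∈ rels, (r.map g).prod = 1) (hH : ∀ r ∈ subs, (r.map g).prod ∈ H)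
    (j u : ℕ) (hu : u < M) (h : dp_ci_34 j u = true) : Good (fa g) T MG M (cP g H) Lt.ci u := by
  unfold dp_ci_34 at h
  rcases brec_true h with h | h
  · exact lS_good (T := T) (x := Lt.ci) (by decide) hu [Lt.b, Lt.ci, Lt.b, Lt.ci, Lt.b, Lt.ci, Lt.b] (hole_rel hinv hr (by decide +kernel)) h
  · exact lF_good (T := T) (x := Lt.ci) (by decide) [Lt.b, Lt.d, Lt.ci, Lt.ci, Lt.b, Lt.d, Lt.ci] (hole_rel hinv hr (by decide +kernel)) h
theorem dp_ci_35_s (hinv : ∀ x, g (inv x) = (g x)⁻¹) (hr : ∀ r ∈ rels, (r.map g).prod = 1) (hH : ∀ r ∈ subs, (r.map g).prod ∈ H)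
    (j u : ℕ) (hu : u < M) (h : dp_ci_35 j u = true) : Good (fa g) T MG M (cP g H) Lt.ci u := by
  unfold dp_ci_35 at h
  rcases brec_true h with h | h
  · exact lF_good (T := T) (x := Lt.ci) (by decide) [Lt.b, Lt.di, Lt.f, Lt.bi, Lt.c, Lt.fi, Lt.di] (hole_rel hinv hr (by decide +kernel)) h
  · exact dp_ci_34_s hinv hr hH j u hu h
theorem dp_ci_36_s (hinv : ∀ x, g (inv x) = (g x)⁻¹) (hr : ∀ r ∈ rels, (r.map g).prod = 1) (hH : ∀ r ∈ subs, (r.map g).prod ∈ H)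
    (j u : ℕ) (hu : u < M) (h : dp_ci_36 j u = true) : Good (fa g) T MG M (cP g H) Lt.ci u := by
  unfold dp_ci_36 at h
  rcases brec_true h with h | h
  · exact dp_ci_33_s hinv hr hH j u hu h
  · exact dp_ci_35_s hinv hr hH j u hu h
theorem dp_ci_37_s (hinv : ∀ x, g (inv x) = (g x)⁻¹) (hr : ∀ r ∈ rels, (r.map g).prod = 1) (hH : ∀ r ∈ subs, (r.map g).prod ∈ H)
    (j u : ℕ) (hu : u < M) (h : dp_ci_37 j u = true) : Good (fa g) T MG M (cP g H) Lt.ci u := by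
  unfold dp_ci_37 at h
  rcases brec_true h with h | h
  · exact lS_good (T := T) (x := Lt.ci) (by decide) hu [Lt.f, Lt.d, Lt.d, Lt.ci, Lt.f, Lt.d, Lt.d] (hole_rel hinv hr (by decide +kernel)) h
  · exact lS_good (T := T) (x := Lt.ci) (by decide) hu [Lt.b, Lt.di, Lt.ci, Lt.d, Lt.ci, Lt.bi, Lt.d] (hole_rel hinv hr (by decide +kernel)) h
theorem dp_ci_38_s (hinv : ∀ x, g (inv x) = (g x)⁻¹) (hr : ∀ r ∈ rels, (r.map g).prod = 1) (hH : ∀ r ∈ subs, (r.map g).prod ∈ H)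
    (j u : ℕ) (hu : u < M) (h : dp_ci_38 j u = true) : Good (fa g) T MG M (cP g H) Lt.ci u := by
  unfold dp_ci_38 at h
  rcases brec_true h with h | h
  · exact lS_good (T := T) (x := Lt.ci) (by decide) hu [Lt.di, Lt.c, Lt.c, Lt.bi, Lt.c, Lt.b, Lt.ci] (hole_rel hinv hr (by decide +kernel)) h
  · exact dp_ci_37_s hinv hr hH j u hu h
theorem dp_ci_39_s (hinv : ∀ x, g (inv x) = (g x)⁻¹) (hr : ∀ r ∈ rels, (r.map g).prod = 1) (hH : ∀ r ∈ subs, (r.map g).prod ∈ H)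
    (j u : ℕ) (hu : u < M) (h : dp_ci_39 j u = true) : Good (fa g) T MG M (cP g H) Lt.ci u := by
  unfold dp_ci_39 at h
  rcases brec_true h with h | h
  · exact lF_good (T := T) (x := Lt.ci) (by decide) [Lt.d, Lt.c, Lt.bi, Lt.ci, Lt.d, Lt.c, Lt.bi] (hole_rel hinv hr (by decide +kernel)) h
  · exact lF_good (T := T) (x := Lt.ci) (by decide) [Lt.fi, Lt.fi, Lt.bi, Lt.d, Lt.c, Lt.b, Lt.b] (hole_rel hinv hr (by decide +kernel)) h
theorem dp_ci_40_s (hinv : ∀ x, g (inv x) = (g x)⁻¹) (hr : ∀ r ∈ rels, (r.map g).prod = 1) (hH : ∀ r ∈ subs, (r.map g).prod ∈ H)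
    (j u : ℕ) (hu : u < M) (h : dp_ci_40 j u = true) : Good (fa g) T MG M (cP g H) Lt.ci u := by
  unfold dp_ci_40 at h
  rcases brec_true h with h | h
  · exact lF_good (T := T) (x := Lt.ci) (by decide) [Lt.ci, Lt.d, Lt.c, Lt.c, Lt.bi, Lt.ci, Lt.b] (hole_rel hinv hr (by decide +kernel)) h
  · exact lS_good (T := T) (x := Lt.ci) (by decide) hu [Lt.fi, Lt.d, Lt.bi, Lt.fi, Lt.di, Lt.ci, Lt.bi] (hole_rel hinv hr (by decide +kernel)) h
theorem dp_ci_41_s (hinv : ∀ x, g (inv x) = (g x)⁻¹) (hr : ∀ r ∈ rels, (r.map g).prod = 1) (hH : ∀ r ∈ subs, (r.map g).prod ∈ H)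
    (j u : ℕ) (hu : u < M) (h : dp_ci_41 j u = true) : Good (fa g) T MG M (cP g H) Lt.ci u := by
  unfold dp_ci_41 at h
  rcases brec_true h with h | h
  · exact dp_ci_39_s hinv hr hH j u hu h
  · exact dp_ci_40_s hinv hr hH j u hu h
theorem dp_ci_42_s (hinv : ∀ x, g (inv x) = (g x)⁻¹) (hr : ∀ r ∈ rels, (r.map g).prod = 1) (hH : ∀ r ∈ subs, (r.map g).prod ∈ H)
    (j u : ℕ) (hu : u < M) (h : dp_ci_42 j u = true) : Good (fa g) T MG M (cP g H) Lt.ci u := by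
  unfold dp_ci_42 at h
  rcases brec_true h with h | h
  · exact dp_ci_38_s hinv hr hH j u hu h
  · exact dp_ci_41_s hinv hr hH j u hu h
theorem dp_ci_43_s (hinv : ∀ x, g (inv x) = (g x)⁻¹) (hr : ∀ r ∈ rels, (r.map g).prod = 1) (hH : ∀ r ∈ subs, (r.map g).prod ∈ H)
    (j u : ℕ) (hu : u < M) (h : dp_ci_43 j u = true) : Good (fa g) T MG M (cP g H) Lt.ci u := by
  unfold dp_ci_43 at h
  rcases brec_true h with h | h
  · exact dp_ci_36_s hinv hr hH j u hu h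
  · exact dp_ci_42_s hinv hr hH j u hu h
theorem dp_ci_44_s (hinv : ∀ x, g (inv x) = (g x)⁻¹) (hr : ∀ r ∈ rels, (r.map g).prod = 1) (hH : ∀ r ∈ subs, (r.map g).prod ∈ H)
    (j u : ℕ) (hu : u < M) (h : dp_ci_44 j u = true) : Good (fa g) T MG M (cP g H) Lt.ci u := by
  unfold dp_ci_44 at h
  rcases brec_true h with h | h
  · exact lS_good (T := T) (x := Lt.ci) (by decide) hu [Lt.bi, Lt.d, Lt.ci, Lt.b, Lt.di, Lt.ci, Lt.d] (hole_rel hinv hr (by decide +kernel)) h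
  · exact lS_good (T := T) (x := Lt.ci) (by decide) hu [Lt.b, Lt.di, Lt.f, Lt.bi, Lt.c, Lt.fi, Lt.di] (hole_rel hinv hr (by decide +kernel)) h
theorem dp_ci_45_s (hinv : ∀ x, g (inv x) = (g x)⁻¹) (hr : ∀ r ∈ rels, (r.map g).prod = 1) (hH : ∀ r ∈ subs, (r.map g).prod ∈ H)
    (j u : ℕ) (hu : u < M) (h : dp_ci_45 j u = true) : Good (fa g) T MG M (cP g H) Lt.ci u := by
  unfold dp_ci_45 at h
  rcases brec_true h with h | h
  · exact lS_good (T := T) (x := Lt.ci) (by decide) hu [Lt.di, Lt.f, Lt.bi, Lt.di, Lt.di, Lt.fi, Lt.bi] (hole_rel hinv hr (by decide +kernel)) h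
  · exact lS_good (T := T) (x := Lt.ci) (by decide) hu [Lt.bi, Lt.ci, Lt.fi, Lt.d, Lt.bi, Lt.fi, Lt.di] (hole_rel hinv hr (by decide +kernel)) h
theorem dp_ci_46_s (hinv : ∀ x, g (inv x) = (g x)⁻¹) (hr : ∀ r ∈ rels, (r.map g).prod = 1) (hH : ∀ r ∈ subs, (r.map g).prod ∈ H)
    (j u : ℕ) (hu : u < M) (h : dp_ci_46 j u = true) : Good (fa g) T MG M (cP g H) Lt.ci u := by
  unfold dp_ci_46 at h
  rcases brec_true h with h | h
  · exact dp_ci_44_s hinv hr hH j u hu h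
  · exact dp_ci_45_s hinv hr hH j u hu h
theorem dp_ci_47_s (hinv : ∀ x, g (inv x) = (g x)⁻¹) (hr : ∀ r ∈ rels, (r.map g).prod = 1) (hH : ∀ r ∈ subs, (r.map g).prod ∈ H)
    (j u : ℕ) (hu : u < M) (h : dp_ci_47 j u = true) : Good (fa g) T MG M (cP g H) Lt.ci u := by
  unfold dp_ci_47 at h
  rcases brec_true h with h | h
  · exact lF_good (T := T) (x := Lt.ci) (by decide) [Lt.fi, Lt.d, Lt.bi, Lt.fi, Lt.di, Lt.ci, Lt.bi] (hole_rel hinv hr (by decide +kernel)) h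
  · exact lS_good (T := T) (x := Lt.ci) (by decide) hu [Lt.d, Lt.c, Lt.c, Lt.bi, Lt.ci, Lt.b, Lt.ci] (hole_rel hinv hr (by decide +kernel)) h
theorem dp_ci_48_s (hinv : ∀ x, g (inv x) = (g x)⁻¹) (hr : ∀ r ∈ rels, (r.map g).prod = 1) (hH : ∀ r ∈ subs, (r.map g).prod ∈ H)
    (j u : ℕ) (hu : u < M) (h : dp_ci_48 j u = true) : Good (fa g) T MG M (cP g H) Lt.ci u := by
  unfold dp_ci_48 at h
  rcases brec_true h with h | h
  · exact lF_good (T := T) (x := Lt.ci) (by decide) [Lt.di, Lt.c, Lt.c, Lt.bi, Lt.c, Lt.b, Lt.ci] (hole_rel hinv hr (by decide +kernel)) h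
  · exact lS_good (T := T) (x := Lt.ci) (by decide) hu [Lt.bi, Lt.di, Lt.di, Lt.f, Lt.b, Lt.c, Lt.b] (hole_rel hinv hr (by decide +kernel)) h
theorem dp_ci_49_s (hinv : ∀ x, g (inv x) = (g x)⁻¹) (hr : ∀ r ∈ rels, (r.map g).prod = 1) (hH : ∀ r ∈ subs, (r.map g).prod ∈ H)
    (j u : ℕ) (hu : u < M) (h : dp_ci_49 j u = true) : Good (fa g) T MG M (cP g H) Lt.ci u := by
  unfold dp_ci_49 at h
  rcases brec_true h with h | h
  · exact dp_ci_47_s hinv hr hH j u hu h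
  · exact dp_ci_48_s hinv hr hH j u hu h
theorem dp_ci_50_s (hinv : ∀ x, g (inv x) = (g x)⁻¹) (hr : ∀ r ∈ rels, (r.map g).prod = 1) (hH : ∀ r ∈ subs, (r.map g).prod ∈ H)
    (j u : ℕ) (hu : u < M) (h : dp_ci_50 j u = true) : Good (fa g) T MG M (cP g H) Lt.ci u := by
  unfold dp_ci_50 at h
  rcases brec_true h with h | h
  · exact dp_ci_46_s hinv hr hH j u hu h
  · exact dp_ci_49_s hinv hr hH j u hu h
theorem dp_ci_51_s (hinv : ∀ x, g (inv x) = (g x)⁻¹) (hr : ∀ r ∈ rels, (r.map g).prod = 1) (hH : ∀ r ∈ subs, (r.map g).prod ∈ H)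
    (j u : ℕ) (hu : u < M) (h : dp_ci_51 j u = true) : Good (fa g) T MG M (cP g H) Lt.ci u := by
  unfold dp_ci_51 at h
  rcases brec_true h with h | h
  · exact lS_good (T := T) (x := Lt.ci) (by decide) hu [Lt.b, Lt.f, Lt.ci, Lt.ci, Lt.f, Lt.bi, Lt.fi] (hole_rel hinv hr (by decide +kernel)) h
  · exact lF_good (T := T) (x := Lt.ci) (by decide) [Lt.di, Lt.f, Lt.bi, Lt.di, Lt.di, Lt.fi, Lt.bi] (hole_rel hinv hr (by decide +kernel)) h
theorem dp_ci_52_s (hinv : ∀ x, g (inv x) = (g x)⁻¹) (hr : ∀ r ∈ rels, (r.map g).prod = 1) (hH : ∀ r ∈ subs, (r.map g).prod ∈ H)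
    (j u : ℕ) (hu : u < M) (h : dp_ci_52 j u = true) : Good (fa g) T MG M (cP g H) Lt.ci u := by
  unfold dp_ci_52 at h
  rcases brec_true h with h | h
  · exact lF_good (T := T) (x := Lt.ci) (by decide) [Lt.ci, Lt.f, Lt.bi, Lt.fi, Lt.ci, Lt.b, Lt.f] (hole_rel hinv hr (by decide +kernel)) h
  · exact lF_good (T := T) (x := Lt.ci) (by decide) [Lt.di, Lt.b, Lt.f, Lt.f, Lt.c, Lt.bi, Lt.bi] (hole_rel hinv hr (by decide +kernel)) h
theorem dp_ci_53_s (hinv : ∀ x, g (inv x) = (g x)⁻¹) (hr : ∀ r ∈ rels, (r.map g).prod = 1) (hH : ∀ r ∈ subs, (r.map g).prod ∈ H)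
    (j u : ℕ) (hu : u < M) (h : dp_ci_53 j u = true) : Good (fa g) T MG M (cP g H) Lt.ci u := by
  unfold dp_ci_53 at h
  rcases brec_true h with h | h
  · exact dp_ci_51_s hinv hr hH j u hu h
  · exact dp_ci_52_s hinv hr hH j u hu h
theorem dp_ci_54_s (hinv : ∀ x, g (inv x) = (g x)⁻¹) (hr : ∀ r ∈ rels, (r.map g).prod = 1) (hH : ∀ r ∈ subs, (r.map g).prod ∈ H)
    (j u : ℕ) (hu : u < M) (h : dp_ci_54 j u = true) : Good (fa g) T MG M (cP g H) Lt.ci u := by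
  unfold dp_ci_54 at h
  rcases brec_true h with h | h
  · exact lS_good (T := T) (x := Lt.ci) (by decide) hu [Lt.bi, Lt.d, Lt.f, Lt.di, Lt.b, Lt.c, Lt.di] (hole_rel hinv hr (by decide +kernel)) h
  · exact lS_good (T := T) (x := Lt.ci) (by decide) hu [Lt.ci, Lt.d, Lt.c, Lt.c, Lt.bi, Lt.ci, Lt.b] (hole_rel hinv hr (by decide +kernel)) h
theorem dp_ci_55_s (hinv : ∀ x, g (inv x) = (g x)⁻¹) (hr : ∀ r ∈ rels, (r.map g).prod = 1) (hH : ∀ r ∈ subs, (r.map g).prod ∈ H)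
    (j u : ℕ) (hu : u < M) (h : dp_ci_55 j u = true) : Good (fa g) T MG M (cP g H) Lt.ci u := by
  unfold dp_ci_55 at h
  rcases brec_true h with h | h
  · exact lF_good (T := T) (x := Lt.ci) (by decide) [Lt.bi, Lt.d, Lt.f, Lt.di, Lt.b, Lt.c, Lt.di] (hole_rel hinv hr (by decide +kernel)) h
  · exact lF_good (T := T) (x := Lt.ci) (by decide) [Lt.f, Lt.d, Lt.d, Lt.ci, Lt.f, Lt.d, Lt.d] (hole_rel hinv hr (by decide +kernel)) h
theorem dp_ci_56_s (hinv : ∀ x, g (inv x) = (g x)⁻¹) (hr : ∀ r ∈ rels, (r.map g).prod = 1) (hH : ∀ r ∈ subs, (r.map g).prod ∈ H)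
    (j u : ℕ) (hu : u < M) (h : dp_ci_56 j u = true) : Good (fa g) T MG M (cP g H) Lt.ci u := by
  unfold dp_ci_56 at h
  rcases brec_true h with h | h
  · exact dp_ci_54_s hinv hr hH j u hu h
  · exact dp_ci_55_s hinv hr hH j u hu h
theorem dp_ci_57_s (hinv : ∀ x, g (inv x) = (g x)⁻¹) (hr : ∀ r ∈ rels, (r.map g).prod = 1) (hH : ∀ r ∈ subs, (r.map g).prod ∈ H)
    (j u : ℕ) (hu : u < M) (h : dp_ci_57 j u = true) : Good (fa g) T MG M (cP g H) Lt.ci u := by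
  unfold dp_ci_57 at h
  rcases brec_true h with h | h
  · exact dp_ci_53_s hinv hr hH j u hu h
  · exact dp_ci_56_s hinv hr hH j u hu h
theorem dp_ci_58_s (hinv : ∀ x, g (inv x) = (g x)⁻¹) (hr : ∀ r ∈ rels, (r.map g).prod = 1) (hH : ∀ r ∈ subs, (r.map g).prod ∈ H)
    (j u : ℕ) (hu : u < M) (h : dp_ci_58 j u = true) : Good (fa g) T MG M (cP g H) Lt.ci u := by
  unfold dp_ci_58 at h
  rcases brec_true h with h | h
  · exact dp_ci_50_s hinv hr hH j u hu h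
  · exact dp_ci_57_s hinv hr hH j u hu h
theorem dp_ci_59_s (hinv : ∀ x, g (inv x) = (g x)⁻¹) (hr : ∀ r ∈ rels, (r.map g).prod = 1) (hH : ∀ r ∈ subs, (r.map g).prod ∈ H)
    (j u : ℕ) (hu : u < M) (h : dp_ci_59 j u = true) : Good (fa g) T MG M (cP g H) Lt.ci u := by
  unfold dp_ci_59 at h
  rcases brec_true h with h | h
  · exact dp_ci_43_s hinv hr hH j u hu h
  · exact dp_ci_58_s hinv hr hH j u hu h
theorem dp_ci_60_s (hinv : ∀ x, g (inv x) = (g x)⁻¹) (hr : ∀ r ∈ rels, (r.map g).prod = 1) (hH : ∀ r ∈ subs, (r.map g).prod ∈ H)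
    (j u : ℕ) (hu : u < M) (h : dp_ci_60 j u = true) : Good (fa g) T MG M (cP g H) Lt.ci u := by
  unfold dp_ci_60 at h
  rcases brec_true h with h | h
  · exact lS_good (T := T) (x := Lt.ci) (by decide) hu [Lt.ci, Lt.b, Lt.d, Lt.ci, Lt.ci, Lt.b, Lt.d] (hole_rel hinv hr (by decide +kernel)) h
  · exact lF_good (T := T) (x := Lt.ci) (by decide) [Lt.f, Lt.bi, Lt.fi, Lt.ci, Lt.b, Lt.f, Lt.ci] (hole_rel hinv hr (by decide +kernel)) h
theorem dp_ci_61_s (hinv : ∀ x, g (inv x) = (g x)⁻¹) (hr : ∀ r ∈ rels, (r.map g).prod = 1) (hH : ∀ r ∈ subs, (r.map g).prod ∈ H)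
    (j u : ℕ) (hu : u < M) (h : dp_ci_61 j u = true) : Good (fa g) T MG M (cP g H) Lt.ci u := by
  unfold dp_ci_61 at h
  rcases brec_true h with h | h
  · exact lS_good (T := T) (x := Lt.ci) (by decide) hu [Lt.b, Lt.d, Lt.ci, Lt.ci, Lt.b, Lt.d, Lt.ci] (hole_rel hinv hr (by decide +kernel)) h
  · exact lF_good (T := T) (x := Lt.ci) (by decide) [Lt.ci, Lt.di, Lt.c, Lt.c, Lt.bi, Lt.c, Lt.b] (hole_rel hinv hr (by decide +kernel)) h
theorem dp_ci_62_s (hinv : ∀ x, g (inv x) = (g x)⁻¹) (hr : ∀ r ∈ rels, (r.map g).prod = 1) (hH : ∀ r ∈ subs, (r.map g).prod ∈ H)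
    (j u : ℕ) (hu : u < M) (h : dp_ci_62 j u = true) : Good (fa g) T MG M (cP g H) Lt.ci u := by
  unfold dp_ci_62 at h
  rcases brec_true h with h | h
  · exact dp_ci_60_s hinv hr hH j u hu h
  · exact dp_ci_61_s hinv hr hH j u hu h
theorem dp_ci_63_s (hinv : ∀ x, g (inv x) = (g x)⁻¹) (hr : ∀ r ∈ rels, (r.map g).prod = 1) (hH : ∀ r ∈ subs, (r.map g).prod ∈ H)
    (j u : ℕ) (hu : u < M) (h : dp_ci_63 j u = true) : Good (fa g) T MG M (cP g H) Lt.ci u := by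
  unfold dp_ci_63 at h
  rcases brec_true h with h | h
  · exact lS_good (T := T) (x := Lt.ci) (by decide) hu [Lt.ci, Lt.f, Lt.bi, Lt.fi, Lt.ci, Lt.b, Lt.f] (hole_rel hinv hr (by decide +kernel)) h
  · exact lF_good (T := T) (x := Lt.ci) (by decide) [Lt.fi, Lt.bi, Lt.d, Lt.ci, Lt.fi, Lt.bi, Lt.d] (hole_rel hinv hr (by decide +kernel)) h
theorem dp_ci_64_s (hinv : ∀ x, g (inv x) = (g x)⁻¹) (hr : ∀ r ∈ rels, (r.map g).prod = 1) (hH : ∀ r ∈ subs, (r.map g).prod ∈ H)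
    (j u : ℕ) (hu : u < M) (h : dp_ci_64 j u = true) : Good (fa g) T MG M (cP g H) Lt.ci u := by
  unfold dp_ci_64 at h
  rcases brec_true h with h | h
  · exact lS_good (T := T) (x := Lt.ci) (by decide) hu [Lt.bi, Lt.f, Lt.ci, Lt.d, Lt.b, Lt.ci, Lt.di] (hole_rel hinv hr (by decide +kernel)) h
  · exact lF_good (T := T) (x := Lt.ci) (by decide) [Lt.b, Lt.di, Lt.f, Lt.di, Lt.ci, Lt.ci, Lt.bi] (hole_rel hinv hr (by decide +kernel)) h
theorem dp_ci_65_s (hinv : ∀ x, g (inv x) = (g x)⁻¹) (hr : ∀ r ∈ rels, (r.map g).prod = 1) (hH : ∀ r ∈ subs, (r.map g).prod ∈ H)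
    (j u : ℕ) (hu : u < M) (h : dp_ci_65 j u = true) : Good (fa g) T MG M (cP g H) Lt.ci u := by
  unfold dp_ci_65 at h
  rcases brec_true h with h | h
  · exact lS_good (T := T) (x := Lt.ci) (by decide) hu [Lt.d, Lt.b, Lt.f, Lt.ci, Lt.f, Lt.di, Lt.b] (hole_rel hinv hr (by decide +kernel)) h
  · exact dp_ci_64_s hinv hr hH j u hu h
theorem dp_ci_66_s (hinv : ∀ x, g (inv x) = (g x)⁻¹) (hr : ∀ r ∈ rels, (r.map g).prod = 1) (hH : ∀ r ∈ subs, (r.map g).prod ∈ H)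
    (j u : ℕ) (hu : u < M) (h : dp_ci_66 j u = true) : Good (fa g) T MG M (cP g H) Lt.ci u := by
  unfold dp_ci_66 at h
  rcases brec_true h with h | h
  · exact dp_ci_63_s hinv hr hH j u hu h
  · exact dp_ci_65_s hinv hr hH j u hu h
theorem dp_ci_67_s (hinv : ∀ x, g (inv x) = (g x)⁻¹) (hr : ∀ r ∈ rels, (r.map g).prod = 1) (hH : ∀ r ∈ subs, (r.map g).prod ∈ H)
    (j u : ℕ) (hu : u < M) (h : dp_ci_67 j u = true) : Good (fa g) T MG M (cP g H) Lt.ci u := by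
  unfold dp_ci_67 at h
  rcases brec_true h with h | h
  · exact dp_ci_62_s hinv hr hH j u hu h
  · exact dp_ci_66_s hinv hr hH j u hu h
theorem dp_ci_68_s (hinv : ∀ x, g (inv x) = (g x)⁻¹) (hr : ∀ r ∈ rels, (r.map g).prod = 1) (hH : ∀ r ∈ subs, (r.map g).prod ∈ H)
    (j u : ℕ) (hu : u < M) (h : dp_ci_68 j u = true) : Good (fa g) T MG M (cP g H) Lt.ci u := by
  unfold dp_ci_68 at h
  rcases brec_true h with h | h
  · exact lS_good (T := T) (x := Lt.ci) (by decide) hu [Lt.bi, Lt.di, Lt.fi, Lt.b, Lt.c, Lt.bi, Lt.di] (hole_rel hinv hr (by decide +kernel)) h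
  · exact lS_good (T := T) (x := Lt.ci) (by decide) hu [Lt.di, Lt.c, Lt.b, Lt.ci, Lt.di, Lt.c, Lt.b] (hole_rel hinv hr (by decide +kernel)) h
theorem dp_ci_69_s (hinv : ∀ x, g (inv x) = (g x)⁻¹) (hr : ∀ r ∈ rels, (r.map g).prod = 1) (hH : ∀ r ∈ subs, (r.map g).prod ∈ H)
    (j u : ℕ) (hu : u < M) (h : dp_ci_69 j u = true) : Good (fa g) T MG M (cP g H) Lt.ci u := by
  unfold dp_ci_69 at h
  rcases brec_true h with h | h
  · exact lF_good (T := T) (x := Lt.ci) (by decide) [Lt.di, Lt.c, Lt.b, Lt.ci, Lt.di, Lt.c, Lt.b] (hole_rel hinv hr (by decide +kernel)) h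
  · exact lS_good (T := T) (x := Lt.ci) (by decide) hu [Lt.b, Lt.ci, Lt.ci, Lt.d, Lt.c, Lt.c, Lt.bi] (hole_rel hinv hr (by decide +kernel)) h
theorem dp_ci_70_s (hinv : ∀ x, g (inv x) = (g x)⁻¹) (hr : ∀ r ∈ rels, (r.map g).prod = 1) (hH : ∀ r ∈ subs, (r.map g).prod ∈ H)
    (j u : ℕ) (hu : u < M) (h : dp_ci_70 j u = true) : Good (fa g) T MG M (cP g H) Lt.ci u := by
  unfold dp_ci_70 at h
  rcases brec_true h with h | h
  · exact lF_good (T := T) (x := Lt.ci) (by decide) [Lt.bi, Lt.d, Lt.ci, Lt.b, Lt.di, Lt.ci, Lt.d] (hole_rel hinv hr (by decide +kernel)) h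
  · exact dp_ci_69_s hinv hr hH j u hu h
theorem dp_ci_71_s (hinv : ∀ x, g (inv x) = (g x)⁻¹) (hr : ∀ r ∈ rels, (r.map g).prod = 1) (hH : ∀ r ∈ subs, (r.map g).prod ∈ H)
    (j u : ℕ) (hu : u < M) (h : dp_ci_71 j u = true) : Good (fa g) T MG M (cP g H) Lt.ci u := by
  unfold dp_ci_71 at h
  rcases brec_true h with h | h
  · exact dp_ci_68_s hinv hr hH j u hu h
  · exact dp_ci_70_s hinv hr hH j u hu h
theorem dp_ci_72_s (hinv : ∀ x, g (inv x) = (g x)⁻¹) (hr : ∀ r ∈ rels, (r.map g).prod = 1) (hH : ∀ r ∈ subs, (r.map g).prod ∈ H)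
    (j u : ℕ) (hu : u < M) (h : dp_ci_72 j u = true) : Good (fa g) T MG M (cP g H) Lt.ci u := by
  unfold dp_ci_72 at h
  rcases brec_true h with h | h
  · exact lF_good (T := T) (x := Lt.ci) (by decide) [Lt.bi, Lt.fi, Lt.di, Lt.fi, Lt.b, Lt.c, Lt.b] (hole_rel hinv hr (by decide +kernel)) h
  · exact lS_good (T := T) (x := Lt.ci) (by decide) hu [Lt.fi, Lt.fi, Lt.bi, Lt.d, Lt.c, Lt.b, Lt.b] (hole_rel hinv hr (by decide +kernel)) h
theorem dp_ci_73_s (hinv : ∀ x, g (inv x) = (g x)⁻¹) (hr : ∀ r ∈ rels, (r.map g).prod = 1) (hH : ∀ r ∈ subs, (r.map g).prod ∈ H)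
    (j u : ℕ) (hu : u < M) (h : dp_ci_73 j u = true) : Good (fa g) T MG M (cP g H) Lt.ci u := by
  unfold dp_ci_73 at h
  rcases brec_true h with h | h
  · exact lF_good (T := T) (x := Lt.ci) (by decide) [Lt.bi, Lt.ci, Lt.fi, Lt.d, Lt.bi, Lt.fi, Lt.di] (hole_rel hinv hr (by decide +kernel)) h
  · exact lF_good (T := T) (x := Lt.ci) (by decide) [Lt.bi, Lt.f, Lt.b, Lt.c, Lt.bi, Lt.bi, Lt.di] (hole_rel hinv hr (by decide +kernel)) h
theorem dp_ci_74_s (hinv : ∀ x, g (inv x) = (g x)⁻¹) (hr : ∀ r ∈ rels, (r.map g).prod = 1) (hH : ∀ r ∈ subs, (r.map g).prod ∈ H)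
    (j u : ℕ) (hu : u < M) (h : dp_ci_74 j u = true) : Good (fa g) T MG M (cP g H) Lt.ci u := by
  unfold dp_ci_74 at h
  rcases brec_true h with h | h
  · exact lS_good (T := T) (x := Lt.ci) (by decide) hu [Lt.di, Lt.ci, Lt.bi, Lt.f, Lt.ci, Lt.d, Lt.b] (hole_rel hinv hr (by decide +kernel)) h
  · exact dp_ci_73_s hinv hr hH j u hu h
theorem dp_ci_75_s (hinv : ∀ x, g (inv x) = (g x)⁻¹) (hr : ∀ r ∈ rels, (r.map g).prod = 1) (hH : ∀ r ∈ subs, (r.map g).prod ∈ H)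
    (j u : ℕ) (hu : u < M) (h : dp_ci_75 j u = true) : Good (fa g) T MG M (cP g H) Lt.ci u := by
  unfold dp_ci_75 at h
  rcases brec_true h with h | h
  · exact dp_ci_72_s hinv hr hH j u hu h
  · exact dp_ci_74_s hinv hr hH j u hu h
theorem dp_ci_76_s (hinv : ∀ x, g (inv x) = (g x)⁻¹) (hr : ∀ r ∈ rels, (r.map g).prod = 1) (hH : ∀ r ∈ subs, (r.map g).prod ∈ H)
    (j u : ℕ) (hu : u < M) (h : dp_ci_76 j u = true) : Good (fa g) T MG M (cP g H) Lt.ci u := by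
  unfold dp_ci_76 at h
  rcases brec_true h with h | h
  · exact dp_ci_71_s hinv hr hH j u hu h
  · exact dp_ci_75_s hinv hr hH j u hu h
theorem dp_ci_77_s (hinv : ∀ x, g (inv x) = (g x)⁻¹) (hr : ∀ r ∈ rels, (r.map g).prod = 1) (hH : ∀ r ∈ subs, (r.map g).prod ∈ H)
    (j u : ℕ) (hu : u < M) (h : dp_ci_77 j u = true) : Good (fa g) T MG M (cP g H) Lt.ci u := by
  unfold dp_ci_77 at h
  rcases brec_true h with h | h
  · exact dp_ci_67_s hinv hr hH j u hu h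
  · exact dp_ci_76_s hinv hr hH j u hu h
theorem dp_ci_78_s (hinv : ∀ x, g (inv x) = (g x)⁻¹) (hr : ∀ r ∈ rels, (r.map g).prod = 1) (hH : ∀ r ∈ subs, (r.map g).prod ∈ H)
    (j u : ℕ) (hu : u < M) (h : dp_ci_78 j u = true) : Good (fa g) T MG M (cP g H) Lt.ci u := by
  unfold dp_ci_78 at h
  rcases brec_true h with h | h
  · exact lS_good (T := T) (x := Lt.ci) (by decide) hu [Lt.fi, Lt.e, Lt.f, Lt.ei, Lt.fi, Lt.e, Lt.fi, Lt.d] (hole_rel hinv hr (by decide +kernel)) h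
  · exact lF_good (T := T) (x := Lt.ci) (by decide) [Lt.bi, Lt.fi, Lt.d, Lt.d, Lt.b, Lt.c, Lt.bi] (hole_rel hinv hr (by decide +kernel)) h
theorem dp_ci_79_s (hinv : ∀ x, g (inv x) = (g x)⁻¹) (hr : ∀ r ∈ rels, (r.map g).prod = 1) (hH : ∀ r ∈ subs, (r.map g).prod ∈ H)
    (j u : ℕ) (hu : u < M) (h : dp_ci_79 j u = true) : Good (fa g) T MG M (cP g H) Lt.ci u := by
  unfold dp_ci_79 at h
  rcases brec_true h with h | h
  · exact lS_good (T := T) (x := Lt.ci) (by decide) hu [Lt.ci, Lt.di, Lt.c, Lt.c, Lt.bi, Lt.c, Lt.b] (hole_rel hinv hr (by decide +kernel)) h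
  · exact dp_ci_78_s hinv hr hH j u hu h
theorem dp_ci_80_s (hinv : ∀ x, g (inv x) = (g x)⁻¹) (hr : ∀ r ∈ rels, (r.map g).prod = 1) (hH : ∀ r ∈ subs, (r.map g).prod ∈ H)
    (j u : ℕ) (hu : u < M) (h : dp_ci_80 j u = true) : Good (fa g) T MG M (cP g H) Lt.ci u := by
  unfold dp_ci_80 at h
  rcases brec_true h with h | h
  · exact lF_good (T := T) (x := Lt.ci) (by decide) [Lt.fi, Lt.e, Lt.f, Lt.ei, Lt.fi, Lt.e, Lt.fi, Lt.d] (hole_rel hinv hr (by decide +kernel)) h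
  · exact lS_good (T := T) (x := Lt.ci) (by decide) hu [Lt.bi, Lt.fi, Lt.d, Lt.d, Lt.b, Lt.c, Lt.bi] (hole_rel hinv hr (by decide +kernel)) h
theorem dp_ci_81_s (hinv : ∀ x, g (inv x) = (g x)⁻¹) (hr : ∀ r ∈ rels, (r.map g).prod = 1) (hH : ∀ r ∈ subs, (r.map g).prod ∈ H)
    (j u : ℕ) (hu : u < M) (h : dp_ci_81 j u = true) : Good (fa g) T MG M (cP g H) Lt.ci u := by
  unfold dp_ci_81 at h
  rcases brec_true h with h | h
  · exact lF_good (T := T) (x := Lt.ci) (by decide) [Lt.bi, Lt.f, Lt.ci, Lt.d, Lt.b, Lt.ci, Lt.di] (hole_rel hinv hr (by decide +kernel)) h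
  · exact dp_ci_80_s hinv hr hH j u hu h
theorem dp_ci_82_s (hinv : ∀ x, g (inv x) = (g x)⁻¹) (hr : ∀ r ∈ rels, (r.map g).prod = 1) (hH : ∀ r ∈ subs, (r.map g).prod ∈ H)
    (j u : ℕ) (hu : u < M) (h : dp_ci_82 j u = true) : Good (fa g) T MG M (cP g H) Lt.ci u := by
  unfold dp_ci_82 at h
  rcases brec_true h with h | h
  · exact dp_ci_79_s hinv hr hH j u hu h
  · exact dp_ci_81_s hinv hr hH j u hu h
theorem dp_ci_83_s (hinv : ∀ x, g (inv x) = (g x)⁻¹) (hr : ∀ r ∈ rels, (r.map g).prod = 1) (hH : ∀ r ∈ subs, (r.map g).prod ∈ H)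
    (j u : ℕ) (hu : u < M) (h : dp_ci_83 j u = true) : Good (fa g) T MG M (cP g H) Lt.ci u := by
  unfold dp_ci_83 at h
  rcases brec_true h with h | h
  · exact lF_good (T := T) (x := Lt.ci) (by decide) [Lt.ei, Lt.fi, Lt.e, Lt.f, Lt.ei, Lt.fi, Lt.fi, Lt.d] (hole_rel hinv hr (by decide +kernel)) h
  · exact lF_good (T := T) (x := Lt.ci) (by decide) [Lt.b, Lt.ci, Lt.ci, Lt.d, Lt.c, Lt.c, Lt.bi] (hole_rel hinv hr (by decide +kernel)) h
theorem dp_ci_84_s (hinv : ∀ x, g (inv x) = (g x)⁻¹) (hr : ∀ r ∈ rels, (r.map g).prod = 1) (hH : ∀ r ∈ subs, (r.map g).prod ∈ H)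
    (j u : ℕ) (hu : u < M) (h : dp_ci_84 j u = true) : Good (fa g) T MG M (cP g H) Lt.ci u := by
  unfold dp_ci_84 at h
  rcases brec_true h with h | h
  · exact lS_good (T := T) (x := Lt.ci) (by decide) hu [Lt.d, Lt.fi, Lt.bi, Lt.fi, Lt.b, Lt.b, Lt.f] (hole_rel hinv hr (by decide +kernel)) h
  · exact dp_ci_83_s hinv hr hH j u hu h
theorem dp_ci_85_s (hinv : ∀ x, g (inv x) = (g x)⁻¹) (hr : ∀ r ∈ rels, (r.map g).prod = 1) (hH : ∀ r ∈ subs, (r.map g).prod ∈ H)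
    (j u : ℕ) (hu : u < M) (h : dp_ci_85 j u = true) : Good (fa g) T MG M (cP g H) Lt.ci u := by
  unfold dp_ci_85 at h
  rcases brec_true h with h | h
  · exact lS_good (T := T) (x := Lt.ci) (by decide) hu [Lt.b, Lt.di, Lt.f, Lt.di, Lt.ci, Lt.ci, Lt.bi] (hole_rel hinv hr (by decide +kernel)) h
  · exact lS_good (T := T) (x := Lt.ci) (by decide) hu [Lt.bi, Lt.f, Lt.d, Lt.f, Lt.b, Lt.c, Lt.bi] (hole_rel hinv hr (by decide +kernel)) h
theorem dp_ci_86_s (hinv : ∀ x, g (inv x) = (g x)⁻¹) (hr : ∀ r ∈ rels, (r.map g).prod = 1) (hH : ∀ r ∈ subs, (r.map g).prod ∈ H)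
    (j u : ℕ) (hu : u < M) (h : dp_ci_86 j u = true) : Good (fa g) T MG M (cP g H) Lt.ci u := by
  unfold dp_ci_86 at h
  rcases brec_true h with h | h
  · exact lF_good (T := T) (x := Lt.ci) (by decide) [Lt.d, Lt.b, Lt.f, Lt.ci, Lt.f, Lt.di, Lt.b] (hole_rel hinv hr (by decide +kernel)) h
  · exact dp_ci_85_s hinv hr hH j u hu h
theorem dp_ci_87_s (hinv : ∀ x, g (inv x) = (g x)⁻¹) (hr : ∀ r ∈ rels, (r.map g).prod = 1) (hH : ∀ r ∈ subs, (r.map g).prod ∈ H)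
    (j u : ℕ) (hu : u < M) (h : dp_ci_87 j u = true) : Good (fa g) T MG M (cP g H) Lt.ci u := by
  unfold dp_ci_87 at h
  rcases brec_true h with h | h
  · exact dp_ci_84_s hinv hr hH j u hu h
  · exact dp_ci_86_s hinv hr hH j u hu h
theorem dp_ci_88_s (hinv : ∀ x, g (inv x) = (g x)⁻¹) (hr : ∀ r ∈ rels, (r.map g).prod = 1) (hH : ∀ r ∈ subs, (r.map g).prod ∈ H)
    (j u : ℕ) (hu : u < M) (h : dp_ci_88 j u = true) : Good (fa g) T MG M (cP g H) Lt.ci u := by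
  unfold dp_ci_88 at h
  rcases brec_true h with h | h
  · exact dp_ci_82_s hinv hr hH j u hu h
  · exact dp_ci_87_s hinv hr hH j u hu h
theorem dp_ci_89_s (hinv : ∀ x, g (inv x) = (g x)⁻¹) (hr : ∀ r ∈ rels, (r.map g).prod = 1) (hH : ∀ r ∈ subs, (r.map g).prod ∈ H)
    (j u : ℕ) (hu : u < M) (h : dp_ci_89 j u = true) : Good (fa g) T MG M (cP g H) Lt.ci u := by
  unfold dp_ci_89 at h
  rcases brec_true h with h | h
  · exact lS_good (T := T) (x := Lt.ci) (by decide) hu [Lt.bi, Lt.fi, Lt.b, Lt.c, Lt.d, Lt.b, Lt.b] (hole_rel hinv hr (by decide +kernel)) h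
  · exact lF_good (T := T) (x := Lt.ci) (by decide) [Lt.bi, Lt.di, Lt.di, Lt.f, Lt.b, Lt.c, Lt.b] (hole_rel hinv hr (by decide +kernel)) h
theorem dp_ci_90_s (hinv : ∀ x, g (inv x) = (g x)⁻¹) (hr : ∀ r ∈ rels, (r.map g).prod = 1) (hH : ∀ r ∈ subs, (r.map g).prod ∈ H)
    (j u : ℕ) (hu : u < M) (h : dp_ci_90 j u = true) : Good (fa g) T MG M (cP g H) Lt.ci u := by
  unfold dp_ci_90 at h
  rcases brec_true h with h | h
  · exact lS_good (T := T) (x := Lt.ci) (by decide) hu [Lt.bi, Lt.f, Lt.d, Lt.b, Lt.c, Lt.d, Lt.b] (hole_rel hinv hr (by decide +kernel)) h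
  · exact lS_good (T := T) (x := Lt.ci) (by decide) hu [Lt.bi, Lt.f, Lt.b, Lt.c, Lt.bi, Lt.bi, Lt.di] (hole_rel hinv hr (by decide +kernel)) h
theorem dp_ci_91_s (hinv : ∀ x, g (inv x) = (g x)⁻¹) (hr : ∀ r ∈ rels, (r.map g).prod = 1) (hH : ∀ r ∈ subs, (r.map g).prod ∈ H)
    (j u : ℕ) (hu : u < M) (h : dp_ci_91 j u = true) : Good (fa g) T MG M (cP g H) Lt.ci u := by
  unfold dp_ci_91 at h
  rcases brec_true h with h | h
  · exact dp_ci_89_s hinv hr hH j u hu h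
  · exact dp_ci_90_s hinv hr hH j u hu h
theorem dp_ci_92_s (hinv : ∀ x, g (inv x) = (g x)⁻¹) (hr : ∀ r ∈ rels, (r.map g).prod = 1) (hH : ∀ r ∈ subs, (r.map g).prod ∈ H)
    (j u : ℕ) (hu : u < M) (h : dp_ci_92 j u = true) : Good (fa g) T MG M (cP g H) Lt.ci u := by
  unfold dp_ci_92 at h
  rcases brec_true h with h | h
  · exact lF_good (T := T) (x := Lt.ci) (by decide) [Lt.d, Lt.fi, Lt.bi, Lt.fi, Lt.b, Lt.b, Lt.f] (hole_rel hinv hr (by decide +kernel)) h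
  · exact lS_good (T := T) (x := Lt.ci) (by decide) hu [Lt.ei, Lt.fi, Lt.e, Lt.f, Lt.ei, Lt.fi, Lt.fi, Lt.d] (hole_rel hinv hr (by decide +kernel)) h
theorem dp_ci_93_s (hinv : ∀ x, g (inv x) = (g x)⁻¹) (hr : ∀ r ∈ rels, (r.map g).prod = 1) (hH : ∀ r ∈ subs, (r.map g).prod ∈ H)
    (j u : ℕ) (hu : u < M) (h : dp_ci_93 j u = true) : Good (fa g) T MG M (cP g H) Lt.ci u := by
  unfold dp_ci_93 at h
  rcases brec_true h with h | h
  · exact lF_good (T := T) (x := Lt.ci) (by decide) [Lt.bi, Lt.fi, Lt.b, Lt.c, Lt.d, Lt.b, Lt.b] (hole_rel hinv hr (by decide +kernel)) h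
  · exact lF_good (T := T) (x := Lt.ci) (by decide) [Lt.bi, Lt.f, Lt.d, Lt.f, Lt.b, Lt.c, Lt.bi] (hole_rel hinv hr (by decide +kernel)) h
theorem dp_ci_94_s (hinv : ∀ x, g (inv x) = (g x)⁻¹) (hr : ∀ r ∈ rels, (r.map g).prod = 1) (hH : ∀ r ∈ subs, (r.map g).prod ∈ H)
    (j u : ℕ) (hu : u < M) (h : dp_ci_94 j u = true) : Good (fa g) T MG M (cP g H) Lt.ci u := by
  unfold dp_ci_94 at h
  rcases brec_true h with h | h
  · exact dp_ci_92_s hinv hr hH j u hu h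
  · exact dp_ci_93_s hinv hr hH j u hu h
theorem dp_ci_95_s (hinv : ∀ x, g (inv x) = (g x)⁻¹) (hr : ∀ r ∈ rels, (r.map g).prod = 1) (hH : ∀ r ∈ subs, (r.map g).prod ∈ H)
    (j u : ℕ) (hu : u < M) (h : dp_ci_95 j u = true) : Good (fa g) T MG M (cP g H) Lt.ci u := by
  unfold dp_ci_95 at h
  rcases brec_true h with h | h
  · exact dp_ci_91_s hinv hr hH j u hu h
  · exact dp_ci_94_s hinv hr hH j u hu h
theorem dp_ci_96_s (hinv : ∀ x, g (inv x) = (g x)⁻¹) (hr : ∀ r ∈ rels, (r.map g).prod = 1) (hH : ∀ r ∈ subs, (r.map g).prod ∈ H)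
    (j u : ℕ) (hu : u < M) (h : dp_ci_96 j u = true) : Good (fa g) T MG M (cP g H) Lt.ci u := by
  unfold dp_ci_96 at h
  rcases brec_true h with h | h
  · exact lF_good (T := T) (x := Lt.ci) (by decide) [Lt.bi, Lt.di, Lt.fi, Lt.b, Lt.c, Lt.bi, Lt.di] (hole_rel hinv hr (by decide +kernel)) h
  · exact lF_good (T := T) (x := Lt.ci) (by decide) [Lt.bi, Lt.f, Lt.d, Lt.b, Lt.c, Lt.d, Lt.b] (hole_rel hinv hr (by decide +kernel)) h
theorem dp_ci_97_s (hinv : ∀ x, g (inv x) = (g x)⁻¹) (hr : ∀ r ∈ rels, (r.map g).prod = 1) (hH : ∀ r ∈ subs, (r.map g).prod ∈ H)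
    (j u : ℕ) (hu : u < M) (h : dp_ci_97 j u = true) : Good (fa g) T MG M (cP g H) Lt.ci u := by
  unfold dp_ci_97 at h
  rcases brec_true h with h | h
  · exact lF_good (T := T) (x := Lt.ci) (by decide) [Lt.ci, Lt.bi, Lt.f, Lt.c, Lt.di, Lt.f, Lt.c, Lt.bi] (hole_rel hinv hr (by decide +kernel)) h
  · exact lS_good (T := T) (x := Lt.ci) (by decide) hu [Lt.ei, Lt.fi, Lt.e, Lt.f, Lt.ei, Lt.d, Lt.f, Lt.di] (hole_rel hinv hr (by decide +kernel)) h
theorem dp_ci_98_s (hinv : ∀ x, g (inv x) = (g x)⁻¹) (hr : ∀ r ∈ rels, (r.map g).prod = 1) (hH : ∀ r ∈ subs, (r.map g).prod ∈ H)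
    (j u : ℕ) (hu : u < M) (h : dp_ci_98 j u = true) : Good (fa g) T MG M (cP g H) Lt.ci u := by
  unfold dp_ci_98 at h
  rcases brec_true h with h | h
  · exact lS_good (T := T) (x := Lt.ci) (by decide) hu [Lt.bi, Lt.fi, Lt.di, Lt.fi, Lt.b, Lt.c, Lt.b] (hole_rel hinv hr (by decide +kernel)) h
  · exact dp_ci_97_s hinv hr hH j u hu h
theorem dp_ci_99_s (hinv : ∀ x, g (inv x) = (g x)⁻¹) (hr : ∀ r ∈ rels, (r.map g).prod = 1) (hH : ∀ r ∈ subs, (r.map g).prod ∈ H)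
    (j u : ℕ) (hu : u < M) (h : dp_ci_99 j u = true) : Good (fa g) T MG M (cP g H) Lt.ci u := by
  unfold dp_ci_99 at h
  rcases brec_true h with h | h
  · exact dp_ci_96_s hinv hr hH j u hu h
  · exact dp_ci_98_s hinv hr hH j u hu h
theorem dp_ci_100_s (hinv : ∀ x, g (inv x) = (g x)⁻¹) (hr : ∀ r ∈ rels, (r.map g).prod = 1) (hH : ∀ r ∈ subs, (r.map g).prod ∈ H)
    (j u : ℕ) (hu : u < M) (h : dp_ci_100 j u = true) : Good (fa g) T MG M (cP g H) Lt.ci u := by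
  unfold dp_ci_100 at h
  rcases brec_true h with h | h
  · exact lF_good (T := T) (x := Lt.ci) (by decide) [Lt.fi, Lt.c, Lt.c, Lt.b, Lt.ci, Lt.di, Lt.fi, Lt.ci] (hole_rel hinv hr (by decide +kernel)) h
  · exact lS_good (T := T) (x := Lt.ci) (by decide) hu [Lt.ci, Lt.fi, Lt.c, Lt.c, Lt.b, Lt.ci, Lt.di, Lt.fi] (hole_rel hinv hr (by decide +kernel)) h
theorem dp_ci_101_s (hinv : ∀ x, g (inv x) = (g x)⁻¹) (hr : ∀ r ∈ rels, (r.map g).prod = 1) (hH : ∀ r ∈ subs, (r.map g).prod ∈ H)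
    (j u : ℕ) (hu : u < M) (h : dp_ci_101 j u = true) : Good (fa g) T MG M (cP g H) Lt.ci u := by
  unfold dp_ci_101 at h
  rcases brec_true h with h | h
  · exact lF_good (T := T) (x := Lt.ci) (by decide) [Lt.bi, Lt.f, Lt.c, Lt.di, Lt.f, Lt.c, Lt.bi, Lt.ci] (hole_rel hinv hr (by decide +kernel)) h
  · exact dp_ci_100_s hinv hr hH j u hu h
theorem dp_ci_102_s (hinv : ∀ x, g (inv x) = (g x)⁻¹) (hr : ∀ r ∈ rels, (r.map g).prod = 1) (hH : ∀ r ∈ subs, (r.map g).prod ∈ H)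
    (j u : ℕ) (hu : u < M) (h : dp_ci_102 j u = true) : Good (fa g) T MG M (cP g H) Lt.ci u := by
  unfold dp_ci_102 at h
  rcases brec_true h with h | h
  · exact lS_good (T := T) (x := Lt.ci) (by decide) hu [Lt.ci, Lt.bi, Lt.f, Lt.c, Lt.di, Lt.f, Lt.c, Lt.bi] (hole_rel hinv hr (by decide +kernel)) h
  · exact lF_good (T := T) (x := Lt.ci) (by decide) [Lt.f, Lt.di, Lt.b, Lt.fi, Lt.di, Lt.di, Lt.ci, Lt.b] (hole_rel hinv hr (by decide +kernel)) h
theorem dp_ci_103_s (hinv : ∀ x, g (inv x) = (g x)⁻¹) (hr : ∀ r ∈ rels, (r.map g).prod = 1) (hH : ∀ r ∈ subs, (r.map g).prod ∈ H)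
    (j u : ℕ) (hu : u < M) (h : dp_ci_103 j u = true) : Good (fa g) T MG M (cP g H) Lt.ci u := by
  unfold dp_ci_103 at h
  rcases brec_true h with h | h
  · exact lF_good (T := T) (x := Lt.ci) (by decide) [Lt.fi, Lt.bi, Lt.fi, Lt.ci, Lt.d, Lt.fi, Lt.fi, Lt.b] (hole_rel hinv hr (by decide +kernel)) h
  · exact lF_good (T := T) (x := Lt.ci) (by decide) [Lt.bi, Lt.ci, Lt.fi, Lt.b, Lt.b, Lt.di, Lt.f, Lt.f] (hole_rel hinv hr (by decide +kernel)) h
theorem dp_ci_104_s (hinv : ∀ x, g (inv x) = (g x)⁻¹) (hr : ∀ r ∈ rels, (r.map g).prod = 1) (hH : ∀ r ∈ subs, (r.map g).prod ∈ H)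
    (j u : ℕ) (hu : u < M) (h : dp_ci_104 j u = true) : Good (fa g) T MG M (cP g H) Lt.ci u := by
  unfold dp_ci_104 at h
  rcases brec_true h with h | h
  · exact dp_ci_102_s hinv hr hH j u hu h
  · exact dp_ci_103_s hinv hr hH j u hu h
theorem dp_ci_105_s (hinv : ∀ x, g (inv x) = (g x)⁻¹) (hr : ∀ r ∈ rels, (r.map g).prod = 1) (hH : ∀ r ∈ subs, (r.map g).prod ∈ H)
    (j u : ℕ) (hu : u < M) (h : dp_ci_105 j u = true) : Good (fa g) T MG M (cP g H) Lt.ci u := by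
  unfold dp_ci_105 at h
  rcases brec_true h with h | h
  · exact dp_ci_101_s hinv hr hH j u hu h
  · exact dp_ci_104_s hinv hr hH j u hu h
theorem dp_ci_106_s (hinv : ∀ x, g (inv x) = (g x)⁻¹) (hr : ∀ r ∈ rels, (r.map g).prod = 1) (hH : ∀ r ∈ subs, (r.map g).prod ∈ H)
    (j u : ℕ) (hu : u < M) (h : dp_ci_106 j u = true) : Good (fa g) T MG M (cP g H) Lt.ci u := by
  unfold dp_ci_106 at h
  rcases brec_true h with h | h
  · exact lS_good (T := T) (x := Lt.ci) (by decide) hu [Lt.di, Lt.fi, Lt.ci, Lt.ci, Lt.fi, Lt.c, Lt.c, Lt.b] (hole_rel hinv hr (by decide +kernel)) h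
  · exact lF_good (T := T) (x := Lt.ci) (by decide) [Lt.fi, Lt.b, Lt.c, Lt.c, Lt.b, Lt.ci, Lt.fi, Lt.d] (hole_rel hinv hr (by decide +kernel)) h
theorem dp_ci_107_s (hinv : ∀ x, g (inv x) = (g x)⁻¹) (hr : ∀ r ∈ rels, (r.map g).prod = 1) (hH : ∀ r ∈ subs, (r.map g).prod ∈ H)
    (j u : ℕ) (hu : u < M) (h : dp_ci_107 j u = true) : Good (fa g) T MG M (cP g H) Lt.ci u := by
  unfold dp_ci_107 at h
  rcases brec_true h with h | h
  · exact lF_good (T := T) (x := Lt.ci) (by decide) [Lt.fi, Lt.d, Lt.ci, Lt.fi, Lt.b, Lt.c, Lt.c, Lt.b] (hole_rel hinv hr (by decide +kernel)) h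
  · exact lF_good (T := T) (x := Lt.ci) (by decide) [Lt.f, Lt.d, Lt.c, Lt.c, Lt.fi, Lt.di, Lt.fi, Lt.di] (hole_rel hinv hr (by decide +kernel)) h
theorem dp_ci_108_s (hinv : ∀ x, g (inv x) = (g x)⁻¹) (hr : ∀ r ∈ rels, (r.map g).prod = 1) (hH : ∀ r ∈ subs, (r.map g).prod ∈ H)
    (j u : ℕ) (hu : u < M) (h : dp_ci_108 j u = true) : Good (fa g) T MG M (cP g H) Lt.ci u := by
  unfold dp_ci_108 at h
  rcases brec_true h with h | h
  · exact dp_ci_106_s hinv hr hH j u hu h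
  · exact dp_ci_107_s hinv hr hH j u hu h
theorem dp_ci_109_s (hinv : ∀ x, g (inv x) = (g x)⁻¹) (hr : ∀ r ∈ rels, (r.map g).prod = 1) (hH : ∀ r ∈ subs, (r.map g).prod ∈ H)
    (j u : ℕ) (hu : u < M) (h : dp_ci_109 j u = true) : Good (fa g) T MG M (cP g H) Lt.ci u := by
  unfold dp_ci_109 at h
  rcases brec_true h with h | h
  · exact lF_good (T := T) (x := Lt.ci) (by decide) [Lt.ei, Lt.fi, Lt.e, Lt.f, Lt.ei, Lt.d, Lt.f, Lt.di] (hole_rel hinv hr (by decide +kernel)) h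
  · exact lF_good (T := T) (x := Lt.ci) (by decide) [Lt.ci, Lt.fi, Lt.c, Lt.c, Lt.b, Lt.ci, Lt.di, Lt.fi] (hole_rel hinv hr (by decide +kernel)) h
theorem dp_ci_110_s (hinv : ∀ x, g (inv x) = (g x)⁻¹) (hr : ∀ r ∈ rels, (r.map g).prod = 1) (hH : ∀ r ∈ subs, (r.map g).prod ∈ H)
    (j u : ℕ) (hu : u < M) (h : dp_ci_110 j u = true) : Good (fa g) T MG M (cP g H) Lt.ci u := by
  unfold dp_ci_110 at h
  rcases brec_true h with h | h
  · exact lF_good (T := T) (x := Lt.ci) (by decide) [Lt.d, Lt.ci, Lt.di, Lt.f, Lt.c, Lt.di, Lt.di, Lt.fi] (hole_rel hinv hr (by decide +kernel)) h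
  · exact lS_good (T := T) (x := Lt.ci) (by decide) hu [Lt.f, Lt.c, Lt.c, Lt.f, Lt.d, Lt.c, Lt.bi, Lt.ci] (hole_rel hinv hr (by decide +kernel)) h
theorem dp_ci_111_s (hinv : ∀ x, g (inv x) = (g x)⁻¹) (hr : ∀ r ∈ rels, (r.map g).prod = 1) (hH : ∀ r ∈ subs, (r.map g).prod ∈ H)
    (j u : ℕ) (hu : u < M) (h : dp_ci_111 j u = true) : Good (fa g) T MG M (cP g H) Lt.ci u := by
  unfold dp_ci_111 at h
  rcases brec_true h with h | h
  · exact dp_ci_109_s hinv hr hH j u hu h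
  · exact dp_ci_110_s hinv hr hH j u hu h
theorem dp_ci_112_s (hinv : ∀ x, g (inv x) = (g x)⁻¹) (hr : ∀ r ∈ rels, (r.map g).prod = 1) (hH : ∀ r ∈ subs, (r.map g).prod ∈ H)
    (j u : ℕ) (hu : u < M) (h : dp_ci_112 j u = true) : Good (fa g) T MG M (cP g H) Lt.ci u := by
  unfold dp_ci_112 at h
  rcases brec_true h with h | h
  · exact dp_ci_108_s hinv hr hH j u hu h
  · exact dp_ci_111_s hinv hr hH j u hu h
theorem dp_ci_113_s (hinv : ∀ x, g (inv x) = (g x)⁻¹) (hr : ∀ r ∈ rels, (r.map g).prod = 1) (hH : ∀ r ∈ subs, (r.map g).prod ∈ H)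
    (j u : ℕ) (hu : u < M) (h : dp_ci_113 j u = true) : Good (fa g) T MG M (cP g H) Lt.ci u := by
  unfold dp_ci_113 at h
  rcases brec_true h with h | h
  · exact lS_good (T := T) (x := Lt.ci) (by decide) hu [Lt.fi, Lt.di, Lt.b, Lt.f, Lt.di, Lt.b, Lt.ci, Lt.di] (hole_rel hinv hr (by decide +kernel)) h
  · exact lS_good (T := T) (x := Lt.ci) (by decide) hu [Lt.d, Lt.c, Lt.di, Lt.fi, Lt.b, Lt.b, Lt.b, Lt.fi] (hole_rel hinv hr (by decide +kernel)) h
theorem dp_ci_114_s (hinv : ∀ x, g (inv x) = (g x)⁻¹) (hr : ∀ r ∈ rels, (r.map g).prod = 1) (hH : ∀ r ∈ subs, (r.map g).prod ∈ H)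
    (j u : ℕ) (hu : u < M) (h : dp_ci_114 j u = true) : Good (fa g) T MG M (cP g H) Lt.ci u := by
  unfold dp_ci_114 at h
  rcases brec_true h with h | h
  · exact lF_good (T := T) (x := Lt.ci) (by decide) [Lt.di, Lt.f, Lt.c, Lt.bi, Lt.d, Lt.ci, Lt.di, Lt.b] (hole_rel hinv hr (by decide +kernel)) h
  · exact lF_good (T := T) (x := Lt.ci) (by decide) [Lt.d, Lt.fi, Lt.fi, Lt.b, Lt.ci, Lt.fi, Lt.bi, Lt.fi] (hole_rel hinv hr (by decide +kernel)) h
theorem dp_ci_115_s (hinv : ∀ x, g (inv x) = (g x)⁻¹) (hr : ∀ r ∈ rels, (r.map g).prod = 1) (hH : ∀ r ∈ subs, (r.map g).prod ∈ H)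
    (j u : ℕ) (hu : u < M) (h : dp_ci_115 j u = true) : Good (fa g) T MG M (cP g H) Lt.ci u := by
  unfold dp_ci_115 at h
  rcases brec_true h with h | h
  · exact dp_ci_113_s hinv hr hH j u hu h
  · exact dp_ci_114_s hinv hr hH j u hu h
theorem dp_ci_116_s (hinv : ∀ x, g (inv x) = (g x)⁻¹) (hr : ∀ r ∈ rels, (r.map g).prod = 1) (hH : ∀ r ∈ subs, (r.map g).prod ∈ H)
    (j u : ℕ) (hu : u < M) (h : dp_ci_116 j u = true) : Good (fa g) T MG M (cP g H) Lt.ci u := by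
  unfold dp_ci_116 at h
  rcases brec_true h with h | h
  · exact lS_good (T := T) (x := Lt.ci) (by decide) hu [Lt.d, Lt.b, Lt.b, Lt.c, Lt.bi, Lt.bi, Lt.bi, Lt.fi] (hole_rel hinv hr (by decide +kernel)) h
  · exact lS_good (T := T) (x := Lt.ci) (by decide) hu [Lt.bi, Lt.bi, Lt.di, Lt.c, Lt.f, Lt.b, Lt.b, Lt.b] (hole_rel hinv hr (by decide +kernel)) h
theorem dp_ci_117_s (hinv : ∀ x, g (inv x) = (g x)⁻¹) (hr : ∀ r ∈ rels, (r.map g).prod = 1) (hH : ∀ r ∈ subs, (r.map g).prod ∈ H)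
    (j u : ℕ) (hu : u < M) (h : dp_ci_117 j u = true) : Good (fa g) T MG M (cP g H) Lt.ci u := by
  unfold dp_ci_117 at h
  rcases brec_true h with h | h
  · exact lS_good (T := T) (x := Lt.ci) (by decide) hu [Lt.ci, Lt.di, Lt.fi, Lt.ci, Lt.d, Lt.ci, Lt.fi, Lt.fi] (hole_rel hinv hr (by decide +kernel)) h
  · exact lS_good (T := T) (x := Lt.ci) (by decide) hu [Lt.bi, Lt.f, Lt.c, Lt.di, Lt.f, Lt.c, Lt.bi, Lt.ci] (hole_rel hinv hr (by decide +kernel)) h
theorem dp_ci_118_s (hinv : ∀ x, g (inv x) = (g x)⁻¹) (hr : ∀ r ∈ rels, (r.map g).prod = 1) (hH : ∀ r ∈ subs, (r.map g).prod ∈ H)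
    (j u : ℕ) (hu : u < M) (h : dp_ci_118 j u = true) : Good (fa g) T MG M (cP g H) Lt.ci u := by
  unfold dp_ci_118 at h
  rcases brec_true h with h | h
  · exact dp_ci_116_s hinv hr hH j u hu h
  · exact dp_ci_117_s hinv hr hH j u hu h
theorem dp_ci_119_s (hinv : ∀ x, g (inv x) = (g x)⁻¹) (hr : ∀ r ∈ rels, (r.map g).prod = 1) (hH : ∀ r ∈ subs, (r.map g).prod ∈ H)
    (j u : ℕ) (hu : u < M) (h : dp_ci_119 j u = true) : Good (fa g) T MG M (cP g H) Lt.ci u := by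
  unfold dp_ci_119 at h
  rcases brec_true h with h | h
  · exact dp_ci_115_s hinv hr hH j u hu h
  · exact dp_ci_118_s hinv hr hH j u hu h
theorem dp_ci_120_s (hinv : ∀ x, g (inv x) = (g x)⁻¹) (hr : ∀ r ∈ rels, (r.map g).prod = 1) (hH : ∀ r ∈ subs, (r.map g).prod ∈ H)
    (j u : ℕ) (hu : u < M) (h : dp_ci_120 j u = true) : Good (fa g) T MG M (cP g H) Lt.ci u := by
  unfold dp_ci_120 at h
  rcases brec_true h with h | h
  · exact dp_ci_112_s hinv hr hH j u hu h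
  · exact dp_ci_119_s hinv hr hH j u hu h
theorem dp_ci_121_s (hinv : ∀ x, g (inv x) = (g x)⁻¹) (hr : ∀ r ∈ rels, (r.map g).prod = 1) (hH : ∀ r ∈ subs, (r.map g).prod ∈ H)
    (j u : ℕ) (hu : u < M) (h : dp_ci_121 j u = true) : Good (fa g) T MG M (cP g H) Lt.ci u := by
  unfold dp_ci_121 at h
  rcases brec_true h with h | h
  · exact dp_ci_105_s hinv hr hH j u hu h
  · exact dp_ci_120_s hinv hr hH j u hu h
theorem dp_ci_122_s (hinv : ∀ x, g (inv x) = (g x)⁻¹) (hr : ∀ r ∈ rels, (r.map g).prod = 1) (hH : ∀ r ∈ subs, (r.map g).prod ∈ H)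
    (j u : ℕ) (hu : u < M) (h : dp_ci_122 j u = true) : Good (fa g) T MG M (cP g H) Lt.ci u := by
  unfold dp_ci_122 at h
  rcases brec_true h with h | h
  · exact dp_ci_99_s hinv hr hH j u hu h
  · exact dp_ci_121_s hinv hr hH j u hu h
theorem dp_ci_123_s (hinv : ∀ x, g (inv x) = (g x)⁻¹) (hr : ∀ r ∈ rels, (r.map g).prod = 1) (hH : ∀ r ∈ subs, (r.map g).prod ∈ H)
    (j u : ℕ) (hu : u < M) (h : dp_ci_123 j u = true) : Good (fa g) T MG M (cP g H) Lt.ci u := by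
  unfold dp_ci_123 at h
  rcases brec_true h with h | h
  · exact dp_ci_95_s hinv hr hH j u hu h
  · exact dp_ci_122_s hinv hr hH j u hu h
theorem dp_ci_124_s (hinv : ∀ x, g (inv x) = (g x)⁻¹) (hr : ∀ r ∈ rels, (r.map g).prod = 1) (hH : ∀ r ∈ subs, (r.map g).prod ∈ H)
    (j u : ℕ) (hu : u < M) (h : dp_ci_124 j u = true) : Good (fa g) T MG M (cP g H) Lt.ci u := by
  unfold dp_ci_124 at h
  rcases brec_true h with h | h
  · exact dp_ci_88_s hinv hr hH j u hu h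
  · exact dp_ci_123_s hinv hr hH j u hu h
theorem dp_ci_125_s (hinv : ∀ x, g (inv x) = (g x)⁻¹) (hr : ∀ r ∈ rels, (r.map g).prod = 1) (hH : ∀ r ∈ subs, (r.map g).prod ∈ H)
    (j u : ℕ) (hu : u < M) (h : dp_ci_125 j u = true) : Good (fa g) T MG M (cP g H) Lt.ci u := by
  unfold dp_ci_125 at h
  rcases brec_true h with h | h
  · exact dp_ci_77_s hinv hr hH j u hu h
  · exact dp_ci_124_s hinv hr hH j u hu h
theorem dp_ci_126_s (hinv : ∀ x, g (inv x) = (g x)⁻¹) (hr : ∀ r ∈ rels, (r.map g).prod = 1) (hH : ∀ r ∈ subs, (r.map g).prod ∈ H)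
    (j u : ℕ) (hu : u < M) (h : dp_ci_126 j u = true) : Good (fa g) T MG M (cP g H) Lt.ci u := by
  unfold dp_ci_126 at h
  rcases brec_true h with h | h
  · exact dp_ci_59_s hinv hr hH j u hu h
  · exact dp_ci_125_s hinv hr hH j u hu h
theorem dp_ci_127_s (hinv : ∀ x, g (inv x) = (g x)⁻¹) (hr : ∀ r ∈ rels, (r.map g).prod = 1) (hH : ∀ r ∈ subs, (r.map g).prod ∈ H)
    (j u : ℕ) (hu : u < M) (h : dp_ci_127 j u = true) : Good (fa g) T MG M (cP g H) Lt.ci u := by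
  unfold dp_ci_127 at h
  rcases brec_true h with h | h
  · exact dp_ci_31_s hinv hr hH j u hu h
  · exact dp_ci_126_s hinv hr hH j u hu h
theorem snd_ci (hinv : ∀ x, g (inv x) = (g x)⁻¹) (hr : ∀ r ∈ rels, (r.map g).prod = 1) (hH : ∀ r ∈ subs, (r.map g).prod ∈ H)
    (j u : ℕ) (hu : u < M) (h : disp_ci j u = true) : Good (fa g) T MG M (cP g H) Lt.ci u := by
  unfold disp_ci at h
  rcases brec_true h with h | h
  · rcases brec_true h with h | h
    · exact lF1_good (T := T) (x := Lt.ci) (by decide) .c (hole_rel hinv hr (by decide +kernel)) h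
    · exact lPar_good (T := T) (x := Lt.ci) (x' := Lt.c) (by decide) rfl (inv_rel hinv _ _ rfl) h
  · rcases brec_true h with h | h
    · rcases brec_true h with h | h
      · exact lDef_good (T := T) (x := Lt.ci) (by decide) rfl h
      · exact lS_good (T := T) (x := Lt.ci) (by decide) hu [Lt.c] (hole_rel hinv hr (by decide +kernel)) h
    · exact dp_ci_127_s hinv hr hH j u hu h
theorem snc_ci (hinv : ∀ x, g (inv x) = (g x)⁻¹) (hr : ∀ r ∈ rels, (r.map g).prod = 1) (hH : ∀ r ∈ subs, (r.map g).prod ∈ H)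
    (j u : ℕ) (hu : u < M) (h : chk_ci j u = true) : (T Lt.ci u < A ∧ Good (fa g) T MG M (cP g H) Lt.ci u) ∨ (A ≤ T Lt.ci u ∧ MG u < A) := by
  unfold chk_ci at h
  cases hb : Nat.ble A (T_ci u) with
  | true => rw [hb] at h; exact Or.inr ⟨le_of_ble hb, le_of_ble h⟩
  | false => rw [hb] at h; exact Or.inl ⟨lt_of_ble_false hb, snd_ci hinv hr hH j u hu h⟩
theorem dp_f_0_s (hinv : ∀ x, g (inv x) = (g x)⁻¹) (hr : ∀ r ∈ rels, (r.map g).prod = 1) (hH : ∀ r ∈ subs, (r.map g).prod ∈ H)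
    (j u : ℕ) (hu : u < M) (h : dp_f_0 j u = true) : Good (fa g) T MG M (cP g H) Lt.f u := by
  unfold dp_f_0 at h
  rcases brec_true h with h | h
  · exact lS_good (T := T) (x := Lt.f) (by decide) hu [Lt.ei, Lt.fi, Lt.e, Lt.fi, Lt.d, Lt.ci, Lt.fi, Lt.e] (hole_rel hinv hr (by decide +kernel)) h
  · exact lF_good (T := T) (x := Lt.f) (by decide) [Lt.c, Lt.di, Lt.bi, Lt.ci, Lt.b, Lt.d, Lt.f] (hole_rel hinv hr (by decide +kernel)) h
theorem dp_f_1_s (hinv : ∀ x, g (inv x) = (g x)⁻¹) (hr : ∀ r ∈ rels, (r.map g).prod = 1) (hH : ∀ r ∈ subs, (r.map g).prod ∈ H)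
    (j u : ℕ) (hu : u < M) (h : dp_f_1 j u = true) : Good (fa g) T MG M (cP g H) Lt.f u := by
  unfold dp_f_1 at h
  rcases brec_true h with h | h
  · exact lS_good (T := T) (x := Lt.f) (by decide) hu [Lt.e, Lt.fi, Lt.ei, Lt.f, Lt.c, Lt.di, Lt.f, Lt.ei] (hole_rel hinv hr (by decide +kernel)) h
  · exact dp_f_0_s hinv hr hH j u hu h
theorem dp_f_2_s (hinv : ∀ x, g (inv x) = (g x)⁻¹) (hr : ∀ r ∈ rels, (r.map g).prod = 1) (hH : ∀ r ∈ subs, (r.map g).prod ∈ H)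
    (j u : ℕ) (hu : u < M) (h : dp_f_2 j u = true) : Good (fa g) T MG M (cP g H) Lt.f u := by
  unfold dp_f_2 at h
  rcases brec_true h with h | h
  · exact lS_good (T := T) (x := Lt.f) (by decide) hu [Lt.di, Lt.b, Lt.c, Lt.di, Lt.ci, Lt.bi, Lt.d] (hole_rel hinv hr (by decide +kernel)) h
  · exact lF_good (T := T) (x := Lt.f) (by decide) [Lt.e, Lt.fi, Lt.ei, Lt.f, Lt.c, Lt.di, Lt.f, Lt.ei] (hole_rel hinv hr (by decide +kernel)) h
theorem dp_f_3_s (hinv : ∀ x, g (inv x) = (g x)⁻¹) (hr : ∀ r ∈ rels, (r.map g).prod = 1) (hH : ∀ r ∈ subs, (r.map g).prod ∈ H)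
    (j u : ℕ) (hu : u < M) (h : dp_f_3 j u = true) : Good (fa g) T MG M (cP g H) Lt.f u := by
  unfold dp_f_3 at h
  rcases brec_true h with h | h
  · exact lF_good (T := T) (x := Lt.f) (by decide) [Lt.di, Lt.b, Lt.c, Lt.di, Lt.ci, Lt.bi, Lt.d] (hole_rel hinv hr (by decide +kernel)) h
  · exact dp_f_2_s hinv hr hH j u hu h
theorem dp_f_4_s (hinv : ∀ x, g (inv x) = (g x)⁻¹) (hr : ∀ r ∈ rels, (r.map g).prod = 1) (hH : ∀ r ∈ subs, (r.map g).prod ∈ H)
    (j u : ℕ) (hu : u < M) (h : dp_f_4 j u = true) : Good (fa g) T MG M (cP g H) Lt.f u := by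
  unfold dp_f_4 at h
  rcases brec_true h with h | h
  · exact dp_f_1_s hinv hr hH j u hu h
  · exact dp_f_3_s hinv hr hH j u hu h
theorem dp_f_5_s (hinv : ∀ x, g (inv x) = (g x)⁻¹) (hr : ∀ r ∈ rels, (r.map g).prod = 1) (hH : ∀ r ∈ subs, (r.map g).prod ∈ H)
    (j u : ℕ) (hu : u < M) (h : dp_f_5 j u = true) : Good (fa g) T MG M (cP g H) Lt.f u := by
  unfold dp_f_5 at h
  rcases brec_true h with h | h
  · exact lF_good (T := T) (x := Lt.f) (by decide) [Lt.ei, Lt.fi, Lt.e, Lt.fi, Lt.d, Lt.ci, Lt.fi, Lt.e] (hole_rel hinv hr (by decide +kernel)) h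
  · exact lS_good (T := T) (x := Lt.f) (by decide) hu [Lt.f, Lt.c, Lt.di, Lt.bi, Lt.ci, Lt.b, Lt.d] (hole_rel hinv hr (by decide +kernel)) h
theorem dp_f_6_s (hinv : ∀ x, g (inv x) = (g x)⁻¹) (hr : ∀ r ∈ rels, (r.map g).prod = 1) (hH : ∀ r ∈ subs, (r.map g).prod ∈ H)
    (j u : ℕ) (hu : u < M) (h : dp_f_6 j u = true) : Good (fa g) T MG M (cP g H) Lt.f u := by
  unfold dp_f_6 at h
  rcases brec_true h with h | h
  · exact lS_good (T := T) (x := Lt.f) (by decide) hu [Lt.b, Lt.ci, Lt.fi, Lt.b, Lt.di, Lt.di, Lt.ci] (hole_rel hinv hr (by decide +kernel)) h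
  · exact dp_f_5_s hinv hr hH j u hu h
theorem dp_f_7_s (hinv : ∀ x, g (inv x) = (g x)⁻¹) (hr : ∀ r ∈ rels, (r.map g).prod = 1) (hH : ∀ r ∈ subs, (r.map g).prod ∈ H)
    (j u : ℕ) (hu : u < M) (h : dp_f_7 j u = true) : Good (fa g) T MG M (cP g H) Lt.f u := by
  unfold dp_f_7 at h
  rcases brec_true h with h | h
  · exact lF_good (T := T) (x := Lt.f) (by decide) [Lt.ci, Lt.f, Lt.di, Lt.b, Lt.ci, Lt.d, Lt.b] (hole_rel hinv hr (by decide +kernel)) h
  · exact lF_good (T := T) (x := Lt.f) (by decide) [Lt.c, Lt.b, Lt.c, Lt.d, Lt.f, Lt.b, Lt.di] (hole_rel hinv hr (by decide +kernel)) h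
theorem dp_f_8_s (hinv : ∀ x, g (inv x) = (g x)⁻¹) (hr : ∀ r ∈ rels, (r.map g).prod = 1) (hH : ∀ r ∈ subs, (r.map g).prod ∈ H)
    (j u : ℕ) (hu : u < M) (h : dp_f_8 j u = true) : Good (fa g) T MG M (cP g H) Lt.f u := by
  unfold dp_f_8 at h
  rcases brec_true h with h | h
  · exact lF_good (T := T) (x := Lt.f) (by decide) [Lt.f, Lt.c, Lt.di, Lt.bi, Lt.ci, Lt.b, Lt.d] (hole_rel hinv hr (by decide +kernel)) h
  · exact lS_good (T := T) (x := Lt.f) (by decide) hu [Lt.bi, Lt.di, Lt.di, Lt.fi, Lt.bi, Lt.ci, Lt.di] (hole_rel hinv hr (by decide +kernel)) h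
theorem dp_f_9_s (hinv : ∀ x, g (inv x) = (g x)⁻¹) (hr : ∀ r ∈ rels, (r.map g).prod = 1) (hH : ∀ r ∈ subs, (r.map g).prod ∈ H)
    (j u : ℕ) (hu : u < M) (h : dp_f_9 j u = true) : Good (fa g) T MG M (cP g H) Lt.f u := by
  unfold dp_f_9 at h
  rcases brec_true h with h | h
  · exact dp_f_7_s hinv hr hH j u hu h
  · exact dp_f_8_s hinv hr hH j u hu h
theorem dp_f_10_s (hinv : ∀ x, g (inv x) = (g x)⁻¹) (hr : ∀ r ∈ rels, (r.map g).prod = 1) (hH : ∀ r ∈ subs, (r.map g).prod ∈ H)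
    (j u : ℕ) (hu : u < M) (h : dp_f_10 j u = true) : Good (fa g) T MG M (cP g H) Lt.f u := by
  unfold dp_f_10 at h
  rcases brec_true h with h | h
  · exact dp_f_6_s hinv hr hH j u hu h
  · exact dp_f_9_s hinv hr hH j u hu h
theorem dp_f_11_s (hinv : ∀ x, g (inv x) = (g x)⁻¹) (hr : ∀ r ∈ rels, (r.map g).prod = 1) (hH : ∀ r ∈ subs, (r.map g).prod ∈ H)
    (j u : ℕ) (hu : u < M) (h : dp_f_11 j u = true) : Good (fa g) T MG M (cP g H) Lt.f u := by
  unfold dp_f_11 at h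
  rcases brec_true h with h | h
  · exact dp_f_4_s hinv hr hH j u hu h
  · exact dp_f_10_s hinv hr hH j u hu h
theorem dp_f_12_s (hinv : ∀ x, g (inv x) = (g x)⁻¹) (hr : ∀ r ∈ rels, (r.map g).prod = 1) (hH : ∀ r ∈ subs, (r.map g).prod ∈ H)
    (j u : ℕ) (hu : u < M) (h : dp_f_12 j u = true) : Good (fa g) T MG M (cP g H) Lt.f u := by
  unfold dp_f_12 at h
  rcases brec_true h with h | h
  · exact lS_good (T := T) (x := Lt.f) (by decide) hu [Lt.c, Lt.bi, Lt.fi, Lt.c, Lt.d, Lt.d, Lt.bi] (hole_rel hinv hr (by decide +kernel)) h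
  · exact lS_good (T := T) (x := Lt.f) (by decide) hu [Lt.c, Lt.di, Lt.bi, Lt.ci, Lt.b, Lt.d, Lt.f] (hole_rel hinv hr (by decide +kernel)) h
theorem dp_f_13_s (hinv : ∀ x, g (inv x) = (g x)⁻¹) (hr : ∀ r ∈ rels, (r.map g).prod = 1) (hH : ∀ r ∈ subs, (r.map g).prod ∈ H)
    (j u : ℕ) (hu : u < M) (h : dp_f_13 j u = true) : Good (fa g) T MG M (cP g H) Lt.f u := by
  unfold dp_f_13 at h
  rcases brec_true h with h | h
  · exact lF_good (T := T) (x := Lt.f) (by decide) [Lt.f, Lt.di, Lt.fi, Lt.di, Lt.di, Lt.f, Lt.di] (hole_rel hinv hr (by decide +kernel)) h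
  · exact lS_good (T := T) (x := Lt.f) (by decide) hu [Lt.b, Lt.c, Lt.b, Lt.ci, Lt.bi, Lt.di, Lt.di] (hole_rel hinv hr (by decide +kernel)) h
theorem dp_f_14_s (hinv : ∀ x, g (inv x) = (g x)⁻¹) (hr : ∀ r ∈ rels, (r.map g).prod = 1) (hH : ∀ r ∈ subs, (r.map g).prod ∈ H)
    (j u : ℕ) (hu : u < M) (h : dp_f_14 j u = true) : Good (fa g) T MG M (cP g H) Lt.f u := by
  unfold dp_f_14 at h
  rcases brec_true h with h | h
  · exact dp_f_12_s hinv hr hH j u hu h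
  · exact dp_f_13_s hinv hr hH j u hu h
theorem dp_f_15_s (hinv : ∀ x, g (inv x) = (g x)⁻¹) (hr : ∀ r ∈ rels, (r.map g).prod = 1) (hH : ∀ r ∈ subs, (r.map g).prod ∈ H)
    (j u : ℕ) (hu : u < M) (h : dp_f_15 j u = true) : Good (fa g) T MG M (cP g H) Lt.f u := by
  unfold dp_f_15 at h
  rcases brec_true h with h | h
  · exact lS_good (T := T) (x := Lt.f) (by decide) hu [Lt.ci, Lt.f, Lt.di, Lt.b, Lt.ci, Lt.d, Lt.b] (hole_rel hinv hr (by decide +kernel)) h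
  · exact lF_good (T := T) (x := Lt.f) (by decide) [Lt.d, Lt.f, Lt.b, Lt.c, Lt.bi, Lt.ci, Lt.bi] (hole_rel hinv hr (by decide +kernel)) h
theorem dp_f_16_s (hinv : ∀ x, g (inv x) = (g x)⁻¹) (hr : ∀ r ∈ rels, (r.map g).prod = 1) (hH : ∀ r ∈ subs, (r.map g).prod ∈ H)
    (j u : ℕ) (hu : u < M) (h : dp_f_16 j u = true) : Good (fa g) T MG M (cP g H) Lt.f u := by
  unfold dp_f_16 at h
  rcases brec_true h with h | h
  · exact lF_good (T := T) (x := Lt.f) (by decide) [Lt.c, Lt.di, Lt.b, Lt.f, Lt.c, Lt.di, Lt.b] (hole_rel hinv hr (by decide +kernel)) h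
  · exact lS_good (T := T) (x := Lt.f) (by decide) hu [Lt.bi, Lt.c, Lt.fi, Lt.di, Lt.ci, Lt.b, Lt.di] (hole_rel hinv hr (by decide +kernel)) h
theorem dp_f_17_s (hinv : ∀ x, g (inv x) = (g x)⁻¹) (hr : ∀ r ∈ rels, (r.map g).prod = 1) (hH : ∀ r ∈ subs, (r.map g).prod ∈ H)
    (j u : ℕ) (hu : u < M) (h : dp_f_17 j u = true) : Good (fa g) T MG M (cP g H) Lt.f u := by
  unfold dp_f_17 at h
  rcases brec_true h with h | h
  · exact dp_f_15_s hinv hr hH j u hu h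
  · exact dp_f_16_s hinv hr hH j u hu h
theorem dp_f_18_s (hinv : ∀ x, g (inv x) = (g x)⁻¹) (hr : ∀ r ∈ rels, (r.map g).prod = 1) (hH : ∀ r ∈ subs, (r.map g).prod ∈ H)
    (j u : ℕ) (hu : u < M) (h : dp_f_18 j u = true) : Good (fa g) T MG M (cP g H) Lt.f u := by
  unfold dp_f_18 at h
  rcases brec_true h with h | h
  · exact dp_f_14_s hinv hr hH j u hu h
  · exact dp_f_17_s hinv hr hH j u hu h
theorem dp_f_19_s (hinv : ∀ x, g (inv x) = (g x)⁻¹) (hr : ∀ r ∈ rels, (r.map g).prod = 1) (hH : ∀ r ∈ subs, (r.map g).prod ∈ H)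
    (j u : ℕ) (hu : u < M) (h : dp_f_19 j u = true) : Good (fa g) T MG M (cP g H) Lt.f u := by
  unfold dp_f_19 at h
  rcases brec_true h with h | h
  · exact lF_good (T := T) (x := Lt.f) (by decide) [Lt.bi, Lt.c, Lt.fi, Lt.di, Lt.ci, Lt.b, Lt.di] (hole_rel hinv hr (by decide +kernel)) h
  · exact lS_good (T := T) (x := Lt.f) (by decide) hu [Lt.b, Lt.fi, Lt.c, Lt.c, Lt.fi, Lt.bi, Lt.c] (hole_rel hinv hr (by decide +kernel)) h
theorem dp_f_20_s (hinv : ∀ x, g (inv x) = (g x)⁻¹) (hr : ∀ r ∈ rels, (r.map g).prod = 1) (hH : ∀ r ∈ subs, (r.map g).prod ∈ H)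
    (j u : ℕ) (hu : u < M) (h : dp_f_20 j u = true) : Good (fa g) T MG M (cP g H) Lt.f u := by
  unfold dp_f_20 at h
  rcases brec_true h with h | h
  · exact lS_good (T := T) (x := Lt.f) (by decide) hu [Lt.ci, Lt.b, Lt.fi, Lt.d, Lt.bi, Lt.c, Lt.d] (hole_rel hinv hr (by decide +kernel)) h
  · exact lF_good (T := T) (x := Lt.f) (by decide) [Lt.b, Lt.c, Lt.b, Lt.ci, Lt.bi, Lt.di, Lt.di] (hole_rel hinv hr (by decide +kernel)) h
theorem dp_f_21_s (hinv : ∀ x, g (inv x) = (g x)⁻¹) (hr : ∀ r ∈ rels, (r.map g).prod = 1) (hH : ∀ r ∈ subs, (r.map g).prod ∈ H)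
    (j u : ℕ) (hu : u < M) (h : dp_f_21 j u = true) : Good (fa g) T MG M (cP g H) Lt.f u := by
  unfold dp_f_21 at h
  rcases brec_true h with h | h
  · exact dp_f_19_s hinv hr hH j u hu h
  · exact dp_f_20_s hinv hr hH j u hu h
theorem dp_f_22_s (hinv : ∀ x, g (inv x) = (g x)⁻¹) (hr : ∀ r ∈ rels, (r.map g).prod = 1) (hH : ∀ r ∈ subs, (r.map g).prod ∈ H)
    (j u : ℕ) (hu : u < M) (h : dp_f_22 j u = true) : Good (fa g) T MG M (cP g H) Lt.f u := by
  unfold dp_f_22 at h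
  rcases brec_true h with h | h
  · exact lS_good (T := T) (x := Lt.f) (by decide) hu [Lt.d, Lt.f, Lt.b, Lt.c, Lt.bi, Lt.ci, Lt.bi] (hole_rel hinv hr (by decide +kernel)) h
  · exact lF_good (T := T) (x := Lt.f) (by decide) [Lt.bi, Lt.di, Lt.di, Lt.fi, Lt.bi, Lt.ci, Lt.di] (hole_rel hinv hr (by decide +kernel)) h
theorem dp_f_23_s (hinv : ∀ x, g (inv x) = (g x)⁻¹) (hr : ∀ r ∈ rels, (r.map g).prod = 1) (hH : ∀ r ∈ subs, (r.map g).prod ∈ H)
    (j u : ℕ) (hu : u < M) (h : dp_f_23 j u = true) : Good (fa g) T MG M (cP g H) Lt.f u := by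
  unfold dp_f_23 at h
  rcases brec_true h with h | h
  · exact lF_good (T := T) (x := Lt.f) (by decide) [Lt.c, Lt.bi, Lt.fi, Lt.c, Lt.d, Lt.d, Lt.bi] (hole_rel hinv hr (by decide +kernel)) h
  · exact lS_good (T := T) (x := Lt.f) (by decide) hu [Lt.e, Lt.c, Lt.di, Lt.f, Lt.f, Lt.e, Lt.fi, Lt.ei] (hole_rel hinv hr (by decide +kernel)) h
theorem dp_f_24_s (hinv : ∀ x, g (inv x) = (g x)⁻¹) (hr : ∀ r ∈ rels, (r.map g).prod = 1) (hH : ∀ r ∈ subs, (r.map g).prod ∈ H)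
    (j u : ℕ) (hu : u < M) (h : dp_f_24 j u = true) : Good (fa g) T MG M (cP g H) Lt.f u := by
  unfold dp_f_24 at h
  rcases brec_true h with h | h
  · exact lS_good (T := T) (x := Lt.f) (by decide) hu [Lt.c, Lt.bi, Lt.bi, Lt.ci, Lt.di, Lt.b, Lt.f] (hole_rel hinv hr (by decide +kernel)) h
  · exact dp_f_23_s hinv hr hH j u hu h
theorem dp_f_25_s (hinv : ∀ x, g (inv x) = (g x)⁻¹) (hr : ∀ r ∈ rels, (r.map g).prod = 1) (hH : ∀ r ∈ subs, (r.map g).prod ∈ H)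
    (j u : ℕ) (hu : u < M) (h : dp_f_25 j u = true) : Good (fa g) T MG M (cP g H) Lt.f u := by
  unfold dp_f_25 at h
  rcases brec_true h with h | h
  · exact dp_f_22_s hinv hr hH j u hu h
  · exact dp_f_24_s hinv hr hH j u hu h
theorem dp_f_26_s (hinv : ∀ x, g (inv x) = (g x)⁻¹) (hr : ∀ r ∈ rels, (r.map g).prod = 1) (hH : ∀ r ∈ subs, (r.map g).prod ∈ H)
    (j u : ℕ) (hu : u < M) (h : dp_f_26 j u = true) : Good (fa g) T MG M (cP g H) Lt.f u := by
  unfold dp_f_26 at h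
  rcases brec_true h with h | h
  · exact dp_f_21_s hinv hr hH j u hu h
  · exact dp_f_25_s hinv hr hH j u hu h
theorem dp_f_27_s (hinv : ∀ x, g (inv x) = (g x)⁻¹) (hr : ∀ r ∈ rels, (r.map g).prod = 1) (hH : ∀ r ∈ subs, (r.map g).prod ∈ H)
    (j u : ℕ) (hu : u < M) (h : dp_f_27 j u = true) : Good (fa g) T MG M (cP g H) Lt.f u := by
  unfold dp_f_27 at h
  rcases brec_true h with h | h
  · exact dp_f_18_s hinv hr hH j u hu h
  · exact dp_f_26_s hinv hr hH j u hu h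
theorem dp_f_28_s (hinv : ∀ x, g (inv x) = (g x)⁻¹) (hr : ∀ r ∈ rels, (r.map g).prod = 1) (hH : ∀ r ∈ subs, (r.map g).prod ∈ H)
    (j u : ℕ) (hu : u < M) (h : dp_f_28 j u = true) : Good (fa g) T MG M (cP g H) Lt.f u := by
  unfold dp_f_28 at h
  rcases brec_true h with h | h
  · exact dp_f_11_s hinv hr hH j u hu h
  · exact dp_f_27_s hinv hr hH j u hu h
theorem dp_f_29_s (hinv : ∀ x, g (inv x) = (g x)⁻¹) (hr : ∀ r ∈ rels, (r.map g).prod = 1) (hH : ∀ r ∈ subs, (r.map g).prod ∈ H)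
    (j u : ℕ) (hu : u < M) (h : dp_f_29 j u = true) : Good (fa g) T MG M (cP g H) Lt.f u := by
  unfold dp_f_29 at h
  rcases brec_true h with h | h
  · exact lS_good (T := T) (x := Lt.f) (by decide) hu [Lt.bi, Lt.fi, Lt.ci, Lt.b, Lt.f, Lt.ci, Lt.ci] (hole_rel hinv hr (by decide +kernel)) h
  · exact lS_good (T := T) (x := Lt.f) (by decide) hu [Lt.b, Lt.di, Lt.f, Lt.c, Lt.b, Lt.c, Lt.d] (hole_rel hinv hr (by decide +kernel)) h
theorem dp_f_30_s (hinv : ∀ x, g (inv x) = (g x)⁻¹) (hr : ∀ r ∈ rels, (r.map g).prod = 1) (hH : ∀ r ∈ subs, (r.map g).prod ∈ H)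
    (j u : ℕ) (hu : u < M) (h : dp_f_30 j u = true) : Good (fa g) T MG M (cP g H) Lt.f u := by
  unfold dp_f_30 at h
  rcases brec_true h with h | h
  · exact lF_good (T := T) (x := Lt.f) (by decide) [Lt.ci, Lt.b, Lt.fi, Lt.d, Lt.bi, Lt.c, Lt.d] (hole_rel hinv hr (by decide +kernel)) h
  · exact lF_good (T := T) (x := Lt.f) (by decide) [Lt.bi, Lt.fi, Lt.ci, Lt.b, Lt.f, Lt.ci, Lt.ci] (hole_rel hinv hr (by decide +kernel)) h
theorem dp_f_31_s (hinv : ∀ x, g (inv x) = (g x)⁻¹) (hr : ∀ r ∈ rels, (r.map g).prod = 1) (hH : ∀ r ∈ subs, (r.map g).prod ∈ H)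
    (j u : ℕ) (hu : u < M) (h : dp_f_31 j u = true) : Good (fa g) T MG M (cP g H) Lt.f u := by
  unfold dp_f_31 at h
  rcases brec_true h with h | h
  · exact lF_good (T := T) (x := Lt.f) (by decide) [Lt.d, Lt.b, Lt.c, Lt.d, Lt.b, Lt.ci, Lt.bi] (hole_rel hinv hr (by decide +kernel)) h
  · exact dp_f_30_s hinv hr hH j u hu h
theorem dp_f_32_s (hinv : ∀ x, g (inv x) = (g x)⁻¹) (hr : ∀ r ∈ rels, (r.map g).prod = 1) (hH : ∀ r ∈ subs, (r.map g).prod ∈ H)
    (j u : ℕ) (hu : u < M) (h : dp_f_32 j u = true) : Good (fa g) T MG M (cP g H) Lt.f u := by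
  unfold dp_f_32 at h
  rcases brec_true h with h | h
  · exact dp_f_29_s hinv hr hH j u hu h
  · exact dp_f_31_s hinv hr hH j u hu h
theorem dp_f_33_s (hinv : ∀ x, g (inv x) = (g x)⁻¹) (hr : ∀ r ∈ rels, (r.map g).prod = 1) (hH : ∀ r ∈ subs, (r.map g).prod ∈ H)
    (j u : ℕ) (hu : u < M) (h : dp_f_33 j u = true) : Good (fa g) T MG M (cP g H) Lt.f u := by
  unfold dp_f_33 at h
  rcases brec_true h with h | h
  · exact lF_good (T := T) (x := Lt.f) (by decide) [Lt.d, Lt.d, Lt.ci, Lt.f, Lt.d, Lt.d, Lt.ci] (hole_rel hinv hr (by decide +kernel)) h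
  · exact lS_good (T := T) (x := Lt.f) (by decide) hu [Lt.di, Lt.b, Lt.ci, Lt.d, Lt.b, Lt.f, Lt.ci] (hole_rel hinv hr (by decide +kernel)) h
theorem dp_f_34_s (hinv : ∀ x, g (inv x) = (g x)⁻¹) (hr : ∀ r ∈ rels, (r.map g).prod = 1) (hH : ∀ r ∈ subs, (r.map g).prod ∈ H)
    (j u : ℕ) (hu : u < M) (h : dp_f_34 j u = true) : Good (fa g) T MG M (cP g H) Lt.f u := by
  unfold dp_f_34 at h
  rcases brec_true h with h | h
  · exact lF_good (T := T) (x := Lt.f) (by decide) [Lt.ci, Lt.d, Lt.b, Lt.ci, Lt.di, Lt.ci, Lt.bi] (hole_rel hinv hr (by decide +kernel)) h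
  · exact lF_good (T := T) (x := Lt.f) (by decide) [Lt.f, Lt.c, Lt.bi, Lt.bi, Lt.ci, Lt.di, Lt.b] (hole_rel hinv hr (by decide +kernel)) h
theorem dp_f_35_s (hinv : ∀ x, g (inv x) = (g x)⁻¹) (hr : ∀ r ∈ rels, (r.map g).prod = 1) (hH : ∀ r ∈ subs, (r.map g).prod ∈ H)
    (j u : ℕ) (hu : u < M) (h : dp_f_35 j u = true) : Good (fa g) T MG M (cP g H) Lt.f u := by
  unfold dp_f_35 at h
  rcases brec_true h with h | h
  · exact lF_good (T := T) (x := Lt.f) (by decide) [Lt.b, Lt.f, Lt.di, Lt.c, Lt.fi, Lt.bi, Lt.bi] (hole_rel hinv hr (by decide +kernel)) h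
  · exact dp_f_34_s hinv hr hH j u hu h
theorem dp_f_36_s (hinv : ∀ x, g (inv x) = (g x)⁻¹) (hr : ∀ r ∈ rels, (r.map g).prod = 1) (hH : ∀ r ∈ subs, (r.map g).prod ∈ H)
    (j u : ℕ) (hu : u < M) (h : dp_f_36 j u = true) : Good (fa g) T MG M (cP g H) Lt.f u := by
  unfold dp_f_36 at h
  rcases brec_true h with h | h
  · exact dp_f_33_s hinv hr hH j u hu h
  · exact dp_f_35_s hinv hr hH j u hu h
theorem dp_f_37_s (hinv : ∀ x, g (inv x) = (g x)⁻¹) (hr : ∀ r ∈ rels, (r.map g).prod = 1) (hH : ∀ r ∈ subs, (r.map g).prod ∈ H)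
    (j u : ℕ) (hu : u < M) (h : dp_f_37 j u = true) : Good (fa g) T MG M (cP g H) Lt.f u := by
  unfold dp_f_37 at h
  rcases brec_true h with h | h
  · exact dp_f_32_s hinv hr hH j u hu h
  · exact dp_f_36_s hinv hr hH j u hu h
theorem dp_f_38_s (hinv : ∀ x, g (inv x) = (g x)⁻¹) (hr : ∀ r ∈ rels, (r.map g).prod = 1) (hH : ∀ r ∈ subs, (r.map g).prod ∈ H)
    (j u : ℕ) (hu : u < M) (h : dp_f_38 j u = true) : Good (fa g) T MG M (cP g H) Lt.f u := by
  unfold dp_f_38 at h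
  rcases brec_true h with h | h
  · exact lF_good (T := T) (x := Lt.f) (by decide) [Lt.b, Lt.di, Lt.f, Lt.c, Lt.b, Lt.c, Lt.d] (hole_rel hinv hr (by decide +kernel)) h
  · exact lS_good (T := T) (x := Lt.f) (by decide) hu [Lt.d, Lt.d, Lt.ci, Lt.f, Lt.d, Lt.d, Lt.ci] (hole_rel hinv hr (by decide +kernel)) h
theorem dp_f_39_s (hinv : ∀ x, g (inv x) = (g x)⁻¹) (hr : ∀ r ∈ rels, (r.map g).prod = 1) (hH : ∀ r ∈ subs, (r.map g).prod ∈ H)
    (j u : ℕ) (hu : u < M) (h : dp_f_39 j u = true) : Good (fa g) T MG M (cP g H) Lt.f u := by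
  unfold dp_f_39 at h
  rcases brec_true h with h | h
  · exact lF_good (T := T) (x := Lt.f) (by decide) [Lt.d, Lt.fi, Lt.fi, Lt.d, Lt.fi, Lt.d, Lt.d] (hole_rel hinv hr (by decide +kernel)) h
  · exact lS_good (T := T) (x := Lt.f) (by decide) hu [Lt.di, Lt.ci, Lt.ci, Lt.bi, Lt.ci, Lt.b, Lt.di] (hole_rel hinv hr (by decide +kernel)) h
theorem dp_f_40_s (hinv : ∀ x, g (inv x) = (g x)⁻¹) (hr : ∀ r ∈ rels, (r.map g).prod = 1) (hH : ∀ r ∈ subs, (r.map g).prod ∈ H)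
    (j u : ℕ) (hu : u < M) (h : dp_f_40 j u = true) : Good (fa g) T MG M (cP g H) Lt.f u := by
  unfold dp_f_40 at h
  rcases brec_true h with h | h
  · exact lS_good (T := T) (x := Lt.f) (by decide) hu [Lt.di, Lt.fi, Lt.di, Lt.di, Lt.f, Lt.di, Lt.f] (hole_rel hinv hr (by decide +kernel)) h
  · exact dp_f_39_s hinv hr hH j u hu h
theorem dp_f_41_s (hinv : ∀ x, g (inv x) = (g x)⁻¹) (hr : ∀ r ∈ rels, (r.map g).prod = 1) (hH : ∀ r ∈ subs, (r.map g).prod ∈ H)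
    (j u : ℕ) (hu : u < M) (h : dp_f_41 j u = true) : Good (fa g) T MG M (cP g H) Lt.f u := by
  unfold dp_f_41 at h
  rcases brec_true h with h | h
  · exact dp_f_38_s hinv hr hH j u hu h
  · exact dp_f_40_s hinv hr hH j u hu h
theorem dp_f_42_s (hinv : ∀ x, g (inv x) = (g x)⁻¹) (hr : ∀ r ∈ rels, (r.map g).prod = 1) (hH : ∀ r ∈ subs, (r.map g).prod ∈ H)
    (j u : ℕ) (hu : u < M) (h : dp_f_42 j u = true) : Good (fa g) T MG M (cP g H) Lt.f u := by
  unfold dp_f_42 at h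
  rcases brec_true h with h | h
  · exact lS_good (T := T) (x := Lt.f) (by decide) hu [Lt.f, Lt.c, Lt.bi, Lt.bi, Lt.ci, Lt.di, Lt.b] (hole_rel hinv hr (by decide +kernel)) h
  · exact lS_good (T := T) (x := Lt.f) (by decide) hu [Lt.b, Lt.f, Lt.di, Lt.c, Lt.fi, Lt.bi, Lt.bi] (hole_rel hinv hr (by decide +kernel)) h
theorem dp_f_43_s (hinv : ∀ x, g (inv x) = (g x)⁻¹) (hr : ∀ r ∈ rels, (r.map g).prod = 1) (hH : ∀ r ∈ subs, (r.map g).prod ∈ H)
    (j u : ℕ) (hu : u < M) (h : dp_f_43 j u = true) : Good (fa g) T MG M (cP g H) Lt.f u := by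
  unfold dp_f_43 at h
  rcases brec_true h with h | h
  · exact lF_good (T := T) (x := Lt.f) (by decide) [Lt.b, Lt.fi, Lt.c, Lt.c, Lt.fi, Lt.bi, Lt.c] (hole_rel hinv hr (by decide +kernel)) h
  · exact dp_f_42_s hinv hr hH j u hu h
theorem dp_f_44_s (hinv : ∀ x, g (inv x) = (g x)⁻¹) (hr : ∀ r ∈ rels, (r.map g).prod = 1) (hH : ∀ r ∈ subs, (r.map g).prod ∈ H)
    (j u : ℕ) (hu : u < M) (h : dp_f_44 j u = true) : Good (fa g) T MG M (cP g H) Lt.f u := by
  unfold dp_f_44 at h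
  rcases brec_true h with h | h
  · exact lF_good (T := T) (x := Lt.f) (by decide) [Lt.c, Lt.bi, Lt.bi, Lt.ci, Lt.di, Lt.b, Lt.f] (hole_rel hinv hr (by decide +kernel)) h
  · exact lF_good (T := T) (x := Lt.f) (by decide) [Lt.ei, Lt.fi, Lt.fi, Lt.d, Lt.ci, Lt.ei, Lt.fi, Lt.e] (hole_rel hinv hr (by decide +kernel)) h
theorem dp_f_45_s (hinv : ∀ x, g (inv x) = (g x)⁻¹) (hr : ∀ r ∈ rels, (r.map g).prod = 1) (hH : ∀ r ∈ subs, (r.map g).prod ∈ H)
    (j u : ℕ) (hu : u < M) (h : dp_f_45 j u = true) : Good (fa g) T MG M (cP g H) Lt.f u := by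
  unfold dp_f_45 at h
  rcases brec_true h with h | h
  · exact lF_good (T := T) (x := Lt.f) (by decide) [Lt.b, Lt.c, Lt.bi, Lt.ci, Lt.bi, Lt.f, Lt.d] (hole_rel hinv hr (by decide +kernel)) h
  · exact dp_f_44_s hinv hr hH j u hu h
theorem dp_f_46_s (hinv : ∀ x, g (inv x) = (g x)⁻¹) (hr : ∀ r ∈ rels, (r.map g).prod = 1) (hH : ∀ r ∈ subs, (r.map g).prod ∈ H)
    (j u : ℕ) (hu : u < M) (h : dp_f_46 j u = true) : Good (fa g) T MG M (cP g H) Lt.f u := by
  unfold dp_f_46 at h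
  rcases brec_true h with h | h
  · exact dp_f_43_s hinv hr hH j u hu h
  · exact dp_f_45_s hinv hr hH j u hu h
theorem dp_f_47_s (hinv : ∀ x, g (inv x) = (g x)⁻¹) (hr : ∀ r ∈ rels, (r.map g).prod = 1) (hH : ∀ r ∈ subs, (r.map g).prod ∈ H)
    (j u : ℕ) (hu : u < M) (h : dp_f_47 j u = true) : Good (fa g) T MG M (cP g H) Lt.f u := by
  unfold dp_f_47 at h
  rcases brec_true h with h | h
  · exact dp_f_41_s hinv hr hH j u hu h
  · exact dp_f_46_s hinv hr hH j u hu h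
theorem dp_f_48_s (hinv : ∀ x, g (inv x) = (g x)⁻¹) (hr : ∀ r ∈ rels, (r.map g).prod = 1) (hH : ∀ r ∈ subs, (r.map g).prod ∈ H)
    (j u : ℕ) (hu : u < M) (h : dp_f_48 j u = true) : Good (fa g) T MG M (cP g H) Lt.f u := by
  unfold dp_f_48 at h
  rcases brec_true h with h | h
  · exact dp_f_37_s hinv hr hH j u hu h
  · exact dp_f_47_s hinv hr hH j u hu h
theorem dp_f_49_s (hinv : ∀ x, g (inv x) = (g x)⁻¹) (hr : ∀ r ∈ rels, (r.map g).prod = 1) (hH : ∀ r ∈ subs, (r.map g).prod ∈ H)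
    (j u : ℕ) (hu : u < M) (h : dp_f_49 j u = true) : Good (fa g) T MG M (cP g H) Lt.f u := by
  unfold dp_f_49 at h
  rcases brec_true h with h | h
  · exact lS_good (T := T) (x := Lt.f) (by decide) hu [Lt.f, Lt.di, Lt.fi, Lt.di, Lt.di, Lt.f, Lt.di] (hole_rel hinv hr (by decide +kernel)) h
  · exact lF_good (T := T) (x := Lt.f) (by decide) [Lt.di, Lt.fi, Lt.di, Lt.di, Lt.f, Lt.di, Lt.f] (hole_rel hinv hr (by decide +kernel)) h
theorem dp_f_50_s (hinv : ∀ x, g (inv x) = (g x)⁻¹) (hr : ∀ r ∈ rels, (r.map g).prod = 1) (hH : ∀ r ∈ subs, (r.map g).prod ∈ H)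
    (j u : ℕ) (hu : u < M) (h : dp_f_50 j u = true) : Good (fa g) T MG M (cP g H) Lt.f u := by
  unfold dp_f_50 at h
  rcases brec_true h with h | h
  · exact lS_good (T := T) (x := Lt.f) (by decide) hu [Lt.d, Lt.fi, Lt.fi, Lt.d, Lt.fi, Lt.d, Lt.d] (hole_rel hinv hr (by decide +kernel)) h
  · exact dp_f_49_s hinv hr hH j u hu h
theorem dp_f_51_s (hinv : ∀ x, g (inv x) = (g x)⁻¹) (hr : ∀ r ∈ rels, (r.map g).prod = 1) (hH : ∀ r ∈ subs, (r.map g).prod ∈ H)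
    (j u : ℕ) (hu : u < M) (h : dp_f_51 j u = true) : Good (fa g) T MG M (cP g H) Lt.f u := by
  unfold dp_f_51 at h
  rcases brec_true h with h | h
  · exact lS_good (T := T) (x := Lt.f) (by decide) hu [Lt.b, Lt.c, Lt.bi, Lt.ci, Lt.bi, Lt.f, Lt.d] (hole_rel hinv hr (by decide +kernel)) h
  · exact lS_good (T := T) (x := Lt.f) (by decide) hu [Lt.ci, Lt.d, Lt.fi, Lt.bi, Lt.fi, Lt.b, Lt.b] (hole_rel hinv hr (by decide +kernel)) h
theorem dp_f_52_s (hinv : ∀ x, g (inv x) = (g x)⁻¹) (hr : ∀ r ∈ rels, (r.map g).prod = 1) (hH : ∀ r ∈ subs, (r.map g).prod ∈ H)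
    (j u : ℕ) (hu : u < M) (h : dp_f_52 j u = true) : Good (fa g) T MG M (cP g H) Lt.f u := by
  unfold dp_f_52 at h
  rcases brec_true h with h | h
  · exact lS_good (T := T) (x := Lt.f) (by decide) hu [Lt.d, Lt.d, Lt.b, Lt.fi, Lt.d, Lt.c, Lt.b] (hole_rel hinv hr (by decide +kernel)) h
  · exact lS_good (T := T) (x := Lt.f) (by decide) hu [Lt.d, Lt.b, Lt.c, Lt.d, Lt.b, Lt.ci, Lt.bi] (hole_rel hinv hr (by decide +kernel)) h
theorem dp_f_53_s (hinv : ∀ x, g (inv x) = (g x)⁻¹) (hr : ∀ r ∈ rels, (r.map g).prod = 1) (hH : ∀ r ∈ subs, (r.map g).prod ∈ H)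
    (j u : ℕ) (hu : u < M) (h : dp_f_53 j u = true) : Good (fa g) T MG M (cP g H) Lt.f u := by
  unfold dp_f_53 at h
  rcases brec_true h with h | h
  · exact dp_f_51_s hinv hr hH j u hu h
  · exact dp_f_52_s hinv hr hH j u hu h
theorem dp_f_54_s (hinv : ∀ x, g (inv x) = (g x)⁻¹) (hr : ∀ r ∈ rels, (r.map g).prod = 1) (hH : ∀ r ∈ subs, (r.map g).prod ∈ H)
    (j u : ℕ) (hu : u < M) (h : dp_f_54 j u = true) : Good (fa g) T MG M (cP g H) Lt.f u := by
  unfold dp_f_54 at h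
  rcases brec_true h with h | h
  · exact dp_f_50_s hinv hr hH j u hu h
  · exact dp_f_53_s hinv hr hH j u hu h
theorem dp_f_55_s (hinv : ∀ x, g (inv x) = (g x)⁻¹) (hr : ∀ r ∈ rels, (r.map g).prod = 1) (hH : ∀ r ∈ subs, (r.map g).prod ∈ H)
    (j u : ℕ) (hu : u < M) (h : dp_f_55 j u = true) : Good (fa g) T MG M (cP g H) Lt.f u := by
  unfold dp_f_55 at h
  rcases brec_true h with h | h
  · exact lS_good (T := T) (x := Lt.f) (by decide) hu [Lt.ei, Lt.fi, Lt.fi, Lt.d, Lt.ci, Lt.ei, Lt.fi, Lt.e] (hole_rel hinv hr (by decide +kernel)) h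
  · exact lF_good (T := T) (x := Lt.f) (by decide) [Lt.di, Lt.ci, Lt.ci, Lt.bi, Lt.ci, Lt.b, Lt.di] (hole_rel hinv hr (by decide +kernel)) h
theorem dp_f_56_s (hinv : ∀ x, g (inv x) = (g x)⁻¹) (hr : ∀ r ∈ rels, (r.map g).prod = 1) (hH : ∀ r ∈ subs, (r.map g).prod ∈ H)
    (j u : ℕ) (hu : u < M) (h : dp_f_56 j u = true) : Good (fa g) T MG M (cP g H) Lt.f u := by
  unfold dp_f_56 at h
  rcases brec_true h with h | h
  · exact lS_good (T := T) (x := Lt.f) (by decide) hu [Lt.c, Lt.di, Lt.b, Lt.f, Lt.c, Lt.di, Lt.b] (hole_rel hinv hr (by decide +kernel)) h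
  · exact lS_good (T := T) (x := Lt.f) (by decide) hu [Lt.ci, Lt.d, Lt.b, Lt.ci, Lt.di, Lt.ci, Lt.bi] (hole_rel hinv hr (by decide +kernel)) h
theorem dp_f_57_s (hinv : ∀ x, g (inv x) = (g x)⁻¹) (hr : ∀ r ∈ rels, (r.map g).prod = 1) (hH : ∀ r ∈ subs, (r.map g).prod ∈ H)
    (j u : ℕ) (hu : u < M) (h : dp_f_57 j u = true) : Good (fa g) T MG M (cP g H) Lt.f u := by
  unfold dp_f_57 at h
  rcases brec_true h with h | h
  · exact dp_f_55_s hinv hr hH j u hu h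
  · exact dp_f_56_s hinv hr hH j u hu h
theorem dp_f_58_s (hinv : ∀ x, g (inv x) = (g x)⁻¹) (hr : ∀ r ∈ rels, (r.map g).prod = 1) (hH : ∀ r ∈ subs, (r.map g).prod ∈ H)
    (j u : ℕ) (hu : u < M) (h : dp_f_58 j u = true) : Good (fa g) T MG M (cP g H) Lt.f u := by
  unfold dp_f_58 at h
  rcases brec_true h with h | h
  · exact lS_good (T := T) (x := Lt.f) (by decide) hu [Lt.di, Lt.c, Lt.fi, Lt.bi, Lt.bi, Lt.f, Lt.b] (hole_rel hinv hr (by decide +kernel)) h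
  · exact lF_good (T := T) (x := Lt.f) (by decide) [Lt.di, Lt.b, Lt.ci, Lt.d, Lt.b, Lt.f, Lt.ci] (hole_rel hinv hr (by decide +kernel)) h
theorem dp_f_59_s (hinv : ∀ x, g (inv x) = (g x)⁻¹) (hr : ∀ r ∈ rels, (r.map g).prod = 1) (hH : ∀ r ∈ subs, (r.map g).prod ∈ H)
    (j u : ℕ) (hu : u < M) (h : dp_f_59 j u = true) : Good (fa g) T MG M (cP g H) Lt.f u := by
  unfold dp_f_59 at h
  rcases brec_true h with h | h
  · exact lS_good (T := T) (x := Lt.f) (by decide) hu [Lt.c, Lt.b, Lt.c, Lt.d, Lt.f, Lt.b, Lt.di] (hole_rel hinv hr (by decide +kernel)) h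
  · exact lF_good (T := T) (x := Lt.f) (by decide) [Lt.e, Lt.c, Lt.di, Lt.f, Lt.f, Lt.e, Lt.fi, Lt.ei] (hole_rel hinv hr (by decide +kernel)) h
theorem dp_f_60_s (hinv : ∀ x, g (inv x) = (g x)⁻¹) (hr : ∀ r ∈ rels, (r.map g).prod = 1) (hH : ∀ r ∈ subs, (r.map g).prod ∈ H)
    (j u : ℕ) (hu : u < M) (h : dp_f_60 j u = true) : Good (fa g) T MG M (cP g H) Lt.f u := by
  unfold dp_f_60 at h
  rcases brec_true h with h | h
  · exact dp_f_58_s hinv hr hH j u hu h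
  · exact dp_f_59_s hinv hr hH j u hu h
theorem dp_f_61_s (hinv : ∀ x, g (inv x) = (g x)⁻¹) (hr : ∀ r ∈ rels, (r.map g).prod = 1) (hH : ∀ r ∈ subs, (r.map g).prod ∈ H)
    (j u : ℕ) (hu : u < M) (h : dp_f_61 j u = true) : Good (fa g) T MG M (cP g H) Lt.f u := by
  unfold dp_f_61 at h
  rcases brec_true h with h | h
  · exact dp_f_57_s hinv hr hH j u hu h
  · exact dp_f_60_s hinv hr hH j u hu h
theorem dp_f_62_s (hinv : ∀ x, g (inv x) = (g x)⁻¹) (hr : ∀ r ∈ rels, (r.map g).prod = 1) (hH : ∀ r ∈ subs, (r.map g).prod ∈ H)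
    (j u : ℕ) (hu : u < M) (h : dp_f_62 j u = true) : Good (fa g) T MG M (cP g H) Lt.f u := by
  unfold dp_f_62 at h
  rcases brec_true h with h | h
  · exact dp_f_54_s hinv hr hH j u hu h
  · exact dp_f_61_s hinv hr hH j u hu h
theorem dp_f_63_s (hinv : ∀ x, g (inv x) = (g x)⁻¹) (hr : ∀ r ∈ rels, (r.map g).prod = 1) (hH : ∀ r ∈ subs, (r.map g).prod ∈ H)
    (j u : ℕ) (hu : u < M) (h : dp_f_63 j u = true) : Good (fa g) T MG M (cP g H) Lt.f u := by
  unfold dp_f_63 at h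
  rcases brec_true h with h | h
  · exact lS_good (T := T) (x := Lt.f) (by decide) hu [Lt.ci, Lt.b, Lt.e, Lt.di, Lt.fi, Lt.bi, Lt.f, Lt.e] (hole_rel hinv hr (by decide +kernel)) h
  · exact lF_good (T := T) (x := Lt.f) (by decide) [Lt.b, Lt.c, Lt.bi, Lt.bi, Lt.di, Lt.ci, Lt.bi] (hole_rel hinv hr (by decide +kernel)) h
theorem dp_f_64_s (hinv : ∀ x, g (inv x) = (g x)⁻¹) (hr : ∀ r ∈ rels, (r.map g).prod = 1) (hH : ∀ r ∈ subs, (r.map g).prod ∈ H)
    (j u : ℕ) (hu : u < M) (h : dp_f_64 j u = true) : Good (fa g) T MG M (cP g H) Lt.f u := by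
  unfold dp_f_64 at h
  rcases brec_true h with h | h
  · exact lF_good (T := T) (x := Lt.f) (by decide) [Lt.d, Lt.d, Lt.b, Lt.fi, Lt.d, Lt.c, Lt.b] (hole_rel hinv hr (by decide +kernel)) h
  · exact lS_good (T := T) (x := Lt.f) (by decide) hu [Lt.b, Lt.c, Lt.bi, Lt.bi, Lt.di, Lt.ci, Lt.bi] (hole_rel hinv hr (by decide +kernel)) h
theorem dp_f_65_s (hinv : ∀ x, g (inv x) = (g x)⁻¹) (hr : ∀ r ∈ rels, (r.map g).prod = 1) (hH : ∀ r ∈ subs, (r.map g).prod ∈ H)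
    (j u : ℕ) (hu : u < M) (h : dp_f_65 j u = true) : Good (fa g) T MG M (cP g H) Lt.f u := by
  unfold dp_f_65 at h
  rcases brec_true h with h | h
  · exact dp_f_63_s hinv hr hH j u hu h
  · exact dp_f_64_s hinv hr hH j u hu h
theorem dp_f_66_s (hinv : ∀ x, g (inv x) = (g x)⁻¹) (hr : ∀ r ∈ rels, (r.map g).prod = 1) (hH : ∀ r ∈ subs, (r.map g).prod ∈ H)
    (j u : ℕ) (hu : u < M) (h : dp_f_66 j u = true) : Good (fa g) T MG M (cP g H) Lt.f u := by
  unfold dp_f_66 at h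
  rcases brec_true h with h | h
  · exact lF_good (T := T) (x := Lt.f) (by decide) [Lt.di, Lt.f, Lt.f, Lt.di, Lt.fi, Lt.di, Lt.di] (hole_rel hinv hr (by decide +kernel)) h
  · exact lF_good (T := T) (x := Lt.f) (by decide) [Lt.ci, Lt.ci, Lt.f, Lt.bi, Lt.fi, Lt.ci, Lt.b] (hole_rel hinv hr (by decide +kernel)) h
theorem dp_f_67_s (hinv : ∀ x, g (inv x) = (g x)⁻¹) (hr : ∀ r ∈ rels, (r.map g).prod = 1) (hH : ∀ r ∈ subs, (r.map g).prod ∈ H)
    (j u : ℕ) (hu : u < M) (h : dp_f_67 j u = true) : Good (fa g) T MG M (cP g H) Lt.f u := by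
  unfold dp_f_67 at h
  rcases brec_true h with h | h
  · exact lF_good (T := T) (x := Lt.f) (by decide) [Lt.ci, Lt.d, Lt.fi, Lt.bi, Lt.fi, Lt.b, Lt.b] (hole_rel hinv hr (by decide +kernel)) h
  · exact dp_f_66_s hinv hr hH j u hu h
theorem dp_f_68_s (hinv : ∀ x, g (inv x) = (g x)⁻¹) (hr : ∀ r ∈ rels, (r.map g).prod = 1) (hH : ∀ r ∈ subs, (r.map g).prod ∈ H)
    (j u : ℕ) (hu : u < M) (h : dp_f_68 j u = true) : Good (fa g) T MG M (cP g H) Lt.f u := by
  unfold dp_f_68 at h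
  rcases brec_true h with h | h
  · exact lS_good (T := T) (x := Lt.f) (by decide) hu [Lt.di, Lt.f, Lt.f, Lt.di, Lt.fi, Lt.di, Lt.di] (hole_rel hinv hr (by decide +kernel)) h
  · exact lF_good (T := T) (x := Lt.f) (by decide) [Lt.ei, Lt.f, Lt.e, Lt.fi, Lt.ei, Lt.f, Lt.c, Lt.di] (hole_rel hinv hr (by decide +kernel)) h
theorem dp_f_69_s (hinv : ∀ x, g (inv x) = (g x)⁻¹) (hr : ∀ r ∈ rels, (r.map g).prod = 1) (hH : ∀ r ∈ subs, (r.map g).prod ∈ H)
    (j u : ℕ) (hu : u < M) (h : dp_f_69 j u = true) : Good (fa g) T MG M (cP g H) Lt.f u := by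
  unfold dp_f_69 at h
  rcases brec_true h with h | h
  · exact lS_good (T := T) (x := Lt.f) (by decide) hu [Lt.ci, Lt.ci, Lt.f, Lt.bi, Lt.fi, Lt.ci, Lt.b] (hole_rel hinv hr (by decide +kernel)) h
  · exact dp_f_68_s hinv hr hH j u hu h
theorem dp_f_70_s (hinv : ∀ x, g (inv x) = (g x)⁻¹) (hr : ∀ r ∈ rels, (r.map g).prod = 1) (hH : ∀ r ∈ subs, (r.map g).prod ∈ H)
    (j u : ℕ) (hu : u < M) (h : dp_f_70 j u = true) : Good (fa g) T MG M (cP g H) Lt.f u := by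
  unfold dp_f_70 at h
  rcases brec_true h with h | h
  · exact dp_f_67_s hinv hr hH j u hu h
  · exact dp_f_69_s hinv hr hH j u hu h
theorem dp_f_71_s (hinv : ∀ x, g (inv x) = (g x)⁻¹) (hr : ∀ r ∈ rels, (r.map g).prod = 1) (hH : ∀ r ∈ subs, (r.map g).prod ∈ H)
    (j u : ℕ) (hu : u < M) (h : dp_f_71 j u = true) : Good (fa g) T MG M (cP g H) Lt.f u := by
  unfold dp_f_71 at h
  rcases brec_true h with h | h
  · exact dp_f_65_s hinv hr hH j u hu h
  · exact dp_f_70_s hinv hr hH j u hu h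
theorem dp_f_72_s (hinv : ∀ x, g (inv x) = (g x)⁻¹) (hr : ∀ r ∈ rels, (r.map g).prod = 1) (hH : ∀ r ∈ subs, (r.map g).prod ∈ H)
    (j u : ℕ) (hu : u < M) (h : dp_f_72 j u = true) : Good (fa g) T MG M (cP g H) Lt.f u := by
  unfold dp_f_72 at h
  rcases brec_true h with h | h
  · exact lS_good (T := T) (x := Lt.f) (by decide) hu [Lt.ei, Lt.d, Lt.f, Lt.di, Lt.ci, Lt.ei, Lt.fi, Lt.e] (hole_rel hinv hr (by decide +kernel)) h
  · exact lF_good (T := T) (x := Lt.f) (by decide) [Lt.di, Lt.c, Lt.fi, Lt.bi, Lt.bi, Lt.f, Lt.b] (hole_rel hinv hr (by decide +kernel)) h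
theorem dp_f_73_s (hinv : ∀ x, g (inv x) = (g x)⁻¹) (hr : ∀ r ∈ rels, (r.map g).prod = 1) (hH : ∀ r ∈ subs, (r.map g).prod ∈ H)
    (j u : ℕ) (hu : u < M) (h : dp_f_73 j u = true) : Good (fa g) T MG M (cP g H) Lt.f u := by
  unfold dp_f_73 at h
  rcases brec_true h with h | h
  · exact lS_good (T := T) (x := Lt.f) (by decide) hu [Lt.d, Lt.ei, Lt.bi, Lt.c, Lt.fi, Lt.ei, Lt.fi, Lt.b] (hole_rel hinv hr (by decide +kernel)) h
  · exact dp_f_72_s hinv hr hH j u hu h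
theorem dp_f_74_s (hinv : ∀ x, g (inv x) = (g x)⁻¹) (hr : ∀ r ∈ rels, (r.map g).prod = 1) (hH : ∀ r ∈ subs, (r.map g).prod ∈ H)
    (j u : ℕ) (hu : u < M) (h : dp_f_74 j u = true) : Good (fa g) T MG M (cP g H) Lt.f u := by
  unfold dp_f_74 at h
  rcases brec_true h with h | h
  · exact lS_good (T := T) (x := Lt.f) (by decide) hu [Lt.e, Lt.c, Lt.d, Lt.fi, Lt.di, Lt.e, Lt.fi, Lt.ei] (hole_rel hinv hr (by decide +kernel)) h
  · exact lF_good (T := T) (x := Lt.f) (by decide) [Lt.e, Lt.fi, Lt.ei, Lt.f, Lt.e, Lt.c, Lt.di, Lt.f] (hole_rel hinv hr (by decide +kernel)) h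
theorem dp_f_75_s (hinv : ∀ x, g (inv x) = (g x)⁻¹) (hr : ∀ r ∈ rels, (r.map g).prod = 1) (hH : ∀ r ∈ subs, (r.map g).prod ∈ H)
    (j u : ℕ) (hu : u < M) (h : dp_f_75 j u = true) : Good (fa g) T MG M (cP g H) Lt.f u := by
  unfold dp_f_75 at h
  rcases brec_true h with h | h
  · exact lS_good (T := T) (x := Lt.f) (by decide) hu [Lt.c, Lt.di, Lt.f, Lt.ei, Lt.f, Lt.e, Lt.fi, Lt.ei] (hole_rel hinv hr (by decide +kernel)) h
  · exact lF_good (T := T) (x := Lt.f) (by decide) [Lt.e, Lt.f, Lt.ci, Lt.b, Lt.e, Lt.di, Lt.fi, Lt.bi] (hole_rel hinv hr (by decide +kernel)) h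
theorem dp_f_76_s (hinv : ∀ x, g (inv x) = (g x)⁻¹) (hr : ∀ r ∈ rels, (r.map g).prod = 1) (hH : ∀ r ∈ subs, (r.map g).prod ∈ H)
    (j u : ℕ) (hu : u < M) (h : dp_f_76 j u = true) : Good (fa g) T MG M (cP g H) Lt.f u := by
  unfold dp_f_76 at h
  rcases brec_true h with h | h
  · exact lF_good (T := T) (x := Lt.f) (by decide) [Lt.di, Lt.ci, Lt.ei, Lt.fi, Lt.e, Lt.f, Lt.ei, Lt.d] (hole_rel hinv hr (by decide +kernel)) h
  · exact dp_f_75_s hinv hr hH j u hu h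
theorem dp_f_77_s (hinv : ∀ x, g (inv x) = (g x)⁻¹) (hr : ∀ r ∈ rels, (r.map g).prod = 1) (hH : ∀ r ∈ subs, (r.map g).prod ∈ H)
    (j u : ℕ) (hu : u < M) (h : dp_f_77 j u = true) : Good (fa g) T MG M (cP g H) Lt.f u := by
  unfold dp_f_77 at h
  rcases brec_true h with h | h
  · exact dp_f_74_s hinv hr hH j u hu h
  · exact dp_f_76_s hinv hr hH j u hu h
theorem dp_f_78_s (hinv : ∀ x, g (inv x) = (g x)⁻¹) (hr : ∀ r ∈ rels, (r.map g).prod = 1) (hH : ∀ r ∈ subs, (r.map g).prod ∈ H)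
    (j u : ℕ) (hu : u < M) (h : dp_f_78 j u = true) : Good (fa g) T MG M (cP g H) Lt.f u := by
  unfold dp_f_78 at h
  rcases brec_true h with h | h
  · exact dp_f_73_s hinv hr hH j u hu h
  · exact dp_f_77_s hinv hr hH j u hu h
theorem dp_f_79_s (hinv : ∀ x, g (inv x) = (g x)⁻¹) (hr : ∀ r ∈ rels, (r.map g).prod = 1) (hH : ∀ r ∈ subs, (r.map g).prod ∈ H)
    (j u : ℕ) (hu : u < M) (h : dp_f_79 j u = true) : Good (fa g) T MG M (cP g H) Lt.f u := by
  unfold dp_f_79 at h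
  rcases brec_true h with h | h
  · exact lF_good (T := T) (x := Lt.f) (by decide) [Lt.c, Lt.di, Lt.f, Lt.ei, Lt.f, Lt.e, Lt.fi, Lt.ei] (hole_rel hinv hr (by decide +kernel)) h
  · exact lF_good (T := T) (x := Lt.f) (by decide) [Lt.d, Lt.ei, Lt.bi, Lt.c, Lt.fi, Lt.ei, Lt.fi, Lt.b] (hole_rel hinv hr (by decide +kernel)) h
theorem dp_f_80_s (hinv : ∀ x, g (inv x) = (g x)⁻¹) (hr : ∀ r ∈ rels, (r.map g).prod = 1) (hH : ∀ r ∈ subs, (r.map g).prod ∈ H)
    (j u : ℕ) (hu : u < M) (h : dp_f_80 j u = true) : Good (fa g) T MG M (cP g H) Lt.f u := by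
  unfold dp_f_80 at h
  rcases brec_true h with h | h
  · exact lS_good (T := T) (x := Lt.f) (by decide) hu [Lt.e, Lt.f, Lt.ci, Lt.b, Lt.e, Lt.di, Lt.fi, Lt.bi] (hole_rel hinv hr (by decide +kernel)) h
  · exact dp_f_79_s hinv hr hH j u hu h
theorem dp_f_81_s (hinv : ∀ x, g (inv x) = (g x)⁻¹) (hr : ∀ r ∈ rels, (r.map g).prod = 1) (hH : ∀ r ∈ subs, (r.map g).prod ∈ H)
    (j u : ℕ) (hu : u < M) (h : dp_f_81 j u = true) : Good (fa g) T MG M (cP g H) Lt.f u := by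
  unfold dp_f_81 at h
  rcases brec_true h with h | h
  · exact lS_good (T := T) (x := Lt.f) (by decide) hu [Lt.ei, Lt.f, Lt.e, Lt.fi, Lt.ei, Lt.f, Lt.c, Lt.di] (hole_rel hinv hr (by decide +kernel)) h
  · exact lF_good (T := T) (x := Lt.f) (by decide) [Lt.e, Lt.c, Lt.d, Lt.fi, Lt.di, Lt.e, Lt.fi, Lt.ei] (hole_rel hinv hr (by decide +kernel)) h
theorem dp_f_82_s (hinv : ∀ x, g (inv x) = (g x)⁻¹) (hr : ∀ r ∈ rels, (r.map g).prod = 1) (hH : ∀ r ∈ subs, (r.map g).prod ∈ H)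
    (j u : ℕ) (hu : u < M) (h : dp_f_82 j u = true) : Good (fa g) T MG M (cP g H) Lt.f u := by
  unfold dp_f_82 at h
  rcases brec_true h with h | h
  · exact lF_good (T := T) (x := Lt.f) (by decide) [Lt.ci, Lt.b, Lt.e, Lt.di, Lt.fi, Lt.bi, Lt.f, Lt.e] (hole_rel hinv hr (by decide +kernel)) h
  · exact lF_good (T := T) (x := Lt.f) (by decide) [Lt.f, Lt.e, Lt.fi, Lt.ei, Lt.f, Lt.e, Lt.c, Lt.di] (hole_rel hinv hr (by decide +kernel)) h
theorem dp_f_83_s (hinv : ∀ x, g (inv x) = (g x)⁻¹) (hr : ∀ r ∈ rels, (r.map g).prod = 1) (hH : ∀ r ∈ subs, (r.map g).prod ∈ H)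
    (j u : ℕ) (hu : u < M) (h : dp_f_83 j u = true) : Good (fa g) T MG M (cP g H) Lt.f u := by
  unfold dp_f_83 at h
  rcases brec_true h with h | h
  · exact dp_f_81_s hinv hr hH j u hu h
  · exact dp_f_82_s hinv hr hH j u hu h
theorem dp_f_84_s (hinv : ∀ x, g (inv x) = (g x)⁻¹) (hr : ∀ r ∈ rels, (r.map g).prod = 1) (hH : ∀ r ∈ subs, (r.map g).prod ∈ H)
    (j u : ℕ) (hu : u < M) (h : dp_f_84 j u = true) : Good (fa g) T MG M (cP g H) Lt.f u := by
  unfold dp_f_84 at h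
  rcases brec_true h with h | h
  · exact dp_f_80_s hinv hr hH j u hu h
  · exact dp_f_83_s hinv hr hH j u hu h
theorem dp_f_85_s (hinv : ∀ x, g (inv x) = (g x)⁻¹) (hr : ∀ r ∈ rels, (r.map g).prod = 1) (hH : ∀ r ∈ subs, (r.map g).prod ∈ H)
    (j u : ℕ) (hu : u < M) (h : dp_f_85 j u = true) : Good (fa g) T MG M (cP g H) Lt.f u := by
  unfold dp_f_85 at h
  rcases brec_true h with h | h
  · exact lF_good (T := T) (x := Lt.f) (by decide) [Lt.d, Lt.c, Lt.c, Lt.f, Lt.f, Lt.c, Lt.di, Lt.c] (hole_rel hinv hr (by decide +kernel)) h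
  · exact lF_good (T := T) (x := Lt.f) (by decide) [Lt.ei, Lt.d, Lt.f, Lt.di, Lt.ci, Lt.ei, Lt.fi, Lt.e] (hole_rel hinv hr (by decide +kernel)) h
theorem dp_f_86_s (hinv : ∀ x, g (inv x) = (g x)⁻¹) (hr : ∀ r ∈ rels, (r.map g).prod = 1) (hH : ∀ r ∈ subs, (r.map g).prod ∈ H)
    (j u : ℕ) (hu : u < M) (h : dp_f_86 j u = true) : Good (fa g) T MG M (cP g H) Lt.f u := by
  unfold dp_f_86 at h
  rcases brec_true h with h | h
  · exact lS_good (T := T) (x := Lt.f) (by decide) hu [Lt.f, Lt.e, Lt.fi, Lt.ei, Lt.f, Lt.e, Lt.c, Lt.di] (hole_rel hinv hr (by decide +kernel)) h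
  · exact dp_f_85_s hinv hr hH j u hu h
theorem dp_f_87_s (hinv : ∀ x, g (inv x) = (g x)⁻¹) (hr : ∀ r ∈ rels, (r.map g).prod = 1) (hH : ∀ r ∈ subs, (r.map g).prod ∈ H)
    (j u : ℕ) (hu : u < M) (h : dp_f_87 j u = true) : Good (fa g) T MG M (cP g H) Lt.f u := by
  unfold dp_f_87 at h
  rcases brec_true h with h | h
  · exact lF_good (T := T) (x := Lt.f) (by decide) [Lt.d, Lt.f, Lt.ci, Lt.ci, Lt.di, Lt.fi, Lt.c, Lt.d] (hole_rel hinv hr (by decide +kernel)) h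
  · exact lS_good (T := T) (x := Lt.f) (by decide) hu [Lt.di, Lt.ci, Lt.ei, Lt.fi, Lt.e, Lt.f, Lt.ei, Lt.d] (hole_rel hinv hr (by decide +kernel)) h
theorem dp_f_88_s (hinv : ∀ x, g (inv x) = (g x)⁻¹) (hr : ∀ r ∈ rels, (r.map g).prod = 1) (hH : ∀ r ∈ subs, (r.map g).prod ∈ H)
    (j u : ℕ) (hu : u < M) (h : dp_f_88 j u = true) : Good (fa g) T MG M (cP g H) Lt.f u := by
  unfold dp_f_88 at h
  rcases brec_true h with h | h
  · exact lS_good (T := T) (x := Lt.f) (by decide) hu [Lt.e, Lt.fi, Lt.ei, Lt.f, Lt.e, Lt.c, Lt.di, Lt.f] (hole_rel hinv hr (by decide +kernel)) h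
  · exact lH_good (T := T) (x := Lt.f) (by decide) [] [] (by rw [show cP g H 0 = _ from cc_zero]; exact sub_rel hinv (hH _ (by decide))) h
theorem dp_f_89_s (hinv : ∀ x, g (inv x) = (g x)⁻¹) (hr : ∀ r ∈ rels, (r.map g).prod = 1) (hH : ∀ r ∈ subs, (r.map g).prod ∈ H)
    (j u : ℕ) (hu : u < M) (h : dp_f_89 j u = true) : Good (fa g) T MG M (cP g H) Lt.f u := by
  unfold dp_f_89 at h
  rcases brec_true h with h | h
  · exact dp_f_87_s hinv hr hH j u hu h
  · exact dp_f_88_s hinv hr hH j u hu h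
theorem dp_f_90_s (hinv : ∀ x, g (inv x) = (g x)⁻¹) (hr : ∀ r ∈ rels, (r.map g).prod = 1) (hH : ∀ r ∈ subs, (r.map g).prod ∈ H)
    (j u : ℕ) (hu : u < M) (h : dp_f_90 j u = true) : Good (fa g) T MG M (cP g H) Lt.f u := by
  unfold dp_f_90 at h
  rcases brec_true h with h | h
  · exact dp_f_86_s hinv hr hH j u hu h
  · exact dp_f_89_s hinv hr hH j u hu h
theorem dp_f_91_s (hinv : ∀ x, g (inv x) = (g x)⁻¹) (hr : ∀ r ∈ rels, (r.map g).prod = 1) (hH : ∀ r ∈ subs, (r.map g).prod ∈ H)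
    (j u : ℕ) (hu : u < M) (h : dp_f_91 j u = true) : Good (fa g) T MG M (cP g H) Lt.f u := by
  unfold dp_f_91 at h
  rcases brec_true h with h | h
  · exact lS_good (T := T) (x := Lt.f) (by decide) hu [Lt.bi, Lt.bi, Lt.bi, Lt.f, Lt.d, Lt.ci, Lt.di, Lt.c] (hole_rel hinv hr (by decide +kernel)) h
  · exact lS_good (T := T) (x := Lt.f) (by decide) hu [Lt.f, Lt.c, Lt.di, Lt.c, Lt.f, Lt.d, Lt.c, Lt.c] (hole_rel hinv hr (by decide +kernel)) h
theorem dp_f_92_s (hinv : ∀ x, g (inv x) = (g x)⁻¹) (hr : ∀ r ∈ rels, (r.map g).prod = 1) (hH : ∀ r ∈ subs, (r.map g).prod ∈ H)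
    (j u : ℕ) (hu : u < M) (h : dp_f_92 j u = true) : Good (fa g) T MG M (cP g H) Lt.f u := by
  unfold dp_f_92 at h
  rcases brec_true h with h | h
  · exact lS_good (T := T) (x := Lt.f) (by decide) hu [Lt.ci, Lt.ci, Lt.di, Lt.fi, Lt.c, Lt.d, Lt.f, Lt.d] (hole_rel hinv hr (by decide +kernel)) h
  · exact lF_good (T := T) (x := Lt.f) (by decide) [Lt.f, Lt.c, Lt.di, Lt.c, Lt.f, Lt.d, Lt.c, Lt.c] (hole_rel hinv hr (by decide +kernel)) h
theorem dp_f_93_s (hinv : ∀ x, g (inv x) = (g x)⁻¹) (hr : ∀ r ∈ rels, (r.map g).prod = 1) (hH : ∀ r ∈ subs, (r.map g).prod ∈ H)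
    (j u : ℕ) (hu : u < M) (h : dp_f_93 j u = true) : Good (fa g) T MG M (cP g H) Lt.f u := by
  unfold dp_f_93 at h
  rcases brec_true h with h | h
  · exact dp_f_91_s hinv hr hH j u hu h
  · exact dp_f_92_s hinv hr hH j u hu h
theorem dp_f_94_s (hinv : ∀ x, g (inv x) = (g x)⁻¹) (hr : ∀ r ∈ rels, (r.map g).prod = 1) (hH : ∀ r ∈ subs, (r.map g).prod ∈ H)
    (j u : ℕ) (hu : u < M) (h : dp_f_94 j u = true) : Good (fa g) T MG M (cP g H) Lt.f u := by
  unfold dp_f_94 at h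
  rcases brec_true h with h | h
  · exact lS_good (T := T) (x := Lt.f) (by decide) hu [Lt.c, Lt.c, Lt.f, Lt.d, Lt.c, Lt.bi, Lt.ci, Lt.ci] (hole_rel hinv hr (by decide +kernel)) h
  · exact lF_good (T := T) (x := Lt.f) (by decide) [Lt.c, Lt.d, Lt.c, Lt.bi, Lt.d, Lt.fi, Lt.bi, Lt.d] (hole_rel hinv hr (by decide +kernel)) h
theorem dp_f_95_s (hinv : ∀ x, g (inv x) = (g x)⁻¹) (hr : ∀ r ∈ rels, (r.map g).prod = 1) (hH : ∀ r ∈ subs, (r.map g).prod ∈ H)
    (j u : ℕ) (hu : u < M) (h : dp_f_95 j u = true) : Good (fa g) T MG M (cP g H) Lt.f u := by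
  unfold dp_f_95 at h
  rcases brec_true h with h | h
  · exact lF_good (T := T) (x := Lt.f) (by decide) [Lt.ci, Lt.ci, Lt.di, Lt.fi, Lt.c, Lt.d, Lt.f, Lt.d] (hole_rel hinv hr (by decide +kernel)) h
  · exact lF_good (T := T) (x := Lt.f) (by decide) [Lt.bi, Lt.bi, Lt.bi, Lt.f, Lt.d, Lt.ci, Lt.di, Lt.c] (hole_rel hinv hr (by decide +kernel)) h
theorem dp_f_96_s (hinv : ∀ x, g (inv x) = (g x)⁻¹) (hr : ∀ r ∈ rels, (r.map g).prod = 1) (hH : ∀ r ∈ subs, (r.map g).prod ∈ H)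
    (j u : ℕ) (hu : u < M) (h : dp_f_96 j u = true) : Good (fa g) T MG M (cP g H) Lt.f u := by
  unfold dp_f_96 at h
  rcases brec_true h with h | h
  · exact dp_f_94_s hinv hr hH j u hu h
  · exact dp_f_95_s hinv hr hH j u hu h
theorem dp_f_97_s (hinv : ∀ x, g (inv x) = (g x)⁻¹) (hr : ∀ r ∈ rels, (r.map g).prod = 1) (hH : ∀ r ∈ subs, (r.map g).prod ∈ H)
    (j u : ℕ) (hu : u < M) (h : dp_f_97 j u = true) : Good (fa g) T MG M (cP g H) Lt.f u := by
  unfold dp_f_97 at h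
  rcases brec_true h with h | h
  · exact dp_f_93_s hinv hr hH j u hu h
  · exact dp_f_96_s hinv hr hH j u hu h
theorem dp_f_98_s (hinv : ∀ x, g (inv x) = (g x)⁻¹) (hr : ∀ r ∈ rels, (r.map g).prod = 1) (hH : ∀ r ∈ subs, (r.map g).prod ∈ H)
    (j u : ℕ) (hu : u < M) (h : dp_f_98 j u = true) : Good (fa g) T MG M (cP g H) Lt.f u := by
  unfold dp_f_98 at h
  rcases brec_true h with h | h
  · exact lS_good (T := T) (x := Lt.f) (by decide) hu [Lt.d, Lt.c, Lt.c, Lt.f, Lt.f, Lt.c, Lt.di, Lt.c] (hole_rel hinv hr (by decide +kernel)) h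
  · exact lS_good (T := T) (x := Lt.f) (by decide) hu [Lt.di, Lt.b, Lt.ci, Lt.di, Lt.ci, Lt.fi, Lt.di, Lt.b] (hole_rel hinv hr (by decide +kernel)) h
theorem dp_f_99_s (hinv : ∀ x, g (inv x) = (g x)⁻¹) (hr : ∀ r ∈ rels, (r.map g).prod = 1) (hH : ∀ r ∈ subs, (r.map g).prod ∈ H)
    (j u : ℕ) (hu : u < M) (h : dp_f_99 j u = true) : Good (fa g) T MG M (cP g H) Lt.f u := by
  unfold dp_f_99 at h
  rcases brec_true h with h | h
  · exact lS_good (T := T) (x := Lt.f) (by decide) hu [Lt.d, Lt.c, Lt.bi, Lt.ci, Lt.ci, Lt.f, Lt.c, Lt.c] (hole_rel hinv hr (by decide +kernel)) h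
  · exact lS_good (T := T) (x := Lt.f) (by decide) hu [Lt.b, Lt.d, Lt.c, Lt.bi, Lt.ci, Lt.b, Lt.b, Lt.di] (hole_rel hinv hr (by decide +kernel)) h
theorem dp_f_100_s (hinv : ∀ x, g (inv x) = (g x)⁻¹) (hr : ∀ r ∈ rels, (r.map g).prod = 1) (hH : ∀ r ∈ subs, (r.map g).prod ∈ H)
    (j u : ℕ) (hu : u < M) (h : dp_f_100 j u = true) : Good (fa g) T MG M (cP g H) Lt.f u := by
  unfold dp_f_100 at h
  rcases brec_true h with h | h
  · exact dp_f_98_s hinv hr hH j u hu h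
  · exact dp_f_99_s hinv hr hH j u hu h
theorem dp_f_101_s (hinv : ∀ x, g (inv x) = (g x)⁻¹) (hr : ∀ r ∈ rels, (r.map g).prod = 1) (hH : ∀ r ∈ subs, (r.map g).prod ∈ H)
    (j u : ℕ) (hu : u < M) (h : dp_f_101 j u = true) : Good (fa g) T MG M (cP g H) Lt.f u := by
  unfold dp_f_101 at h
  rcases brec_true h with h | h
  · exact lS_good (T := T) (x := Lt.f) (by decide) hu [Lt.c, Lt.di, Lt.f, Lt.c, Lt.bi, Lt.ci, Lt.ci, Lt.bi] (hole_rel hinv hr (by decide +kernel)) h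
  · exact lF_good (T := T) (x := Lt.f) (by decide) [Lt.d, Lt.c, Lt.bi, Lt.ci, Lt.ci, Lt.f, Lt.c, Lt.c] (hole_rel hinv hr (by decide +kernel)) h
theorem dp_f_102_s (hinv : ∀ x, g (inv x) = (g x)⁻¹) (hr : ∀ r ∈ rels, (r.map g).prod = 1) (hH : ∀ r ∈ subs, (r.map g).prod ∈ H)
    (j u : ℕ) (hu : u < M) (h : dp_f_102 j u = true) : Good (fa g) T MG M (cP g H) Lt.f u := by
  unfold dp_f_102 at h
  rcases brec_true h with h | h
  · exact lF_good (T := T) (x := Lt.f) (by decide) [Lt.c, Lt.di, Lt.f, Lt.c, Lt.bi, Lt.ci, Lt.ci, Lt.bi] (hole_rel hinv hr (by decide +kernel)) h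
  · exact lF_good (T := T) (x := Lt.f) (by decide) [Lt.c, Lt.bi, Lt.d, Lt.ci, Lt.di, Lt.b, Lt.ci, Lt.di] (hole_rel hinv hr (by decide +kernel)) h
theorem dp_f_103_s (hinv : ∀ x, g (inv x) = (g x)⁻¹) (hr : ∀ r ∈ rels, (r.map g).prod = 1) (hH : ∀ r ∈ subs, (r.map g).prod ∈ H)
    (j u : ℕ) (hu : u < M) (h : dp_f_103 j u = true) : Good (fa g) T MG M (cP g H) Lt.f u := by
  unfold dp_f_103 at h
  rcases brec_true h with h | h
  · exact dp_f_101_s hinv hr hH j u hu h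
  · exact dp_f_102_s hinv hr hH j u hu h
theorem dp_f_104_s (hinv : ∀ x, g (inv x) = (g x)⁻¹) (hr : ∀ r ∈ rels, (r.map g).prod = 1) (hH : ∀ r ∈ subs, (r.map g).prod ∈ H)
    (j u : ℕ) (hu : u < M) (h : dp_f_104 j u = true) : Good (fa g) T MG M (cP g H) Lt.f u := by
  unfold dp_f_104 at h
  rcases brec_true h with h | h
  · exact dp_f_100_s hinv hr hH j u hu h
  · exact dp_f_103_s hinv hr hH j u hu h
theorem dp_f_105_s (hinv : ∀ x, g (inv x) = (g x)⁻¹) (hr : ∀ r ∈ rels, (r.map g).prod = 1) (hH : ∀ r ∈ subs, (r.map g).prod ∈ H)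
    (j u : ℕ) (hu : u < M) (h : dp_f_105 j u = true) : Good (fa g) T MG M (cP g H) Lt.f u := by
  unfold dp_f_105 at h
  rcases brec_true h with h | h
  · exact dp_f_97_s hinv hr hH j u hu h
  · exact dp_f_104_s hinv hr hH j u hu h
theorem dp_f_106_s (hinv : ∀ x, g (inv x) = (g x)⁻¹) (hr : ∀ r ∈ rels, (r.map g).prod = 1) (hH : ∀ r ∈ subs, (r.map g).prod ∈ H)
    (j u : ℕ) (hu : u < M) (h : dp_f_106 j u = true) : Good (fa g) T MG M (cP g H) Lt.f u := by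
  unfold dp_f_106 at h
  rcases brec_true h with h | h
  · exact dp_f_90_s hinv hr hH j u hu h
  · exact dp_f_105_s hinv hr hH j u hu h
theorem dp_f_107_s (hinv : ∀ x, g (inv x) = (g x)⁻¹) (hr : ∀ r ∈ rels, (r.map g).prod = 1) (hH : ∀ r ∈ subs, (r.map g).prod ∈ H)
    (j u : ℕ) (hu : u < M) (h : dp_f_107 j u = true) : Good (fa g) T MG M (cP g H) Lt.f u := by
  unfold dp_f_107 at h
  rcases brec_true h with h | h
  · exact dp_f_84_s hinv hr hH j u hu h
  · exact dp_f_106_s hinv hr hH j u hu h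
theorem dp_f_108_s (hinv : ∀ x, g (inv x) = (g x)⁻¹) (hr : ∀ r ∈ rels, (r.map g).prod = 1) (hH : ∀ r ∈ subs, (r.map g).prod ∈ H)
    (j u : ℕ) (hu : u < M) (h : dp_f_108 j u = true) : Good (fa g) T MG M (cP g H) Lt.f u := by
  unfold dp_f_108 at h
  rcases brec_true h with h | h
  · exact dp_f_78_s hinv hr hH j u hu h
  · exact dp_f_107_s hinv hr hH j u hu h
theorem dp_f_109_s (hinv : ∀ x, g (inv x) = (g x)⁻¹) (hr : ∀ r ∈ rels, (r.map g).prod = 1) (hH : ∀ r ∈ subs, (r.map g).prod ∈ H)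
    (j u : ℕ) (hu : u < M) (h : dp_f_109 j u = true) : Good (fa g) T MG M (cP g H) Lt.f u := by
  unfold dp_f_109 at h
  rcases brec_true h with h | h
  · exact dp_f_71_s hinv hr hH j u hu h
  · exact dp_f_108_s hinv hr hH j u hu h
theorem dp_f_110_s (hinv : ∀ x, g (inv x) = (g x)⁻¹) (hr : ∀ r ∈ rels, (r.map g).prod = 1) (hH : ∀ r ∈ subs, (r.map g).prod ∈ H)
    (j u : ℕ) (hu : u < M) (h : dp_f_110 j u = true) : Good (fa g) T MG M (cP g H) Lt.f u := by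
  unfold dp_f_110 at h
  rcases brec_true h with h | h
  · exact dp_f_62_s hinv hr hH j u hu h
  · exact dp_f_109_s hinv hr hH j u hu h
theorem dp_f_111_s (hinv : ∀ x, g (inv x) = (g x)⁻¹) (hr : ∀ r ∈ rels, (r.map g).prod = 1) (hH : ∀ r ∈ subs, (r.map g).prod ∈ H)
    (j u : ℕ) (hu : u < M) (h : dp_f_111 j u = true) : Good (fa g) T MG M (cP g H) Lt.f u := by
  unfold dp_f_111 at h
  rcases brec_true h with h | h
  · exact dp_f_48_s hinv hr hH j u hu h
  · exact dp_f_110_s hinv hr hH j u hu h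
theorem dp_f_112_s (hinv : ∀ x, g (inv x) = (g x)⁻¹) (hr : ∀ r ∈ rels, (r.map g).prod = 1) (hH : ∀ r ∈ subs, (r.map g).prod ∈ H)
    (j u : ℕ) (hu : u < M) (h : dp_f_112 j u = true) : Good (fa g) T MG M (cP g H) Lt.f u := by
  unfold dp_f_112 at h
  rcases brec_true h with h | h
  · exact dp_f_28_s hinv hr hH j u hu h
  · exact dp_f_111_s hinv hr hH j u hu h
theorem snd_f (hinv : ∀ x, g (inv x) = (g x)⁻¹) (hr : ∀ r ∈ rels, (r.map g).prod = 1) (hH : ∀ r ∈ subs, (r.map g).prod ∈ H)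
    (j u : ℕ) (hu : u < M) (h : disp_f j u = true) : Good (fa g) T MG M (cP g H) Lt.f u := by
  unfold disp_f at h
  rcases brec_true h with h | h
  · rcases brec_true h with h | h
    · exact lF1_good (T := T) (x := Lt.f) (by decide) .fi (hole_rel hinv hr (by decide +kernel)) h
    · exact lDef_good (T := T) (x := Lt.f) (by decide) rfl h
  · rcases brec_true h with h | h
    · rcases brec_true h with h | h
      · exact lPar_good (T := T) (x := Lt.f) (x' := Lt.fi) (by decide) rfl (inv_rel hinv _ _ rfl) h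
      · rcases brec_true h with h | h
        · exact lS_good (T := T) (x := Lt.f) (by decide) hu [Lt.fi] (hole_rel hinv hr (by decide +kernel)) h
        · exact lF_good (T := T) (x := Lt.f) (by decide) [Lt.b, Lt.ci, Lt.fi, Lt.b, Lt.di, Lt.di, Lt.ci] (hole_rel hinv hr (by decide +kernel)) h
    · exact dp_f_112_s hinv hr hH j u hu h
theorem snc_f (hinv : ∀ x, g (inv x) = (g x)⁻¹) (hr : ∀ r ∈ rels, (r.map g).prod = 1) (hH : ∀ r ∈ subs, (r.map g).prod ∈ H)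
    (j u : ℕ) (hu : u < M) (h : chk_f j u = true) : (T Lt.f u < A ∧ Good (fa g) T MG M (cP g H) Lt.f u) ∨ (A ≤ T Lt.f u ∧ MG u < A) := by
  unfold chk_f at h
  cases hb : Nat.ble A (T_f u) with
  | true => rw [hb] at h; exact Or.inr ⟨le_of_ble hb, le_of_ble h⟩
  | false => rw [hb] at h; exact Or.inl ⟨lt_of_ble_false hb, snd_f hinv hr hH j u hu h⟩
theorem dp_fi_0_s (hinv : ∀ x, g (inv x) = (g x)⁻¹) (hr : ∀ r ∈ rels, (r.map g).prod = 1) (hH : ∀ r ∈ subs, (r.map g).prod ∈ H)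
    (j u : ℕ) (hu : u < M) (h : dp_fi_0 j u = true) : Good (fa g) T MG M (cP g H) Lt.fi u := by
  unfold dp_fi_0 at h
  rcases brec_true h with h | h
  · exact lS_good (T := T) (x := Lt.fi) (by decide) hu [Lt.ei, Lt.f, Lt.c, Lt.di, Lt.f, Lt.ei, Lt.f, Lt.e] (hole_rel hinv hr (by decide +kernel)) h
  · exact lF_good (T := T) (x := Lt.fi) (by decide) [Lt.ei, Lt.f, Lt.c, Lt.di, Lt.f, Lt.ei, Lt.f, Lt.e] (hole_rel hinv hr (by decide +kernel)) h
theorem dp_fi_1_s (hinv : ∀ x, g (inv x) = (g x)⁻¹) (hr : ∀ r ∈ rels, (r.map g).prod = 1) (hH : ∀ r ∈ subs, (r.map g).prod ∈ H)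
    (j u : ℕ) (hu : u < M) (h : dp_fi_1 j u = true) : Good (fa g) T MG M (cP g H) Lt.fi u := by
  unfold dp_fi_1 at h
  rcases brec_true h with h | h
  · exact lF_good (T := T) (x := Lt.fi) (by decide) [Lt.c, Lt.d, Lt.d, Lt.bi, Lt.f, Lt.c, Lt.bi] (hole_rel hinv hr (by decide +kernel)) h
  · exact dp_fi_0_s hinv hr hH j u hu h
theorem dp_fi_2_s (hinv : ∀ x, g (inv x) = (g x)⁻¹) (hr : ∀ r ∈ rels, (r.map g).prod = 1) (hH : ∀ r ∈ subs, (r.map g).prod ∈ H)
    (j u : ℕ) (hu : u < M) (h : dp_fi_2 j u = true) : Good (fa g) T MG M (cP g H) Lt.fi u := by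
  unfold dp_fi_2 at h
  rcases brec_true h with h | h
  · exact lF_good (T := T) (x := Lt.fi) (by decide) [Lt.di, Lt.bi, Lt.c, Lt.b, Lt.d, Lt.ci, Lt.fi] (hole_rel hinv hr (by decide +kernel)) h
  · exact lF_good (T := T) (x := Lt.fi) (by decide) [Lt.d, Lt.c, Lt.b, Lt.f, Lt.d, Lt.d, Lt.b] (hole_rel hinv hr (by decide +kernel)) h
theorem dp_fi_3_s (hinv : ∀ x, g (inv x) = (g x)⁻¹) (hr : ∀ r ∈ rels, (r.map g).prod = 1) (hH : ∀ r ∈ subs, (r.map g).prod ∈ H)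
    (j u : ℕ) (hu : u < M) (h : dp_fi_3 j u = true) : Good (fa g) T MG M (cP g H) Lt.fi u := by
  unfold dp_fi_3 at h
  rcases brec_true h with h | h
  · exact lS_good (T := T) (x := Lt.fi) (by decide) hu [Lt.c, Lt.d, Lt.d, Lt.bi, Lt.f, Lt.c, Lt.bi] (hole_rel hinv hr (by decide +kernel)) h
  · exact dp_fi_2_s hinv hr hH j u hu h
theorem dp_fi_4_s (hinv : ∀ x, g (inv x) = (g x)⁻¹) (hr : ∀ r ∈ rels, (r.map g).prod = 1) (hH : ∀ r ∈ subs, (r.map g).prod ∈ H)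
    (j u : ℕ) (hu : u < M) (h : dp_fi_4 j u = true) : Good (fa g) T MG M (cP g H) Lt.fi u := by
  unfold dp_fi_4 at h
  rcases brec_true h with h | h
  · exact dp_fi_1_s hinv hr hH j u hu h
  · exact dp_fi_3_s hinv hr hH j u hu h
theorem dp_fi_5_s (hinv : ∀ x, g (inv x) = (g x)⁻¹) (hr : ∀ r ∈ rels, (r.map g).prod = 1) (hH : ∀ r ∈ subs, (r.map g).prod ∈ H)
    (j u : ℕ) (hu : u < M) (h : dp_fi_5 j u = true) : Good (fa g) T MG M (cP g H) Lt.fi u := by
  unfold dp_fi_5 at h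
  rcases brec_true h with h | h
  · exact lF_good (T := T) (x := Lt.fi) (by decide) [Lt.di, Lt.b, Lt.c, Lt.d, Lt.ci, Lt.bi, Lt.d] (hole_rel hinv hr (by decide +kernel)) h
  · exact lF_good (T := T) (x := Lt.fi) (by decide) [Lt.b, Lt.c, Lt.b, Lt.ci, Lt.bi, Lt.fi, Lt.di] (hole_rel hinv hr (by decide +kernel)) h
theorem dp_fi_6_s (hinv : ∀ x, g (inv x) = (g x)⁻¹) (hr : ∀ r ∈ rels, (r.map g).prod = 1) (hH : ∀ r ∈ subs, (r.map g).prod ∈ H)
    (j u : ℕ) (hu : u < M) (h : dp_fi_6 j u = true) : Good (fa g) T MG M (cP g H) Lt.fi u := by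
  unfold dp_fi_6 at h
  rcases brec_true h with h | h
  · exact lF_good (T := T) (x := Lt.fi) (by decide) [Lt.b, Lt.di, Lt.di, Lt.ci, Lt.f, Lt.b, Lt.ci] (hole_rel hinv hr (by decide +kernel)) h
  · exact lS_good (T := T) (x := Lt.fi) (by decide) hu [Lt.di, Lt.bi, Lt.c, Lt.b, Lt.d, Lt.ci, Lt.fi] (hole_rel hinv hr (by decide +kernel)) h
theorem dp_fi_7_s (hinv : ∀ x, g (inv x) = (g x)⁻¹) (hr : ∀ r ∈ rels, (r.map g).prod = 1) (hH : ∀ r ∈ subs, (r.map g).prod ∈ H)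
    (j u : ℕ) (hu : u < M) (h : dp_fi_7 j u = true) : Good (fa g) T MG M (cP g H) Lt.fi u := by
  unfold dp_fi_7 at h
  rcases brec_true h with h | h
  · exact dp_fi_5_s hinv hr hH j u hu h
  · exact dp_fi_6_s hinv hr hH j u hu h
theorem dp_fi_8_s (hinv : ∀ x, g (inv x) = (g x)⁻¹) (hr : ∀ r ∈ rels, (r.map g).prod = 1) (hH : ∀ r ∈ subs, (r.map g).prod ∈ H)
    (j u : ℕ) (hu : u < M) (h : dp_fi_8 j u = true) : Good (fa g) T MG M (cP g H) Lt.fi u := by
  unfold dp_fi_8 at h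
  rcases brec_true h with h | h
  · exact lS_good (T := T) (x := Lt.fi) (by decide) hu [Lt.fi, Lt.di, Lt.bi, Lt.c, Lt.b, Lt.d, Lt.ci] (hole_rel hinv hr (by decide +kernel)) h
  · exact lS_good (T := T) (x := Lt.fi) (by decide) hu [Lt.di, Lt.ci, Lt.bi, Lt.ci, Lt.fi, Lt.d, Lt.bi] (hole_rel hinv hr (by decide +kernel)) h
theorem dp_fi_9_s (hinv : ∀ x, g (inv x) = (g x)⁻¹) (hr : ∀ r ∈ rels, (r.map g).prod = 1) (hH : ∀ r ∈ subs, (r.map g).prod ∈ H)
    (j u : ℕ) (hu : u < M) (h : dp_fi_9 j u = true) : Good (fa g) T MG M (cP g H) Lt.fi u := by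
  unfold dp_fi_9 at h
  rcases brec_true h with h | h
  · exact lF_good (T := T) (x := Lt.fi) (by decide) [Lt.d, Lt.bi, Lt.c, Lt.d, Lt.f, Lt.ci, Lt.b] (hole_rel hinv hr (by decide +kernel)) h
  · exact lF_good (T := T) (x := Lt.fi) (by decide) [Lt.bi, Lt.di, Lt.c, Lt.bi, Lt.d, Lt.fi, Lt.c] (hole_rel hinv hr (by decide +kernel)) h
theorem dp_fi_10_s (hinv : ∀ x, g (inv x) = (g x)⁻¹) (hr : ∀ r ∈ rels, (r.map g).prod = 1) (hH : ∀ r ∈ subs, (r.map g).prod ∈ H)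
    (j u : ℕ) (hu : u < M) (h : dp_fi_10 j u = true) : Good (fa g) T MG M (cP g H) Lt.fi u := by
  unfold dp_fi_10 at h
  rcases brec_true h with h | h
  · exact dp_fi_8_s hinv hr hH j u hu h
  · exact dp_fi_9_s hinv hr hH j u hu h
theorem dp_fi_11_s (hinv : ∀ x, g (inv x) = (g x)⁻¹) (hr : ∀ r ∈ rels, (r.map g).prod = 1) (hH : ∀ r ∈ subs, (r.map g).prod ∈ H)
    (j u : ℕ) (hu : u < M) (h : dp_fi_11 j u = true) : Good (fa g) T MG M (cP g H) Lt.fi u := by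
  unfold dp_fi_11 at h
  rcases brec_true h with h | h
  · exact dp_fi_7_s hinv hr hH j u hu h
  · exact dp_fi_10_s hinv hr hH j u hu h
theorem dp_fi_12_s (hinv : ∀ x, g (inv x) = (g x)⁻¹) (hr : ∀ r ∈ rels, (r.map g).prod = 1) (hH : ∀ r ∈ subs, (r.map g).prod ∈ H)
    (j u : ℕ) (hu : u < M) (h : dp_fi_12 j u = true) : Good (fa g) T MG M (cP g H) Lt.fi u := by
  unfold dp_fi_12 at h
  rcases brec_true h with h | h
  · exact dp_fi_4_s hinv hr hH j u hu h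
  · exact dp_fi_11_s hinv hr hH j u hu h
theorem dp_fi_13_s (hinv : ∀ x, g (inv x) = (g x)⁻¹) (hr : ∀ r ∈ rels, (r.map g).prod = 1) (hH : ∀ r ∈ subs, (r.map g).prod ∈ H)
    (j u : ℕ) (hu : u < M) (h : dp_fi_13 j u = true) : Good (fa g) T MG M (cP g H) Lt.fi u := by
  unfold dp_fi_13 at h
  rcases brec_true h with h | h
  · exact lF_good (T := T) (x := Lt.fi) (by decide) [Lt.e, Lt.fi, Lt.d, Lt.ci, Lt.fi, Lt.e, Lt.f, Lt.ei] (hole_rel hinv hr (by decide +kernel)) h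
  · exact lS_good (T := T) (x := Lt.fi) (by decide) hu [Lt.ci, Lt.b, Lt.f, Lt.ci, Lt.ci, Lt.f, Lt.bi] (hole_rel hinv hr (by decide +kernel)) h
theorem dp_fi_14_s (hinv : ∀ x, g (inv x) = (g x)⁻¹) (hr : ∀ r ∈ rels, (r.map g).prod = 1) (hH : ∀ r ∈ subs, (r.map g).prod ∈ H)
    (j u : ℕ) (hu : u < M) (h : dp_fi_14 j u = true) : Good (fa g) T MG M (cP g H) Lt.fi u := by
  unfold dp_fi_14 at h
  rcases brec_true h with h | h
  · exact lS_good (T := T) (x := Lt.fi) (by decide) hu [Lt.di, Lt.b, Lt.c, Lt.d, Lt.ci, Lt.bi, Lt.d] (hole_rel hinv hr (by decide +kernel)) h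
  · exact lS_good (T := T) (x := Lt.fi) (by decide) hu [Lt.c, Lt.c, Lt.fi, Lt.bi, Lt.c, Lt.f, Lt.b] (hole_rel hinv hr (by decide +kernel)) h
theorem dp_fi_15_s (hinv : ∀ x, g (inv x) = (g x)⁻¹) (hr : ∀ r ∈ rels, (r.map g).prod = 1) (hH : ∀ r ∈ subs, (r.map g).prod ∈ H)
    (j u : ℕ) (hu : u < M) (h : dp_fi_15 j u = true) : Good (fa g) T MG M (cP g H) Lt.fi u := by
  unfold dp_fi_15 at h
  rcases brec_true h with h | h
  · exact dp_fi_13_s hinv hr hH j u hu h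
  · exact dp_fi_14_s hinv hr hH j u hu h
theorem dp_fi_16_s (hinv : ∀ x, g (inv x) = (g x)⁻¹) (hr : ∀ r ∈ rels, (r.map g).prod = 1) (hH : ∀ r ∈ subs, (r.map g).prod ∈ H)
    (j u : ℕ) (hu : u < M) (h : dp_fi_16 j u = true) : Good (fa g) T MG M (cP g H) Lt.fi u := by
  unfold dp_fi_16 at h
  rcases brec_true h with h | h
  · exact lF_good (T := T) (x := Lt.fi) (by decide) [Lt.fi, Lt.d, Lt.fi, Lt.d, Lt.d, Lt.f, Lt.d] (hole_rel hinv hr (by decide +kernel)) h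
  · exact lS_good (T := T) (x := Lt.fi) (by decide) hu [Lt.e, Lt.fi, Lt.d, Lt.ci, Lt.fi, Lt.e, Lt.f, Lt.ei] (hole_rel hinv hr (by decide +kernel)) h
theorem dp_fi_17_s (hinv : ∀ x, g (inv x) = (g x)⁻¹) (hr : ∀ r ∈ rels, (r.map g).prod = 1) (hH : ∀ r ∈ subs, (r.map g).prod ∈ H)
    (j u : ℕ) (hu : u < M) (h : dp_fi_17 j u = true) : Good (fa g) T MG M (cP g H) Lt.fi u := by
  unfold dp_fi_17 at h
  rcases brec_true h with h | h
  · exact lS_good (T := T) (x := Lt.fi) (by decide) hu [Lt.ei, Lt.f, Lt.e, Lt.c, Lt.di, Lt.f, Lt.f, Lt.e] (hole_rel hinv hr (by decide +kernel)) h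
  · exact lS_good (T := T) (x := Lt.fi) (by decide) hu [Lt.d, Lt.c, Lt.b, Lt.f, Lt.d, Lt.d, Lt.b] (hole_rel hinv hr (by decide +kernel)) h
theorem dp_fi_18_s (hinv : ∀ x, g (inv x) = (g x)⁻¹) (hr : ∀ r ∈ rels, (r.map g).prod = 1) (hH : ∀ r ∈ subs, (r.map g).prod ∈ H)
    (j u : ℕ) (hu : u < M) (h : dp_fi_18 j u = true) : Good (fa g) T MG M (cP g H) Lt.fi u := by
  unfold dp_fi_18 at h
  rcases brec_true h with h | h
  · exact dp_fi_16_s hinv hr hH j u hu h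
  · exact dp_fi_17_s hinv hr hH j u hu h
theorem dp_fi_19_s (hinv : ∀ x, g (inv x) = (g x)⁻¹) (hr : ∀ r ∈ rels, (r.map g).prod = 1) (hH : ∀ r ∈ subs, (r.map g).prod ∈ H)
    (j u : ℕ) (hu : u < M) (h : dp_fi_19 j u = true) : Good (fa g) T MG M (cP g H) Lt.fi u := by
  unfold dp_fi_19 at h
  rcases brec_true h with h | h
  · exact dp_fi_15_s hinv hr hH j u hu h
  · exact dp_fi_18_s hinv hr hH j u hu h
theorem dp_fi_20_s (hinv : ∀ x, g (inv x) = (g x)⁻¹) (hr : ∀ r ∈ rels, (r.map g).prod = 1) (hH : ∀ r ∈ subs, (r.map g).prod ∈ H)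
    (j u : ℕ) (hu : u < M) (h : dp_fi_20 j u = true) : Good (fa g) T MG M (cP g H) Lt.fi u := by
  unfold dp_fi_20 at h
  rcases brec_true h with h | h
  · exact lS_good (T := T) (x := Lt.fi) (by decide) hu [Lt.e, Lt.f, Lt.ei, Lt.fi, Lt.fi, Lt.d, Lt.ci, Lt.ei] (hole_rel hinv hr (by decide +kernel)) h
  · exact lF_good (T := T) (x := Lt.fi) (by decide) [Lt.b, Lt.b, Lt.f, Lt.ci, Lt.d, Lt.fi, Lt.bi] (hole_rel hinv hr (by decide +kernel)) h
theorem dp_fi_21_s (hinv : ∀ x, g (inv x) = (g x)⁻¹) (hr : ∀ r ∈ rels, (r.map g).prod = 1) (hH : ∀ r ∈ subs, (r.map g).prod ∈ H)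
    (j u : ℕ) (hu : u < M) (h : dp_fi_21 j u = true) : Good (fa g) T MG M (cP g H) Lt.fi u := by
  unfold dp_fi_21 at h
  rcases brec_true h with h | h
  · exact lS_good (T := T) (x := Lt.fi) (by decide) hu [Lt.b, Lt.b, Lt.f, Lt.ci, Lt.d, Lt.fi, Lt.bi] (hole_rel hinv hr (by decide +kernel)) h
  · exact lF_good (T := T) (x := Lt.fi) (by decide) [Lt.e, Lt.f, Lt.ei, Lt.fi, Lt.fi, Lt.d, Lt.ci, Lt.ei] (hole_rel hinv hr (by decide +kernel)) h
theorem dp_fi_22_s (hinv : ∀ x, g (inv x) = (g x)⁻¹) (hr : ∀ r ∈ rels, (r.map g).prod = 1) (hH : ∀ r ∈ subs, (r.map g).prod ∈ H)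
    (j u : ℕ) (hu : u < M) (h : dp_fi_22 j u = true) : Good (fa g) T MG M (cP g H) Lt.fi u := by
  unfold dp_fi_22 at h
  rcases brec_true h with h | h
  · exact dp_fi_20_s hinv hr hH j u hu h
  · exact dp_fi_21_s hinv hr hH j u hu h
theorem dp_fi_23_s (hinv : ∀ x, g (inv x) = (g x)⁻¹) (hr : ∀ r ∈ rels, (r.map g).prod = 1) (hH : ∀ r ∈ subs, (r.map g).prod ∈ H)
    (j u : ℕ) (hu : u < M) (h : dp_fi_23 j u = true) : Good (fa g) T MG M (cP g H) Lt.fi u := by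
  unfold dp_fi_23 at h
  rcases brec_true h with h | h
  · exact lS_good (T := T) (x := Lt.fi) (by decide) hu [Lt.bi, Lt.di, Lt.c, Lt.bi, Lt.d, Lt.fi, Lt.c] (hole_rel hinv hr (by decide +kernel)) h
  · exact lS_good (T := T) (x := Lt.fi) (by decide) hu [Lt.b, Lt.di, Lt.di, Lt.ci, Lt.f, Lt.b, Lt.ci] (hole_rel hinv hr (by decide +kernel)) h
theorem dp_fi_24_s (hinv : ∀ x, g (inv x) = (g x)⁻¹) (hr : ∀ r ∈ rels, (r.map g).prod = 1) (hH : ∀ r ∈ subs, (r.map g).prod ∈ H)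
    (j u : ℕ) (hu : u < M) (h : dp_fi_24 j u = true) : Good (fa g) T MG M (cP g H) Lt.fi u := by
  unfold dp_fi_24 at h
  rcases brec_true h with h | h
  · exact lS_good (T := T) (x := Lt.fi) (by decide) hu [Lt.b, Lt.c, Lt.b, Lt.ci, Lt.bi, Lt.fi, Lt.di] (hole_rel hinv hr (by decide +kernel)) h
  · exact lF_good (T := T) (x := Lt.fi) (by decide) [Lt.b, Lt.c, Lt.d, Lt.c, Lt.bi, Lt.di, Lt.c] (hole_rel hinv hr (by decide +kernel)) h
theorem dp_fi_25_s (hinv : ∀ x, g (inv x) = (g x)⁻¹) (hr : ∀ r ∈ rels, (r.map g).prod = 1) (hH : ∀ r ∈ subs, (r.map g).prod ∈ H)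
    (j u : ℕ) (hu : u < M) (h : dp_fi_25 j u = true) : Good (fa g) T MG M (cP g H) Lt.fi u := by
  unfold dp_fi_25 at h
  rcases brec_true h with h | h
  · exact lS_good (T := T) (x := Lt.fi) (by decide) hu [Lt.d, Lt.d, Lt.b, Lt.c, Lt.bi, Lt.ci, Lt.bi] (hole_rel hinv hr (by decide +kernel)) h
  · exact dp_fi_24_s hinv hr hH j u hu h
theorem dp_fi_26_s (hinv : ∀ x, g (inv x) = (g x)⁻¹) (hr : ∀ r ∈ rels, (r.map g).prod = 1) (hH : ∀ r ∈ subs, (r.map g).prod ∈ H)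
    (j u : ℕ) (hu : u < M) (h : dp_fi_26 j u = true) : Good (fa g) T MG M (cP g H) Lt.fi u := by
  unfold dp_fi_26 at h
  rcases brec_true h with h | h
  · exact dp_fi_23_s hinv hr hH j u hu h
  · exact dp_fi_25_s hinv hr hH j u hu h
theorem dp_fi_27_s (hinv : ∀ x, g (inv x) = (g x)⁻¹) (hr : ∀ r ∈ rels, (r.map g).prod = 1) (hH : ∀ r ∈ subs, (r.map g).prod ∈ H)
    (j u : ℕ) (hu : u < M) (h : dp_fi_27 j u = true) : Good (fa g) T MG M (cP g H) Lt.fi u := by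
  unfold dp_fi_27 at h
  rcases brec_true h with h | h
  · exact dp_fi_22_s hinv hr hH j u hu h
  · exact dp_fi_26_s hinv hr hH j u hu h
theorem dp_fi_28_s (hinv : ∀ x, g (inv x) = (g x)⁻¹) (hr : ∀ r ∈ rels, (r.map g).prod = 1) (hH : ∀ r ∈ subs, (r.map g).prod ∈ H)
    (j u : ℕ) (hu : u < M) (h : dp_fi_28 j u = true) : Good (fa g) T MG M (cP g H) Lt.fi u := by
  unfold dp_fi_28 at h
  rcases brec_true h with h | h
  · exact dp_fi_19_s hinv hr hH j u hu h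
  · exact dp_fi_27_s hinv hr hH j u hu h
theorem dp_fi_29_s (hinv : ∀ x, g (inv x) = (g x)⁻¹) (hr : ∀ r ∈ rels, (r.map g).prod = 1) (hH : ∀ r ∈ subs, (r.map g).prod ∈ H)
    (j u : ℕ) (hu : u < M) (h : dp_fi_29 j u = true) : Good (fa g) T MG M (cP g H) Lt.fi u := by
  unfold dp_fi_29 at h
  rcases brec_true h with h | h
  · exact dp_fi_12_s hinv hr hH j u hu h
  · exact dp_fi_28_s hinv hr hH j u hu h
theorem dp_fi_30_s (hinv : ∀ x, g (inv x) = (g x)⁻¹) (hr : ∀ r ∈ rels, (r.map g).prod = 1) (hH : ∀ r ∈ subs, (r.map g).prod ∈ H)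
    (j u : ℕ) (hu : u < M) (h : dp_fi_30 j u = true) : Good (fa g) T MG M (cP g H) Lt.fi u := by
  unfold dp_fi_30 at h
  rcases brec_true h with h | h
  · exact lS_good (T := T) (x := Lt.fi) (by decide) hu [Lt.c, Lt.fi, Lt.bi, Lt.di, Lt.c, Lt.bi, Lt.d] (hole_rel hinv hr (by decide +kernel)) h
  · exact lS_good (T := T) (x := Lt.fi) (by decide) hu [Lt.d, Lt.bi, Lt.c, Lt.d, Lt.f, Lt.ci, Lt.b] (hole_rel hinv hr (by decide +kernel)) h
theorem dp_fi_31_s (hinv : ∀ x, g (inv x) = (g x)⁻¹) (hr : ∀ r ∈ rels, (r.map g).prod = 1) (hH : ∀ r ∈ subs, (r.map g).prod ∈ H)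
    (j u : ℕ) (hu : u < M) (h : dp_fi_31 j u = true) : Good (fa g) T MG M (cP g H) Lt.fi u := by
  unfold dp_fi_31 at h
  rcases brec_true h with h | h
  · exact lS_good (T := T) (x := Lt.fi) (by decide) hu [Lt.bi, Lt.d, Lt.ci, Lt.fi, Lt.bi, Lt.d, Lt.ci] (hole_rel hinv hr (by decide +kernel)) h
  · exact lS_good (T := T) (x := Lt.fi) (by decide) hu [Lt.bi, Lt.bi, Lt.f, Lt.b, Lt.f, Lt.di, Lt.c] (hole_rel hinv hr (by decide +kernel)) h
theorem dp_fi_32_s (hinv : ∀ x, g (inv x) = (g x)⁻¹) (hr : ∀ r ∈ rels, (r.map g).prod = 1) (hH : ∀ r ∈ subs, (r.map g).prod ∈ H)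
    (j u : ℕ) (hu : u < M) (h : dp_fi_32 j u = true) : Good (fa g) T MG M (cP g H) Lt.fi u := by
  unfold dp_fi_32 at h
  rcases brec_true h with h | h
  · exact lS_good (T := T) (x := Lt.fi) (by decide) hu [Lt.fi, Lt.d, Lt.fi, Lt.d, Lt.d, Lt.f, Lt.d] (hole_rel hinv hr (by decide +kernel)) h
  · exact dp_fi_31_s hinv hr hH j u hu h
theorem dp_fi_33_s (hinv : ∀ x, g (inv x) = (g x)⁻¹) (hr : ∀ r ∈ rels, (r.map g).prod = 1) (hH : ∀ r ∈ subs, (r.map g).prod ∈ H)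
    (j u : ℕ) (hu : u < M) (h : dp_fi_33 j u = true) : Good (fa g) T MG M (cP g H) Lt.fi u := by
  unfold dp_fi_33 at h
  rcases brec_true h with h | h
  · exact dp_fi_30_s hinv hr hH j u hu h
  · exact dp_fi_32_s hinv hr hH j u hu h
theorem dp_fi_34_s (hinv : ∀ x, g (inv x) = (g x)⁻¹) (hr : ∀ r ∈ rels, (r.map g).prod = 1) (hH : ∀ r ∈ subs, (r.map g).prod ∈ H)
    (j u : ℕ) (hu : u < M) (h : dp_fi_34 j u = true) : Good (fa g) T MG M (cP g H) Lt.fi u := by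
  unfold dp_fi_34 at h
  rcases brec_true h with h | h
  · exact lS_good (T := T) (x := Lt.fi) (by decide) hu [Lt.bi, Lt.c, Lt.f, Lt.b, Lt.fi, Lt.c, Lt.c] (hole_rel hinv hr (by decide +kernel)) h
  · exact lF_good (T := T) (x := Lt.fi) (by decide) [Lt.d, Lt.fi, Lt.d, Lt.d, Lt.f, Lt.d, Lt.fi] (hole_rel hinv hr (by decide +kernel)) h
theorem dp_fi_35_s (hinv : ∀ x, g (inv x) = (g x)⁻¹) (hr : ∀ r ∈ rels, (r.map g).prod = 1) (hH : ∀ r ∈ subs, (r.map g).prod ∈ H)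
    (j u : ℕ) (hu : u < M) (h : dp_fi_35 j u = true) : Good (fa g) T MG M (cP g H) Lt.fi u := by
  unfold dp_fi_35 at h
  rcases brec_true h with h | h
  · exact lS_good (T := T) (x := Lt.fi) (by decide) hu [Lt.d, Lt.fi, Lt.d, Lt.d, Lt.f, Lt.d, Lt.fi] (hole_rel hinv hr (by decide +kernel)) h
  · exact lF_good (T := T) (x := Lt.fi) (by decide) [Lt.ci, Lt.b, Lt.f, Lt.ci, Lt.ci, Lt.f, Lt.bi] (hole_rel hinv hr (by decide +kernel)) h
theorem dp_fi_36_s (hinv : ∀ x, g (inv x) = (g x)⁻¹) (hr : ∀ r ∈ rels, (r.map g).prod = 1) (hH : ∀ r ∈ subs, (r.map g).prod ∈ H)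
    (j u : ℕ) (hu : u < M) (h : dp_fi_36 j u = true) : Good (fa g) T MG M (cP g H) Lt.fi u := by
  unfold dp_fi_36 at h
  rcases brec_true h with h | h
  · exact lS_good (T := T) (x := Lt.fi) (by decide) hu [Lt.di, Lt.ci, Lt.b, Lt.di, Lt.f, Lt.bi, Lt.c] (hole_rel hinv hr (by decide +kernel)) h
  · exact dp_fi_35_s hinv hr hH j u hu h
theorem dp_fi_37_s (hinv : ∀ x, g (inv x) = (g x)⁻¹) (hr : ∀ r ∈ rels, (r.map g).prod = 1) (hH : ∀ r ∈ subs, (r.map g).prod ∈ H)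
    (j u : ℕ) (hu : u < M) (h : dp_fi_37 j u = true) : Good (fa g) T MG M (cP g H) Lt.fi u := by
  unfold dp_fi_37 at h
  rcases brec_true h with h | h
  · exact dp_fi_34_s hinv hr hH j u hu h
  · exact dp_fi_36_s hinv hr hH j u hu h
theorem dp_fi_38_s (hinv : ∀ x, g (inv x) = (g x)⁻¹) (hr : ∀ r ∈ rels, (r.map g).prod = 1) (hH : ∀ r ∈ subs, (r.map g).prod ∈ H)
    (j u : ℕ) (hu : u < M) (h : dp_fi_38 j u = true) : Good (fa g) T MG M (cP g H) Lt.fi u := by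
  unfold dp_fi_38 at h
  rcases brec_true h with h | h
  · exact dp_fi_33_s hinv hr hH j u hu h
  · exact dp_fi_37_s hinv hr hH j u hu h
theorem dp_fi_39_s (hinv : ∀ x, g (inv x) = (g x)⁻¹) (hr : ∀ r ∈ rels, (r.map g).prod = 1) (hH : ∀ r ∈ subs, (r.map g).prod ∈ H)
    (j u : ℕ) (hu : u < M) (h : dp_fi_39 j u = true) : Good (fa g) T MG M (cP g H) Lt.fi u := by
  unfold dp_fi_39 at h
  rcases brec_true h with h | h
  · exact lF_good (T := T) (x := Lt.fi) (by decide) [Lt.c, Lt.c, Lt.fi, Lt.bi, Lt.c, Lt.f, Lt.b] (hole_rel hinv hr (by decide +kernel)) h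
  · exact lS_good (T := T) (x := Lt.fi) (by decide) hu [Lt.b, Lt.c, Lt.d, Lt.c, Lt.bi, Lt.di, Lt.c] (hole_rel hinv hr (by decide +kernel)) h
theorem dp_fi_40_s (hinv : ∀ x, g (inv x) = (g x)⁻¹) (hr : ∀ r ∈ rels, (r.map g).prod = 1) (hH : ∀ r ∈ subs, (r.map g).prod ∈ H)
    (j u : ℕ) (hu : u < M) (h : dp_fi_40 j u = true) : Good (fa g) T MG M (cP g H) Lt.fi u := by
  unfold dp_fi_40 at h
  rcases brec_true h with h | h
  · exact lF_good (T := T) (x := Lt.fi) (by decide) [Lt.di, Lt.di, Lt.f, Lt.di, Lt.f, Lt.f, Lt.di] (hole_rel hinv hr (by decide +kernel)) h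
  · exact dp_fi_39_s hinv hr hH j u hu h
theorem dp_fi_41_s (hinv : ∀ x, g (inv x) = (g x)⁻¹) (hr : ∀ r ∈ rels, (r.map g).prod = 1) (hH : ∀ r ∈ subs, (r.map g).prod ∈ H)
    (j u : ℕ) (hu : u < M) (h : dp_fi_41 j u = true) : Good (fa g) T MG M (cP g H) Lt.fi u := by
  unfold dp_fi_41 at h
  rcases brec_true h with h | h
  · exact lF_good (T := T) (x := Lt.fi) (by decide) [Lt.d, Lt.bi, Lt.c, Lt.b, Lt.c, Lt.c, Lt.d] (hole_rel hinv hr (by decide +kernel)) h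
  · exact lF_good (T := T) (x := Lt.fi) (by decide) [Lt.d, Lt.d, Lt.b, Lt.c, Lt.bi, Lt.ci, Lt.bi] (hole_rel hinv hr (by decide +kernel)) h
theorem dp_fi_42_s (hinv : ∀ x, g (inv x) = (g x)⁻¹) (hr : ∀ r ∈ rels, (r.map g).prod = 1) (hH : ∀ r ∈ subs, (r.map g).prod ∈ H)
    (j u : ℕ) (hu : u < M) (h : dp_fi_42 j u = true) : Good (fa g) T MG M (cP g H) Lt.fi u := by
  unfold dp_fi_42 at h
  rcases brec_true h with h | h
  · exact lF_good (T := T) (x := Lt.fi) (by decide) [Lt.bi, Lt.d, Lt.ci, Lt.fi, Lt.bi, Lt.d, Lt.ci] (hole_rel hinv hr (by decide +kernel)) h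
  · exact dp_fi_41_s hinv hr hH j u hu h
theorem dp_fi_43_s (hinv : ∀ x, g (inv x) = (g x)⁻¹) (hr : ∀ r ∈ rels, (r.map g).prod = 1) (hH : ∀ r ∈ subs, (r.map g).prod ∈ H)
    (j u : ℕ) (hu : u < M) (h : dp_fi_43 j u = true) : Good (fa g) T MG M (cP g H) Lt.fi u := by
  unfold dp_fi_43 at h
  rcases brec_true h with h | h
  · exact dp_fi_40_s hinv hr hH j u hu h
  · exact dp_fi_42_s hinv hr hH j u hu h
theorem dp_fi_44_s (hinv : ∀ x, g (inv x) = (g x)⁻¹) (hr : ∀ r ∈ rels, (r.map g).prod = 1) (hH : ∀ r ∈ subs, (r.map g).prod ∈ H)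
    (j u : ℕ) (hu : u < M) (h : dp_fi_44 j u = true) : Good (fa g) T MG M (cP g H) Lt.fi u := by
  unfold dp_fi_44 at h
  rcases brec_true h with h | h
  · exact lF_good (T := T) (x := Lt.fi) (by decide) [Lt.c, Lt.di, Lt.di, Lt.fi, Lt.c, Lt.di, Lt.di] (hole_rel hinv hr (by decide +kernel)) h
  · exact lS_good (T := T) (x := Lt.fi) (by decide) hu [Lt.bi, Lt.d, Lt.c, Lt.b, Lt.b, Lt.ci, Lt.fi] (hole_rel hinv hr (by decide +kernel)) h
theorem dp_fi_45_s (hinv : ∀ x, g (inv x) = (g x)⁻¹) (hr : ∀ r ∈ rels, (r.map g).prod = 1) (hH : ∀ r ∈ subs, (r.map g).prod ∈ H)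
    (j u : ℕ) (hu : u < M) (h : dp_fi_45 j u = true) : Good (fa g) T MG M (cP g H) Lt.fi u := by
  unfold dp_fi_45 at h
  rcases brec_true h with h | h
  · exact lF_good (T := T) (x := Lt.fi) (by decide) [Lt.d, Lt.bi, Lt.fi, Lt.di, Lt.ci, Lt.bi, Lt.ci] (hole_rel hinv hr (by decide +kernel)) h
  · exact dp_fi_44_s hinv hr hH j u hu h
theorem dp_fi_46_s (hinv : ∀ x, g (inv x) = (g x)⁻¹) (hr : ∀ r ∈ rels, (r.map g).prod = 1) (hH : ∀ r ∈ subs, (r.map g).prod ∈ H)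
    (j u : ℕ) (hu : u < M) (h : dp_fi_46 j u = true) : Good (fa g) T MG M (cP g H) Lt.fi u := by
  unfold dp_fi_46 at h
  rcases brec_true h with h | h
  · exact lS_good (T := T) (x := Lt.fi) (by decide) hu [Lt.d, Lt.bi, Lt.c, Lt.b, Lt.c, Lt.c, Lt.d] (hole_rel hinv hr (by decide +kernel)) h
  · exact lF_good (T := T) (x := Lt.fi) (by decide) [Lt.bi, Lt.d, Lt.c, Lt.b, Lt.b, Lt.ci, Lt.fi] (hole_rel hinv hr (by decide +kernel)) h
theorem dp_fi_47_s (hinv : ∀ x, g (inv x) = (g x)⁻¹) (hr : ∀ r ∈ rels, (r.map g).prod = 1) (hH : ∀ r ∈ subs, (r.map g).prod ∈ H)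
    (j u : ℕ) (hu : u < M) (h : dp_fi_47 j u = true) : Good (fa g) T MG M (cP g H) Lt.fi u := by
  unfold dp_fi_47 at h
  rcases brec_true h with h | h
  · exact lS_good (T := T) (x := Lt.fi) (by decide) hu [Lt.fi, Lt.bi, Lt.d, Lt.c, Lt.b, Lt.b, Lt.ci] (hole_rel hinv hr (by decide +kernel)) h
  · exact dp_fi_46_s hinv hr hH j u hu h
theorem dp_fi_48_s (hinv : ∀ x, g (inv x) = (g x)⁻¹) (hr : ∀ r ∈ rels, (r.map g).prod = 1) (hH : ∀ r ∈ subs, (r.map g).prod ∈ H)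
    (j u : ℕ) (hu : u < M) (h : dp_fi_48 j u = true) : Good (fa g) T MG M (cP g H) Lt.fi u := by
  unfold dp_fi_48 at h
  rcases brec_true h with h | h
  · exact dp_fi_45_s hinv hr hH j u hu h
  · exact dp_fi_47_s hinv hr hH j u hu h
theorem dp_fi_49_s (hinv : ∀ x, g (inv x) = (g x)⁻¹) (hr : ∀ r ∈ rels, (r.map g).prod = 1) (hH : ∀ r ∈ subs, (r.map g).prod ∈ H)
    (j u : ℕ) (hu : u < M) (h : dp_fi_49 j u = true) : Good (fa g) T MG M (cP g H) Lt.fi u := by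
  unfold dp_fi_49 at h
  rcases brec_true h with h | h
  · exact dp_fi_43_s hinv hr hH j u hu h
  · exact dp_fi_48_s hinv hr hH j u hu h
theorem dp_fi_50_s (hinv : ∀ x, g (inv x) = (g x)⁻¹) (hr : ∀ r ∈ rels, (r.map g).prod = 1) (hH : ∀ r ∈ subs, (r.map g).prod ∈ H)
    (j u : ℕ) (hu : u < M) (h : dp_fi_50 j u = true) : Good (fa g) T MG M (cP g H) Lt.fi u := by
  unfold dp_fi_50 at h
  rcases brec_true h with h | h
  · exact dp_fi_38_s hinv hr hH j u hu h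
  · exact dp_fi_49_s hinv hr hH j u hu h
theorem dp_fi_51_s (hinv : ∀ x, g (inv x) = (g x)⁻¹) (hr : ∀ r ∈ rels, (r.map g).prod = 1) (hH : ∀ r ∈ subs, (r.map g).prod ∈ H)
    (j u : ℕ) (hu : u < M) (h : dp_fi_51 j u = true) : Good (fa g) T MG M (cP g H) Lt.fi u := by
  unfold dp_fi_51 at h
  rcases brec_true h with h | h
  · exact lF_good (T := T) (x := Lt.fi) (by decide) [Lt.fi, Lt.bi, Lt.d, Lt.c, Lt.b, Lt.b, Lt.ci] (hole_rel hinv hr (by decide +kernel)) h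
  · exact lS_good (T := T) (x := Lt.fi) (by decide) hu [Lt.bi, Lt.f, Lt.e, Lt.f, Lt.ci, Lt.b, Lt.e, Lt.di] (hole_rel hinv hr (by decide +kernel)) h
theorem dp_fi_52_s (hinv : ∀ x, g (inv x) = (g x)⁻¹) (hr : ∀ r ∈ rels, (r.map g).prod = 1) (hH : ∀ r ∈ subs, (r.map g).prod ∈ H)
    (j u : ℕ) (hu : u < M) (h : dp_fi_52 j u = true) : Good (fa g) T MG M (cP g H) Lt.fi u := by
  unfold dp_fi_52 at h
  rcases brec_true h with h | h
  · exact lF_good (T := T) (x := Lt.fi) (by decide) [Lt.c, Lt.fi, Lt.bi, Lt.di, Lt.c, Lt.bi, Lt.d] (hole_rel hinv hr (by decide +kernel)) h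
  · exact dp_fi_51_s hinv hr hH j u hu h
theorem dp_fi_53_s (hinv : ∀ x, g (inv x) = (g x)⁻¹) (hr : ∀ r ∈ rels, (r.map g).prod = 1) (hH : ∀ r ∈ subs, (r.map g).prod ∈ H)
    (j u : ℕ) (hu : u < M) (h : dp_fi_53 j u = true) : Good (fa g) T MG M (cP g H) Lt.fi u := by
  unfold dp_fi_53 at h
  rcases brec_true h with h | h
  · exact lS_good (T := T) (x := Lt.fi) (by decide) hu [Lt.b, Lt.c, Lt.bi, Lt.di, Lt.ci, Lt.bi, Lt.di] (hole_rel hinv hr (by decide +kernel)) h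
  · exact lF_good (T := T) (x := Lt.fi) (by decide) [Lt.di, Lt.ci, Lt.b, Lt.di, Lt.f, Lt.bi, Lt.c] (hole_rel hinv hr (by decide +kernel)) h
theorem dp_fi_54_s (hinv : ∀ x, g (inv x) = (g x)⁻¹) (hr : ∀ r ∈ rels, (r.map g).prod = 1) (hH : ∀ r ∈ subs, (r.map g).prod ∈ H)
    (j u : ℕ) (hu : u < M) (h : dp_fi_54 j u = true) : Good (fa g) T MG M (cP g H) Lt.fi u := by
  unfold dp_fi_54 at h
  rcases brec_true h with h | h
  · exact lS_good (T := T) (x := Lt.fi) (by decide) hu [Lt.bi, Lt.ci, Lt.di, Lt.f, Lt.bi, Lt.di, Lt.di] (hole_rel hinv hr (by decide +kernel)) h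
  · exact lS_good (T := T) (x := Lt.fi) (by decide) hu [Lt.bi, Lt.fi, Lt.b, Lt.b, Lt.f, Lt.ci, Lt.d] (hole_rel hinv hr (by decide +kernel)) h
theorem dp_fi_55_s (hinv : ∀ x, g (inv x) = (g x)⁻¹) (hr : ∀ r ∈ rels, (r.map g).prod = 1) (hH : ∀ r ∈ subs, (r.map g).prod ∈ H)
    (j u : ℕ) (hu : u < M) (h : dp_fi_55 j u = true) : Good (fa g) T MG M (cP g H) Lt.fi u := by
  unfold dp_fi_55 at h
  rcases brec_true h with h | h
  · exact dp_fi_53_s hinv hr hH j u hu h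
  · exact dp_fi_54_s hinv hr hH j u hu h
theorem dp_fi_56_s (hinv : ∀ x, g (inv x) = (g x)⁻¹) (hr : ∀ r ∈ rels, (r.map g).prod = 1) (hH : ∀ r ∈ subs, (r.map g).prod ∈ H)
    (j u : ℕ) (hu : u < M) (h : dp_fi_56 j u = true) : Good (fa g) T MG M (cP g H) Lt.fi u := by
  unfold dp_fi_56 at h
  rcases brec_true h with h | h
  · exact dp_fi_52_s hinv hr hH j u hu h
  · exact dp_fi_55_s hinv hr hH j u hu h
theorem dp_fi_57_s (hinv : ∀ x, g (inv x) = (g x)⁻¹) (hr : ∀ r ∈ rels, (r.map g).prod = 1) (hH : ∀ r ∈ subs, (r.map g).prod ∈ H)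
    (j u : ℕ) (hu : u < M) (h : dp_fi_57 j u = true) : Good (fa g) T MG M (cP g H) Lt.fi u := by
  unfold dp_fi_57 at h
  rcases brec_true h with h | h
  · exact lS_good (T := T) (x := Lt.fi) (by decide) hu [Lt.di, Lt.fi, Lt.b, Lt.c, Lt.b, Lt.ci, Lt.bi] (hole_rel hinv hr (by decide +kernel)) h
  · exact lS_good (T := T) (x := Lt.fi) (by decide) hu [Lt.di, Lt.di, Lt.f, Lt.di, Lt.f, Lt.f, Lt.di] (hole_rel hinv hr (by decide +kernel)) h
theorem dp_fi_58_s (hinv : ∀ x, g (inv x) = (g x)⁻¹) (hr : ∀ r ∈ rels, (r.map g).prod = 1) (hH : ∀ r ∈ subs, (r.map g).prod ∈ H)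
    (j u : ℕ) (hu : u < M) (h : dp_fi_58 j u = true) : Good (fa g) T MG M (cP g H) Lt.fi u := by
  unfold dp_fi_58 at h
  rcases brec_true h with h | h
  · exact lF_good (T := T) (x := Lt.fi) (by decide) [Lt.bi, Lt.bi, Lt.f, Lt.b, Lt.f, Lt.di, Lt.c] (hole_rel hinv hr (by decide +kernel)) h
  · exact lF_good (T := T) (x := Lt.fi) (by decide) [Lt.di, Lt.fi, Lt.b, Lt.c, Lt.b, Lt.ci, Lt.bi] (hole_rel hinv hr (by decide +kernel)) h
theorem dp_fi_59_s (hinv : ∀ x, g (inv x) = (g x)⁻¹) (hr : ∀ r ∈ rels, (r.map g).prod = 1) (hH : ∀ r ∈ subs, (r.map g).prod ∈ H)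
    (j u : ℕ) (hu : u < M) (h : dp_fi_59 j u = true) : Good (fa g) T MG M (cP g H) Lt.fi u := by
  unfold dp_fi_59 at h
  rcases brec_true h with h | h
  · exact dp_fi_57_s hinv hr hH j u hu h
  · exact dp_fi_58_s hinv hr hH j u hu h
theorem dp_fi_60_s (hinv : ∀ x, g (inv x) = (g x)⁻¹) (hr : ∀ r ∈ rels, (r.map g).prod = 1) (hH : ∀ r ∈ subs, (r.map g).prod ∈ H)
    (j u : ℕ) (hu : u < M) (h : dp_fi_60 j u = true) : Good (fa g) T MG M (cP g H) Lt.fi u := by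
  unfold dp_fi_60 at h
  rcases brec_true h with h | h
  · exact lF_good (T := T) (x := Lt.fi) (by decide) [Lt.ei, Lt.f, Lt.e, Lt.c, Lt.di, Lt.f, Lt.f, Lt.e] (hole_rel hinv hr (by decide +kernel)) h
  · exact lS_good (T := T) (x := Lt.fi) (by decide) hu [Lt.e, Lt.f, Lt.ei, Lt.d, Lt.f, Lt.di, Lt.ci, Lt.ei] (hole_rel hinv hr (by decide +kernel)) h
theorem dp_fi_61_s (hinv : ∀ x, g (inv x) = (g x)⁻¹) (hr : ∀ r ∈ rels, (r.map g).prod = 1) (hH : ∀ r ∈ subs, (r.map g).prod ∈ H)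
    (j u : ℕ) (hu : u < M) (h : dp_fi_61 j u = true) : Good (fa g) T MG M (cP g H) Lt.fi u := by
  unfold dp_fi_61 at h
  rcases brec_true h with h | h
  · exact lS_good (T := T) (x := Lt.fi) (by decide) hu [Lt.b, Lt.c, Lt.d, Lt.b, Lt.b, Lt.ci, Lt.bi] (hole_rel hinv hr (by decide +kernel)) h
  · exact lS_good (T := T) (x := Lt.fi) (by decide) hu [Lt.d, Lt.d, Lt.f, Lt.d, Lt.fi, Lt.fi, Lt.d] (hole_rel hinv hr (by decide +kernel)) h
theorem dp_fi_62_s (hinv : ∀ x, g (inv x) = (g x)⁻¹) (hr : ∀ r ∈ rels, (r.map g).prod = 1) (hH : ∀ r ∈ subs, (r.map g).prod ∈ H)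
    (j u : ℕ) (hu : u < M) (h : dp_fi_62 j u = true) : Good (fa g) T MG M (cP g H) Lt.fi u := by
  unfold dp_fi_62 at h
  rcases brec_true h with h | h
  · exact dp_fi_60_s hinv hr hH j u hu h
  · exact dp_fi_61_s hinv hr hH j u hu h
theorem dp_fi_63_s (hinv : ∀ x, g (inv x) = (g x)⁻¹) (hr : ∀ r ∈ rels, (r.map g).prod = 1) (hH : ∀ r ∈ subs, (r.map g).prod ∈ H)
    (j u : ℕ) (hu : u < M) (h : dp_fi_63 j u = true) : Good (fa g) T MG M (cP g H) Lt.fi u := by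
  unfold dp_fi_63 at h
  rcases brec_true h with h | h
  · exact dp_fi_59_s hinv hr hH j u hu h
  · exact dp_fi_62_s hinv hr hH j u hu h
theorem dp_fi_64_s (hinv : ∀ x, g (inv x) = (g x)⁻¹) (hr : ∀ r ∈ rels, (r.map g).prod = 1) (hH : ∀ r ∈ subs, (r.map g).prod ∈ H)
    (j u : ℕ) (hu : u < M) (h : dp_fi_64 j u = true) : Good (fa g) T MG M (cP g H) Lt.fi u := by
  unfold dp_fi_64 at h
  rcases brec_true h with h | h
  · exact dp_fi_56_s hinv hr hH j u hu h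
  · exact dp_fi_63_s hinv hr hH j u hu h
theorem dp_fi_65_s (hinv : ∀ x, g (inv x) = (g x)⁻¹) (hr : ∀ r ∈ rels, (r.map g).prod = 1) (hH : ∀ r ∈ subs, (r.map g).prod ∈ H)
    (j u : ℕ) (hu : u < M) (h : dp_fi_65 j u = true) : Good (fa g) T MG M (cP g H) Lt.fi u := by
  unfold dp_fi_65 at h
  rcases brec_true h with h | h
  · exact lF_good (T := T) (x := Lt.fi) (by decide) [Lt.e, Lt.f, Lt.ei, Lt.d, Lt.f, Lt.di, Lt.ci, Lt.ei] (hole_rel hinv hr (by decide +kernel)) h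
  · exact lS_good (T := T) (x := Lt.fi) (by decide) hu [Lt.c, Lt.di, Lt.di, Lt.fi, Lt.c, Lt.di, Lt.di] (hole_rel hinv hr (by decide +kernel)) h
theorem dp_fi_66_s (hinv : ∀ x, g (inv x) = (g x)⁻¹) (hr : ∀ r ∈ rels, (r.map g).prod = 1) (hH : ∀ r ∈ subs, (r.map g).prod ∈ H)
    (j u : ℕ) (hu : u < M) (h : dp_fi_66 j u = true) : Good (fa g) T MG M (cP g H) Lt.fi u := by
  unfold dp_fi_66 at h
  rcases brec_true h with h | h
  · exact lF_good (T := T) (x := Lt.fi) (by decide) [Lt.bi, Lt.f, Lt.e, Lt.f, Lt.ci, Lt.b, Lt.e, Lt.di] (hole_rel hinv hr (by decide +kernel)) h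
  · exact lF_good (T := T) (x := Lt.fi) (by decide) [Lt.b, Lt.c, Lt.bi, Lt.di, Lt.ci, Lt.bi, Lt.di] (hole_rel hinv hr (by decide +kernel)) h
theorem dp_fi_67_s (hinv : ∀ x, g (inv x) = (g x)⁻¹) (hr : ∀ r ∈ rels, (r.map g).prod = 1) (hH : ∀ r ∈ subs, (r.map g).prod ∈ H)
    (j u : ℕ) (hu : u < M) (h : dp_fi_67 j u = true) : Good (fa g) T MG M (cP g H) Lt.fi u := by
  unfold dp_fi_67 at h
  rcases brec_true h with h | h
  · exact lF_good (T := T) (x := Lt.fi) (by decide) [Lt.bi, Lt.fi, Lt.b, Lt.b, Lt.f, Lt.ci, Lt.d] (hole_rel hinv hr (by decide +kernel)) h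
  · exact dp_fi_66_s hinv hr hH j u hu h
theorem dp_fi_68_s (hinv : ∀ x, g (inv x) = (g x)⁻¹) (hr : ∀ r ∈ rels, (r.map g).prod = 1) (hH : ∀ r ∈ subs, (r.map g).prod ∈ H)
    (j u : ℕ) (hu : u < M) (h : dp_fi_68 j u = true) : Good (fa g) T MG M (cP g H) Lt.fi u := by
  unfold dp_fi_68 at h
  rcases brec_true h with h | h
  · exact dp_fi_65_s hinv hr hH j u hu h
  · exact dp_fi_67_s hinv hr hH j u hu h
theorem dp_fi_69_s (hinv : ∀ x, g (inv x) = (g x)⁻¹) (hr : ∀ r ∈ rels, (r.map g).prod = 1) (hH : ∀ r ∈ subs, (r.map g).prod ∈ H)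
    (j u : ℕ) (hu : u < M) (h : dp_fi_69 j u = true) : Good (fa g) T MG M (cP g H) Lt.fi u := by
  unfold dp_fi_69 at h
  rcases brec_true h with h | h
  · exact lF_good (T := T) (x := Lt.fi) (by decide) [Lt.bi, Lt.ci, Lt.di, Lt.f, Lt.bi, Lt.di, Lt.di] (hole_rel hinv hr (by decide +kernel)) h
  · exact lF_good (T := T) (x := Lt.fi) (by decide) [Lt.d, Lt.d, Lt.f, Lt.d, Lt.fi, Lt.fi, Lt.d] (hole_rel hinv hr (by decide +kernel)) h
theorem dp_fi_70_s (hinv : ∀ x, g (inv x) = (g x)⁻¹) (hr : ∀ r ∈ rels, (r.map g).prod = 1) (hH : ∀ r ∈ subs, (r.map g).prod ∈ H)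
    (j u : ℕ) (hu : u < M) (h : dp_fi_70 j u = true) : Good (fa g) T MG M (cP g H) Lt.fi u := by
  unfold dp_fi_70 at h
  rcases brec_true h with h | h
  · exact lF_good (T := T) (x := Lt.fi) (by decide) [Lt.b, Lt.c, Lt.d, Lt.b, Lt.b, Lt.ci, Lt.bi] (hole_rel hinv hr (by decide +kernel)) h
  · exact lF_good (T := T) (x := Lt.fi) (by decide) [Lt.d, Lt.ci, Lt.ei, Lt.fi, Lt.e, Lt.f, Lt.ei, Lt.fi] (hole_rel hinv hr (by decide +kernel)) h
theorem dp_fi_71_s (hinv : ∀ x, g (inv x) = (g x)⁻¹) (hr : ∀ r ∈ rels, (r.map g).prod = 1) (hH : ∀ r ∈ subs, (r.map g).prod ∈ H)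
    (j u : ℕ) (hu : u < M) (h : dp_fi_71 j u = true) : Good (fa g) T MG M (cP g H) Lt.fi u := by
  unfold dp_fi_71 at h
  rcases brec_true h with h | h
  · exact lF_good (T := T) (x := Lt.fi) (by decide) [Lt.di, Lt.ci, Lt.bi, Lt.ci, Lt.fi, Lt.d, Lt.bi] (hole_rel hinv hr (by decide +kernel)) h
  · exact dp_fi_70_s hinv hr hH j u hu h
theorem dp_fi_72_s (hinv : ∀ x, g (inv x) = (g x)⁻¹) (hr : ∀ r ∈ rels, (r.map g).prod = 1) (hH : ∀ r ∈ subs, (r.map g).prod ∈ H)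
    (j u : ℕ) (hu : u < M) (h : dp_fi_72 j u = true) : Good (fa g) T MG M (cP g H) Lt.fi u := by
  unfold dp_fi_72 at h
  rcases brec_true h with h | h
  · exact dp_fi_69_s hinv hr hH j u hu h
  · exact dp_fi_71_s hinv hr hH j u hu h
theorem dp_fi_73_s (hinv : ∀ x, g (inv x) = (g x)⁻¹) (hr : ∀ r ∈ rels, (r.map g).prod = 1) (hH : ∀ r ∈ subs, (r.map g).prod ∈ H)
    (j u : ℕ) (hu : u < M) (h : dp_fi_73 j u = true) : Good (fa g) T MG M (cP g H) Lt.fi u := by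
  unfold dp_fi_73 at h
  rcases brec_true h with h | h
  · exact dp_fi_68_s hinv hr hH j u hu h
  · exact dp_fi_72_s hinv hr hH j u hu h
theorem dp_fi_74_s (hinv : ∀ x, g (inv x) = (g x)⁻¹) (hr : ∀ r ∈ rels, (r.map g).prod = 1) (hH : ∀ r ∈ subs, (r.map g).prod ∈ H)
    (j u : ℕ) (hu : u < M) (h : dp_fi_74 j u = true) : Good (fa g) T MG M (cP g H) Lt.fi u := by
  unfold dp_fi_74 at h
  rcases brec_true h with h | h
  · exact lS_good (T := T) (x := Lt.fi) (by decide) hu [Lt.d, Lt.bi, Lt.fi, Lt.di, Lt.ci, Lt.bi, Lt.ci] (hole_rel hinv hr (by decide +kernel)) h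
  · exact lS_good (T := T) (x := Lt.fi) (by decide) hu [Lt.d, Lt.ci, Lt.ei, Lt.fi, Lt.e, Lt.f, Lt.ei, Lt.fi] (hole_rel hinv hr (by decide +kernel)) h
theorem dp_fi_75_s (hinv : ∀ x, g (inv x) = (g x)⁻¹) (hr : ∀ r ∈ rels, (r.map g).prod = 1) (hH : ∀ r ∈ subs, (r.map g).prod ∈ H)
    (j u : ℕ) (hu : u < M) (h : dp_fi_75 j u = true) : Good (fa g) T MG M (cP g H) Lt.fi u := by
  unfold dp_fi_75 at h
  rcases brec_true h with h | h
  · exact lF_good (T := T) (x := Lt.fi) (by decide) [Lt.bi, Lt.c, Lt.f, Lt.b, Lt.fi, Lt.c, Lt.c] (hole_rel hinv hr (by decide +kernel)) h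
  · exact dp_fi_74_s hinv hr hH j u hu h
theorem dp_fi_76_s (hinv : ∀ x, g (inv x) = (g x)⁻¹) (hr : ∀ r ∈ rels, (r.map g).prod = 1) (hH : ∀ r ∈ subs, (r.map g).prod ∈ H)
    (j u : ℕ) (hu : u < M) (h : dp_fi_76 j u = true) : Good (fa g) T MG M (cP g H) Lt.fi u := by
  unfold dp_fi_76 at h
  rcases brec_true h with h | h
  · exact lF_good (T := T) (x := Lt.fi) (by decide) [Lt.ei, Lt.f, Lt.e, Lt.c, Lt.d, Lt.fi, Lt.di, Lt.e] (hole_rel hinv hr (by decide +kernel)) h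
  · exact lS_good (T := T) (x := Lt.fi) (by decide) hu [Lt.di, Lt.e, Lt.fi, Lt.ei, Lt.f, Lt.e, Lt.c, Lt.d] (hole_rel hinv hr (by decide +kernel)) h
theorem dp_fi_77_s (hinv : ∀ x, g (inv x) = (g x)⁻¹) (hr : ∀ r ∈ rels, (r.map g).prod = 1) (hH : ∀ r ∈ subs, (r.map g).prod ∈ H)
    (j u : ℕ) (hu : u < M) (h : dp_fi_77 j u = true) : Good (fa g) T MG M (cP g H) Lt.fi u := by
  unfold dp_fi_77 at h
  rcases brec_true h with h | h
  · exact lS_good (T := T) (x := Lt.fi) (by decide) hu [Lt.ei, Lt.f, Lt.e, Lt.c, Lt.d, Lt.fi, Lt.di, Lt.e] (hole_rel hinv hr (by decide +kernel)) h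
  · exact dp_fi_76_s hinv hr hH j u hu h
theorem dp_fi_78_s (hinv : ∀ x, g (inv x) = (g x)⁻¹) (hr : ∀ r ∈ rels, (r.map g).prod = 1) (hH : ∀ r ∈ subs, (r.map g).prod ∈ H)
    (j u : ℕ) (hu : u < M) (h : dp_fi_78 j u = true) : Good (fa g) T MG M (cP g H) Lt.fi u := by
  unfold dp_fi_78 at h
  rcases brec_true h with h | h
  · exact dp_fi_75_s hinv hr hH j u hu h
  · exact dp_fi_77_s hinv hr hH j u hu h
theorem dp_fi_79_s (hinv : ∀ x, g (inv x) = (g x)⁻¹) (hr : ∀ r ∈ rels, (r.map g).prod = 1) (hH : ∀ r ∈ subs, (r.map g).prod ∈ H)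
    (j u : ℕ) (hu : u < M) (h : dp_fi_79 j u = true) : Good (fa g) T MG M (cP g H) Lt.fi u := by
  unfold dp_fi_79 at h
  rcases brec_true h with h | h
  · exact lS_good (T := T) (x := Lt.fi) (by decide) hu [Lt.ei, Lt.fi, Lt.b, Lt.f, Lt.d, Lt.ei, Lt.bi, Lt.c] (hole_rel hinv hr (by decide +kernel)) h
  · exact lS_good (T := T) (x := Lt.fi) (by decide) hu [Lt.d, Lt.ci, Lt.fi, Lt.e, Lt.f, Lt.ei, Lt.fi, Lt.e] (hole_rel hinv hr (by decide +kernel)) h
theorem dp_fi_80_s (hinv : ∀ x, g (inv x) = (g x)⁻¹) (hr : ∀ r ∈ rels, (r.map g).prod = 1) (hH : ∀ r ∈ subs, (r.map g).prod ∈ H)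
    (j u : ℕ) (hu : u < M) (h : dp_fi_80 j u = true) : Good (fa g) T MG M (cP g H) Lt.fi u := by
  unfold dp_fi_80 at h
  rcases brec_true h with h | h
  · exact lF_good (T := T) (x := Lt.fi) (by decide) [Lt.b, Lt.f, Lt.d, Lt.ei, Lt.bi, Lt.c, Lt.fi, Lt.ei] (hole_rel hinv hr (by decide +kernel)) h
  · exact lF_good (T := T) (x := Lt.fi) (by decide) [Lt.e, Lt.f, Lt.ei, Lt.fi, Lt.e, Lt.fi, Lt.d, Lt.ci] (hole_rel hinv hr (by decide +kernel)) h
theorem dp_fi_81_s (hinv : ∀ x, g (inv x) = (g x)⁻¹) (hr : ∀ r ∈ rels, (r.map g).prod = 1) (hH : ∀ r ∈ subs, (r.map g).prod ∈ H)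
    (j u : ℕ) (hu : u < M) (h : dp_fi_81 j u = true) : Good (fa g) T MG M (cP g H) Lt.fi u := by
  unfold dp_fi_81 at h
  rcases brec_true h with h | h
  · exact lF_good (T := T) (x := Lt.fi) (by decide) [Lt.di, Lt.e, Lt.fi, Lt.ei, Lt.f, Lt.e, Lt.c, Lt.d] (hole_rel hinv hr (by decide +kernel)) h
  · exact dp_fi_80_s hinv hr hH j u hu h
theorem dp_fi_82_s (hinv : ∀ x, g (inv x) = (g x)⁻¹) (hr : ∀ r ∈ rels, (r.map g).prod = 1) (hH : ∀ r ∈ subs, (r.map g).prod ∈ H)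
    (j u : ℕ) (hu : u < M) (h : dp_fi_82 j u = true) : Good (fa g) T MG M (cP g H) Lt.fi u := by
  unfold dp_fi_82 at h
  rcases brec_true h with h | h
  · exact dp_fi_79_s hinv hr hH j u hu h
  · exact dp_fi_81_s hinv hr hH j u hu h
theorem dp_fi_83_s (hinv : ∀ x, g (inv x) = (g x)⁻¹) (hr : ∀ r ∈ rels, (r.map g).prod = 1) (hH : ∀ r ∈ subs, (r.map g).prod ∈ H)
    (j u : ℕ) (hu : u < M) (h : dp_fi_83 j u = true) : Good (fa g) T MG M (cP g H) Lt.fi u := by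
  unfold dp_fi_83 at h
  rcases brec_true h with h | h
  · exact lS_good (T := T) (x := Lt.fi) (by decide) hu [Lt.e, Lt.f, Lt.ei, Lt.fi, Lt.e, Lt.fi, Lt.d, Lt.ci] (hole_rel hinv hr (by decide +kernel)) h
  · exact lF_good (T := T) (x := Lt.fi) (by decide) [Lt.d, Lt.ci, Lt.fi, Lt.e, Lt.f, Lt.ei, Lt.fi, Lt.e] (hole_rel hinv hr (by decide +kernel)) h
theorem dp_fi_84_s (hinv : ∀ x, g (inv x) = (g x)⁻¹) (hr : ∀ r ∈ rels, (r.map g).prod = 1) (hH : ∀ r ∈ subs, (r.map g).prod ∈ H)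
    (j u : ℕ) (hu : u < M) (h : dp_fi_84 j u = true) : Good (fa g) T MG M (cP g H) Lt.fi u := by
  unfold dp_fi_84 at h
  rcases brec_true h with h | h
  · exact lF_good (T := T) (x := Lt.fi) (by decide) [Lt.d, Lt.bi, Lt.bi, Lt.f, Lt.c, Lt.b, Lt.c, Lt.fi] (hole_rel hinv hr (by decide +kernel)) h
  · exact lS_good (T := T) (x := Lt.fi) (by decide) hu [Lt.di, Lt.di, Lt.ci, Lt.b, Lt.ci, Lt.f, Lt.di, Lt.b] (hole_rel hinv hr (by decide +kernel)) h
theorem dp_fi_85_s (hinv : ∀ x, g (inv x) = (g x)⁻¹) (hr : ∀ r ∈ rels, (r.map g).prod = 1) (hH : ∀ r ∈ subs, (r.map g).prod ∈ H)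
    (j u : ℕ) (hu : u < M) (h : dp_fi_85 j u = true) : Good (fa g) T MG M (cP g H) Lt.fi u := by
  unfold dp_fi_85 at h
  rcases brec_true h with h | h
  · exact lS_good (T := T) (x := Lt.fi) (by decide) hu [Lt.fi, Lt.b, Lt.ci, Lt.fi, Lt.bi, Lt.fi, Lt.ci, Lt.d] (hole_rel hinv hr (by decide +kernel)) h
  · exact dp_fi_84_s hinv hr hH j u hu h
theorem dp_fi_86_s (hinv : ∀ x, g (inv x) = (g x)⁻¹) (hr : ∀ r ∈ rels, (r.map g).prod = 1) (hH : ∀ r ∈ subs, (r.map g).prod ∈ H)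
    (j u : ℕ) (hu : u < M) (h : dp_fi_86 j u = true) : Good (fa g) T MG M (cP g H) Lt.fi u := by
  unfold dp_fi_86 at h
  rcases brec_true h with h | h
  · exact dp_fi_83_s hinv hr hH j u hu h
  · exact dp_fi_85_s hinv hr hH j u hu h
theorem dp_fi_87_s (hinv : ∀ x, g (inv x) = (g x)⁻¹) (hr : ∀ r ∈ rels, (r.map g).prod = 1) (hH : ∀ r ∈ subs, (r.map g).prod ∈ H)
    (j u : ℕ) (hu : u < M) (h : dp_fi_87 j u = true) : Good (fa g) T MG M (cP g H) Lt.fi u := by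
  unfold dp_fi_87 at h
  rcases brec_true h with h | h
  · exact lS_good (T := T) (x := Lt.fi) (by decide) hu [Lt.fi, Lt.d, Lt.ci, Lt.ei, Lt.fi, Lt.e, Lt.f, Lt.ei] (hole_rel hinv hr (by decide +kernel)) h
  · exact lS_good (T := T) (x := Lt.fi) (by decide) hu [Lt.b, Lt.f, Lt.d, Lt.ei, Lt.bi, Lt.c, Lt.fi, Lt.ei] (hole_rel hinv hr (by decide +kernel)) h
theorem dp_fi_88_s (hinv : ∀ x, g (inv x) = (g x)⁻¹) (hr : ∀ r ∈ rels, (r.map g).prod = 1) (hH : ∀ r ∈ subs, (r.map g).prod ∈ H)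
    (j u : ℕ) (hu : u < M) (h : dp_fi_88 j u = true) : Good (fa g) T MG M (cP g H) Lt.fi u := by
  unfold dp_fi_88 at h
  rcases brec_true h with h | h
  · exact lF_good (T := T) (x := Lt.fi) (by decide) [Lt.di, Lt.fi, Lt.di, Lt.ci, Lt.f, Lt.d, Lt.c, Lt.c] (hole_rel hinv hr (by decide +kernel)) h
  · exact lF_good (T := T) (x := Lt.fi) (by decide) [Lt.c, Lt.c, Lt.b, Lt.ci, Lt.di, Lt.fi, Lt.ci, Lt.ci] (hole_rel hinv hr (by decide +kernel)) h
theorem dp_fi_89_s (hinv : ∀ x, g (inv x) = (g x)⁻¹) (hr : ∀ r ∈ rels, (r.map g).prod = 1) (hH : ∀ r ∈ subs, (r.map g).prod ∈ H)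
    (j u : ℕ) (hu : u < M) (h : dp_fi_89 j u = true) : Good (fa g) T MG M (cP g H) Lt.fi u := by
  unfold dp_fi_89 at h
  rcases brec_true h with h | h
  · exact lF_good (T := T) (x := Lt.fi) (by decide) [Lt.b, Lt.b, Lt.di, Lt.f, Lt.f, Lt.ci, Lt.bi, Lt.ci] (hole_rel hinv hr (by decide +kernel)) h
  · exact dp_fi_88_s hinv hr hH j u hu h
theorem dp_fi_90_s (hinv : ∀ x, g (inv x) = (g x)⁻¹) (hr : ∀ r ∈ rels, (r.map g).prod = 1) (hH : ∀ r ∈ subs, (r.map g).prod ∈ H)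
    (j u : ℕ) (hu : u < M) (h : dp_fi_90 j u = true) : Good (fa g) T MG M (cP g H) Lt.fi u := by
  unfold dp_fi_90 at h
  rcases brec_true h with h | h
  · exact dp_fi_87_s hinv hr hH j u hu h
  · exact dp_fi_89_s hinv hr hH j u hu h
theorem dp_fi_91_s (hinv : ∀ x, g (inv x) = (g x)⁻¹) (hr : ∀ r ∈ rels, (r.map g).prod = 1) (hH : ∀ r ∈ subs, (r.map g).prod ∈ H)
    (j u : ℕ) (hu : u < M) (h : dp_fi_91 j u = true) : Good (fa g) T MG M (cP g H) Lt.fi u := by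
  unfold dp_fi_91 at h
  rcases brec_true h with h | h
  · exact lF_good (T := T) (x := Lt.fi) (by decide) [Lt.b, Lt.ci, Lt.fi, Lt.bi, Lt.fi, Lt.ci, Lt.d, Lt.fi] (hole_rel hinv hr (by decide +kernel)) h
  · exact lS_good (T := T) (x := Lt.fi) (by decide) hu [Lt.ci, Lt.d, Lt.c, Lt.di, Lt.fi, Lt.b, Lt.b, Lt.b] (hole_rel hinv hr (by decide +kernel)) h
theorem dp_fi_92_s (hinv : ∀ x, g (inv x) = (g x)⁻¹) (hr : ∀ r ∈ rels, (r.map g).prod = 1) (hH : ∀ r ∈ subs, (r.map g).prod ∈ H)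
    (j u : ℕ) (hu : u < M) (h : dp_fi_92 j u = true) : Good (fa g) T MG M (cP g H) Lt.fi u := by
  unfold dp_fi_92 at h
  rcases brec_true h with h | h
  · exact lF_good (T := T) (x := Lt.fi) (by decide) [Lt.d, Lt.ci, Lt.fi, Lt.b, Lt.c, Lt.c, Lt.b, Lt.ci] (hole_rel hinv hr (by decide +kernel)) h
  · exact lF_good (T := T) (x := Lt.fi) (by decide) [Lt.di, Lt.di, Lt.ci, Lt.b, Lt.ci, Lt.f, Lt.di, Lt.b] (hole_rel hinv hr (by decide +kernel)) h
theorem dp_fi_93_s (hinv : ∀ x, g (inv x) = (g x)⁻¹) (hr : ∀ r ∈ rels, (r.map g).prod = 1) (hH : ∀ r ∈ subs, (r.map g).prod ∈ H)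
    (j u : ℕ) (hu : u < M) (h : dp_fi_93 j u = true) : Good (fa g) T MG M (cP g H) Lt.fi u := by
  unfold dp_fi_93 at h
  rcases brec_true h with h | h
  · exact dp_fi_91_s hinv hr hH j u hu h
  · exact dp_fi_92_s hinv hr hH j u hu h
theorem dp_fi_94_s (hinv : ∀ x, g (inv x) = (g x)⁻¹) (hr : ∀ r ∈ rels, (r.map g).prod = 1) (hH : ∀ r ∈ subs, (r.map g).prod ∈ H)
    (j u : ℕ) (hu : u < M) (h : dp_fi_94 j u = true) : Good (fa g) T MG M (cP g H) Lt.fi u := by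
  unfold dp_fi_94 at h
  rcases brec_true h with h | h
  · exact lF_good (T := T) (x := Lt.fi) (by decide) [Lt.ci, Lt.d, Lt.c, Lt.di, Lt.fi, Lt.b, Lt.b, Lt.b] (hole_rel hinv hr (by decide +kernel)) h
  · exact lF_good (T := T) (x := Lt.fi) (by decide) [Lt.fi, Lt.d, Lt.ci, Lt.ei, Lt.fi, Lt.e, Lt.f, Lt.ei] (hole_rel hinv hr (by decide +kernel)) h
theorem dp_fi_95_s (hinv : ∀ x, g (inv x) = (g x)⁻¹) (hr : ∀ r ∈ rels, (r.map g).prod = 1) (hH : ∀ r ∈ subs, (r.map g).prod ∈ H)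
    (j u : ℕ) (hu : u < M) (h : dp_fi_95 j u = true) : Good (fa g) T MG M (cP g H) Lt.fi u := by
  unfold dp_fi_95 at h
  rcases brec_true h with h | h
  · exact lF_good (T := T) (x := Lt.fi) (by decide) [Lt.c, Lt.d, Lt.f, Lt.d, Lt.f, Lt.ci, Lt.ci, Lt.di] (hole_rel hinv hr (by decide +kernel)) h
  · exact lF_good (T := T) (x := Lt.fi) (by decide) [Lt.ei, Lt.fi, Lt.b, Lt.f, Lt.d, Lt.ei, Lt.bi, Lt.c] (hole_rel hinv hr (by decide +kernel)) h
theorem dp_fi_96_s (hinv : ∀ x, g (inv x) = (g x)⁻¹) (hr : ∀ r ∈ rels, (r.map g).prod = 1) (hH : ∀ r ∈ subs, (r.map g).prod ∈ H)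
    (j u : ℕ) (hu : u < M) (h : dp_fi_96 j u = true) : Good (fa g) T MG M (cP g H) Lt.fi u := by
  unfold dp_fi_96 at h
  rcases brec_true h with h | h
  · exact dp_fi_94_s hinv hr hH j u hu h
  · exact dp_fi_95_s hinv hr hH j u hu h
theorem dp_fi_97_s (hinv : ∀ x, g (inv x) = (g x)⁻¹) (hr : ∀ r ∈ rels, (r.map g).prod = 1) (hH : ∀ r ∈ subs, (r.map g).prod ∈ H)
    (j u : ℕ) (hu : u < M) (h : dp_fi_97 j u = true) : Good (fa g) T MG M (cP g H) Lt.fi u := by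
  unfold dp_fi_97 at h
  rcases brec_true h with h | h
  · exact dp_fi_93_s hinv hr hH j u hu h
  · exact dp_fi_96_s hinv hr hH j u hu h
theorem dp_fi_98_s (hinv : ∀ x, g (inv x) = (g x)⁻¹) (hr : ∀ r ∈ rels, (r.map g).prod = 1) (hH : ∀ r ∈ subs, (r.map g).prod ∈ H)
    (j u : ℕ) (hu : u < M) (h : dp_fi_98 j u = true) : Good (fa g) T MG M (cP g H) Lt.fi u := by
  unfold dp_fi_98 at h
  rcases brec_true h with h | h
  · exact dp_fi_90_s hinv hr hH j u hu h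
  · exact dp_fi_97_s hinv hr hH j u hu h
theorem dp_fi_99_s (hinv : ∀ x, g (inv x) = (g x)⁻¹) (hr : ∀ r ∈ rels, (r.map g).prod = 1) (hH : ∀ r ∈ subs, (r.map g).prod ∈ H)
    (j u : ℕ) (hu : u < M) (h : dp_fi_99 j u = true) : Good (fa g) T MG M (cP g H) Lt.fi u := by
  unfold dp_fi_99 at h
  rcases brec_true h with h | h
  · exact dp_fi_86_s hinv hr hH j u hu h
  · exact dp_fi_98_s hinv hr hH j u hu h
theorem dp_fi_100_s (hinv : ∀ x, g (inv x) = (g x)⁻¹) (hr : ∀ r ∈ rels, (r.map g).prod = 1) (hH : ∀ r ∈ subs, (r.map g).prod ∈ H)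
    (j u : ℕ) (hu : u < M) (h : dp_fi_100 j u = true) : Good (fa g) T MG M (cP g H) Lt.fi u := by
  unfold dp_fi_100 at h
  rcases brec_true h with h | h
  · exact dp_fi_82_s hinv hr hH j u hu h
  · exact dp_fi_99_s hinv hr hH j u hu h
theorem dp_fi_101_s (hinv : ∀ x, g (inv x) = (g x)⁻¹) (hr : ∀ r ∈ rels, (r.map g).prod = 1) (hH : ∀ r ∈ subs, (r.map g).prod ∈ H)
    (j u : ℕ) (hu : u < M) (h : dp_fi_101 j u = true) : Good (fa g) T MG M (cP g H) Lt.fi u := by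
  unfold dp_fi_101 at h
  rcases brec_true h with h | h
  · exact dp_fi_78_s hinv hr hH j u hu h
  · exact dp_fi_100_s hinv hr hH j u hu h
theorem dp_fi_102_s (hinv : ∀ x, g (inv x) = (g x)⁻¹) (hr : ∀ r ∈ rels, (r.map g).prod = 1) (hH : ∀ r ∈ subs, (r.map g).prod ∈ H)
    (j u : ℕ) (hu : u < M) (h : dp_fi_102 j u = true) : Good (fa g) T MG M (cP g H) Lt.fi u := by
  unfold dp_fi_102 at h
  rcases brec_true h with h | h
  · exact dp_fi_73_s hinv hr hH j u hu h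
  · exact dp_fi_101_s hinv hr hH j u hu h
theorem dp_fi_103_s (hinv : ∀ x, g (inv x) = (g x)⁻¹) (hr : ∀ r ∈ rels, (r.map g).prod = 1) (hH : ∀ r ∈ subs, (r.map g).prod ∈ H)
    (j u : ℕ) (hu : u < M) (h : dp_fi_103 j u = true) : Good (fa g) T MG M (cP g H) Lt.fi u := by
  unfold dp_fi_103 at h
  rcases brec_true h with h | h
  · exact dp_fi_64_s hinv hr hH j u hu h
  · exact dp_fi_102_s hinv hr hH j u hu h
theorem dp_fi_104_s (hinv : ∀ x, g (inv x) = (g x)⁻¹) (hr : ∀ r ∈ rels, (r.map g).prod = 1) (hH : ∀ r ∈ subs, (r.map g).prod ∈ H)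
    (j u : ℕ) (hu : u < M) (h : dp_fi_104 j u = true) : Good (fa g) T MG M (cP g H) Lt.fi u := by
  unfold dp_fi_104 at h
  rcases brec_true h with h | h
  · exact dp_fi_50_s hinv hr hH j u hu h
  · exact dp_fi_103_s hinv hr hH j u hu h
theorem dp_fi_105_s (hinv : ∀ x, g (inv x) = (g x)⁻¹) (hr : ∀ r ∈ rels, (r.map g).prod = 1) (hH : ∀ r ∈ subs, (r.map g).prod ∈ H)
    (j u : ℕ) (hu : u < M) (h : dp_fi_105 j u = true) : Good (fa g) T MG M (cP g H) Lt.fi u := by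
  unfold dp_fi_105 at h
  rcases brec_true h with h | h
  · exact dp_fi_29_s hinv hr hH j u hu h
  · exact dp_fi_104_s hinv hr hH j u hu h
theorem snd_fi (hinv : ∀ x, g (inv x) = (g x)⁻¹) (hr : ∀ r ∈ rels, (r.map g).prod = 1) (hH : ∀ r ∈ subs, (r.map g).prod ∈ H)
    (j u : ℕ) (hu : u < M) (h : disp_fi j u = true) : Good (fa g) T MG M (cP g H) Lt.fi u := by
  unfold disp_fi at h
  rcases brec_true h with h | h
  · rcases brec_true h with h | h
    · exact lF1_good (T := T) (x := Lt.fi) (by decide) .f (hole_rel hinv hr (by decide +kernel)) h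
    · exact lPar_good (T := T) (x := Lt.fi) (x' := Lt.f) (by decide) rfl (inv_rel hinv _ _ rfl) h
  · rcases brec_true h with h | h
    · rcases brec_true h with h | h
      · exact lDef_good (T := T) (x := Lt.fi) (by decide) rfl h
      · rcases brec_true h with h | h
        · exact lS_good (T := T) (x := Lt.fi) (by decide) hu [Lt.f] (hole_rel hinv hr (by decide +kernel)) h
        · exact lF_good (T := T) (x := Lt.fi) (by decide) [Lt.fi, Lt.di, Lt.bi, Lt.c, Lt.b, Lt.d, Lt.ci] (hole_rel hinv hr (by decide +kernel)) h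
    · exact dp_fi_105_s hinv hr hH j u hu h
theorem snc_fi (hinv : ∀ x, g (inv x) = (g x)⁻¹) (hr : ∀ r ∈ rels, (r.map g).prod = 1) (hH : ∀ r ∈ subs, (r.map g).prod ∈ H)
    (j u : ℕ) (hu : u < M) (h : chk_fi j u = true) : (T Lt.fi u < A ∧ Good (fa g) T MG M (cP g H) Lt.fi u) ∨ (A ≤ T Lt.fi u ∧ MG u < A) := by
  unfold chk_fi at h
  cases hb : Nat.ble A (T_fi u) with
  | true => rw [hb] at h; exact Or.inr ⟨le_of_ble hb, le_of_ble h⟩
  | false => rw [hb] at h; exact Or.inl ⟨lt_of_ble_false hb, snd_fi hinv hr hH j u hu h⟩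
theorem dp_e_0_s (hinv : ∀ x, g (inv x) = (g x)⁻¹) (hr : ∀ r ∈ rels, (r.map g).prod = 1) (hH : ∀ r ∈ subs, (r.map g).prod ∈ H)
    (j u : ℕ) (hu : u < M) (h : dp_e_0 j u = true) : Good (fa g) T MG M (cP g H) Lt.e u := by
  unfold dp_e_0 at h
  rcases brec_true h with h | h
  · exact lS_good (T := T) (x := Lt.e) (by decide) hu [Lt.c, Lt.e, Lt.bi, Lt.e, Lt.c, Lt.e, Lt.bi] (hole_rel hinv hr (by decide +kernel)) h
  · exact lF_good (T := T) (x := Lt.e) (by decide) [Lt.c, Lt.e, Lt.bi, Lt.e, Lt.c, Lt.e, Lt.bi] (hole_rel hinv hr (by decide +kernel)) h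
theorem dp_e_1_s (hinv : ∀ x, g (inv x) = (g x)⁻¹) (hr : ∀ r ∈ rels, (r.map g).prod = 1) (hH : ∀ r ∈ subs, (r.map g).prod ∈ H)
    (j u : ℕ) (hu : u < M) (h : dp_e_1 j u = true) : Good (fa g) T MG M (cP g H) Lt.e u := by
  unfold dp_e_1 at h
  rcases brec_true h with h | h
  · exact lS_good (T := T) (x := Lt.e) (by decide) hu [Lt.bi, Lt.e, Lt.c, Lt.e, Lt.bi, Lt.e, Lt.c] (hole_rel hinv hr (by decide +kernel)) h
  · exact lF_good (T := T) (x := Lt.e) (by decide) [Lt.bi, Lt.e, Lt.c, Lt.e, Lt.bi, Lt.e, Lt.c] (hole_rel hinv hr (by decide +kernel)) h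
theorem dp_e_2_s (hinv : ∀ x, g (inv x) = (g x)⁻¹) (hr : ∀ r ∈ rels, (r.map g).prod = 1) (hH : ∀ r ∈ subs, (r.map g).prod ∈ H)
    (j u : ℕ) (hu : u < M) (h : dp_e_2 j u = true) : Good (fa g) T MG M (cP g H) Lt.e u := by
  unfold dp_e_2 at h
  rcases brec_true h with h | h
  · exact lS_good (T := T) (x := Lt.e) (by decide) hu [Lt.di, Lt.fi, Lt.bi, Lt.f, Lt.e, Lt.f, Lt.ci, Lt.b] (hole_rel hinv hr (by decide +kernel)) h
  · exact lS_good (T := T) (x := Lt.e) (by decide) hu [Lt.fi, Lt.ei, Lt.f, Lt.c, Lt.di, Lt.f, Lt.ei, Lt.f] (hole_rel hinv hr (by decide +kernel)) h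
theorem dp_e_3_s (hinv : ∀ x, g (inv x) = (g x)⁻¹) (hr : ∀ r ∈ rels, (r.map g).prod = 1) (hH : ∀ r ∈ subs, (r.map g).prod ∈ H)
    (j u : ℕ) (hu : u < M) (h : dp_e_3 j u = true) : Good (fa g) T MG M (cP g H) Lt.e u := by
  unfold dp_e_3 at h
  rcases brec_true h with h | h
  · exact lS_good (T := T) (x := Lt.e) (by decide) hu [Lt.f, Lt.ci, Lt.b, Lt.e, Lt.di, Lt.fi, Lt.bi, Lt.f] (hole_rel hinv hr (by decide +kernel)) h
  · exact lF_good (T := T) (x := Lt.e) (by decide) [Lt.fi, Lt.ei, Lt.f, Lt.c, Lt.di, Lt.f, Lt.ei, Lt.f] (hole_rel hinv hr (by decide +kernel)) h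
theorem dp_e_4_s (hinv : ∀ x, g (inv x) = (g x)⁻¹) (hr : ∀ r ∈ rels, (r.map g).prod = 1) (hH : ∀ r ∈ subs, (r.map g).prod ∈ H)
    (j u : ℕ) (hu : u < M) (h : dp_e_4 j u = true) : Good (fa g) T MG M (cP g H) Lt.e u := by
  unfold dp_e_4 at h
  rcases brec_true h with h | h
  · exact lF_good (T := T) (x := Lt.e) (by decide) [Lt.di, Lt.fi, Lt.bi, Lt.f, Lt.e, Lt.f, Lt.ci, Lt.b] (hole_rel hinv hr (by decide +kernel)) h
  · exact lF_good (T := T) (x := Lt.e) (by decide) [Lt.f, Lt.ci, Lt.b, Lt.e, Lt.di, Lt.fi, Lt.bi, Lt.f] (hole_rel hinv hr (by decide +kernel)) h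
theorem dp_e_5_s (hinv : ∀ x, g (inv x) = (g x)⁻¹) (hr : ∀ r ∈ rels, (r.map g).prod = 1) (hH : ∀ r ∈ subs, (r.map g).prod ∈ H)
    (j u : ℕ) (hu : u < M) (h : dp_e_5 j u = true) : Good (fa g) T MG M (cP g H) Lt.e u := by
  unfold dp_e_5 at h
  rcases brec_true h with h | h
  · exact dp_e_3_s hinv hr hH j u hu h
  · exact dp_e_4_s hinv hr hH j u hu h
theorem dp_e_6_s (hinv : ∀ x, g (inv x) = (g x)⁻¹) (hr : ∀ r ∈ rels, (r.map g).prod = 1) (hH : ∀ r ∈ subs, (r.map g).prod ∈ H)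
    (j u : ℕ) (hu : u < M) (h : dp_e_6 j u = true) : Good (fa g) T MG M (cP g H) Lt.e u := by
  unfold dp_e_6 at h
  rcases brec_true h with h | h
  · exact dp_e_2_s hinv hr hH j u hu h
  · exact dp_e_5_s hinv hr hH j u hu h
theorem dp_e_7_s (hinv : ∀ x, g (inv x) = (g x)⁻¹) (hr : ∀ r ∈ rels, (r.map g).prod = 1) (hH : ∀ r ∈ subs, (r.map g).prod ∈ H)
    (j u : ℕ) (hu : u < M) (h : dp_e_7 j u = true) : Good (fa g) T MG M (cP g H) Lt.e u := by
  unfold dp_e_7 at h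
  rcases brec_true h with h | h
  · exact lS_good (T := T) (x := Lt.e) (by decide) hu [Lt.fi, Lt.d, Lt.ci, Lt.fi, Lt.e, Lt.f, Lt.ei, Lt.fi] (hole_rel hinv hr (by decide +kernel)) h
  · exact lS_good (T := T) (x := Lt.e) (by decide) hu [Lt.f, Lt.ei, Lt.fi, Lt.e, Lt.fi, Lt.d, Lt.ci, Lt.fi] (hole_rel hinv hr (by decide +kernel)) h
theorem dp_e_8_s (hinv : ∀ x, g (inv x) = (g x)⁻¹) (hr : ∀ r ∈ rels, (r.map g).prod = 1) (hH : ∀ r ∈ subs, (r.map g).prod ∈ H)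
    (j u : ℕ) (hu : u < M) (h : dp_e_8 j u = true) : Good (fa g) T MG M (cP g H) Lt.e u := by
  unfold dp_e_8 at h
  rcases brec_true h with h | h
  · exact lS_good (T := T) (x := Lt.e) (by decide) hu [Lt.c, Lt.di, Lt.f, Lt.f, Lt.e, Lt.fi, Lt.ei, Lt.f] (hole_rel hinv hr (by decide +kernel)) h
  · exact lF_good (T := T) (x := Lt.e) (by decide) [Lt.fi, Lt.d, Lt.ci, Lt.fi, Lt.e, Lt.f, Lt.ei, Lt.fi] (hole_rel hinv hr (by decide +kernel)) h
theorem dp_e_9_s (hinv : ∀ x, g (inv x) = (g x)⁻¹) (hr : ∀ r ∈ rels, (r.map g).prod = 1) (hH : ∀ r ∈ subs, (r.map g).prod ∈ H)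
    (j u : ℕ) (hu : u < M) (h : dp_e_9 j u = true) : Good (fa g) T MG M (cP g H) Lt.e u := by
  unfold dp_e_9 at h
  rcases brec_true h with h | h
  · exact lF_good (T := T) (x := Lt.e) (by decide) [Lt.f, Lt.ei, Lt.fi, Lt.e, Lt.fi, Lt.d, Lt.ci, Lt.fi] (hole_rel hinv hr (by decide +kernel)) h
  · exact dp_e_8_s hinv hr hH j u hu h
theorem dp_e_10_s (hinv : ∀ x, g (inv x) = (g x)⁻¹) (hr : ∀ r ∈ rels, (r.map g).prod = 1) (hH : ∀ r ∈ subs, (r.map g).prod ∈ H)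
    (j u : ℕ) (hu : u < M) (h : dp_e_10 j u = true) : Good (fa g) T MG M (cP g H) Lt.e u := by
  unfold dp_e_10 at h
  rcases brec_true h with h | h
  · exact dp_e_7_s hinv hr hH j u hu h
  · exact dp_e_9_s hinv hr hH j u hu h
theorem dp_e_11_s (hinv : ∀ x, g (inv x) = (g x)⁻¹) (hr : ∀ r ∈ rels, (r.map g).prod = 1) (hH : ∀ r ∈ subs, (r.map g).prod ∈ H)
    (j u : ℕ) (hu : u < M) (h : dp_e_11 j u = true) : Good (fa g) T MG M (cP g H) Lt.e u := by
  unfold dp_e_11 at h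
  rcases brec_true h with h | h
  · exact lF_good (T := T) (x := Lt.e) (by decide) [Lt.f, Lt.ei, Lt.fi, Lt.fi, Lt.d, Lt.ci, Lt.ei, Lt.fi] (hole_rel hinv hr (by decide +kernel)) h
  · exact lF_good (T := T) (x := Lt.e) (by decide) [Lt.c, Lt.di, Lt.f, Lt.f, Lt.e, Lt.fi, Lt.ei, Lt.f] (hole_rel hinv hr (by decide +kernel)) h
theorem dp_e_12_s (hinv : ∀ x, g (inv x) = (g x)⁻¹) (hr : ∀ r ∈ rels, (r.map g).prod = 1) (hH : ∀ r ∈ subs, (r.map g).prod ∈ H)
    (j u : ℕ) (hu : u < M) (h : dp_e_12 j u = true) : Good (fa g) T MG M (cP g H) Lt.e u := by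
  unfold dp_e_12 at h
  rcases brec_true h with h | h
  · exact lS_good (T := T) (x := Lt.e) (by decide) hu [Lt.f, Lt.ei, Lt.fi, Lt.fi, Lt.d, Lt.ci, Lt.ei, Lt.fi] (hole_rel hinv hr (by decide +kernel)) h
  · exact lS_good (T := T) (x := Lt.e) (by decide) hu [Lt.f, Lt.ei, Lt.d, Lt.f, Lt.di, Lt.ci, Lt.ei, Lt.fi] (hole_rel hinv hr (by decide +kernel)) h
theorem dp_e_13_s (hinv : ∀ x, g (inv x) = (g x)⁻¹) (hr : ∀ r ∈ rels, (r.map g).prod = 1) (hH : ∀ r ∈ subs, (r.map g).prod ∈ H)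
    (j u : ℕ) (hu : u < M) (h : dp_e_13 j u = true) : Good (fa g) T MG M (cP g H) Lt.e u := by
  unfold dp_e_13 at h
  rcases brec_true h with h | h
  · exact dp_e_11_s hinv hr hH j u hu h
  · exact dp_e_12_s hinv hr hH j u hu h
theorem dp_e_14_s (hinv : ∀ x, g (inv x) = (g x)⁻¹) (hr : ∀ r ∈ rels, (r.map g).prod = 1) (hH : ∀ r ∈ subs, (r.map g).prod ∈ H)
    (j u : ℕ) (hu : u < M) (h : dp_e_14 j u = true) : Good (fa g) T MG M (cP g H) Lt.e u := by
  unfold dp_e_14 at h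
  rcases brec_true h with h | h
  · exact lF_good (T := T) (x := Lt.e) (by decide) [Lt.fi, Lt.ei, Lt.f, Lt.e, Lt.c, Lt.di, Lt.f, Lt.f] (hole_rel hinv hr (by decide +kernel)) h
  · exact lF_good (T := T) (x := Lt.e) (by decide) [Lt.fi, Lt.ei, Lt.f, Lt.e, Lt.c, Lt.d, Lt.fi, Lt.di] (hole_rel hinv hr (by decide +kernel)) h
theorem dp_e_15_s (hinv : ∀ x, g (inv x) = (g x)⁻¹) (hr : ∀ r ∈ rels, (r.map g).prod = 1) (hH : ∀ r ∈ subs, (r.map g).prod ∈ H)
    (j u : ℕ) (hu : u < M) (h : dp_e_15 j u = true) : Good (fa g) T MG M (cP g H) Lt.e u := by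
  unfold dp_e_15 at h
  rcases brec_true h with h | h
  · exact lS_good (T := T) (x := Lt.e) (by decide) hu [Lt.fi, Lt.ei, Lt.f, Lt.e, Lt.c, Lt.di, Lt.f, Lt.f] (hole_rel hinv hr (by decide +kernel)) h
  · exact dp_e_14_s hinv hr hH j u hu h
theorem dp_e_16_s (hinv : ∀ x, g (inv x) = (g x)⁻¹) (hr : ∀ r ∈ rels, (r.map g).prod = 1) (hH : ∀ r ∈ subs, (r.map g).prod ∈ H)
    (j u : ℕ) (hu : u < M) (h : dp_e_16 j u = true) : Good (fa g) T MG M (cP g H) Lt.e u := by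
  unfold dp_e_16 at h
  rcases brec_true h with h | h
  · exact lS_good (T := T) (x := Lt.e) (by decide) hu [Lt.c, Lt.d, Lt.fi, Lt.di, Lt.e, Lt.fi, Lt.ei, Lt.f] (hole_rel hinv hr (by decide +kernel)) h
  · exact lF_good (T := T) (x := Lt.e) (by decide) [Lt.c, Lt.d, Lt.fi, Lt.di, Lt.e, Lt.fi, Lt.ei, Lt.f] (hole_rel hinv hr (by decide +kernel)) h
theorem dp_e_17_s (hinv : ∀ x, g (inv x) = (g x)⁻¹) (hr : ∀ r ∈ rels, (r.map g).prod = 1) (hH : ∀ r ∈ subs, (r.map g).prod ∈ H)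
    (j u : ℕ) (hu : u < M) (h : dp_e_17 j u = true) : Good (fa g) T MG M (cP g H) Lt.e u := by
  unfold dp_e_17 at h
  rcases brec_true h with h | h
  · exact lF_good (T := T) (x := Lt.e) (by decide) [Lt.f, Lt.ei, Lt.d, Lt.f, Lt.di, Lt.ci, Lt.ei, Lt.fi] (hole_rel hinv hr (by decide +kernel)) h
  · exact dp_e_16_s hinv hr hH j u hu h
theorem dp_e_18_s (hinv : ∀ x, g (inv x) = (g x)⁻¹) (hr : ∀ r ∈ rels, (r.map g).prod = 1) (hH : ∀ r ∈ subs, (r.map g).prod ∈ H)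
    (j u : ℕ) (hu : u < M) (h : dp_e_18 j u = true) : Good (fa g) T MG M (cP g H) Lt.e u := by
  unfold dp_e_18 at h
  rcases brec_true h with h | h
  · exact lS_good (T := T) (x := Lt.e) (by decide) hu [Lt.fi, Lt.ei, Lt.f, Lt.e, Lt.c, Lt.d, Lt.fi, Lt.di] (hole_rel hinv hr (by decide +kernel)) h
  · exact dp_e_17_s hinv hr hH j u hu h
theorem dp_e_19_s (hinv : ∀ x, g (inv x) = (g x)⁻¹) (hr : ∀ r ∈ rels, (r.map g).prod = 1) (hH : ∀ r ∈ subs, (r.map g).prod ∈ H)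
    (j u : ℕ) (hu : u < M) (h : dp_e_19 j u = true) : Good (fa g) T MG M (cP g H) Lt.e u := by
  unfold dp_e_19 at h
  rcases brec_true h with h | h
  · exact dp_e_15_s hinv hr hH j u hu h
  · exact dp_e_18_s hinv hr hH j u hu h
theorem dp_e_20_s (hinv : ∀ x, g (inv x) = (g x)⁻¹) (hr : ∀ r ∈ rels, (r.map g).prod = 1) (hH : ∀ r ∈ subs, (r.map g).prod ∈ H)
    (j u : ℕ) (hu : u < M) (h : dp_e_20 j u = true) : Good (fa g) T MG M (cP g H) Lt.e u := by
  unfold dp_e_20 at h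
  rcases brec_true h with h | h
  · exact dp_e_13_s hinv hr hH j u hu h
  · exact dp_e_19_s hinv hr hH j u hu h
theorem dp_e_21_s (hinv : ∀ x, g (inv x) = (g x)⁻¹) (hr : ∀ r ∈ rels, (r.map g).prod = 1) (hH : ∀ r ∈ subs, (r.map g).prod ∈ H)
    (j u : ℕ) (hu : u < M) (h : dp_e_21 j u = true) : Good (fa g) T MG M (cP g H) Lt.e u := by
  unfold dp_e_21 at h
  rcases brec_true h with h | h
  · exact dp_e_10_s hinv hr hH j u hu h
  · exact dp_e_20_s hinv hr hH j u hu h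
theorem dp_e_22_s (hinv : ∀ x, g (inv x) = (g x)⁻¹) (hr : ∀ r ∈ rels, (r.map g).prod = 1) (hH : ∀ r ∈ subs, (r.map g).prod ∈ H)
    (j u : ℕ) (hu : u < M) (h : dp_e_22 j u = true) : Good (fa g) T MG M (cP g H) Lt.e u := by
  unfold dp_e_22 at h
  rcases brec_true h with h | h
  · exact dp_e_6_s hinv hr hH j u hu h
  · exact dp_e_21_s hinv hr hH j u hu h
theorem dp_e_23_s (hinv : ∀ x, g (inv x) = (g x)⁻¹) (hr : ∀ r ∈ rels, (r.map g).prod = 1) (hH : ∀ r ∈ subs, (r.map g).prod ∈ H)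
    (j u : ℕ) (hu : u < M) (h : dp_e_23 j u = true) : Good (fa g) T MG M (cP g H) Lt.e u := by
  unfold dp_e_23 at h
  rcases brec_true h with h | h
  · rcases brec_true h with h | h
    · exact dp_e_0_s hinv hr hH j u hu h
    · exact dp_e_1_s hinv hr hH j u hu h
  · exact dp_e_22_s hinv hr hH j u hu h
theorem snd_e (hinv : ∀ x, g (inv x) = (g x)⁻¹) (hr : ∀ r ∈ rels, (r.map g).prod = 1) (hH : ∀ r ∈ subs, (r.map g).prod ∈ H)
    (j u : ℕ) (hu : u < M) (h : disp_e j u = true) : Good (fa g) T MG M (cP g H) Lt.e u := by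
  unfold disp_e at h
  rcases brec_true h with h | h
  · rcases brec_true h with h | h
    · exact lF1_good (T := T) (x := Lt.e) (by decide) .ei (hole_rel hinv hr (by decide +kernel)) h
    · exact lPar_good (T := T) (x := Lt.e) (x' := Lt.ei) (by decide) rfl (inv_rel hinv _ _ rfl) h
  · rcases brec_true h with h | h
    · rcases brec_true h with h | h
      · exact lDef_good (T := T) (x := Lt.e) (by decide) rfl h
      · exact lS_good (T := T) (x := Lt.e) (by decide) hu [Lt.ei] (hole_rel hinv hr (by decide +kernel)) h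
    · exact dp_e_23_s hinv hr hH j u hu h
theorem snc_e (hinv : ∀ x, g (inv x) = (g x)⁻¹) (hr : ∀ r ∈ rels, (r.map g).prod = 1) (hH : ∀ r ∈ subs, (r.map g).prod ∈ H)
    (j u : ℕ) (hu : u < M) (h : chk_e j u = true) : (T Lt.e u < A ∧ Good (fa g) T MG M (cP g H) Lt.e u) ∨ (A ≤ T Lt.e u ∧ MG u < A) := by
  unfold chk_e at h
  cases hb : Nat.ble A (T_e u) with
  | true => rw [hb] at h; exact Or.inr ⟨le_of_ble hb, le_of_ble h⟩
  | false => rw [hb] at h; exact Or.inl ⟨lt_of_ble_false hb, snd_e hinv hr hH j u hu h⟩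
theorem dp_ei_0_s (hinv : ∀ x, g (inv x) = (g x)⁻¹) (hr : ∀ r ∈ rels, (r.map g).prod = 1) (hH : ∀ r ∈ subs, (r.map g).prod ∈ H)
    (j u : ℕ) (hu : u < M) (h : dp_ei_0 j u = true) : Good (fa g) T MG M (cP g H) Lt.ei u := by
  unfold dp_ei_0 at h
  rcases brec_true h with h | h
  · exact lS_good (T := T) (x := Lt.ei) (by decide) hu [Lt.ci, Lt.ei, Lt.b, Lt.ei, Lt.ci, Lt.ei, Lt.b] (hole_rel hinv hr (by decide +kernel)) h
  · exact lF_good (T := T) (x := Lt.ei) (by decide) [Lt.ci, Lt.ei, Lt.b, Lt.ei, Lt.ci, Lt.ei, Lt.b] (hole_rel hinv hr (by decide +kernel)) h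
theorem dp_ei_1_s (hinv : ∀ x, g (inv x) = (g x)⁻¹) (hr : ∀ r ∈ rels, (r.map g).prod = 1) (hH : ∀ r ∈ subs, (r.map g).prod ∈ H)
    (j u : ℕ) (hu : u < M) (h : dp_ei_1 j u = true) : Good (fa g) T MG M (cP g H) Lt.ei u := by
  unfold dp_ei_1 at h
  rcases brec_true h with h | h
  · exact lS_good (T := T) (x := Lt.ei) (by decide) hu [Lt.b, Lt.ei, Lt.ci, Lt.ei, Lt.b, Lt.ei, Lt.ci] (hole_rel hinv hr (by decide +kernel)) h
  · exact lF_good (T := T) (x := Lt.ei) (by decide) [Lt.b, Lt.ei, Lt.ci, Lt.ei, Lt.b, Lt.ei, Lt.ci] (hole_rel hinv hr (by decide +kernel)) h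
theorem dp_ei_2_s (hinv : ∀ x, g (inv x) = (g x)⁻¹) (hr : ∀ r ∈ rels, (r.map g).prod = 1) (hH : ∀ r ∈ subs, (r.map g).prod ∈ H)
    (j u : ℕ) (hu : u < M) (h : dp_ei_2 j u = true) : Good (fa g) T MG M (cP g H) Lt.ei u := by
  unfold dp_ei_2 at h
  rcases brec_true h with h | h
  · exact lS_good (T := T) (x := Lt.ei) (by decide) hu [Lt.bi, Lt.c, Lt.fi, Lt.ei, Lt.fi, Lt.b, Lt.f, Lt.d] (hole_rel hinv hr (by decide +kernel)) h
  · exact lS_good (T := T) (x := Lt.ei) (by decide) hu [Lt.fi, Lt.e, Lt.fi, Lt.d, Lt.ci, Lt.fi, Lt.e, Lt.f] (hole_rel hinv hr (by decide +kernel)) h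
theorem dp_ei_3_s (hinv : ∀ x, g (inv x) = (g x)⁻¹) (hr : ∀ r ∈ rels, (r.map g).prod = 1) (hH : ∀ r ∈ subs, (r.map g).prod ∈ H)
    (j u : ℕ) (hu : u < M) (h : dp_ei_3 j u = true) : Good (fa g) T MG M (cP g H) Lt.ei u := by
  unfold dp_ei_3 at h
  rcases brec_true h with h | h
  · exact lS_good (T := T) (x := Lt.ei) (by decide) hu [Lt.f, Lt.e, Lt.fi, Lt.ei, Lt.f, Lt.c, Lt.di, Lt.f] (hole_rel hinv hr (by decide +kernel)) h
  · exact dp_ei_2_s hinv hr hH j u hu h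
theorem dp_ei_4_s (hinv : ∀ x, g (inv x) = (g x)⁻¹) (hr : ∀ r ∈ rels, (r.map g).prod = 1) (hH : ∀ r ∈ subs, (r.map g).prod ∈ H)
    (j u : ℕ) (hu : u < M) (h : dp_ei_4 j u = true) : Good (fa g) T MG M (cP g H) Lt.ei u := by
  unfold dp_ei_4 at h
  rcases brec_true h with h | h
  · exact lF_good (T := T) (x := Lt.ei) (by decide) [Lt.bi, Lt.c, Lt.fi, Lt.ei, Lt.fi, Lt.b, Lt.f, Lt.d] (hole_rel hinv hr (by decide +kernel)) h
  · exact lS_good (T := T) (x := Lt.ei) (by decide) hu [Lt.fi, Lt.b, Lt.f, Lt.d, Lt.ei, Lt.bi, Lt.c, Lt.fi] (hole_rel hinv hr (by decide +kernel)) h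
theorem dp_ei_5_s (hinv : ∀ x, g (inv x) = (g x)⁻¹) (hr : ∀ r ∈ rels, (r.map g).prod = 1) (hH : ∀ r ∈ subs, (r.map g).prod ∈ H)
    (j u : ℕ) (hu : u < M) (h : dp_ei_5 j u = true) : Good (fa g) T MG M (cP g H) Lt.ei u := by
  unfold dp_ei_5 at h
  rcases brec_true h with h | h
  · exact lF_good (T := T) (x := Lt.ei) (by decide) [Lt.f, Lt.e, Lt.fi, Lt.ei, Lt.f, Lt.c, Lt.di, Lt.f] (hole_rel hinv hr (by decide +kernel)) h
  · exact lF_good (T := T) (x := Lt.ei) (by decide) [Lt.fi, Lt.b, Lt.f, Lt.d, Lt.ei, Lt.bi, Lt.c, Lt.fi] (hole_rel hinv hr (by decide +kernel)) h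
theorem dp_ei_6_s (hinv : ∀ x, g (inv x) = (g x)⁻¹) (hr : ∀ r ∈ rels, (r.map g).prod = 1) (hH : ∀ r ∈ subs, (r.map g).prod ∈ H)
    (j u : ℕ) (hu : u < M) (h : dp_ei_6 j u = true) : Good (fa g) T MG M (cP g H) Lt.ei u := by
  unfold dp_ei_6 at h
  rcases brec_true h with h | h
  · exact dp_ei_4_s hinv hr hH j u hu h
  · exact dp_ei_5_s hinv hr hH j u hu h
theorem dp_ei_7_s (hinv : ∀ x, g (inv x) = (g x)⁻¹) (hr : ∀ r ∈ rels, (r.map g).prod = 1) (hH : ∀ r ∈ subs, (r.map g).prod ∈ H)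
    (j u : ℕ) (hu : u < M) (h : dp_ei_7 j u = true) : Good (fa g) T MG M (cP g H) Lt.ei u := by
  unfold dp_ei_7 at h
  rcases brec_true h with h | h
  · exact dp_ei_3_s hinv hr hH j u hu h
  · exact dp_ei_6_s hinv hr hH j u hu h
theorem dp_ei_8_s (hinv : ∀ x, g (inv x) = (g x)⁻¹) (hr : ∀ r ∈ rels, (r.map g).prod = 1) (hH : ∀ r ∈ subs, (r.map g).prod ∈ H)
    (j u : ℕ) (hu : u < M) (h : dp_ei_8 j u = true) : Good (fa g) T MG M (cP g H) Lt.ei u := by
  unfold dp_ei_8 at h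
  rcases brec_true h with h | h
  · exact lS_good (T := T) (x := Lt.ei) (by decide) hu [Lt.f, Lt.c, Lt.di, Lt.f, Lt.ei, Lt.f, Lt.e, Lt.fi] (hole_rel hinv hr (by decide +kernel)) h
  · exact lF_good (T := T) (x := Lt.ei) (by decide) [Lt.fi, Lt.e, Lt.fi, Lt.d, Lt.ci, Lt.fi, Lt.e, Lt.f] (hole_rel hinv hr (by decide +kernel)) h
theorem dp_ei_9_s (hinv : ∀ x, g (inv x) = (g x)⁻¹) (hr : ∀ r ∈ rels, (r.map g).prod = 1) (hH : ∀ r ∈ subs, (r.map g).prod ∈ H)
    (j u : ℕ) (hu : u < M) (h : dp_ei_9 j u = true) : Good (fa g) T MG M (cP g H) Lt.ei u := by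
  unfold dp_ei_9 at h
  rcases brec_true h with h | h
  · exact lS_good (T := T) (x := Lt.ei) (by decide) hu [Lt.fi, Lt.e, Lt.f, Lt.ei, Lt.fi, Lt.fi, Lt.d, Lt.ci] (hole_rel hinv hr (by decide +kernel)) h
  · exact lS_good (T := T) (x := Lt.ei) (by decide) hu [Lt.f, Lt.e, Lt.c, Lt.d, Lt.fi, Lt.di, Lt.e, Lt.fi] (hole_rel hinv hr (by decide +kernel)) h
theorem dp_ei_10_s (hinv : ∀ x, g (inv x) = (g x)⁻¹) (hr : ∀ r ∈ rels, (r.map g).prod = 1) (hH : ∀ r ∈ subs, (r.map g).prod ∈ H)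
    (j u : ℕ) (hu : u < M) (h : dp_ei_10 j u = true) : Good (fa g) T MG M (cP g H) Lt.ei u := by
  unfold dp_ei_10 at h
  rcases brec_true h with h | h
  · exact lF_good (T := T) (x := Lt.ei) (by decide) [Lt.f, Lt.c, Lt.di, Lt.f, Lt.ei, Lt.f, Lt.e, Lt.fi] (hole_rel hinv hr (by decide +kernel)) h
  · exact dp_ei_9_s hinv hr hH j u hu h
theorem dp_ei_11_s (hinv : ∀ x, g (inv x) = (g x)⁻¹) (hr : ∀ r ∈ rels, (r.map g).prod = 1) (hH : ∀ r ∈ subs, (r.map g).prod ∈ H)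
    (j u : ℕ) (hu : u < M) (h : dp_ei_11 j u = true) : Good (fa g) T MG M (cP g H) Lt.ei u := by
  unfold dp_ei_11 at h
  rcases brec_true h with h | h
  · exact dp_ei_8_s hinv hr hH j u hu h
  · exact dp_ei_10_s hinv hr hH j u hu h
theorem dp_ei_12_s (hinv : ∀ x, g (inv x) = (g x)⁻¹) (hr : ∀ r ∈ rels, (r.map g).prod = 1) (hH : ∀ r ∈ subs, (r.map g).prod ∈ H)
    (j u : ℕ) (hu : u < M) (h : dp_ei_12 j u = true) : Good (fa g) T MG M (cP g H) Lt.ei u := by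
  unfold dp_ei_12 at h
  rcases brec_true h with h | h
  · exact lF_good (T := T) (x := Lt.ei) (by decide) [Lt.fi, Lt.fi, Lt.d, Lt.ci, Lt.ei, Lt.fi, Lt.e, Lt.f] (hole_rel hinv hr (by decide +kernel)) h
  · exact lS_good (T := T) (x := Lt.ei) (by decide) hu [Lt.f, Lt.e, Lt.c, Lt.di, Lt.f, Lt.f, Lt.e, Lt.fi] (hole_rel hinv hr (by decide +kernel)) h
theorem dp_ei_13_s (hinv : ∀ x, g (inv x) = (g x)⁻¹) (hr : ∀ r ∈ rels, (r.map g).prod = 1) (hH : ∀ r ∈ subs, (r.map g).prod ∈ H)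
    (j u : ℕ) (hu : u < M) (h : dp_ei_13 j u = true) : Good (fa g) T MG M (cP g H) Lt.ei u := by
  unfold dp_ei_13 at h
  rcases brec_true h with h | h
  · exact lS_good (T := T) (x := Lt.ei) (by decide) hu [Lt.fi, Lt.fi, Lt.d, Lt.ci, Lt.ei, Lt.fi, Lt.e, Lt.f] (hole_rel hinv hr (by decide +kernel)) h
  · exact lF_good (T := T) (x := Lt.ei) (by decide) [Lt.f, Lt.e, Lt.c, Lt.di, Lt.f, Lt.f, Lt.e, Lt.fi] (hole_rel hinv hr (by decide +kernel)) h
theorem dp_ei_14_s (hinv : ∀ x, g (inv x) = (g x)⁻¹) (hr : ∀ r ∈ rels, (r.map g).prod = 1) (hH : ∀ r ∈ subs, (r.map g).prod ∈ H)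
    (j u : ℕ) (hu : u < M) (h : dp_ei_14 j u = true) : Good (fa g) T MG M (cP g H) Lt.ei u := by
  unfold dp_ei_14 at h
  rcases brec_true h with h | h
  · exact dp_ei_12_s hinv hr hH j u hu h
  · exact dp_ei_13_s hinv hr hH j u hu h
theorem dp_ei_15_s (hinv : ∀ x, g (inv x) = (g x)⁻¹) (hr : ∀ r ∈ rels, (r.map g).prod = 1) (hH : ∀ r ∈ subs, (r.map g).prod ∈ H)
    (j u : ℕ) (hu : u < M) (h : dp_ei_15 j u = true) : Good (fa g) T MG M (cP g H) Lt.ei u := by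
  unfold dp_ei_15 at h
  rcases brec_true h with h | h
  · exact lF_good (T := T) (x := Lt.ei) (by decide) [Lt.fi, Lt.e, Lt.f, Lt.ei, Lt.fi, Lt.fi, Lt.d, Lt.ci] (hole_rel hinv hr (by decide +kernel)) h
  · exact lS_good (T := T) (x := Lt.ei) (by decide) hu [Lt.d, Lt.f, Lt.di, Lt.ci, Lt.ei, Lt.fi, Lt.e, Lt.f] (hole_rel hinv hr (by decide +kernel)) h
theorem dp_ei_16_s (hinv : ∀ x, g (inv x) = (g x)⁻¹) (hr : ∀ r ∈ rels, (r.map g).prod = 1) (hH : ∀ r ∈ subs, (r.map g).prod ∈ H)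
    (j u : ℕ) (hu : u < M) (h : dp_ei_16 j u = true) : Good (fa g) T MG M (cP g H) Lt.ei u := by
  unfold dp_ei_16 at h
  rcases brec_true h with h | h
  · exact lS_good (T := T) (x := Lt.ei) (by decide) hu [Lt.fi, Lt.e, Lt.f, Lt.ei, Lt.d, Lt.f, Lt.di, Lt.ci] (hole_rel hinv hr (by decide +kernel)) h
  · exact lF_good (T := T) (x := Lt.ei) (by decide) [Lt.f, Lt.e, Lt.c, Lt.d, Lt.fi, Lt.di, Lt.e, Lt.fi] (hole_rel hinv hr (by decide +kernel)) h
theorem dp_ei_17_s (hinv : ∀ x, g (inv x) = (g x)⁻¹) (hr : ∀ r ∈ rels, (r.map g).prod = 1) (hH : ∀ r ∈ subs, (r.map g).prod ∈ H)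
    (j u : ℕ) (hu : u < M) (h : dp_ei_17 j u = true) : Good (fa g) T MG M (cP g H) Lt.ei u := by
  unfold dp_ei_17 at h
  rcases brec_true h with h | h
  · exact lF_good (T := T) (x := Lt.ei) (by decide) [Lt.d, Lt.f, Lt.di, Lt.ci, Lt.ei, Lt.fi, Lt.e, Lt.f] (hole_rel hinv hr (by decide +kernel)) h
  · exact lF_good (T := T) (x := Lt.ei) (by decide) [Lt.fi, Lt.e, Lt.f, Lt.ei, Lt.d, Lt.f, Lt.di, Lt.ci] (hole_rel hinv hr (by decide +kernel)) h
theorem dp_ei_18_s (hinv : ∀ x, g (inv x) = (g x)⁻¹) (hr : ∀ r ∈ rels, (r.map g).prod = 1) (hH : ∀ r ∈ subs, (r.map g).prod ∈ H)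
    (j u : ℕ) (hu : u < M) (h : dp_ei_18 j u = true) : Good (fa g) T MG M (cP g H) Lt.ei u := by
  unfold dp_ei_18 at h
  rcases brec_true h with h | h
  · exact dp_ei_16_s hinv hr hH j u hu h
  · exact dp_ei_17_s hinv hr hH j u hu h
theorem dp_ei_19_s (hinv : ∀ x, g (inv x) = (g x)⁻¹) (hr : ∀ r ∈ rels, (r.map g).prod = 1) (hH : ∀ r ∈ subs, (r.map g).prod ∈ H)
    (j u : ℕ) (hu : u < M) (h : dp_ei_19 j u = true) : Good (fa g) T MG M (cP g H) Lt.ei u := by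
  unfold dp_ei_19 at h
  rcases brec_true h with h | h
  · exact dp_ei_15_s hinv hr hH j u hu h
  · exact dp_ei_18_s hinv hr hH j u hu h
theorem dp_ei_20_s (hinv : ∀ x, g (inv x) = (g x)⁻¹) (hr : ∀ r ∈ rels, (r.map g).prod = 1) (hH : ∀ r ∈ subs, (r.map g).prod ∈ H)
    (j u : ℕ) (hu : u < M) (h : dp_ei_20 j u = true) : Good (fa g) T MG M (cP g H) Lt.ei u := by
  unfold dp_ei_20 at h
  rcases brec_true h with h | h
  · exact dp_ei_14_s hinv hr hH j u hu h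
  · exact dp_ei_19_s hinv hr hH j u hu h
theorem dp_ei_21_s (hinv : ∀ x, g (inv x) = (g x)⁻¹) (hr : ∀ r ∈ rels, (r.map g).prod = 1) (hH : ∀ r ∈ subs, (r.map g).prod ∈ H)
    (j u : ℕ) (hu : u < M) (h : dp_ei_21 j u = true) : Good (fa g) T MG M (cP g H) Lt.ei u := by
  unfold dp_ei_21 at h
  rcases brec_true h with h | h
  · exact dp_ei_11_s hinv hr hH j u hu h
  · exact dp_ei_20_s hinv hr hH j u hu h
theorem dp_ei_22_s (hinv : ∀ x, g (inv x) = (g x)⁻¹) (hr : ∀ r ∈ rels, (r.map g).prod = 1) (hH : ∀ r ∈ subs, (r.map g).prod ∈ H)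
    (j u : ℕ) (hu : u < M) (h : dp_ei_22 j u = true) : Good (fa g) T MG M (cP g H) Lt.ei u := by
  unfold dp_ei_22 at h
  rcases brec_true h with h | h
  · exact dp_ei_7_s hinv hr hH j u hu h
  · exact dp_ei_21_s hinv hr hH j u hu h
theorem dp_ei_23_s (hinv : ∀ x, g (inv x) = (g x)⁻¹) (hr : ∀ r ∈ rels, (r.map g).prod = 1) (hH : ∀ r ∈ subs, (r.map g).prod ∈ H)
    (j u : ℕ) (hu : u < M) (h : dp_ei_23 j u = true) : Good (fa g) T MG M (cP g H) Lt.ei u := by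
  unfold dp_ei_23 at h
  rcases brec_true h with h | h
  · rcases brec_true h with h | h
    · exact dp_ei_0_s hinv hr hH j u hu h
    · exact dp_ei_1_s hinv hr hH j u hu h
  · exact dp_ei_22_s hinv hr hH j u hu h
theorem snd_ei (hinv : ∀ x, g (inv x) = (g x)⁻¹) (hr : ∀ r ∈ rels, (r.map g).prod = 1) (hH : ∀ r ∈ subs, (r.map g).prod ∈ H)
    (j u : ℕ) (hu : u < M) (h : disp_ei j u = true) : Good (fa g) T MG M (cP g H) Lt.ei u := by
  unfold disp_ei at h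
  rcases brec_true h with h | h
  · rcases brec_true h with h | h
    · exact lF1_good (T := T) (x := Lt.ei) (by decide) .e (hole_rel hinv hr (by decide +kernel)) h
    · exact lDef_good (T := T) (x := Lt.ei) (by decide) rfl h
  · rcases brec_true h with h | h
    · rcases brec_true h with h | h
      · exact lPar_good (T := T) (x := Lt.ei) (x' := Lt.e) (by decide) rfl (inv_rel hinv _ _ rfl) h
      · exact lS_good (T := T) (x := Lt.ei) (by decide) hu [Lt.e] (hole_rel hinv hr (by decide +kernel)) h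
    · exact dp_ei_23_s hinv hr hH j u hu h
theorem snc_ei (hinv : ∀ x, g (inv x) = (g x)⁻¹) (hr : ∀ r ∈ rels, (r.map g).prod = 1) (hH : ∀ r ∈ subs, (r.map g).prod ∈ H)
    (j u : ℕ) (hu : u < M) (h : chk_ei j u = true) : (T Lt.ei u < A ∧ Good (fa g) T MG M (cP g H) Lt.ei u) ∨ (A ≤ T Lt.ei u ∧ MG u < A) := by
  unfold chk_ei at h
  cases hb : Nat.ble A (T_ei u) with
  | true => rw [hb] at h; exact Or.inr ⟨le_of_ble hb, le_of_ble h⟩
  | false => rw [hb] at h; exact Or.inl ⟨lt_of_ble_false hb, snd_ei hinv hr hH j u hu h⟩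
theorem dM_0_s (hinv : ∀ x, g (inv x) = (g x)⁻¹) (hr : ∀ r ∈ rels, (r.map g).prod = 1) (j z1 z2 u : ℕ) (h : dM_0 j z1 z2 u = true) : GoodM (fa g) T MG M (cP g H) u := by
  unfold dM_0 at h
  rcases brec_true h with h | h
  · rcases brec_true h with h | h
    · exact mCo_good (T := T) (y := .ci) (by decide) h
    · exact mCo_good (T := T) (y := .f) (by decide) h
  · rcases brec_true h with h | h
    · exact mCo_good (T := T) (y := .b) (by decide) h
    · rcases brec_true h with h | h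
      · exact mCo_good (T := T) (y := .fi) (by decide) h
      · exact mCo_good (T := T) (y := .bi) (by decide) h
theorem dM_1_s (hinv : ∀ x, g (inv x) = (g x)⁻¹) (hr : ∀ r ∈ rels, (r.map g).prod = 1) (j z1 z2 u : ℕ) (h : dM_1 j z1 z2 u = true) : GoodM (fa g) T MG M (cP g H) u := by
  unfold dM_1 at h
  rcases brec_true h with h | h
  · exact mCo_good (T := T) (y := .c) (by decide) h
  · exact mCo_good (T := T) (y := .d) (by decide) h
theorem dM_2_s (hinv : ∀ x, g (inv x) = (g x)⁻¹) (hr : ∀ r ∈ rels, (r.map g).prod = 1) (j z1 z2 u : ℕ) (h : dM_2 j z1 z2 u = true) : GoodM (fa g) T MG M (cP g H) u := by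
  unfold dM_2 at h
  rcases brec_true h with h | h
  · rcases brec_true h with h | h
    · exact mCo_good (T := T) (y := .di) (by decide) h
    · exact mCo_good (T := T) (y := .e) (by decide) h
  · rcases brec_true h with h | h
    · exact mCo_good (T := T) (y := .ei) (by decide) h
    · rcases brec_true h with h | h
      · rcases brec_true h with h | h
        · exact mRel_good (T := T) (by decide) [Lt.ei, Lt.b] [Lt.c, Lt.e, Lt.bi, Lt.e, Lt.c, Lt.e] (pair_rel hinv hr (by decide +kernel)) h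
        · rcases brec_true h with h | h
          · exact mRel_good (T := T) (by decide) [Lt.ei, Lt.b, Lt.ei] [Lt.c, Lt.e, Lt.bi, Lt.e, Lt.c] (pair_rel hinv hr (by decide +kernel)) h
          · exact mRel_good (T := T) (by decide) [Lt.e, Lt.bi] [Lt.ci, Lt.ei, Lt.b, Lt.ei, Lt.ci, Lt.ei] (pair_rel hinv hr (by decide +kernel)) h
      · rcases brec_true h with h | h
        · rcases brec_true h with h | h
          · exact mRel_good (T := T) (by decide) [Lt.ei, Lt.b, Lt.ei, Lt.ci, Lt.ei, Lt.b, Lt.ei] [Lt.c] (pair_rel hinv hr (by decide +kernel)) h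
          · exact mRel_good (T := T) (by decide) [Lt.ei, Lt.b, Lt.ei, Lt.ci, Lt.ei, Lt.b] [Lt.c, Lt.e] (pair_rel hinv hr (by decide +kernel)) h
        · rcases brec_true h with h | h
          · exact mRel_good (T := T) (by decide) [Lt.e, Lt.c, Lt.e, Lt.bi, Lt.e, Lt.c, Lt.e] [Lt.b] (pair_rel hinv hr (by decide +kernel)) h
          · rcases brec_true h with h | h
            · exact mRel_good (T := T) (by decide) [Lt.ei, Lt.ci] [Lt.bi, Lt.e, Lt.c, Lt.e, Lt.bi, Lt.e] (pair_rel hinv hr (by decide +kernel)) h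
            · exact mRel_good (T := T) (by decide) [Lt.e, Lt.c, Lt.e] [Lt.b, Lt.ei, Lt.ci, Lt.ei, Lt.b] (pair_rel hinv hr (by decide +kernel)) h
theorem dM_3_s (hinv : ∀ x, g (inv x) = (g x)⁻¹) (hr : ∀ r ∈ rels, (r.map g).prod = 1) (j z1 z2 u : ℕ) (h : dM_3 j z1 z2 u = true) : GoodM (fa g) T MG M (cP g H) u := by
  unfold dM_3 at h
  rcases brec_true h with h | h
  · exact dM_1_s hinv hr j z1 z2 u h
  · exact dM_2_s hinv hr j z1 z2 u h
theorem dM_4_s (hinv : ∀ x, g (inv x) = (g x)⁻¹) (hr : ∀ r ∈ rels, (r.map g).prod = 1) (j z1 z2 u : ℕ) (h : dM_4 j z1 z2 u = true) : GoodM (fa g) T MG M (cP g H) u := by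
  unfold dM_4 at h
  rcases brec_true h with h | h
  · exact dM_0_s hinv hr j z1 z2 u h
  · exact dM_3_s hinv hr j z1 z2 u h
theorem dM_5_s (hinv : ∀ x, g (inv x) = (g x)⁻¹) (hr : ∀ r ∈ rels, (r.map g).prod = 1) (j z1 z2 u : ℕ) (h : dM_5 j z1 z2 u = true) : GoodM (fa g) T MG M (cP g H) u := by
  unfold dM_5 at h
  rcases brec_true h with h | h
  · rcases brec_true h with h | h
    · rcases brec_true h with h | h
      · exact mRel_good (T := T) (by decide) [Lt.e, Lt.bi, Lt.e, Lt.c, Lt.e, Lt.bi] [Lt.ci, Lt.ei] (pair_rel hinv hr (by decide +kernel)) h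
      · exact mRel_good (T := T) (by decide) [Lt.ei, Lt.ci, Lt.ei, Lt.b, Lt.ei, Lt.ci, Lt.ei] [Lt.bi] (pair_rel hinv hr (by decide +kernel)) h
    · rcases brec_true h with h | h
      · exact mRel_good (T := T) (by decide) [Lt.ei, Lt.ci, Lt.ei, Lt.b] [Lt.bi, Lt.e, Lt.c, Lt.e] (pair_rel hinv hr (by decide +kernel)) h
      · exact mRel_good (T := T) (by decide) [Lt.e, Lt.c, Lt.e, Lt.bi, Lt.e, Lt.c] [Lt.b, Lt.ei] (pair_rel hinv hr (by decide +kernel)) h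
  · rcases brec_true h with h | h
    · rcases brec_true h with h | h
      · exact mRel_good (T := T) (by decide) [Lt.ei, Lt.ci, Lt.ei] [Lt.bi, Lt.e, Lt.c, Lt.e, Lt.bi] (pair_rel hinv hr (by decide +kernel)) h
      · exact mRel_good (T := T) (by decide) [Lt.e, Lt.bi, Lt.e] [Lt.ci, Lt.ei, Lt.b, Lt.ei, Lt.ci] (pair_rel hinv hr (by decide +kernel)) h
    · rcases brec_true h with h | h
      · exact mRel_good (T := T) (by decide) [Lt.e, Lt.bi, Lt.e, Lt.c, Lt.e, Lt.bi, Lt.e] [Lt.ci] (pair_rel hinv hr (by decide +kernel)) h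
      · exact mRel_good (T := T) (by decide) [Lt.e, Lt.bi, Lt.e, Lt.c, Lt.e] [Lt.ci, Lt.ei, Lt.b] (pair_rel hinv hr (by decide +kernel)) h
theorem dM_6_s (hinv : ∀ x, g (inv x) = (g x)⁻¹) (hr : ∀ r ∈ rels, (r.map g).prod = 1) (j z1 z2 u : ℕ) (h : dM_6 j z1 z2 u = true) : GoodM (fa g) T MG M (cP g H) u := by
  unfold dM_6 at h
  rcases brec_true h with h | h
  · rcases brec_true h with h | h
    · rcases brec_true h with h | h
      · exact mRel_good (T := T) (by decide) [Lt.ei, Lt.ci, Lt.ei, Lt.b, Lt.ei] [Lt.bi, Lt.e, Lt.c] (pair_rel hinv hr (by decide +kernel)) h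
      · exact mRel_good (T := T) (by decide) [Lt.ei, Lt.b, Lt.ei, Lt.ci] [Lt.c, Lt.e, Lt.bi, Lt.e] (pair_rel hinv hr (by decide +kernel)) h
    · rcases brec_true h with h | h
      · exact mRel_good (T := T) (by decide) [Lt.ei, Lt.ci, Lt.ei, Lt.b, Lt.ei, Lt.ci] [Lt.bi, Lt.e] (pair_rel hinv hr (by decide +kernel)) h
      · rcases brec_true h with h | h
        · exact mRel_good (T := T) (by decide) [Lt.e, Lt.bi, Lt.e, Lt.c] [Lt.ci, Lt.ei, Lt.b, Lt.ei] (pair_rel hinv hr (by decide +kernel)) h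
        · exact mRel_good (T := T) (by decide) [Lt.e, Lt.c, Lt.e, Lt.bi] [Lt.b, Lt.ei, Lt.ci, Lt.ei] (pair_rel hinv hr (by decide +kernel)) h
  · rcases brec_true h with h | h
    · rcases brec_true h with h | h
      · exact mRel_good (T := T) (by decide) [Lt.ci, Lt.ei] [Lt.e, Lt.bi, Lt.e, Lt.c, Lt.e, Lt.bi] (pair_rel hinv hr (by decide +kernel)) h
      · rcases brec_true h with h | h
        · exact mRel_good (T := T) (by decide) [Lt.e, Lt.c] [Lt.b, Lt.ei, Lt.ci, Lt.ei, Lt.b, Lt.ei] (pair_rel hinv hr (by decide +kernel)) h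
        · exact mRel_good (T := T) (by decide) [Lt.fi, Lt.e, Lt.fi, Lt.d] [Lt.e, Lt.fi, Lt.ei, Lt.f, Lt.c] (pair_rel hinv hr (by decide +kernel)) h
    · rcases brec_true h with h | h
      · rcases brec_true h with h | h
        · exact mRel_good (T := T) (by decide) [Lt.b, Lt.ei, Lt.ci, Lt.ei, Lt.b] [Lt.e, Lt.c, Lt.e] (pair_rel hinv hr (by decide +kernel)) h
        · exact mRel_good (T := T) (by decide) [Lt.ei, Lt.b, Lt.ei, Lt.ci, Lt.ei] [Lt.c, Lt.e, Lt.bi] (pair_rel hinv hr (by decide +kernel)) h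
      · rcases brec_true h with h | h
        · exact mRel_good (T := T) (by decide) [Lt.b] [Lt.c, Lt.fi, Lt.ei, Lt.fi, Lt.b, Lt.f, Lt.d, Lt.ei] (pair_rel hinv hr (by decide +kernel)) h
        · exact mRel_good (T := T) (by decide) [Lt.fi, Lt.ei, Lt.f, Lt.c, Lt.di, Lt.f, Lt.ei] [Lt.ei, Lt.fi] (pair_rel hinv hr (by decide +kernel)) h
theorem dM_7_s (hinv : ∀ x, g (inv x) = (g x)⁻¹) (hr : ∀ r ∈ rels, (r.map g).prod = 1) (j z1 z2 u : ℕ) (h : dM_7 j z1 z2 u = true) : GoodM (fa g) T MG M (cP g H) u := by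
  unfold dM_7 at h
  rcases brec_true h with h | h
  · exact dM_5_s hinv hr j z1 z2 u h
  · exact dM_6_s hinv hr j z1 z2 u h
theorem dM_8_s (hinv : ∀ x, g (inv x) = (g x)⁻¹) (hr : ∀ r ∈ rels, (r.map g).prod = 1) (j z1 z2 u : ℕ) (h : dM_8 j z1 z2 u = true) : GoodM (fa g) T MG M (cP g H) u := by
  unfold dM_8 at h
  rcases brec_true h with h | h
  · rcases brec_true h with h | h
    · rcases brec_true h with h | h
      · exact mRel_good (T := T) (by decide) [Lt.bi, Lt.ci, Lt.di, Lt.b, Lt.f, Lt.f] [Lt.b, Lt.ci] (pair_rel hinv hr (by decide +kernel)) h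
      · exact mRel_good (T := T) (by decide) [Lt.b, Lt.di, Lt.f, Lt.bi] [Lt.c, Lt.d, Lt.f, Lt.ci] (pair_rel hinv hr (by decide +kernel)) h
    · rcases brec_true h with h | h
      · exact mRel_good (T := T) (by decide) [Lt.d, Lt.bi, Lt.d, Lt.d, Lt.b] [Lt.di, Lt.b, Lt.di] (pair_rel hinv hr (by decide +kernel)) h
      · exact mRel_good (T := T) (by decide) [Lt.f, Lt.e, Lt.f, Lt.ci, Lt.b, Lt.e] [Lt.b, Lt.f, Lt.d] (pair_rel hinv hr (by decide +kernel)) h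
  · rcases brec_true h with h | h
    · rcases brec_true h with h | h
      · exact mRel_good (T := T) (by decide) [Lt.d, Lt.f, Lt.ci, Lt.b, Lt.fi, Lt.d] [Lt.ci, Lt.b] (pair_rel hinv hr (by decide +kernel)) h
      · exact mRel_good (T := T) (by decide) [Lt.b, Lt.ci, Lt.di, Lt.ci, Lt.bi, Lt.f] [Lt.di, Lt.c] (pair_rel hinv hr (by decide +kernel)) h
    · rcases brec_true h with h | h
      · exact mRel_good (T := T) (by decide) [Lt.d, Lt.ei] [Lt.fi, Lt.bi, Lt.f, Lt.e, Lt.f, Lt.ci, Lt.b] (pair_rel hinv hr (by decide +kernel)) h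
      · exact mRel_good (T := T) (by decide) [Lt.b, Lt.e, Lt.di, Lt.fi, Lt.bi, Lt.f, Lt.e] [Lt.c, Lt.fi] (pair_rel hinv hr (by decide +kernel)) h
theorem dM_9_s (hinv : ∀ x, g (inv x) = (g x)⁻¹) (hr : ∀ r ∈ rels, (r.map g).prod = 1) (j z1 z2 u : ℕ) (h : dM_9 j z1 z2 u = true) : GoodM (fa g) T MG M (cP g H) u := by
  unfold dM_9 at h
  rcases brec_true h with h | h
  · rcases brec_true h with h | h
    · rcases brec_true h with h | h
      · exact mRel_good (T := T) (by decide) [Lt.ei, Lt.bi, Lt.c, Lt.fi] [Lt.di, Lt.fi, Lt.bi, Lt.f, Lt.e] (pair_rel hinv hr (by decide +kernel)) h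
      · exact mRel_good (T := T) (by decide) [Lt.b, Lt.ci, Lt.bi, Lt.fi, Lt.di, Lt.fi] [Lt.ci, Lt.bi] (pair_rel hinv hr (by decide +kernel)) h
    · rcases brec_true h with h | h
      · exact mRel_good (T := T) (by decide) [Lt.f, Lt.d, Lt.ei, Lt.bi, Lt.c, Lt.fi, Lt.ei] [Lt.bi, Lt.f] (pair_rel hinv hr (by decide +kernel)) h
      · exact mRel_good (T := T) (by decide) [Lt.bi, Lt.f, Lt.e] [Lt.f, Lt.d, Lt.ei, Lt.bi, Lt.c, Lt.fi] (pair_rel hinv hr (by decide +kernel)) h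
  · rcases brec_true h with h | h
    · rcases brec_true h with h | h
      · exact mRel_good (T := T) (by decide) [Lt.c, Lt.di, Lt.f, Lt.f] [Lt.ei, Lt.fi, Lt.e, Lt.f, Lt.ei] (pair_rel hinv hr (by decide +kernel)) h
      · exact mRel_good (T := T) (by decide) [Lt.ci, Lt.bi] [Lt.di, Lt.ci, Lt.bi, Lt.d, Lt.f, Lt.di] (pair_rel hinv hr (by decide +kernel)) h
    · rcases brec_true h with h | h
      · exact mRel_good (T := T) (by decide) [Lt.c, Lt.di, Lt.c] [Lt.bi, Lt.d, Lt.ci, Lt.b, Lt.di] (pair_rel hinv hr (by decide +kernel)) h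
      · rcases brec_true h with h | h
        · exact mRel_good (T := T) (by decide) [Lt.ci, Lt.ei, Lt.b, Lt.ei, Lt.ci] [Lt.e, Lt.bi, Lt.e] (pair_rel hinv hr (by decide +kernel)) h
        · exact mRel_good (T := T) (by decide) [Lt.e, Lt.di, Lt.fi, Lt.bi, Lt.f, Lt.e] [Lt.bi, Lt.c, Lt.fi] (pair_rel hinv hr (by decide +kernel)) h
theorem dM_10_s (hinv : ∀ x, g (inv x) = (g x)⁻¹) (hr : ∀ r ∈ rels, (r.map g).prod = 1) (j z1 z2 u : ℕ) (h : dM_10 j z1 z2 u = true) : GoodM (fa g) T MG M (cP g H) u := by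
  unfold dM_10 at h
  rcases brec_true h with h | h
  · exact dM_8_s hinv hr j z1 z2 u h
  · exact dM_9_s hinv hr j z1 z2 u h
theorem dM_11_s (hinv : ∀ x, g (inv x) = (g x)⁻¹) (hr : ∀ r ∈ rels, (r.map g).prod = 1) (j z1 z2 u : ℕ) (h : dM_11 j z1 z2 u = true) : GoodM (fa g) T MG M (cP g H) u := by
  unfold dM_11 at h
  rcases brec_true h with h | h
  · rcases brec_true h with h | h
    · rcases brec_true h with h | h
      · exact mRel_good (T := T) (by decide) [Lt.c, Lt.e, Lt.bi, Lt.e] [Lt.ei, Lt.b, Lt.ei, Lt.ci] (pair_rel hinv hr (by decide +kernel)) h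
      · exact mRel_good (T := T) (by decide) [Lt.ci, Lt.d] [Lt.d, Lt.bi, Lt.c, Lt.di, Lt.b, Lt.c] (pair_rel hinv hr (by decide +kernel)) h
    · rcases brec_true h with h | h
      · exact mRel_good (T := T) (by decide) [Lt.c, Lt.e, Lt.bi, Lt.e, Lt.c, Lt.e] [Lt.ei, Lt.b] (pair_rel hinv hr (by decide +kernel)) h
      · rcases brec_true h with h | h
        · exact mRel_good (T := T) (by decide) [Lt.d, Lt.fi, Lt.d, Lt.d, Lt.f, Lt.d] [Lt.f, Lt.f] (pair_rel hinv hr (by decide +kernel)) h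
        · exact mRel_good (T := T) (by decide) [Lt.c, Lt.b, Lt.d, Lt.ci, Lt.fi, Lt.fi, Lt.di] [Lt.b] (pair_rel hinv hr (by decide +kernel)) h
  · rcases brec_true h with h | h
    · rcases brec_true h with h | h
      · exact mRel_good (T := T) (by decide) [Lt.c, Lt.b, Lt.c, Lt.c, Lt.d] [Lt.b, Lt.di, Lt.f] (pair_rel hinv hr (by decide +kernel)) h
      · exact mRel_good (T := T) (by decide) [Lt.b, Lt.c, Lt.bi, Lt.ci, Lt.bi] [Lt.di, Lt.di, Lt.f] (pair_rel hinv hr (by decide +kernel)) h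
    · rcases brec_true h with h | h
      · exact mRel_good (T := T) (by decide) [Lt.d, Lt.c, Lt.bi, Lt.ci] [Lt.c, Lt.b, Lt.ci, Lt.di] (pair_rel hinv hr (by decide +kernel)) h
      · rcases brec_true h with h | h
        · exact mRel_good (T := T) (by decide) [Lt.e, Lt.f, Lt.ci, Lt.b, Lt.e] [Lt.fi, Lt.b, Lt.f, Lt.d] (pair_rel hinv hr (by decide +kernel)) h
        · exact mRel_good (T := T) (by decide) [Lt.f, Lt.ei, Lt.fi] [Lt.ei, Lt.f, Lt.c, Lt.di, Lt.f, Lt.ei] (pair_rel hinv hr (by decide +kernel)) h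
theorem dM_12_s (hinv : ∀ x, g (inv x) = (g x)⁻¹) (hr : ∀ r ∈ rels, (r.map g).prod = 1) (j z1 z2 u : ℕ) (h : dM_12 j z1 z2 u = true) : GoodM (fa g) T MG M (cP g H) u := by
  unfold dM_12 at h
  rcases brec_true h with h | h
  · rcases brec_true h with h | h
    · rcases brec_true h with h | h
      · exact mRel_good (T := T) (by decide) [Lt.b, Lt.f, Lt.d, Lt.ei] [Lt.f, Lt.e, Lt.f, Lt.ci, Lt.b] (pair_rel hinv hr (by decide +kernel)) h
      · exact mRel_good (T := T) (by decide) [Lt.bi, Lt.ci, Lt.di, Lt.f, Lt.bi] [Lt.f, Lt.d, Lt.d] (pair_rel hinv hr (by decide +kernel)) h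
    · rcases brec_true h with h | h
      · exact mRel_good (T := T) (by decide) [Lt.c, Lt.e, Lt.bi, Lt.e, Lt.c] [Lt.ei, Lt.b, Lt.ei] (pair_rel hinv hr (by decide +kernel)) h
      · rcases brec_true h with h | h
        · exact mRel_good (T := T) (by decide) [Lt.b, Lt.ci, Lt.d, Lt.b, Lt.f, Lt.ci] [Lt.d, Lt.fi] (pair_rel hinv hr (by decide +kernel)) h
        · exact mRel_good (T := T) (by decide) [Lt.bi, Lt.di, Lt.c, Lt.bi, Lt.d, Lt.fi] [Lt.f, Lt.ci] (pair_rel hinv hr (by decide +kernel)) h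
  · rcases brec_true h with h | h
    · rcases brec_true h with h | h
      · exact mRel_good (T := T) (by decide) [Lt.e, Lt.fi, Lt.ei, Lt.f, Lt.e] [Lt.fi, Lt.fi, Lt.d, Lt.ci] (pair_rel hinv hr (by decide +kernel)) h
      · rcases brec_true h with h | h
        · exact mRel_good (T := T) (by decide) [Lt.c, Lt.di, Lt.f, Lt.f, Lt.e] [Lt.ei, Lt.fi, Lt.e, Lt.f] (pair_rel hinv hr (by decide +kernel)) h
        · exact mRel_good (T := T) (by decide) [Lt.f, Lt.b, Lt.ci, Lt.fi, Lt.b] [Lt.c, Lt.d, Lt.d] (pair_rel hinv hr (by decide +kernel)) h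
    · rcases brec_true h with h | h
      · exact mRel_good (T := T) (by decide) [Lt.fi, Lt.e, Lt.f, Lt.ei, Lt.fi, Lt.e] [Lt.c, Lt.di, Lt.f] (pair_rel hinv hr (by decide +kernel)) h
      · rcases brec_true h with h | h
        · exact mRel_good (T := T) (by decide) [Lt.e, Lt.c, Lt.e, Lt.bi, Lt.e] [Lt.b, Lt.ei, Lt.ci] (pair_rel hinv hr (by decide +kernel)) h
        · exact mRel_good (T := T) (by decide) [Lt.bi, Lt.bi, Lt.f, Lt.b, Lt.f, Lt.di] [Lt.f, Lt.ci] (pair_rel hinv hr (by decide +kernel)) h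
theorem dM_13_s (hinv : ∀ x, g (inv x) = (g x)⁻¹) (hr : ∀ r ∈ rels, (r.map g).prod = 1) (j z1 z2 u : ℕ) (h : dM_13 j z1 z2 u = true) : GoodM (fa g) T MG M (cP g H) u := by
  unfold dM_13 at h
  rcases brec_true h with h | h
  · exact dM_11_s hinv hr j z1 z2 u h
  · exact dM_12_s hinv hr j z1 z2 u h
theorem dM_14_s (hinv : ∀ x, g (inv x) = (g x)⁻¹) (hr : ∀ r ∈ rels, (r.map g).prod = 1) (j z1 z2 u : ℕ) (h : dM_14 j z1 z2 u = true) : GoodM (fa g) T MG M (cP g H) u := by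
  unfold dM_14 at h
  rcases brec_true h with h | h
  · exact dM_10_s hinv hr j z1 z2 u h
  · exact dM_13_s hinv hr j z1 z2 u h
theorem dM_15_s (hinv : ∀ x, g (inv x) = (g x)⁻¹) (hr : ∀ r ∈ rels, (r.map g).prod = 1) (j z1 z2 u : ℕ) (h : dM_15 j z1 z2 u = true) : GoodM (fa g) T MG M (cP g H) u := by
  unfold dM_15 at h
  rcases brec_true h with h | h
  · exact dM_7_s hinv hr j z1 z2 u h
  · exact dM_14_s hinv hr j z1 z2 u h
theorem dM_16_s (hinv : ∀ x, g (inv x) = (g x)⁻¹) (hr : ∀ r ∈ rels, (r.map g).prod = 1) (j z1 z2 u : ℕ) (h : dM_16 j z1 z2 u = true) : GoodM (fa g) T MG M (cP g H) u := by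
  unfold dM_16 at h
  rcases brec_true h with h | h
  · rcases brec_true h with h | h
    · rcases brec_true h with h | h
      · exact mRel_good (T := T) (by decide) [Lt.c, Lt.bi, Lt.c, Lt.bi, Lt.c] [Lt.b, Lt.ci, Lt.b] (pair_rel hinv hr (by decide +kernel)) h
      · exact mRel_good (T := T) (by decide) [Lt.ci, Lt.bi, Lt.d, Lt.fi, Lt.di] [Lt.di, Lt.ci, Lt.bi] (pair_rel hinv hr (by decide +kernel)) h
    · rcases brec_true h with h | h
      · exact mRel_good (T := T) (by decide) [Lt.f, Lt.ei, Lt.fi, Lt.e] [Lt.ei, Lt.f, Lt.c, Lt.di, Lt.f] (pair_rel hinv hr (by decide +kernel)) h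
      · rcases brec_true h with h | h
        · exact mRel_good (T := T) (by decide) [Lt.e, Lt.fi, Lt.d, Lt.ci, Lt.fi, Lt.e, Lt.f, Lt.ei] [Lt.f] (pair_rel hinv hr (by decide +kernel)) h
        · exact mRel_good (T := T) (by decide) [Lt.ci, Lt.b, Lt.ci, Lt.ci, Lt.d] [Lt.b, Lt.ci, Lt.ci] (pair_rel hinv hr (by decide +kernel)) h
  · rcases brec_true h with h | h
    · rcases brec_true h with h | h
      · exact mRel_good (T := T) (by decide) [Lt.bi, Lt.fi, Lt.ci, Lt.b, Lt.f, Lt.ci] [Lt.fi, Lt.c] (pair_rel hinv hr (by decide +kernel)) h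
      · exact mRel_good (T := T) (by decide) [Lt.d, Lt.ci, Lt.fi, Lt.fi] [Lt.bi, Lt.ci, Lt.b, Lt.d] (pair_rel hinv hr (by decide +kernel)) h
    · rcases brec_true h with h | h
      · exact mRel_good (T := T) (by decide) [Lt.b, Lt.ci, Lt.bi, Lt.fi, Lt.b, Lt.c] [Lt.bi, Lt.di] (pair_rel hinv hr (by decide +kernel)) h
      · rcases brec_true h with h | h
        · exact mRel_good (T := T) (by decide) [Lt.fi, Lt.b, Lt.f, Lt.d] [Lt.e, Lt.f, Lt.ci, Lt.b, Lt.e] (pair_rel hinv hr (by decide +kernel)) h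
        · exact mRel_good (T := T) (by decide) [Lt.ei, Lt.fi, Lt.e, Lt.fi, Lt.d, Lt.ci, Lt.fi, Lt.e] [Lt.fi] (pair_rel hinv hr (by decide +kernel)) h
theorem dM_17_s (hinv : ∀ x, g (inv x) = (g x)⁻¹) (hr : ∀ r ∈ rels, (r.map g).prod = 1) (j z1 z2 u : ℕ) (h : dM_17 j z1 z2 u = true) : GoodM (fa g) T MG M (cP g H) u := by
  unfold dM_17 at h
  rcases brec_true h with h | h
  · rcases brec_true h with h | h
    · rcases brec_true h with h | h
      · exact mRel_good (T := T) (by decide) [Lt.b, Lt.ci, Lt.ci] [Lt.ci, Lt.b, Lt.ci, Lt.ci, Lt.d] (pair_rel hinv hr (by decide +kernel)) h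
      · exact mRel_good (T := T) (by decide) [Lt.ei, Lt.fi, Lt.b, Lt.f, Lt.d, Lt.ei] [Lt.f, Lt.ci, Lt.b] (pair_rel hinv hr (by decide +kernel)) h
    · rcases brec_true h with h | h
      · exact mRel_good (T := T) (by decide) [Lt.f, Lt.f, Lt.c, Lt.di, Lt.bi, Lt.ci] [Lt.di, Lt.bi] (pair_rel hinv hr (by decide +kernel)) h
      · rcases brec_true h with h | h
        · exact mRel_good (T := T) (by decide) [Lt.d, Lt.ci, Lt.bi, Lt.d, Lt.ci, Lt.b] [Lt.c, Lt.d] (pair_rel hinv hr (by decide +kernel)) h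
        · exact mRel_good (T := T) (by decide) [Lt.f, Lt.c, Lt.di, Lt.b] [Lt.bi, Lt.d, Lt.ci, Lt.fi] (pair_rel hinv hr (by decide +kernel)) h
  · rcases brec_true h with h | h
    · rcases brec_true h with h | h
      · exact mRel_good (T := T) (by decide) [Lt.ci, Lt.d, Lt.b] [Lt.bi, Lt.d, Lt.fi, Lt.c, Lt.fi] (pair_rel hinv hr (by decide +kernel)) h
      · rcases brec_true h with h | h
        · exact mRel_good (T := T) (by decide) [Lt.f, Lt.ci, Lt.b] [Lt.ei, Lt.fi, Lt.b, Lt.f, Lt.d, Lt.ei] (pair_rel hinv hr (by decide +kernel)) h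
        · exact mRel_good (T := T) (by decide) [Lt.bi, Lt.c, Lt.b, Lt.ci] [Lt.ci, Lt.ci, Lt.d, Lt.c] (pair_rel hinv hr (by decide +kernel)) h
    · rcases brec_true h with h | h
      · exact mRel_good (T := T) (by decide) [Lt.f, Lt.e, Lt.fi, Lt.ei] [Lt.e, Lt.fi, Lt.d, Lt.ci, Lt.fi] (pair_rel hinv hr (by decide +kernel)) h
      · rcases brec_true h with h | h
        · exact mRel_good (T := T) (by decide) [Lt.ci, Lt.ei, Lt.b, Lt.ei] [Lt.e, Lt.bi, Lt.e, Lt.c] (pair_rel hinv hr (by decide +kernel)) h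
        · exact mRel_good (T := T) (by decide) [Lt.e, Lt.fi, Lt.d, Lt.ci, Lt.fi] [Lt.f, Lt.e, Lt.fi, Lt.ei] (pair_rel hinv hr (by decide +kernel)) h
theorem dM_18_s (hinv : ∀ x, g (inv x) = (g x)⁻¹) (hr : ∀ r ∈ rels, (r.map g).prod = 1) (j z1 z2 u : ℕ) (h : dM_18 j z1 z2 u = true) : GoodM (fa g) T MG M (cP g H) u := by
  unfold dM_18 at h
  rcases brec_true h with h | h
  · exact dM_16_s hinv hr j z1 z2 u h
  · exact dM_17_s hinv hr j z1 z2 u h
theorem dM_19_s (hinv : ∀ x, g (inv x) = (g x)⁻¹) (hr : ∀ r ∈ rels, (r.map g).prod = 1) (j z1 z2 u : ℕ) (h : dM_19 j z1 z2 u = true) : GoodM (fa g) T MG M (cP g H) u := by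
  unfold dM_19 at h
  rcases brec_true h with h | h
  · rcases brec_true h with h | h
    · rcases brec_true h with h | h
      · exact mRel_good (T := T) (by decide) [Lt.fi, Lt.bi, Lt.bi, Lt.f, Lt.b] [Lt.ci, Lt.d, Lt.fi] (pair_rel hinv hr (by decide +kernel)) h
      · exact mRel_good (T := T) (by decide) [Lt.b, Lt.f, Lt.c, Lt.di] [Lt.d, Lt.ci, Lt.fi, Lt.bi] (pair_rel hinv hr (by decide +kernel)) h
    · rcases brec_true h with h | h
      · exact mRel_good (T := T) (by decide) [Lt.b, Lt.ei] [Lt.e, Lt.c, Lt.e, Lt.bi, Lt.e, Lt.c] (pair_rel hinv hr (by decide +kernel)) h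
      · rcases brec_true h with h | h
        · exact mRel_good (T := T) (by decide) [Lt.e, Lt.c, Lt.di, Lt.f, Lt.f, Lt.e] [Lt.fi, Lt.e, Lt.f] (pair_rel hinv hr (by decide +kernel)) h
        · exact mRel_good (T := T) (by decide) [Lt.ci, Lt.b, Lt.e, Lt.di, Lt.fi, Lt.bi, Lt.f, Lt.e] [Lt.fi] (pair_rel hinv hr (by decide +kernel)) h
  · rcases brec_true h with h | h
    · rcases brec_true h with h | h
      · exact mRel_good (T := T) (by decide) [Lt.d, Lt.d, Lt.b, Lt.fi, Lt.d] [Lt.fi, Lt.bi, Lt.ci] (pair_rel hinv hr (by decide +kernel)) h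
      · rcases brec_true h with h | h
        · exact mRel_good (T := T) (by decide) [Lt.d] [Lt.fi, Lt.bi, Lt.f, Lt.e, Lt.f, Lt.ci, Lt.b, Lt.e] (pair_rel hinv hr (by decide +kernel)) h
        · exact mRel_good (T := T) (by decide) [Lt.bi, Lt.f] [Lt.c, Lt.b, Lt.ci, Lt.bi, Lt.fi, Lt.di] (pair_rel hinv hr (by decide +kernel)) h
    · rcases brec_true h with h | h
      · exact mRel_good (T := T) (by decide) [Lt.f, Lt.di, Lt.ci, Lt.ei, Lt.fi, Lt.e, Lt.f, Lt.ei] [Lt.di] (pair_rel hinv hr (by decide +kernel)) h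
      · rcases brec_true h with h | h
        · exact mRel_good (T := T) (by decide) [Lt.fi, Lt.d, Lt.ci, Lt.fi] [Lt.ei, Lt.f, Lt.e, Lt.fi, Lt.ei] (pair_rel hinv hr (by decide +kernel)) h
        · exact mRel_good (T := T) (by decide) [Lt.bi, Lt.fi, Lt.di, Lt.fi] [Lt.c, Lt.bi, Lt.ci, Lt.bi] (pair_rel hinv hr (by decide +kernel)) h
theorem dM_20_s (hinv : ∀ x, g (inv x) = (g x)⁻¹) (hr : ∀ r ∈ rels, (r.map g).prod = 1) (j z1 z2 u : ℕ) (h : dM_20 j z1 z2 u = true) : GoodM (fa g) T MG M (cP g H) u := by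
  unfold dM_20 at h
  rcases brec_true h with h | h
  · rcases brec_true h with h | h
    · rcases brec_true h with h | h
      · exact mRel_good (T := T) (by decide) [Lt.bi, Lt.f, Lt.e, Lt.f, Lt.ci, Lt.b, Lt.e] [Lt.f, Lt.d] (pair_rel hinv hr (by decide +kernel)) h
      · exact mRel_good (T := T) (by decide) [Lt.ci, Lt.b] [Lt.fi, Lt.ei, Lt.fi, Lt.b, Lt.f, Lt.d, Lt.ei] (pair_rel hinv hr (by decide +kernel)) h
    · rcases brec_true h with h | h
      · exact mRel_good (T := T) (by decide) [Lt.b, Lt.ei, Lt.ci, Lt.ei] [Lt.e, Lt.c, Lt.e, Lt.bi] (pair_rel hinv hr (by decide +kernel)) h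
      · rcases brec_true h with h | h
        · exact mRel_good (T := T) (by decide) [Lt.b, Lt.f, Lt.d, Lt.ei, Lt.bi, Lt.c, Lt.fi] [Lt.f, Lt.e] (pair_rel hinv hr (by decide +kernel)) h
        · exact mRel_good (T := T) (by decide) [Lt.c, Lt.di, Lt.b] [Lt.fi, Lt.bi, Lt.d, Lt.ci, Lt.fi] (pair_rel hinv hr (by decide +kernel)) h
  · rcases brec_true h with h | h
    · rcases brec_true h with h | h
      · exact mRel_good (T := T) (by decide) [Lt.bi, Lt.c, Lt.fi, Lt.ei, Lt.fi, Lt.b, Lt.f, Lt.d, Lt.ei] [] (pair_rel hinv hr (by decide +kernel)) h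
      · rcases brec_true h with h | h
        · exact mRel_good (T := T) (by decide) [Lt.c, Lt.c, Lt.di, Lt.bi] [Lt.b, Lt.d, Lt.ci, Lt.ci] (pair_rel hinv hr (by decide +kernel)) h
        · exact mRel_good (T := T) (by decide) [Lt.bi, Lt.ci, Lt.bi, Lt.fi] [Lt.ci, Lt.bi, Lt.di, Lt.di] (pair_rel hinv hr (by decide +kernel)) h
    · rcases brec_true h with h | h
      · exact mRel_good (T := T) (by decide) [Lt.b, Lt.fi] [Lt.di, Lt.di, Lt.fi, Lt.bi, Lt.ci, Lt.di] (pair_rel hinv hr (by decide +kernel)) h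
      · rcases brec_true h with h | h
        · exact mRel_good (T := T) (by decide) [Lt.di, Lt.c, Lt.b, Lt.ci] [Lt.c, Lt.bi, Lt.ci, Lt.d] (pair_rel hinv hr (by decide +kernel)) h
        · exact mRel_good (T := T) (by decide) [Lt.fi, Lt.ei, Lt.fi, Lt.b, Lt.f, Lt.d, Lt.ei] [Lt.ci, Lt.b] (pair_rel hinv hr (by decide +kernel)) h
theorem dM_21_s (hinv : ∀ x, g (inv x) = (g x)⁻¹) (hr : ∀ r ∈ rels, (r.map g).prod = 1) (j z1 z2 u : ℕ) (h : dM_21 j z1 z2 u = true) : GoodM (fa g) T MG M (cP g H) u := by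
  unfold dM_21 at h
  rcases brec_true h with h | h
  · exact dM_19_s hinv hr j z1 z2 u h
  · exact dM_20_s hinv hr j z1 z2 u h
theorem dM_22_s (hinv : ∀ x, g (inv x) = (g x)⁻¹) (hr : ∀ r ∈ rels, (r.map g).prod = 1) (j z1 z2 u : ℕ) (h : dM_22 j z1 z2 u = true) : GoodM (fa g) T MG M (cP g H) u := by
  unfold dM_22 at h
  rcases brec_true h with h | h
  · exact dM_18_s hinv hr j z1 z2 u h
  · exact dM_21_s hinv hr j z1 z2 u h
theorem dM_23_s (hinv : ∀ x, g (inv x) = (g x)⁻¹) (hr : ∀ r ∈ rels, (r.map g).prod = 1) (j z1 z2 u : ℕ) (h : dM_23 j z1 z2 u = true) : GoodM (fa g) T MG M (cP g H) u := by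
  unfold dM_23 at h
  rcases brec_true h with h | h
  · rcases brec_true h with h | h
    · rcases brec_true h with h | h
      · exact mRel_good (T := T) (by decide) [Lt.ci, Lt.ci, Lt.b, Lt.d, Lt.ci] [Lt.di, Lt.bi, Lt.c] (pair_rel hinv hr (by decide +kernel)) h
      · exact mRel_good (T := T) (by decide) [Lt.di, Lt.bi, Lt.ci, Lt.b, Lt.d, Lt.f] [Lt.ci, Lt.fi] (pair_rel hinv hr (by decide +kernel)) h
    · rcases brec_true h with h | h
      · exact mRel_good (T := T) (by decide) [Lt.ci, Lt.bi, Lt.f, Lt.b, Lt.c, Lt.bi] [Lt.d, Lt.b] (pair_rel hinv hr (by decide +kernel)) h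
      · rcases brec_true h with h | h
        · exact mRel_good (T := T) (by decide) [Lt.b, Lt.di] [Lt.f, Lt.c, Lt.bi, Lt.fi, Lt.c, Lt.d] (pair_rel hinv hr (by decide +kernel)) h
        · exact mRel_good (T := T) (by decide) [Lt.ci] [Lt.e, Lt.bi, Lt.e, Lt.c, Lt.e, Lt.bi, Lt.e] (pair_rel hinv hr (by decide +kernel)) h
  · rcases brec_true h with h | h
    · rcases brec_true h with h | h
      · exact mRel_good (T := T) (by decide) [Lt.bi, Lt.e] [Lt.ei, Lt.ci, Lt.ei, Lt.b, Lt.ei, Lt.ci] (pair_rel hinv hr (by decide +kernel)) h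
      · rcases brec_true h with h | h
        · exact mRel_good (T := T) (by decide) [Lt.c, Lt.fi, Lt.b, Lt.c] [Lt.d, Lt.b, Lt.ci, Lt.di] (pair_rel hinv hr (by decide +kernel)) h
        · exact mRel_good (T := T) (by decide) [Lt.ci, Lt.b, Lt.d, Lt.f, Lt.f] [Lt.b, Lt.d, Lt.ci] (pair_rel hinv hr (by decide +kernel)) h
    · rcases brec_true h with h | h
      · rcases brec_true h with h | h
        · exact mRel_good (T := T) (by decide) [Lt.ci, Lt.fi, Lt.d, Lt.bi] [Lt.b, Lt.c, Lt.d, Lt.f] (pair_rel hinv hr (by decide +kernel)) h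
        · exact mRel_good (T := T) (by decide) [Lt.f, Lt.f, Lt.di] [Lt.d, Lt.fi, Lt.d, Lt.d, Lt.f] (pair_rel hinv hr (by decide +kernel)) h
      · rcases brec_true h with h | h
        · exact mRel_good (T := T) (by decide) [Lt.bi, Lt.c, Lt.c, Lt.di] [Lt.d, Lt.ci, Lt.ci, Lt.b] (pair_rel hinv hr (by decide +kernel)) h
        · exact mRel_good (T := T) (by decide) [Lt.di, Lt.c, Lt.c, Lt.bi, Lt.c] [Lt.c, Lt.c, Lt.bi] (pair_rel hinv hr (by decide +kernel)) h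
theorem dM_24_s (hinv : ∀ x, g (inv x) = (g x)⁻¹) (hr : ∀ r ∈ rels, (r.map g).prod = 1) (j z1 z2 u : ℕ) (h : dM_24 j z1 z2 u = true) : GoodM (fa g) T MG M (cP g H) u := by
  unfold dM_24 at h
  rcases brec_true h with h | h
  · rcases brec_true h with h | h
    · exact mRel_good (T := T) (by decide) [Lt.b, Lt.d] [Lt.c, Lt.c, Lt.di, Lt.bi, Lt.c, Lt.c] (pair_rel hinv hr (by decide +kernel)) h
    · rcases brec_true h with h | h
      · exact mRel_good (T := T) (by decide) [Lt.c, Lt.di, Lt.bi, Lt.c] [Lt.ci, Lt.b, Lt.d, Lt.ci] (pair_rel hinv hr (by decide +kernel)) h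
      · exact mRel_good (T := T) (by decide) [Lt.c, Lt.d, Lt.fi, Lt.d] [Lt.ci, Lt.bi, Lt.ci, Lt.b] (pair_rel hinv hr (by decide +kernel)) h
  · rcases brec_true h with h | h
    · rcases brec_true h with h | h
      · exact mRel_good (T := T) (by decide) [Lt.b, Lt.ci, Lt.b, Lt.ci, Lt.b] [Lt.c, Lt.bi, Lt.c] (pair_rel hinv hr (by decide +kernel)) h
      · exact mRel_good (T := T) (by decide) [Lt.b, Lt.c, Lt.di, Lt.c, Lt.d] [Lt.d, Lt.ci, Lt.b] (pair_rel hinv hr (by decide +kernel)) h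
    · rcases brec_true h with h | h
      · exact mRel_good (T := T) (by decide) [Lt.d, Lt.bi, Lt.c, Lt.di] [Lt.ci, Lt.d, Lt.ci, Lt.bi] (pair_rel hinv hr (by decide +kernel)) h
      · exact mRel_good (T := T) (by decide) [Lt.di, Lt.b, Lt.ci, Lt.d, Lt.b, Lt.f, Lt.ci] [Lt.fi] (pair_rel hinv hr (by decide +kernel)) h
theorem dM_25_s (hinv : ∀ x, g (inv x) = (g x)⁻¹) (hr : ∀ r ∈ rels, (r.map g).prod = 1) (j z1 z2 u : ℕ) (h : dM_25 j z1 z2 u = true) : GoodM (fa g) T MG M (cP g H) u := by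
  unfold dM_25 at h
  rcases brec_true h with h | h
  · rcases brec_true h with h | h
    · exact mRel_good (T := T) (by decide) [Lt.c, Lt.c, Lt.fi, Lt.bi, Lt.c] [Lt.f, Lt.bi, Lt.fi] (pair_rel hinv hr (by decide +kernel)) h
    · rcases brec_true h with h | h
      · exact mRel_good (T := T) (by decide) [Lt.di, Lt.c] [Lt.fi, Lt.bi, Lt.fi, Lt.b, Lt.b, Lt.f] (pair_rel hinv hr (by decide +kernel)) h
      · exact mRel_good (T := T) (by decide) [Lt.bi, Lt.ci, Lt.di, Lt.b] [Lt.b, Lt.ci, Lt.fi, Lt.fi] (pair_rel hinv hr (by decide +kernel)) h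
  · rcases brec_true h with h | h
    · rcases brec_true h with h | h
      · exact mRel_good (T := T) (by decide) [Lt.b, Lt.f, Lt.ci] [Lt.c, Lt.f, Lt.b, Lt.fi, Lt.c] (pair_rel hinv hr (by decide +kernel)) h
      · exact mRel_good (T := T) (by decide) [Lt.b, Lt.c, Lt.c, Lt.d, Lt.fi] [Lt.ci, Lt.b, Lt.di] (pair_rel hinv hr (by decide +kernel)) h
    · rcases brec_true h with h | h
      · exact mRel_good (T := T) (by decide) [Lt.f, Lt.di, Lt.c, Lt.fi] [Lt.bi, Lt.fi, Lt.b, Lt.b] (pair_rel hinv hr (by decide +kernel)) h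
      · exact mRel_good (T := T) (by decide) [Lt.ci, Lt.bi, Lt.fi, Lt.di, Lt.fi] [Lt.bi, Lt.ci, Lt.bi] (pair_rel hinv hr (by decide +kernel)) h
theorem dM_26_s (hinv : ∀ x, g (inv x) = (g x)⁻¹) (hr : ∀ r ∈ rels, (r.map g).prod = 1) (j z1 z2 u : ℕ) (h : dM_26 j z1 z2 u = true) : GoodM (fa g) T MG M (cP g H) u := by
  unfold dM_26 at h
  rcases brec_true h with h | h
  · exact dM_24_s hinv hr j z1 z2 u h
  · exact dM_25_s hinv hr j z1 z2 u h
theorem dM_27_s (hinv : ∀ x, g (inv x) = (g x)⁻¹) (hr : ∀ r ∈ rels, (r.map g).prod = 1) (j z1 z2 u : ℕ) (h : dM_27 j z1 z2 u = true) : GoodM (fa g) T MG M (cP g H) u := by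
  unfold dM_27 at h
  rcases brec_true h with h | h
  · exact dM_23_s hinv hr j z1 z2 u h
  · exact dM_26_s hinv hr j z1 z2 u h
theorem dM_28_s (hinv : ∀ x, g (inv x) = (g x)⁻¹) (hr : ∀ r ∈ rels, (r.map g).prod = 1) (j z1 z2 u : ℕ) (h : dM_28 j z1 z2 u = true) : GoodM (fa g) T MG M (cP g H) u := by
  unfold dM_28 at h
  rcases brec_true h with h | h
  · rcases brec_true h with h | h
    · exact mRel_good (T := T) (by decide) [Lt.f, Lt.e, Lt.fi, Lt.ei, Lt.f, Lt.c, Lt.di] [Lt.e, Lt.fi] (pair_rel hinv hr (by decide +kernel)) h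
    · rcases brec_true h with h | h
      · exact mRel_good (T := T) (by decide) [Lt.d, Lt.fi, Lt.c, Lt.fi, Lt.bi] [Lt.b, Lt.ci, Lt.d] (pair_rel hinv hr (by decide +kernel)) h
      · exact mRel_good (T := T) (by decide) [Lt.bi, Lt.f, Lt.ci, Lt.d] [Lt.c, Lt.d, Lt.c, Lt.bi] (pair_rel hinv hr (by decide +kernel)) h
  · rcases brec_true h with h | h
    · rcases brec_true h with h | h
      · exact mRel_good (T := T) (by decide) [Lt.b, Lt.di, Lt.f, Lt.c, Lt.b, Lt.c] [Lt.fi, Lt.di] (pair_rel hinv hr (by decide +kernel)) h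
      · exact mRel_good (T := T) (by decide) [Lt.c, Lt.d, Lt.fi] [Lt.ci, Lt.bi, Lt.ci, Lt.b, Lt.di] (pair_rel hinv hr (by decide +kernel)) h
    · rcases brec_true h with h | h
      · exact mRel_good (T := T) (by decide) [Lt.c, Lt.fi, Lt.bi] [Lt.ci, Lt.f, Lt.bi, Lt.fi, Lt.ci] (pair_rel hinv hr (by decide +kernel)) h
      · exact mRel_good (T := T) (by decide) [Lt.d, Lt.ci, Lt.bi, Lt.d, Lt.ci, Lt.b, Lt.di] [Lt.c] (pair_rel hinv hr (by decide +kernel)) h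
theorem dM_29_s (hinv : ∀ x, g (inv x) = (g x)⁻¹) (hr : ∀ r ∈ rels, (r.map g).prod = 1) (j z1 z2 u : ℕ) (h : dM_29 j z1 z2 u = true) : GoodM (fa g) T MG M (cP g H) u := by
  unfold dM_29 at h
  rcases brec_true h with h | h
  · rcases brec_true h with h | h
    · exact mRel_good (T := T) (by decide) [Lt.di, Lt.fi, Lt.c, Lt.di, Lt.di] [Lt.d, Lt.ci, Lt.f] (pair_rel hinv hr (by decide +kernel)) h
    · rcases brec_true h with h | h
      · exact mRel_good (T := T) (by decide) [Lt.d, Lt.b, Lt.ci, Lt.di, Lt.ci] [Lt.c, Lt.fi, Lt.b] (pair_rel hinv hr (by decide +kernel)) h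
      · exact mRel_good (T := T) (by decide) [Lt.f, Lt.d, Lt.ei] [Lt.bi, Lt.f, Lt.e, Lt.f, Lt.ci, Lt.b] (pair_rel hinv hr (by decide +kernel)) h
  · rcases brec_true h with h | h
    · rcases brec_true h with h | h
      · exact mRel_good (T := T) (by decide) [Lt.f, Lt.e, Lt.c, Lt.di, Lt.f, Lt.f] [Lt.e, Lt.f, Lt.ei] (pair_rel hinv hr (by decide +kernel)) h
      · exact mRel_good (T := T) (by decide) [Lt.di, Lt.ci] [Lt.ci, Lt.bi, Lt.d, Lt.fi, Lt.di, Lt.b] (pair_rel hinv hr (by decide +kernel)) h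
    · rcases brec_true h with h | h
      · exact mRel_good (T := T) (by decide) [Lt.bi, Lt.ci, Lt.b, Lt.ci, Lt.ci] [Lt.ci, Lt.ci, Lt.di] (pair_rel hinv hr (by decide +kernel)) h
      · exact mRel_good (T := T) (by decide) [Lt.fi, Lt.bi, Lt.bi, Lt.f, Lt.b, Lt.f] [Lt.ci, Lt.d] (pair_rel hinv hr (by decide +kernel)) h
theorem dM_30_s (hinv : ∀ x, g (inv x) = (g x)⁻¹) (hr : ∀ r ∈ rels, (r.map g).prod = 1) (j z1 z2 u : ℕ) (h : dM_30 j z1 z2 u = true) : GoodM (fa g) T MG M (cP g H) u := by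
  unfold dM_30 at h
  rcases brec_true h with h | h
  · exact dM_28_s hinv hr j z1 z2 u h
  · exact dM_29_s hinv hr j z1 z2 u h
theorem dM_31_s (hinv : ∀ x, g (inv x) = (g x)⁻¹) (hr : ∀ r ∈ rels, (r.map g).prod = 1) (j z1 z2 u : ℕ) (h : dM_31 j z1 z2 u = true) : GoodM (fa g) T MG M (cP g H) u := by
  unfold dM_31 at h
  rcases brec_true h with h | h
  · rcases brec_true h with h | h
    · exact mRel_good (T := T) (by decide) [Lt.c, Lt.bi, Lt.d, Lt.fi, Lt.c] [Lt.d, Lt.b, Lt.f] (pair_rel hinv hr (by decide +kernel)) h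
    · rcases brec_true h with h | h
      · exact mRel_good (T := T) (by decide) [Lt.di, Lt.ci, Lt.bi, Lt.f, Lt.b, Lt.c] [Lt.b, Lt.b] (pair_rel hinv hr (by decide +kernel)) h
      · exact mRel_good (T := T) (by decide) [Lt.d, Lt.b, Lt.d] [Lt.di, Lt.b, Lt.di, Lt.di, Lt.b] (pair_rel hinv hr (by decide +kernel)) h
  · rcases brec_true h with h | h
    · rcases brec_true h with h | h
      · exact mRel_good (T := T) (by decide) [Lt.f, Lt.e, Lt.fi, Lt.ei, Lt.f] [Lt.fi, Lt.d, Lt.ci, Lt.ei] (pair_rel hinv hr (by decide +kernel)) h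
      · exact mRel_good (T := T) (by decide) [Lt.fi, Lt.d, Lt.ci, Lt.fi, Lt.e] [Lt.ei, Lt.f, Lt.e, Lt.fi] (pair_rel hinv hr (by decide +kernel)) h
    · rcases brec_true h with h | h
      · exact mRel_good (T := T) (by decide) [Lt.f, Lt.b, Lt.di, Lt.f, Lt.c] [Lt.di, Lt.ci, Lt.bi] (pair_rel hinv hr (by decide +kernel)) h
      · exact mRel_good (T := T) (by decide) [Lt.di, Lt.f] [Lt.bi, Lt.c, Lt.d, Lt.f, Lt.ci, Lt.b] (pair_rel hinv hr (by decide +kernel)) h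
theorem dM_32_s (hinv : ∀ x, g (inv x) = (g x)⁻¹) (hr : ∀ r ∈ rels, (r.map g).prod = 1) (j z1 z2 u : ℕ) (h : dM_32 j z1 z2 u = true) : GoodM (fa g) T MG M (cP g H) u := by
  unfold dM_32 at h
  rcases brec_true h with h | h
  · rcases brec_true h with h | h
    · exact mRel_good (T := T) (by decide) [Lt.d, Lt.d, Lt.bi, Lt.d, Lt.d, Lt.b] [Lt.b, Lt.di] (pair_rel hinv hr (by decide +kernel)) h
    · rcases brec_true h with h | h
      · exact mRel_good (T := T) (by decide) [Lt.ci, Lt.b, Lt.di] [Lt.b, Lt.c, Lt.c, Lt.d, Lt.fi] (pair_rel hinv hr (by decide +kernel)) h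
      · exact mRel_good (T := T) (by decide) [Lt.fi, Lt.di, Lt.b, Lt.c, Lt.d] [Lt.di, Lt.b, Lt.c] (pair_rel hinv hr (by decide +kernel)) h
  · rcases brec_true h with h | h
    · rcases brec_true h with h | h
      · exact mRel_good (T := T) (by decide) [Lt.f, Lt.c, Lt.di, Lt.b, Lt.f] [Lt.bi, Lt.d, Lt.ci] (pair_rel hinv hr (by decide +kernel)) h
      · exact mRel_good (T := T) (by decide) [Lt.f, Lt.e, Lt.c, Lt.di, Lt.f, Lt.f, Lt.e] [Lt.e, Lt.f] (pair_rel hinv hr (by decide +kernel)) h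
    · rcases brec_true h with h | h
      · exact mRel_good (T := T) (by decide) [Lt.d, Lt.d, Lt.b] [Lt.b, Lt.di, Lt.di, Lt.b, Lt.di] (pair_rel hinv hr (by decide +kernel)) h
      · exact mRel_good (T := T) (by decide) [Lt.d, Lt.c, Lt.b, Lt.f, Lt.d] [Lt.f, Lt.bi, Lt.di] (pair_rel hinv hr (by decide +kernel)) h
theorem dM_33_s (hinv : ∀ x, g (inv x) = (g x)⁻¹) (hr : ∀ r ∈ rels, (r.map g).prod = 1) (j z1 z2 u : ℕ) (h : dM_33 j z1 z2 u = true) : GoodM (fa g) T MG M (cP g H) u := by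
  unfold dM_33 at h
  rcases brec_true h with h | h
  · exact dM_31_s hinv hr j z1 z2 u h
  · exact dM_32_s hinv hr j z1 z2 u h
theorem dM_34_s (hinv : ∀ x, g (inv x) = (g x)⁻¹) (hr : ∀ r ∈ rels, (r.map g).prod = 1) (j z1 z2 u : ℕ) (h : dM_34 j z1 z2 u = true) : GoodM (fa g) T MG M (cP g H) u := by
  unfold dM_34 at h
  rcases brec_true h with h | h
  · exact dM_30_s hinv hr j z1 z2 u h
  · exact dM_33_s hinv hr j z1 z2 u h
theorem dM_35_s (hinv : ∀ x, g (inv x) = (g x)⁻¹) (hr : ∀ r ∈ rels, (r.map g).prod = 1) (j z1 z2 u : ℕ) (h : dM_35 j z1 z2 u = true) : GoodM (fa g) T MG M (cP g H) u := by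
  unfold dM_35 at h
  rcases brec_true h with h | h
  · exact dM_27_s hinv hr j z1 z2 u h
  · exact dM_34_s hinv hr j z1 z2 u h
theorem dM_36_s (hinv : ∀ x, g (inv x) = (g x)⁻¹) (hr : ∀ r ∈ rels, (r.map g).prod = 1) (j z1 z2 u : ℕ) (h : dM_36 j z1 z2 u = true) : GoodM (fa g) T MG M (cP g H) u := by
  unfold dM_36 at h
  rcases brec_true h with h | h
  · exact dM_22_s hinv hr j z1 z2 u h
  · exact dM_35_s hinv hr j z1 z2 u h
theorem dM_37_s (hinv : ∀ x, g (inv x) = (g x)⁻¹) (hr : ∀ r ∈ rels, (r.map g).prod = 1) (j z1 z2 u : ℕ) (h : dM_37 j z1 z2 u = true) : GoodM (fa g) T MG M (cP g H) u := by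
  unfold dM_37 at h
  rcases brec_true h with h | h
  · exact dM_15_s hinv hr j z1 z2 u h
  · exact dM_36_s hinv hr j z1 z2 u h
theorem dM_38_s (hinv : ∀ x, g (inv x) = (g x)⁻¹) (hr : ∀ r ∈ rels, (r.map g).prod = 1) (j z1 z2 u : ℕ) (h : dM_38 j z1 z2 u = true) : GoodM (fa g) T MG M (cP g H) u := by
  unfold dM_38 at h
  rcases brec_true h with h | h
  · rcases brec_true h with h | h
    · exact mRel_good (T := T) (by decide) [Lt.b, Lt.c, Lt.di] [Lt.d, Lt.ci, Lt.b, Lt.di, Lt.ci] (pair_rel hinv hr (by decide +kernel)) h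
    · rcases brec_true h with h | h
      · exact mRel_good (T := T) (by decide) [Lt.c, Lt.d] [Lt.ei, Lt.fi, Lt.e, Lt.f, Lt.ei, Lt.d, Lt.f] (pair_rel hinv hr (by decide +kernel)) h
      · exact mRel_good (T := T) (by decide) [Lt.c, Lt.b, Lt.ci, Lt.bi, Lt.di, Lt.di] [Lt.bi, Lt.fi] (pair_rel hinv hr (by decide +kernel)) h
  · rcases brec_true h with h | h
    · rcases brec_true h with h | h
      · exact mRel_good (T := T) (by decide) [Lt.ci, Lt.ci, Lt.d, Lt.c] [Lt.bi, Lt.c, Lt.b, Lt.ci] (pair_rel hinv hr (by decide +kernel)) h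
      · exact mRel_good (T := T) (by decide) [Lt.d, Lt.fi] [Lt.ci, Lt.ci, Lt.bi, Lt.ci, Lt.b, Lt.di] (pair_rel hinv hr (by decide +kernel)) h
    · rcases brec_true h with h | h
      · exact mRel_good (T := T) (by decide) [Lt.di, Lt.b, Lt.ci] [Lt.fi, Lt.c, Lt.fi, Lt.bi, Lt.di] (pair_rel hinv hr (by decide +kernel)) h
      · exact mRel_good (T := T) (by decide) [Lt.b, Lt.d, Lt.f] [Lt.c, Lt.b, Lt.d, Lt.ci, Lt.fi] (pair_rel hinv hr (by decide +kernel)) h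
theorem dM_39_s (hinv : ∀ x, g (inv x) = (g x)⁻¹) (hr : ∀ r ∈ rels, (r.map g).prod = 1) (j z1 z2 u : ℕ) (h : dM_39 j z1 z2 u = true) : GoodM (fa g) T MG M (cP g H) u := by
  unfold dM_39 at h
  rcases brec_true h with h | h
  · rcases brec_true h with h | h
    · exact mRel_good (T := T) (by decide) [Lt.b, Lt.b, Lt.ci, Lt.bi] [Lt.di, Lt.ci, Lt.bi, Lt.f] (pair_rel hinv hr (by decide +kernel)) h
    · rcases brec_true h with h | h
      · exact mRel_good (T := T) (by decide) [Lt.b, Lt.ci, Lt.ci, Lt.d, Lt.c] [Lt.c, Lt.b, Lt.ci] (pair_rel hinv hr (by decide +kernel)) h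
      · exact mRel_good (T := T) (by decide) [Lt.b, Lt.f] [Lt.d, Lt.c, Lt.b, Lt.b, Lt.ci, Lt.fi] (pair_rel hinv hr (by decide +kernel)) h
  · rcases brec_true h with h | h
    · rcases brec_true h with h | h
      · exact mRel_good (T := T) (by decide) [Lt.ei, Lt.fi, Lt.b, Lt.f, Lt.d] [Lt.f, Lt.ci, Lt.b, Lt.e] (pair_rel hinv hr (by decide +kernel)) h
      · exact mRel_good (T := T) (by decide) [Lt.ei, Lt.fi, Lt.e, Lt.f, Lt.ei] [Lt.c, Lt.di, Lt.f, Lt.f] (pair_rel hinv hr (by decide +kernel)) h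
    · rcases brec_true h with h | h
      · exact mRel_good (T := T) (by decide) [Lt.bi, Lt.f, Lt.ci] [Lt.c, Lt.d, Lt.c, Lt.bi, Lt.di] (pair_rel hinv hr (by decide +kernel)) h
      · exact mRel_good (T := T) (by decide) [Lt.f, Lt.di, Lt.b] [Lt.c, Lt.fi, Lt.bi, Lt.di, Lt.c] (pair_rel hinv hr (by decide +kernel)) h
theorem dM_40_s (hinv : ∀ x, g (inv x) = (g x)⁻¹) (hr : ∀ r ∈ rels, (r.map g).prod = 1) (j z1 z2 u : ℕ) (h : dM_40 j z1 z2 u = true) : GoodM (fa g) T MG M (cP g H) u := by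
  unfold dM_40 at h
  rcases brec_true h with h | h
  · exact dM_38_s hinv hr j z1 z2 u h
  · exact dM_39_s hinv hr j z1 z2 u h
theorem dM_41_s (hinv : ∀ x, g (inv x) = (g x)⁻¹) (hr : ∀ r ∈ rels, (r.map g).prod = 1) (j z1 z2 u : ℕ) (h : dM_41 j z1 z2 u = true) : GoodM (fa g) T MG M (cP g H) u := by
  unfold dM_41 at h
  rcases brec_true h with h | h
  · rcases brec_true h with h | h
    · exact mRel_good (T := T) (by decide) [Lt.c, Lt.bi, Lt.bi, Lt.ci, Lt.di, Lt.b] [Lt.fi, Lt.fi] (pair_rel hinv hr (by decide +kernel)) h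
    · rcases brec_true h with h | h
      · exact mRel_good (T := T) (by decide) [Lt.ci, Lt.fi, Lt.e, Lt.f, Lt.ei, Lt.fi] [Lt.di, Lt.f, Lt.ei] (pair_rel hinv hr (by decide +kernel)) h
      · exact mRel_good (T := T) (by decide) [Lt.b, Lt.ci, Lt.fi, Lt.fi, Lt.bi] [Lt.bi, Lt.ci, Lt.di] (pair_rel hinv hr (by decide +kernel)) h
  · rcases brec_true h with h | h
    · rcases brec_true h with h | h
      · exact mRel_good (T := T) (by decide) [Lt.f, Lt.c, Lt.di, Lt.f] [Lt.e, Lt.f, Lt.ei, Lt.fi, Lt.e] (pair_rel hinv hr (by decide +kernel)) h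
      · exact mRel_good (T := T) (by decide) [Lt.e, Lt.fi, Lt.ei, Lt.f] [Lt.fi, Lt.fi, Lt.d, Lt.ci, Lt.ei] (pair_rel hinv hr (by decide +kernel)) h
    · rcases brec_true h with h | h
      · exact mRel_good (T := T) (by decide) [Lt.f, Lt.ci, Lt.b, Lt.e] [Lt.ei, Lt.fi, Lt.b, Lt.f, Lt.d] (pair_rel hinv hr (by decide +kernel)) h
      · exact mRel_good (T := T) (by decide) [Lt.fi, Lt.d, Lt.bi, Lt.c, Lt.d] [Lt.bi, Lt.c, Lt.fi] (pair_rel hinv hr (by decide +kernel)) h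
theorem dM_42_s (hinv : ∀ x, g (inv x) = (g x)⁻¹) (hr : ∀ r ∈ rels, (r.map g).prod = 1) (j z1 z2 u : ℕ) (h : dM_42 j z1 z2 u = true) : GoodM (fa g) T MG M (cP g H) u := by
  unfold dM_42 at h
  rcases brec_true h with h | h
  · rcases brec_true h with h | h
    · exact mRel_good (T := T) (by decide) [Lt.c, Lt.e] [Lt.ei, Lt.b, Lt.ei, Lt.ci, Lt.ei, Lt.b] (pair_rel hinv hr (by decide +kernel)) h
    · rcases brec_true h with h | h
      · exact mRel_good (T := T) (by decide) [Lt.bi, Lt.d, Lt.fi, Lt.di] [Lt.c, Lt.di, Lt.ci, Lt.bi] (pair_rel hinv hr (by decide +kernel)) h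
      · exact mRel_good (T := T) (by decide) [Lt.ci, Lt.bi, Lt.f, Lt.ci, Lt.d] [Lt.d, Lt.c, Lt.bi] (pair_rel hinv hr (by decide +kernel)) h
  · rcases brec_true h with h | h
    · rcases brec_true h with h | h
      · exact mRel_good (T := T) (by decide) [Lt.bi, Lt.c, Lt.di, Lt.b, Lt.c, Lt.di] [Lt.di, Lt.ci] (pair_rel hinv hr (by decide +kernel)) h
      · exact mRel_good (T := T) (by decide) [Lt.bi, Lt.e, Lt.c, Lt.e, Lt.bi] [Lt.ei, Lt.ci, Lt.ei] (pair_rel hinv hr (by decide +kernel)) h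
    · rcases brec_true h with h | h
      · exact mRel_good (T := T) (by decide) [Lt.ci, Lt.ei, Lt.b, Lt.ei, Lt.ci, Lt.ei] [Lt.e, Lt.bi] (pair_rel hinv hr (by decide +kernel)) h
      · exact mRel_good (T := T) (by decide) [Lt.b, Lt.c, Lt.d, Lt.f, Lt.b] [Lt.ci, Lt.fi, Lt.d] (pair_rel hinv hr (by decide +kernel)) h
theorem dM_43_s (hinv : ∀ x, g (inv x) = (g x)⁻¹) (hr : ∀ r ∈ rels, (r.map g).prod = 1) (j z1 z2 u : ℕ) (h : dM_43 j z1 z2 u = true) : GoodM (fa g) T MG M (cP g H) u := by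
  unfold dM_43 at h
  rcases brec_true h with h | h
  · exact dM_41_s hinv hr j z1 z2 u h
  · exact dM_42_s hinv hr j z1 z2 u h
theorem dM_44_s (hinv : ∀ x, g (inv x) = (g x)⁻¹) (hr : ∀ r ∈ rels, (r.map g).prod = 1) (j z1 z2 u : ℕ) (h : dM_44 j z1 z2 u = true) : GoodM (fa g) T MG M (cP g H) u := by
  unfold dM_44 at h
  rcases brec_true h with h | h
  · exact dM_40_s hinv hr j z1 z2 u h
  · exact dM_43_s hinv hr j z1 z2 u h
theorem dM_45_s (hinv : ∀ x, g (inv x) = (g x)⁻¹) (hr : ∀ r ∈ rels, (r.map g).prod = 1) (j z1 z2 u : ℕ) (h : dM_45 j z1 z2 u = true) : GoodM (fa g) T MG M (cP g H) u := by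
  unfold dM_45 at h
  rcases brec_true h with h | h
  · rcases brec_true h with h | h
    · exact mRel_good (T := T) (by decide) [Lt.fi, Lt.bi] [Lt.d, Lt.d, Lt.b, Lt.fi, Lt.d, Lt.c] (pair_rel hinv hr (by decide +kernel)) h
    · rcases brec_true h with h | h
      · exact mRel_good (T := T) (by decide) [Lt.b, Lt.c, Lt.d] [Lt.d, Lt.f, Lt.di, Lt.b, Lt.c] (pair_rel hinv hr (by decide +kernel)) h
      · exact mRel_good (T := T) (by decide) [Lt.e, Lt.fi, Lt.d, Lt.ci, Lt.fi, Lt.e] [Lt.f, Lt.e, Lt.fi] (pair_rel hinv hr (by decide +kernel)) h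
  · rcases brec_true h with h | h
    · rcases brec_true h with h | h
      · exact mRel_good (T := T) (by decide) [Lt.ci, Lt.fi] [Lt.di, Lt.b, Lt.f, Lt.c, Lt.di, Lt.b] (pair_rel hinv hr (by decide +kernel)) h
      · exact mRel_good (T := T) (by decide) [Lt.b, Lt.ci, Lt.b, Lt.ci, Lt.b, Lt.ci] [Lt.c, Lt.bi] (pair_rel hinv hr (by decide +kernel)) h
    · rcases brec_true h with h | h
      · exact mRel_good (T := T) (by decide) [Lt.di, Lt.fi, Lt.bi, Lt.f, Lt.e, Lt.f, Lt.ci, Lt.b] [Lt.ei] (pair_rel hinv hr (by decide +kernel)) h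
      · exact mRel_good (T := T) (by decide) [Lt.d, Lt.bi, Lt.f] [Lt.di, Lt.ci, Lt.f, Lt.b, Lt.ci] (pair_rel hinv hr (by decide +kernel)) h
theorem dM_46_s (hinv : ∀ x, g (inv x) = (g x)⁻¹) (hr : ∀ r ∈ rels, (r.map g).prod = 1) (j z1 z2 u : ℕ) (h : dM_46 j z1 z2 u = true) : GoodM (fa g) T MG M (cP g H) u := by
  unfold dM_46 at h
  rcases brec_true h with h | h
  · rcases brec_true h with h | h
    · exact mRel_good (T := T) (by decide) [Lt.f, Lt.e, Lt.fi, Lt.ei, Lt.f, Lt.c, Lt.di, Lt.f, Lt.ei] [] (pair_rel hinv hr (by decide +kernel)) h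
    · rcases brec_true h with h | h
      · exact mRel_good (T := T) (by decide) [Lt.c, Lt.c] [Lt.b, Lt.d, Lt.ci, Lt.ci, Lt.b, Lt.d] (pair_rel hinv hr (by decide +kernel)) h
      · exact mRel_good (T := T) (by decide) [Lt.di, Lt.f, Lt.bi, Lt.c, Lt.fi, Lt.di] [Lt.bi, Lt.c] (pair_rel hinv hr (by decide +kernel)) h
  · rcases brec_true h with h | h
    · rcases brec_true h with h | h
      · exact mRel_good (T := T) (by decide) [Lt.di, Lt.b, Lt.f, Lt.f, Lt.c] [Lt.c, Lt.b, Lt.b] (pair_rel hinv hr (by decide +kernel)) h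
      · exact mRel_good (T := T) (by decide) [Lt.f, Lt.e, Lt.fi, Lt.ei, Lt.f, Lt.e] [Lt.fi, Lt.d, Lt.ci] (pair_rel hinv hr (by decide +kernel)) h
    · rcases brec_true h with h | h
      · exact mRel_good (T := T) (by decide) [Lt.bi, Lt.fi, Lt.d] [Lt.c, Lt.b, Lt.ci, Lt.bi, Lt.di] (pair_rel hinv hr (by decide +kernel)) h
      · exact mRel_good (T := T) (by decide) [Lt.d, Lt.fi, Lt.di] [Lt.ci, Lt.ei, Lt.fi, Lt.e, Lt.f, Lt.ei] (pair_rel hinv hr (by decide +kernel)) h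
theorem dM_47_s (hinv : ∀ x, g (inv x) = (g x)⁻¹) (hr : ∀ r ∈ rels, (r.map g).prod = 1) (j z1 z2 u : ℕ) (h : dM_47 j z1 z2 u = true) : GoodM (fa g) T MG M (cP g H) u := by
  unfold dM_47 at h
  rcases brec_true h with h | h
  · exact dM_45_s hinv hr j z1 z2 u h
  · exact dM_46_s hinv hr j z1 z2 u h
theorem dM_48_s (hinv : ∀ x, g (inv x) = (g x)⁻¹) (hr : ∀ r ∈ rels, (r.map g).prod = 1) (j z1 z2 u : ℕ) (h : dM_48 j z1 z2 u = true) : GoodM (fa g) T MG M (cP g H) u := by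
  unfold dM_48 at h
  rcases brec_true h with h | h
  · rcases brec_true h with h | h
    · exact mRel_good (T := T) (by decide) [Lt.c, Lt.d, Lt.ci] [Lt.bi, Lt.d, Lt.f, Lt.di, Lt.b] (pair_rel hinv hr (by decide +kernel)) h
    · rcases brec_true h with h | h
      · exact mRel_good (T := T) (by decide) [Lt.di, Lt.di, Lt.f, Lt.b, Lt.c, Lt.b] [Lt.b, Lt.c] (pair_rel hinv hr (by decide +kernel)) h
      · exact mRel_good (T := T) (by decide) [Lt.f, Lt.f, Lt.e] [Lt.d, Lt.ci, Lt.ei, Lt.fi, Lt.e, Lt.f] (pair_rel hinv hr (by decide +kernel)) h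
  · rcases brec_true h with h | h
    · rcases brec_true h with h | h
      · exact mRel_good (T := T) (by decide) [Lt.d, Lt.f, Lt.di, Lt.ci, Lt.ei] [Lt.e, Lt.fi, Lt.ei, Lt.f] (pair_rel hinv hr (by decide +kernel)) h
      · exact mRel_good (T := T) (by decide) [Lt.bi, Lt.c, Lt.fi] [Lt.e, Lt.di, Lt.fi, Lt.bi, Lt.f, Lt.e] (pair_rel hinv hr (by decide +kernel)) h
    · rcases brec_true h with h | h
      · exact mRel_good (T := T) (by decide) [Lt.f, Lt.d] [Lt.bi, Lt.f, Lt.e, Lt.f, Lt.ci, Lt.b, Lt.e] (pair_rel hinv hr (by decide +kernel)) h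
      · exact mRel_good (T := T) (by decide) [Lt.c, Lt.di, Lt.bi, Lt.ci] [Lt.fi, Lt.fi, Lt.di, Lt.bi] (pair_rel hinv hr (by decide +kernel)) h
theorem dM_49_s (hinv : ∀ x, g (inv x) = (g x)⁻¹) (hr : ∀ r ∈ rels, (r.map g).prod = 1) (j z1 z2 u : ℕ) (h : dM_49 j z1 z2 u = true) : GoodM (fa g) T MG M (cP g H) u := by
  unfold dM_49 at h
  rcases brec_true h with h | h
  · rcases brec_true h with h | h
    · rcases brec_true h with h | h
      · exact mRel_good (T := T) (by decide) [Lt.di, Lt.b, Lt.f, Lt.c, Lt.di, Lt.b] [Lt.ci, Lt.fi] (pair_rel hinv hr (by decide +kernel)) h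
      · exact mRel_good (T := T) (by decide) [Lt.f, Lt.c, Lt.di, Lt.b, Lt.f, Lt.c] [Lt.bi, Lt.d] (pair_rel hinv hr (by decide +kernel)) h
    · rcases brec_true h with h | h
      · exact mRel_good (T := T) (by decide) [Lt.ci, Lt.bi, Lt.f, Lt.b, Lt.c] [Lt.d, Lt.b, Lt.b] (pair_rel hinv hr (by decide +kernel)) h
      · exact mRel_good (T := T) (by decide) [Lt.b, Lt.ci, Lt.ci, Lt.di] [Lt.ci, Lt.b, Lt.ci, Lt.ci] (pair_rel hinv hr (by decide +kernel)) h
  · rcases brec_true h with h | h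
    · rcases brec_true h with h | h
      · exact mRel_good (T := T) (by decide) [Lt.f, Lt.c, Lt.di, Lt.f, Lt.ei] [Lt.e, Lt.f, Lt.ei, Lt.fi] (pair_rel hinv hr (by decide +kernel)) h
      · exact mRel_good (T := T) (by decide) [Lt.di, Lt.di, Lt.b, Lt.di, Lt.bi] [Lt.bi, Lt.d, Lt.d] (pair_rel hinv hr (by decide +kernel)) h
    · rcases brec_true h with h | h
      · exact mRel_good (T := T) (by decide) [Lt.c, Lt.d, Lt.fi, Lt.d, Lt.bi] [Lt.ci, Lt.bi, Lt.ci] (pair_rel hinv hr (by decide +kernel)) h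
      · exact mRel_good (T := T) (by decide) [Lt.fi, Lt.bi, Lt.f] [Lt.d, Lt.ei, Lt.bi, Lt.c, Lt.fi, Lt.ei] (pair_rel hinv hr (by decide +kernel)) h
theorem dM_50_s (hinv : ∀ x, g (inv x) = (g x)⁻¹) (hr : ∀ r ∈ rels, (r.map g).prod = 1) (j z1 z2 u : ℕ) (h : dM_50 j z1 z2 u = true) : GoodM (fa g) T MG M (cP g H) u := by
  unfold dM_50 at h
  rcases brec_true h with h | h
  · exact dM_48_s hinv hr j z1 z2 u h
  · exact dM_49_s hinv hr j z1 z2 u h
theorem dM_51_s (hinv : ∀ x, g (inv x) = (g x)⁻¹) (hr : ∀ r ∈ rels, (r.map g).prod = 1) (j z1 z2 u : ℕ) (h : dM_51 j z1 z2 u = true) : GoodM (fa g) T MG M (cP g H) u := by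
  unfold dM_51 at h
  rcases brec_true h with h | h
  · exact dM_47_s hinv hr j z1 z2 u h
  · exact dM_50_s hinv hr j z1 z2 u h
theorem dM_52_s (hinv : ∀ x, g (inv x) = (g x)⁻¹) (hr : ∀ r ∈ rels, (r.map g).prod = 1) (j z1 z2 u : ℕ) (h : dM_52 j z1 z2 u = true) : GoodM (fa g) T MG M (cP g H) u := by
  unfold dM_52 at h
  rcases brec_true h with h | h
  · exact dM_44_s hinv hr j z1 z2 u h
  · exact dM_51_s hinv hr j z1 z2 u h
theorem dM_53_s (hinv : ∀ x, g (inv x) = (g x)⁻¹) (hr : ∀ r ∈ rels, (r.map g).prod = 1) (j z1 z2 u : ℕ) (h : dM_53 j z1 z2 u = true) : GoodM (fa g) T MG M (cP g H) u := by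
  unfold dM_53 at h
  rcases brec_true h with h | h
  · rcases brec_true h with h | h
    · exact mRel_good (T := T) (by decide) [Lt.ei, Lt.f, Lt.e] [Lt.f, Lt.ei, Lt.fi, Lt.fi, Lt.d, Lt.ci] (pair_rel hinv hr (by decide +kernel)) h
    · rcases brec_true h with h | h
      · exact mRel_good (T := T) (by decide) [Lt.d, Lt.fi, Lt.fi, Lt.d, Lt.fi] [Lt.fi, Lt.di, Lt.di] (pair_rel hinv hr (by decide +kernel)) h
      · exact mRel_good (T := T) (by decide) [Lt.b, Lt.d, Lt.bi, Lt.d] [Lt.di, Lt.di, Lt.b, Lt.di] (pair_rel hinv hr (by decide +kernel)) h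
  · rcases brec_true h with h | h
    · rcases brec_true h with h | h
      · exact mRel_good (T := T) (by decide) [Lt.b, Lt.ci, Lt.fi, Lt.b, Lt.di, Lt.di] [Lt.fi, Lt.c] (pair_rel hinv hr (by decide +kernel)) h
      · exact mRel_good (T := T) (by decide) [Lt.ci, Lt.b, Lt.d, Lt.f] [Lt.b, Lt.d, Lt.ci, Lt.fi] (pair_rel hinv hr (by decide +kernel)) h
    · rcases brec_true h with h | h
      · exact mRel_good (T := T) (by decide) [Lt.di, Lt.fi, Lt.di, Lt.di, Lt.f, Lt.di] [Lt.fi, Lt.fi] (pair_rel hinv hr (by decide +kernel)) h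
      · exact mRel_good (T := T) (by decide) [Lt.c, Lt.di, Lt.di, Lt.fi, Lt.c] [Lt.f, Lt.d, Lt.d] (pair_rel hinv hr (by decide +kernel)) h
theorem dM_54_s (hinv : ∀ x, g (inv x) = (g x)⁻¹) (hr : ∀ r ∈ rels, (r.map g).prod = 1) (j z1 z2 u : ℕ) (h : dM_54 j z1 z2 u = true) : GoodM (fa g) T MG M (cP g H) u := by
  unfold dM_54 at h
  rcases brec_true h with h | h
  · rcases brec_true h with h | h
    · exact mRel_good (T := T) (by decide) [Lt.c, Lt.fi, Lt.bi, Lt.c, Lt.f] [Lt.ci, Lt.f, Lt.bi] (pair_rel hinv hr (by decide +kernel)) h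
    · rcases brec_true h with h | h
      · exact mRel_good (T := T) (by decide) [Lt.bi, Lt.d, Lt.ci, Lt.fi] [Lt.f, Lt.c, Lt.di, Lt.b] (pair_rel hinv hr (by decide +kernel)) h
      · exact mRel_good (T := T) (by decide) [Lt.ci, Lt.b, Lt.d, Lt.ci, Lt.ci, Lt.b] [Lt.c, Lt.di] (pair_rel hinv hr (by decide +kernel)) h
  · rcases brec_true h with h | h
    · rcases brec_true h with h | h
      · exact mRel_good (T := T) (by decide) [Lt.d, Lt.c, Lt.bi] [Lt.c, Lt.b, Lt.ci, Lt.di, Lt.c] (pair_rel hinv hr (by decide +kernel)) h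
      · exact mRel_good (T := T) (by decide) [Lt.b, Lt.b] [Lt.ci, Lt.di, Lt.b, Lt.f, Lt.f, Lt.c] (pair_rel hinv hr (by decide +kernel)) h
    · rcases brec_true h with h | h
      · exact mRel_good (T := T) (by decide) [Lt.d, Lt.d, Lt.ci, Lt.f, Lt.d, Lt.d] [Lt.fi, Lt.c] (pair_rel hinv hr (by decide +kernel)) h
      · exact mRel_good (T := T) (by decide) [Lt.b, Lt.c, Lt.di, Lt.ci, Lt.bi] [Lt.d, Lt.fi, Lt.di] (pair_rel hinv hr (by decide +kernel)) h
theorem dM_55_s (hinv : ∀ x, g (inv x) = (g x)⁻¹) (hr : ∀ r ∈ rels, (r.map g).prod = 1) (j z1 z2 u : ℕ) (h : dM_55 j z1 z2 u = true) : GoodM (fa g) T MG M (cP g H) u := by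
  unfold dM_55 at h
  rcases brec_true h with h | h
  · exact dM_53_s hinv hr j z1 z2 u h
  · exact dM_54_s hinv hr j z1 z2 u h
theorem dM_56_s (hinv : ∀ x, g (inv x) = (g x)⁻¹) (hr : ∀ r ∈ rels, (r.map g).prod = 1) (j z1 z2 u : ℕ) (h : dM_56 j z1 z2 u = true) : GoodM (fa g) T MG M (cP g H) u := by
  unfold dM_56 at h
  rcases brec_true h with h | h
  · rcases brec_true h with h | h
    · exact mRel_good (T := T) (by decide) [Lt.d, Lt.d, Lt.b, Lt.fi, Lt.d, Lt.c] [Lt.fi, Lt.bi] (pair_rel hinv hr (by decide +kernel)) h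
    · rcases brec_true h with h | h
      · exact mRel_good (T := T) (by decide) [Lt.d, Lt.fi, Lt.c] [Lt.b, Lt.ci, Lt.d, Lt.b, Lt.f] (pair_rel hinv hr (by decide +kernel)) h
      · exact mRel_good (T := T) (by decide) [Lt.bi, Lt.d, Lt.fi] [Lt.c, Lt.di, Lt.ci, Lt.bi, Lt.d] (pair_rel hinv hr (by decide +kernel)) h
  · rcases brec_true h with h | h
    · rcases brec_true h with h | h
      · exact mRel_good (T := T) (by decide) [Lt.di, Lt.c, Lt.c, Lt.bi] [Lt.c, Lt.c, Lt.bi, Lt.ci] (pair_rel hinv hr (by decide +kernel)) h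
      · exact mRel_good (T := T) (by decide) [Lt.ci, Lt.ci] [Lt.d, Lt.fi, Lt.d, Lt.bi, Lt.c, Lt.b] (pair_rel hinv hr (by decide +kernel)) h
    · rcases brec_true h with h | h
      · exact mRel_good (T := T) (by decide) [Lt.ci, Lt.f] [Lt.d, Lt.d, Lt.bi, Lt.f, Lt.c, Lt.bi] (pair_rel hinv hr (by decide +kernel)) h
      · exact mRel_good (T := T) (by decide) [Lt.e, Lt.fi, Lt.ei, Lt.f, Lt.c, Lt.di, Lt.f, Lt.ei] [Lt.fi] (pair_rel hinv hr (by decide +kernel)) h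
theorem dM_57_s (hinv : ∀ x, g (inv x) = (g x)⁻¹) (hr : ∀ r ∈ rels, (r.map g).prod = 1) (j z1 z2 u : ℕ) (h : dM_57 j z1 z2 u = true) : GoodM (fa g) T MG M (cP g H) u := by
  unfold dM_57 at h
  rcases brec_true h with h | h
  · rcases brec_true h with h | h
    · rcases brec_true h with h | h
      · exact mRel_good (T := T) (by decide) [Lt.b, Lt.di, Lt.f, Lt.bi, Lt.c, Lt.fi] [Lt.c, Lt.d] (pair_rel hinv hr (by decide +kernel)) h
      · exact mRel_good (T := T) (by decide) [Lt.d, Lt.b, Lt.fi, Lt.d] [Lt.di, Lt.fi, Lt.bi, Lt.ci] (pair_rel hinv hr (by decide +kernel)) h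
    · rcases brec_true h with h | h
      · exact mRel_good (T := T) (by decide) [Lt.fi, Lt.c, Lt.di, Lt.di, Lt.fi] [Lt.d, Lt.d, Lt.ci] (pair_rel hinv hr (by decide +kernel)) h
      · exact mRel_good (T := T) (by decide) [Lt.c, Lt.e, Lt.bi, Lt.e, Lt.c, Lt.e, Lt.bi, Lt.e] [] (pair_rel hinv hr (by decide +kernel)) h
  · rcases brec_true h with h | h
    · rcases brec_true h with h | h
      · exact mRel_good (T := T) (by decide) [Lt.ci, Lt.bi, Lt.d, Lt.fi] [Lt.di, Lt.ci, Lt.bi, Lt.d] (pair_rel hinv hr (by decide +kernel)) h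
      · exact mRel_good (T := T) (by decide) [Lt.bi, Lt.di] [Lt.ci, Lt.di, Lt.ci, Lt.bi, Lt.f, Lt.ci] (pair_rel hinv hr (by decide +kernel)) h
    · rcases brec_true h with h | h
      · exact mRel_good (T := T) (by decide) [Lt.c, Lt.b, Lt.ci, Lt.bi, Lt.fi] [Lt.bi, Lt.f, Lt.d] (pair_rel hinv hr (by decide +kernel)) h
      · rcases brec_true h with h | h
        · exact mRel_good (T := T) (by decide) [Lt.ci, Lt.bi] [Lt.fi, Lt.fi, Lt.d, Lt.bi, Lt.bi, Lt.f, Lt.c] (pair_rel hinv hr (by decide +kernel)) h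
        · exact mRel_good (T := T) (by decide) [Lt.b, Lt.di, Lt.bi] [Lt.d, Lt.d, Lt.bi, Lt.d, Lt.d] (pair_rel hinv hr (by decide +kernel)) h
theorem dM_58_s (hinv : ∀ x, g (inv x) = (g x)⁻¹) (hr : ∀ r ∈ rels, (r.map g).prod = 1) (j z1 z2 u : ℕ) (h : dM_58 j z1 z2 u = true) : GoodM (fa g) T MG M (cP g H) u := by
  unfold dM_58 at h
  rcases brec_true h with h | h
  · exact dM_56_s hinv hr j z1 z2 u h
  · exact dM_57_s hinv hr j z1 z2 u h
theorem dM_59_s (hinv : ∀ x, g (inv x) = (g x)⁻¹) (hr : ∀ r ∈ rels, (r.map g).prod = 1) (j z1 z2 u : ℕ) (h : dM_59 j z1 z2 u = true) : GoodM (fa g) T MG M (cP g H) u := by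
  unfold dM_59 at h
  rcases brec_true h with h | h
  · exact dM_55_s hinv hr j z1 z2 u h
  · exact dM_58_s hinv hr j z1 z2 u h
theorem dM_60_s (hinv : ∀ x, g (inv x) = (g x)⁻¹) (hr : ∀ r ∈ rels, (r.map g).prod = 1) (j z1 z2 u : ℕ) (h : dM_60 j z1 z2 u = true) : GoodM (fa g) T MG M (cP g H) u := by
  unfold dM_60 at h
  rcases brec_true h with h | h
  · rcases brec_true h with h | h
    · rcases brec_true h with h | h
      · exact mRel_good (T := T) (by decide) [Lt.c, Lt.c, Lt.di, Lt.bi, Lt.c, Lt.c, Lt.di] [Lt.b] (pair_rel hinv hr (by decide +kernel)) h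
      · exact mRel_good (T := T) (by decide) [Lt.di, Lt.b, Lt.di, Lt.di] [Lt.d, Lt.b, Lt.d, Lt.bi] (pair_rel hinv hr (by decide +kernel)) h
    · rcases brec_true h with h | h
      · exact mRel_good (T := T) (by decide) [Lt.ci, Lt.fi, Lt.bi, Lt.d, Lt.ci, Lt.fi] [Lt.di, Lt.b] (pair_rel hinv hr (by decide +kernel)) h
      · rcases brec_true h with h | h
        · exact mRel_good (T := T) (by decide) [Lt.d, Lt.bi, Lt.c, Lt.di, Lt.b] [Lt.ci, Lt.d, Lt.ci] (pair_rel hinv hr (by decide +kernel)) h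
        · exact mRel_good (T := T) (by decide) [Lt.bi, Lt.ci, Lt.b, Lt.d, Lt.f] [Lt.d, Lt.ci, Lt.fi] (pair_rel hinv hr (by decide +kernel)) h
  · rcases brec_true h with h | h
    · rcases brec_true h with h | h
      · exact mRel_good (T := T) (by decide) [Lt.di, Lt.bi, Lt.c, Lt.c, Lt.di, Lt.bi, Lt.c] [Lt.ci] (pair_rel hinv hr (by decide +kernel)) h
      · exact mRel_good (T := T) (by decide) [Lt.b, Lt.b] [Lt.di, Lt.ci, Lt.bi, Lt.f, Lt.b, Lt.c] (pair_rel hinv hr (by decide +kernel)) h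
    · rcases brec_true h with h | h
      · exact mRel_good (T := T) (by decide) [Lt.d, Lt.b, Lt.f] [Lt.c, Lt.bi, Lt.d, Lt.fi, Lt.c] (pair_rel hinv hr (by decide +kernel)) h
      · rcases brec_true h with h | h
        · exact mRel_good (T := T) (by decide) [Lt.bi, Lt.d, Lt.d, Lt.b, Lt.d] [Lt.di, Lt.di, Lt.b] (pair_rel hinv hr (by decide +kernel)) h
        · exact mRel_good (T := T) (by decide) [Lt.b, Lt.d, Lt.ci, Lt.ci] [Lt.c, Lt.c, Lt.di, Lt.bi] (pair_rel hinv hr (by decide +kernel)) h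
theorem dM_61_s (hinv : ∀ x, g (inv x) = (g x)⁻¹) (hr : ∀ r ∈ rels, (r.map g).prod = 1) (j z1 z2 u : ℕ) (h : dM_61 j z1 z2 u = true) : GoodM (fa g) T MG M (cP g H) u := by
  unfold dM_61 at h
  rcases brec_true h with h | h
  · rcases brec_true h with h | h
    · rcases brec_true h with h | h
      · exact mRel_good (T := T) (by decide) [Lt.bi, Lt.c, Lt.b, Lt.ci, Lt.ci, Lt.di] [Lt.ci, Lt.ci] (pair_rel hinv hr (by decide +kernel)) h
      · exact mRel_good (T := T) (by decide) [Lt.fi, Lt.c, Lt.d] [Lt.b, Lt.ci, Lt.fi, Lt.b, Lt.di] (pair_rel hinv hr (by decide +kernel)) h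
    · rcases brec_true h with h | h
      · exact mRel_good (T := T) (by decide) [Lt.bi, Lt.d, Lt.d] [Lt.di, Lt.di, Lt.b, Lt.di, Lt.bi] (pair_rel hinv hr (by decide +kernel)) h
      · rcases brec_true h with h | h
        · exact mRel_good (T := T) (by decide) [Lt.e, Lt.fi, Lt.ei, Lt.f, Lt.e, Lt.c] [Lt.d, Lt.f, Lt.di] (pair_rel hinv hr (by decide +kernel)) h
        · exact mRel_good (T := T) (by decide) [Lt.d, Lt.ci, Lt.bi, Lt.d, Lt.fi, Lt.di] [Lt.ci, Lt.bi] (pair_rel hinv hr (by decide +kernel)) h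
  · rcases brec_true h with h | h
    · rcases brec_true h with h | h
      · exact mRel_good (T := T) (by decide) [Lt.bi, Lt.f, Lt.b] [Lt.b, Lt.f, Lt.ci, Lt.d, Lt.fi] (pair_rel hinv hr (by decide +kernel)) h
      · rcases brec_true h with h | h
        · exact mRel_good (T := T) (by decide) [Lt.bi, Lt.d, Lt.fi, Lt.c, Lt.fi] [Lt.ci, Lt.d, Lt.b] (pair_rel hinv hr (by decide +kernel)) h
        · exact mRel_good (T := T) (by decide) [Lt.c, Lt.di, Lt.ci, Lt.bi] [Lt.bi, Lt.d, Lt.fi, Lt.di] (pair_rel hinv hr (by decide +kernel)) h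
    · rcases brec_true h with h | h
      · exact mRel_good (T := T) (by decide) [Lt.ci, Lt.bi, Lt.fi, Lt.b] [Lt.bi, Lt.bi, Lt.di, Lt.ci] (pair_rel hinv hr (by decide +kernel)) h
      · rcases brec_true h with h | h
        · exact mRel_good (T := T) (by decide) [Lt.b, Lt.c, Lt.b, Lt.ci, Lt.bi, Lt.fi] [Lt.f, Lt.d] (pair_rel hinv hr (by decide +kernel)) h
        · exact mRel_good (T := T) (by decide) [Lt.c, Lt.bi, Lt.ci, Lt.ci, Lt.f, Lt.c, Lt.c] [Lt.di, Lt.fi] (pair_rel hinv hr (by decide +kernel)) h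
theorem dM_62_s (hinv : ∀ x, g (inv x) = (g x)⁻¹) (hr : ∀ r ∈ rels, (r.map g).prod = 1) (j z1 z2 u : ℕ) (h : dM_62 j z1 z2 u = true) : GoodM (fa g) T MG M (cP g H) u := by
  unfold dM_62 at h
  rcases brec_true h with h | h
  · exact dM_60_s hinv hr j z1 z2 u h
  · exact dM_61_s hinv hr j z1 z2 u h
theorem dM_63_s (hinv : ∀ x, g (inv x) = (g x)⁻¹) (hr : ∀ r ∈ rels, (r.map g).prod = 1) (j z1 z2 u : ℕ) (h : dM_63 j z1 z2 u = true) : GoodM (fa g) T MG M (cP g H) u := by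
  unfold dM_63 at h
  rcases brec_true h with h | h
  · rcases brec_true h with h | h
    · rcases brec_true h with h | h
      · exact mRel_good (T := T) (by decide) [Lt.f, Lt.di, Lt.f, Lt.f] [Lt.d, Lt.d, Lt.f, Lt.d] (pair_rel hinv hr (by decide +kernel)) h
      · exact mRel_good (T := T) (by decide) [Lt.d, Lt.f] [Lt.ci, Lt.bi, Lt.ci, Lt.fi, Lt.d, Lt.bi] (pair_rel hinv hr (by decide +kernel)) h
    · rcases brec_true h with h | h
      · exact mRel_good (T := T) (by decide) [Lt.d, Lt.d, Lt.bi] [Lt.ci, Lt.f, Lt.b, Lt.ci, Lt.fi] (pair_rel hinv hr (by decide +kernel)) h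
      · rcases brec_true h with h | h
        · exact mRel_good (T := T) (by decide) [Lt.b, Lt.d, Lt.ci, Lt.ci, Lt.b, Lt.d, Lt.ci, Lt.ci] [] (pair_rel hinv hr (by decide +kernel)) h
        · exact mRel_good (T := T) (by decide) [Lt.fi, Lt.d, Lt.ci, Lt.fi, Lt.e, Lt.f, Lt.ei] [Lt.ei, Lt.f] (pair_rel hinv hr (by decide +kernel)) h
  · rcases brec_true h with h | h
    · rcases brec_true h with h | h
      · exact mRel_good (T := T) (by decide) [Lt.f, Lt.b, Lt.di] [Lt.di, Lt.ci, Lt.bi, Lt.ci, Lt.fi] (pair_rel hinv hr (by decide +kernel)) h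
      · rcases brec_true h with h | h
        · exact mRel_good (T := T) (by decide) [Lt.ci, Lt.ci, Lt.f, Lt.bi, Lt.fi, Lt.ci] [Lt.fi, Lt.bi] (pair_rel hinv hr (by decide +kernel)) h
        · exact mRel_good (T := T) (by decide) [Lt.b, Lt.di, Lt.f, Lt.bi, Lt.c] [Lt.c, Lt.d, Lt.f] (pair_rel hinv hr (by decide +kernel)) h
    · rcases brec_true h with h | h
      · exact mRel_good (T := T) (by decide) [Lt.b, Lt.di, Lt.f, Lt.bi, Lt.c, Lt.fi, Lt.di] [Lt.c] (pair_rel hinv hr (by decide +kernel)) h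
      · rcases brec_true h with h | h
        · exact mRel_good (T := T) (by decide) [Lt.f, Lt.ei, Lt.f, Lt.e, Lt.fi, Lt.ei] [Lt.d, Lt.ci, Lt.fi] (pair_rel hinv hr (by decide +kernel)) h
        · exact mRel_good (T := T) (by decide) [Lt.ci, Lt.di, Lt.c, Lt.b, Lt.ci] [Lt.bi, Lt.ci, Lt.d] (pair_rel hinv hr (by decide +kernel)) h
theorem dM_64_s (hinv : ∀ x, g (inv x) = (g x)⁻¹) (hr : ∀ r ∈ rels, (r.map g).prod = 1) (j z1 z2 u : ℕ) (h : dM_64 j z1 z2 u = true) : GoodM (fa g) T MG M (cP g H) u := by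
  unfold dM_64 at h
  rcases brec_true h with h | h
  · rcases brec_true h with h | h
    · rcases brec_true h with h | h
      · exact mRel_good (T := T) (by decide) [Lt.di, Lt.f, Lt.bi, Lt.c, Lt.fi] [Lt.bi, Lt.c, Lt.d] (pair_rel hinv hr (by decide +kernel)) h
      · exact mRel_good (T := T) (by decide) [Lt.b, Lt.ei, Lt.ci, Lt.ei, Lt.b, Lt.ei] [Lt.e, Lt.c] (pair_rel hinv hr (by decide +kernel)) h
    · rcases brec_true h with h | h
      · exact mRel_good (T := T) (by decide) [Lt.fi, Lt.e] [Lt.e, Lt.fi, Lt.ei, Lt.f, Lt.c, Lt.di, Lt.f] (pair_rel hinv hr (by decide +kernel)) h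
      · rcases brec_true h with h | h
        · exact mRel_good (T := T) (by decide) [Lt.ci, Lt.bi, Lt.f, Lt.ci] [Lt.d, Lt.c, Lt.bi, Lt.di] (pair_rel hinv hr (by decide +kernel)) h
        · exact mRel_good (T := T) (by decide) [Lt.ci, Lt.ci, Lt.di, Lt.c] [Lt.bi, Lt.ci, Lt.b, Lt.ci] (pair_rel hinv hr (by decide +kernel)) h
  · rcases brec_true h with h | h
    · rcases brec_true h with h | h
      · exact mRel_good (T := T) (by decide) [Lt.di, Lt.ci, Lt.d, Lt.ci] [Lt.bi, Lt.c, Lt.di, Lt.b] (pair_rel hinv hr (by decide +kernel)) h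
      · rcases brec_true h with h | h
        · exact mRel_good (T := T) (by decide) [Lt.b, Lt.fi, Lt.c, Lt.c, Lt.fi, Lt.bi, Lt.c] [Lt.fi] (pair_rel hinv hr (by decide +kernel)) h
        · exact mRel_good (T := T) (by decide) [Lt.ci, Lt.ci, Lt.bi, Lt.ci, Lt.b, Lt.di] [Lt.d, Lt.fi] (pair_rel hinv hr (by decide +kernel)) h
    · rcases brec_true h with h | h
      · exact mRel_good (T := T) (by decide) [Lt.bi, Lt.f, Lt.b, Lt.c, Lt.bi] [Lt.c, Lt.d, Lt.b] (pair_rel hinv hr (by decide +kernel)) h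
      · rcases brec_true h with h | h
        · exact mRel_good (T := T) (by decide) [Lt.f, Lt.ei, Lt.f, Lt.e, Lt.fi] [Lt.d, Lt.ci, Lt.fi, Lt.e] (pair_rel hinv hr (by decide +kernel)) h
        · exact mRel_good (T := T) (by decide) [Lt.f, Lt.c, Lt.b, Lt.c, Lt.d] [Lt.d, Lt.bi, Lt.fi] (pair_rel hinv hr (by decide +kernel)) h
theorem dM_65_s (hinv : ∀ x, g (inv x) = (g x)⁻¹) (hr : ∀ r ∈ rels, (r.map g).prod = 1) (j z1 z2 u : ℕ) (h : dM_65 j z1 z2 u = true) : GoodM (fa g) T MG M (cP g H) u := by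
  unfold dM_65 at h
  rcases brec_true h with h | h
  · exact dM_63_s hinv hr j z1 z2 u h
  · exact dM_64_s hinv hr j z1 z2 u h
theorem dM_66_s (hinv : ∀ x, g (inv x) = (g x)⁻¹) (hr : ∀ r ∈ rels, (r.map g).prod = 1) (j z1 z2 u : ℕ) (h : dM_66 j z1 z2 u = true) : GoodM (fa g) T MG M (cP g H) u := by
  unfold dM_66 at h
  rcases brec_true h with h | h
  · exact dM_62_s hinv hr j z1 z2 u h
  · exact dM_65_s hinv hr j z1 z2 u h
theorem dM_67_s (hinv : ∀ x, g (inv x) = (g x)⁻¹) (hr : ∀ r ∈ rels, (r.map g).prod = 1) (j z1 z2 u : ℕ) (h : dM_67 j z1 z2 u = true) : GoodM (fa g) T MG M (cP g H) u := by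
  unfold dM_67 at h
  rcases brec_true h with h | h
  · exact dM_59_s hinv hr j z1 z2 u h
  · exact dM_66_s hinv hr j z1 z2 u h
theorem dM_68_s (hinv : ∀ x, g (inv x) = (g x)⁻¹) (hr : ∀ r ∈ rels, (r.map g).prod = 1) (j z1 z2 u : ℕ) (h : dM_68 j z1 z2 u = true) : GoodM (fa g) T MG M (cP g H) u := by
  unfold dM_68 at h
  rcases brec_true h with h | h
  · exact dM_52_s hinv hr j z1 z2 u h
  · exact dM_67_s hinv hr j z1 z2 u h
theorem dM_69_s (hinv : ∀ x, g (inv x) = (g x)⁻¹) (hr : ∀ r ∈ rels, (r.map g).prod = 1) (j z1 z2 u : ℕ) (h : dM_69 j z1 z2 u = true) : GoodM (fa g) T MG M (cP g H) u := by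
  unfold dM_69 at h
  rcases brec_true h with h | h
  · rcases brec_true h with h | h
    · rcases brec_true h with h | h
      · exact mRel_good (T := T) (by decide) [Lt.d, Lt.f, Lt.d, Lt.fi, Lt.fi, Lt.d] [Lt.di, Lt.f] (pair_rel hinv hr (by decide +kernel)) h
      · exact mRel_good (T := T) (by decide) [Lt.d, Lt.bi, Lt.c, Lt.b, Lt.c] [Lt.f, Lt.di, Lt.ci] (pair_rel hinv hr (by decide +kernel)) h
    · rcases brec_true h with h | h
      · exact mRel_good (T := T) (by decide) [Lt.b, Lt.b, Lt.ci] [Lt.ci, Lt.di, Lt.b, Lt.f, Lt.f] (pair_rel hinv hr (by decide +kernel)) h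
      · rcases brec_true h with h | h
        · exact mRel_good (T := T) (by decide) [Lt.f, Lt.b, Lt.di, Lt.f] [Lt.di, Lt.ci, Lt.bi, Lt.ci] (pair_rel hinv hr (by decide +kernel)) h
        · exact mRel_good (T := T) (by decide) [Lt.fi, Lt.d, Lt.bi] [Lt.c, Lt.b, Lt.c, Lt.d, Lt.f] (pair_rel hinv hr (by decide +kernel)) h
  · rcases brec_true h with h | h
    · rcases brec_true h with h | h
      · exact mRel_good (T := T) (by decide) [Lt.f, Lt.c, Lt.bi, Lt.fi, Lt.c, Lt.d] [Lt.b, Lt.di] (pair_rel hinv hr (by decide +kernel)) h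
      · exact mRel_good (T := T) (by decide) [Lt.bi, Lt.c, Lt.d, Lt.f] [Lt.di, Lt.f, Lt.bi, Lt.c] (pair_rel hinv hr (by decide +kernel)) h
    · rcases brec_true h with h | h
      · exact mRel_good (T := T) (by decide) [Lt.d, Lt.ci, Lt.fi, Lt.bi, Lt.d, Lt.ci] [Lt.b, Lt.f] (pair_rel hinv hr (by decide +kernel)) h
      · rcases brec_true h with h | h
        · exact mRel_good (T := T) (by decide) [Lt.d, Lt.d, Lt.ci, Lt.f] [Lt.fi, Lt.c, Lt.di, Lt.di] (pair_rel hinv hr (by decide +kernel)) h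
        · exact mRel_good (T := T) (by decide) [Lt.bi, Lt.fi, Lt.di, Lt.ci, Lt.bi, Lt.ci] [Lt.di, Lt.f] (pair_rel hinv hr (by decide +kernel)) h
theorem dM_70_s (hinv : ∀ x, g (inv x) = (g x)⁻¹) (hr : ∀ r ∈ rels, (r.map g).prod = 1) (j z1 z2 u : ℕ) (h : dM_70 j z1 z2 u = true) : GoodM (fa g) T MG M (cP g H) u := by
  unfold dM_70 at h
  rcases brec_true h with h | h
  · rcases brec_true h with h | h
    · rcases brec_true h with h | h
      · exact mRel_good (T := T) (by decide) [Lt.d, Lt.b, Lt.ci, Lt.bi, Lt.f] [Lt.ci, Lt.bi, Lt.di] (pair_rel hinv hr (by decide +kernel)) h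
      · exact mRel_good (T := T) (by decide) [Lt.bi, Lt.bi, Lt.ci, Lt.di, Lt.b, Lt.f] [Lt.ci, Lt.fi] (pair_rel hinv hr (by decide +kernel)) h
    · rcases brec_true h with h | h
      · exact mRel_good (T := T) (by decide) [Lt.b, Lt.d, Lt.f, Lt.f] [Lt.c, Lt.b, Lt.d, Lt.ci] (pair_rel hinv hr (by decide +kernel)) h
      · rcases brec_true h with h | h
        · exact mRel_good (T := T) (by decide) [Lt.b, Lt.ci, Lt.di, Lt.ci, Lt.bi, Lt.f, Lt.ci] [Lt.di] (pair_rel hinv hr (by decide +kernel)) h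
        · exact mRel_good (T := T) (by decide) [Lt.f, Lt.ci, Lt.b, Lt.e, Lt.di] [Lt.ei, Lt.fi, Lt.b, Lt.f] (pair_rel hinv hr (by decide +kernel)) h
  · rcases brec_true h with h | h
    · rcases brec_true h with h | h
      · exact mRel_good (T := T) (by decide) [Lt.b, Lt.f, Lt.ci, Lt.d, Lt.fi, Lt.bi] [Lt.bi, Lt.f] (pair_rel hinv hr (by decide +kernel)) h
      · rcases brec_true h with h | h
        · exact mRel_good (T := T) (by decide) [Lt.bi, Lt.c, Lt.b, Lt.d, Lt.ci, Lt.fi] [Lt.d, Lt.f] (pair_rel hinv hr (by decide +kernel)) h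
        · exact mRel_good (T := T) (by decide) [Lt.b, Lt.c, Lt.d, Lt.f] [Lt.ci, Lt.fi, Lt.d, Lt.bi] (pair_rel hinv hr (by decide +kernel)) h
    · rcases brec_true h with h | h
      · exact mRel_good (T := T) (by decide) [Lt.b] [Lt.f, Lt.c, Lt.bi, Lt.fi, Lt.c, Lt.d, Lt.d] (pair_rel hinv hr (by decide +kernel)) h
      · rcases brec_true h with h | h
        · exact mRel_good (T := T) (by decide) [Lt.di, Lt.c, Lt.d, Lt.bi] [Lt.ci, Lt.bi, Lt.d, Lt.ci] (pair_rel hinv hr (by decide +kernel)) h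
        · exact mRel_good (T := T) (by decide) [Lt.f, Lt.d, Lt.b, Lt.c, Lt.d] [Lt.b, Lt.c, Lt.bi] (pair_rel hinv hr (by decide +kernel)) h
theorem dM_71_s (hinv : ∀ x, g (inv x) = (g x)⁻¹) (hr : ∀ r ∈ rels, (r.map g).prod = 1) (j z1 z2 u : ℕ) (h : dM_71 j z1 z2 u = true) : GoodM (fa g) T MG M (cP g H) u := by
  unfold dM_71 at h
  rcases brec_true h with h | h
  · exact dM_69_s hinv hr j z1 z2 u h
  · exact dM_70_s hinv hr j z1 z2 u h
theorem dM_72_s (hinv : ∀ x, g (inv x) = (g x)⁻¹) (hr : ∀ r ∈ rels, (r.map g).prod = 1) (j z1 z2 u : ℕ) (h : dM_72 j z1 z2 u = true) : GoodM (fa g) T MG M (cP g H) u := by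
  unfold dM_72 at h
  rcases brec_true h with h | h
  · rcases brec_true h with h | h
    · rcases brec_true h with h | h
      · exact mRel_good (T := T) (by decide) [Lt.c, Lt.di, Lt.f, Lt.ei, Lt.f, Lt.e, Lt.fi] [Lt.fi, Lt.e] (pair_rel hinv hr (by decide +kernel)) h
      · exact mRel_good (T := T) (by decide) [Lt.b, Lt.d, Lt.ci, Lt.fi, Lt.fi, Lt.di, Lt.bi, Lt.c] [] (pair_rel hinv hr (by decide +kernel)) h
    · rcases brec_true h with h | h
      · exact mRel_good (T := T) (by decide) [Lt.di, Lt.f, Lt.ei, Lt.f, Lt.e, Lt.fi] [Lt.ci, Lt.fi, Lt.e] (pair_rel hinv hr (by decide +kernel)) h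
      · rcases brec_true h with h | h
        · exact mRel_good (T := T) (by decide) [Lt.f, Lt.c, Lt.di] [Lt.e, Lt.f, Lt.ei, Lt.fi, Lt.e, Lt.fi] (pair_rel hinv hr (by decide +kernel)) h
        · exact mRel_good (T := T) (by decide) [Lt.bi, Lt.fi] [Lt.c, Lt.b, Lt.ci, Lt.bi, Lt.di, Lt.di] (pair_rel hinv hr (by decide +kernel)) h
  · rcases brec_true h with h | h
    · rcases brec_true h with h | h
      · exact mRel_good (T := T) (by decide) [Lt.bi, Lt.d, Lt.fi] [Lt.ci, Lt.d, Lt.b, Lt.f, Lt.ci] (pair_rel hinv hr (by decide +kernel)) h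
      · exact mRel_good (T := T) (by decide) [Lt.di, Lt.bi, Lt.ci, Lt.b, Lt.d] [Lt.ci, Lt.fi, Lt.fi] (pair_rel hinv hr (by decide +kernel)) h
    · rcases brec_true h with h | h
      · exact mRel_good (T := T) (by decide) [Lt.ei, Lt.f, Lt.e, Lt.c, Lt.di, Lt.f, Lt.f] [Lt.f, Lt.ei] (pair_rel hinv hr (by decide +kernel)) h
      · rcases brec_true h with h | h
        · exact mRel_good (T := T) (by decide) [Lt.ci, Lt.f, Lt.d, Lt.d, Lt.ci, Lt.f] [Lt.di, Lt.di] (pair_rel hinv hr (by decide +kernel)) h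
        · exact mRel_good (T := T) (by decide) [Lt.e, Lt.di, Lt.fi, Lt.bi, Lt.f] [Lt.bi, Lt.c, Lt.fi, Lt.ei] (pair_rel hinv hr (by decide +kernel)) h
theorem dM_73_s (hinv : ∀ x, g (inv x) = (g x)⁻¹) (hr : ∀ r ∈ rels, (r.map g).prod = 1) (j z1 z2 u : ℕ) (h : dM_73 j z1 z2 u = true) : GoodM (fa g) T MG M (cP g H) u := by
  unfold dM_73 at h
  rcases brec_true h with h | h
  · rcases brec_true h with h | h
    · rcases brec_true h with h | h
      · exact mRel_good (T := T) (by decide) [Lt.bi, Lt.f] [Lt.b, Lt.f, Lt.ci, Lt.d, Lt.fi, Lt.bi] (pair_rel hinv hr (by decide +kernel)) h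
      · exact mRel_good (T := T) (by decide) [Lt.di, Lt.fi, Lt.bi, Lt.ci, Lt.di] [Lt.d, Lt.b, Lt.fi] (pair_rel hinv hr (by decide +kernel)) h
    · rcases brec_true h with h | h
      · exact mRel_good (T := T) (by decide) [Lt.f, Lt.ci, Lt.d, Lt.b, Lt.ci, Lt.di] [Lt.b, Lt.c] (pair_rel hinv hr (by decide +kernel)) h
      · rcases brec_true h with h | h
        · exact mRel_good (T := T) (by decide) [Lt.bi, Lt.f] [Lt.f, Lt.d, Lt.ei, Lt.bi, Lt.c, Lt.fi, Lt.ei] (pair_rel hinv hr (by decide +kernel)) h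
        · exact mRel_good (T := T) (by decide) [Lt.ci, Lt.d, Lt.b] [Lt.fi, Lt.b, Lt.c, Lt.d, Lt.c] (pair_rel hinv hr (by decide +kernel)) h
  · rcases brec_true h with h | h
    · rcases brec_true h with h | h
      · exact mRel_good (T := T) (by decide) [Lt.ci, Lt.bi, Lt.ci, Lt.b] [Lt.c, Lt.d, Lt.fi, Lt.d] (pair_rel hinv hr (by decide +kernel)) h
      · rcases brec_true h with h | h
        · exact mRel_good (T := T) (by decide) [Lt.c, Lt.bi] [Lt.d, Lt.b, Lt.f, Lt.ci, Lt.f, Lt.di] (pair_rel hinv hr (by decide +kernel)) h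
        · exact mRel_good (T := T) (by decide) [Lt.di, Lt.di, Lt.b, Lt.di, Lt.bi, Lt.di] [Lt.bi, Lt.d] (pair_rel hinv hr (by decide +kernel)) h
    · rcases brec_true h with h | h
      · exact mRel_good (T := T) (by decide) [Lt.d, Lt.ci, Lt.ci, Lt.b, Lt.d, Lt.ci] [Lt.bi, Lt.c] (pair_rel hinv hr (by decide +kernel)) h
      · rcases brec_true h with h | h
        · exact mRel_good (T := T) (by decide) [Lt.b, Lt.c, Lt.bi, Lt.ci, Lt.bi] [Lt.fi, Lt.di, Lt.fi] (pair_rel hinv hr (by decide +kernel)) h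
        · exact mRel_good (T := T) (by decide) [Lt.di, Lt.di, Lt.f, Lt.di, Lt.f, Lt.f] [Lt.f, Lt.d] (pair_rel hinv hr (by decide +kernel)) h
theorem dM_74_s (hinv : ∀ x, g (inv x) = (g x)⁻¹) (hr : ∀ r ∈ rels, (r.map g).prod = 1) (j z1 z2 u : ℕ) (h : dM_74 j z1 z2 u = true) : GoodM (fa g) T MG M (cP g H) u := by
  unfold dM_74 at h
  rcases brec_true h with h | h
  · exact dM_72_s hinv hr j z1 z2 u h
  · exact dM_73_s hinv hr j z1 z2 u h
theorem dM_75_s (hinv : ∀ x, g (inv x) = (g x)⁻¹) (hr : ∀ r ∈ rels, (r.map g).prod = 1) (j z1 z2 u : ℕ) (h : dM_75 j z1 z2 u = true) : GoodM (fa g) T MG M (cP g H) u := by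
  unfold dM_75 at h
  rcases brec_true h with h | h
  · exact dM_71_s hinv hr j z1 z2 u h
  · exact dM_74_s hinv hr j z1 z2 u h
theorem dM_76_s (hinv : ∀ x, g (inv x) = (g x)⁻¹) (hr : ∀ r ∈ rels, (r.map g).prod = 1) (j z1 z2 u : ℕ) (h : dM_76 j z1 z2 u = true) : GoodM (fa g) T MG M (cP g H) u := by
  unfold dM_76 at h
  rcases brec_true h with h | h
  · rcases brec_true h with h | h
    · rcases brec_true h with h | h
      · exact mRel_good (T := T) (by decide) [Lt.di, Lt.ci, Lt.d, Lt.ci, Lt.bi, Lt.d] [Lt.bi, Lt.c] (pair_rel hinv hr (by decide +kernel)) h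
      · exact mRel_good (T := T) (by decide) [Lt.ci, Lt.d] [Lt.bi, Lt.d, Lt.fi, Lt.c, Lt.fi, Lt.bi] (pair_rel hinv hr (by decide +kernel)) h
    · rcases brec_true h with h | h
      · exact mRel_good (T := T) (by decide) [Lt.f, Lt.f, Lt.di, Lt.fi, Lt.di] [Lt.d, Lt.fi, Lt.d] (pair_rel hinv hr (by decide +kernel)) h
      · rcases brec_true h with h | h
        · exact mRel_good (T := T) (by decide) [Lt.di, Lt.ci, Lt.bi, Lt.ci, Lt.fi, Lt.d] [Lt.f, Lt.b] (pair_rel hinv hr (by decide +kernel)) h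
        · exact mRel_good (T := T) (by decide) [Lt.bi, Lt.c, Lt.bi] [Lt.ci, Lt.b, Lt.ci, Lt.b, Lt.ci] (pair_rel hinv hr (by decide +kernel)) h
  · rcases brec_true h with h | h
    · rcases brec_true h with h | h
      · exact mRel_good (T := T) (by decide) [Lt.fi, Lt.bi, Lt.fi, Lt.b, Lt.b] [Lt.di, Lt.c, Lt.fi] (pair_rel hinv hr (by decide +kernel)) h
      · exact mRel_good (T := T) (by decide) [Lt.di, Lt.c, Lt.bi, Lt.d, Lt.fi] [Lt.b, Lt.f, Lt.ci] (pair_rel hinv hr (by decide +kernel)) h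
    · rcases brec_true h with h | h
      · exact mRel_good (T := T) (by decide) [Lt.c, Lt.c, Lt.fi, Lt.bi, Lt.c, Lt.f, Lt.b, Lt.fi] [] (pair_rel hinv hr (by decide +kernel)) h
      · rcases brec_true h with h | h
        · exact mRel_good (T := T) (by decide) [Lt.d, Lt.ci, Lt.bi, Lt.d] [Lt.ci, Lt.bi, Lt.d, Lt.f] (pair_rel hinv hr (by decide +kernel)) h
        · exact mRel_good (T := T) (by decide) [Lt.fi, Lt.ei, Lt.f, Lt.c, Lt.di, Lt.f, Lt.ei, Lt.f] [Lt.ei] (pair_rel hinv hr (by decide +kernel)) h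
theorem dM_77_s (hinv : ∀ x, g (inv x) = (g x)⁻¹) (hr : ∀ r ∈ rels, (r.map g).prod = 1) (j z1 z2 u : ℕ) (h : dM_77 j z1 z2 u = true) : GoodM (fa g) T MG M (cP g H) u := by
  unfold dM_77 at h
  rcases brec_true h with h | h
  · rcases brec_true h with h | h
    · rcases brec_true h with h | h
      · exact mRel_good (T := T) (by decide) [Lt.c, Lt.c, Lt.d, Lt.fi, Lt.d, Lt.bi, Lt.c] [Lt.bi] (pair_rel hinv hr (by decide +kernel)) h
      · exact mRel_good (T := T) (by decide) [Lt.fi, Lt.d, Lt.d, Lt.b, Lt.c, Lt.bi] [Lt.b, Lt.c] (pair_rel hinv hr (by decide +kernel)) h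
    · rcases brec_true h with h | h
      · exact mRel_good (T := T) (by decide) [Lt.d, Lt.b, Lt.c, Lt.bi] [Lt.di, Lt.f, Lt.b, Lt.c] (pair_rel hinv hr (by decide +kernel)) h
      · rcases brec_true h with h | h
        · exact mRel_good (T := T) (by decide) [Lt.b, Lt.ci, Lt.bi, Lt.f, Lt.d] [Lt.di, Lt.ci, Lt.bi] (pair_rel hinv hr (by decide +kernel)) h
        · exact mRel_good (T := T) (by decide) [Lt.b] [Lt.c, Lt.b, Lt.c, Lt.c, Lt.d, Lt.fi, Lt.d] (pair_rel hinv hr (by decide +kernel)) h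
  · rcases brec_true h with h | h
    · rcases brec_true h with h | h
      · exact mRel_good (T := T) (by decide) [Lt.fi, Lt.e, Lt.f, Lt.ei, Lt.fi] [Lt.c, Lt.di, Lt.f, Lt.ei] (pair_rel hinv hr (by decide +kernel)) h
      · rcases brec_true h with h | h
        · exact mRel_good (T := T) (by decide) [Lt.bi, Lt.c, Lt.c, Lt.di, Lt.bi] [Lt.d, Lt.ci, Lt.ci] (pair_rel hinv hr (by decide +kernel)) h
        · exact mRel_good (T := T) (by decide) [Lt.fi, Lt.d, Lt.d, Lt.f, Lt.d, Lt.fi] [Lt.di, Lt.f] (pair_rel hinv hr (by decide +kernel)) h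
    · rcases brec_true h with h | h
      · exact mRel_good (T := T) (by decide) [Lt.ei] [Lt.di, Lt.fi, Lt.bi, Lt.f, Lt.e, Lt.f, Lt.ci, Lt.b] (pair_rel hinv hr (by decide +kernel)) h
      · rcases brec_true h with h | h
        · exact mRel_good (T := T) (by decide) [Lt.bi, Lt.bi] [Lt.f, Lt.ci, Lt.d, Lt.fi, Lt.bi, Lt.fi] (pair_rel hinv hr (by decide +kernel)) h
        · exact mRel_good (T := T) (by decide) [Lt.ei, Lt.fi, Lt.fi, Lt.d, Lt.ci, Lt.ei] [Lt.fi, Lt.ei, Lt.f] (pair_rel hinv hr (by decide +kernel)) h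
theorem dM_78_s (hinv : ∀ x, g (inv x) = (g x)⁻¹) (hr : ∀ r ∈ rels, (r.map g).prod = 1) (j z1 z2 u : ℕ) (h : dM_78 j z1 z2 u = true) : GoodM (fa g) T MG M (cP g H) u := by
  unfold dM_78 at h
  rcases brec_true h with h | h
  · exact dM_76_s hinv hr j z1 z2 u h
  · exact dM_77_s hinv hr j z1 z2 u h
theorem dM_79_s (hinv : ∀ x, g (inv x) = (g x)⁻¹) (hr : ∀ r ∈ rels, (r.map g).prod = 1) (j z1 z2 u : ℕ) (h : dM_79 j z1 z2 u = true) : GoodM (fa g) T MG M (cP g H) u := by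
  unfold dM_79 at h
  rcases brec_true h with h | h
  · rcases brec_true h with h | h
    · rcases brec_true h with h | h
      · exact mRel_good (T := T) (by decide) [Lt.b, Lt.b, Lt.ci, Lt.fi, Lt.fi] [Lt.ci, Lt.di, Lt.b] (pair_rel hinv hr (by decide +kernel)) h
      · exact mRel_good (T := T) (by decide) [Lt.bi, Lt.c] [Lt.d, Lt.f, Lt.f, Lt.c, Lt.di, Lt.bi] (pair_rel hinv hr (by decide +kernel)) h
    · rcases brec_true h with h | h
      · exact mRel_good (T := T) (by decide) [Lt.b, Lt.f, Lt.di, Lt.c, Lt.fi, Lt.bi] [Lt.fi, Lt.b] (pair_rel hinv hr (by decide +kernel)) h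
      · rcases brec_true h with h | h
        · exact mRel_good (T := T) (by decide) [Lt.fi, Lt.ci, Lt.b, Lt.f, Lt.ci, Lt.ci] [Lt.b, Lt.fi] (pair_rel hinv hr (by decide +kernel)) h
        · exact mRel_good (T := T) (by decide) [Lt.ci, Lt.ci, Lt.d] [Lt.bi, Lt.c, Lt.b, Lt.ci, Lt.ci] (pair_rel hinv hr (by decide +kernel)) h
  · rcases brec_true h with h | h
    · rcases brec_true h with h | h
      · exact mRel_good (T := T) (by decide) [Lt.fi, Lt.di, Lt.ci, Lt.bi, Lt.ci, Lt.fi] [Lt.b, Lt.di] (pair_rel hinv hr (by decide +kernel)) h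
      · rcases brec_true h with h | h
        · exact mRel_good (T := T) (by decide) [Lt.d, Lt.ci, Lt.ci, Lt.b, Lt.d, Lt.ci, Lt.ci, Lt.b] [] (pair_rel hinv hr (by decide +kernel)) h
        · exact mRel_good (T := T) (by decide) [Lt.di, Lt.ci, Lt.bi, Lt.ci] [Lt.f, Lt.b, Lt.di, Lt.f] (pair_rel hinv hr (by decide +kernel)) h
    · rcases brec_true h with h | h
      · exact mRel_good (T := T) (by decide) [Lt.d, Lt.ei, Lt.bi, Lt.c, Lt.fi, Lt.ei] [Lt.fi, Lt.bi, Lt.f] (pair_rel hinv hr (by decide +kernel)) h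
      · rcases brec_true h with h | h
        · exact mRel_good (T := T) (by decide) [Lt.c, Lt.bi, Lt.ci] [Lt.di, Lt.c, Lt.b, Lt.ci, Lt.di] (pair_rel hinv hr (by decide +kernel)) h
        · exact mRel_good (T := T) (by decide) [Lt.d, Lt.b, Lt.f, Lt.ci] [Lt.c, Lt.bi, Lt.d, Lt.fi] (pair_rel hinv hr (by decide +kernel)) h
theorem dM_80_s (hinv : ∀ x, g (inv x) = (g x)⁻¹) (hr : ∀ r ∈ rels, (r.map g).prod = 1) (j z1 z2 u : ℕ) (h : dM_80 j z1 z2 u = true) : GoodM (fa g) T MG M (cP g H) u := by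
  unfold dM_80 at h
  rcases brec_true h with h | h
  · rcases brec_true h with h | h
    · rcases brec_true h with h | h
      · exact mRel_good (T := T) (by decide) [Lt.ci, Lt.di, Lt.c, Lt.b, Lt.ci, Lt.di] [Lt.bi, Lt.ci] (pair_rel hinv hr (by decide +kernel)) h
      · exact mRel_good (T := T) (by decide) [Lt.bi, Lt.e, Lt.c, Lt.e] [Lt.ei, Lt.ci, Lt.ei, Lt.b] (pair_rel hinv hr (by decide +kernel)) h
    · rcases brec_true h with h | h
      · exact mRel_good (T := T) (by decide) [Lt.ei, Lt.fi, Lt.fi, Lt.d, Lt.ci] [Lt.fi, Lt.ei, Lt.f, Lt.e] (pair_rel hinv hr (by decide +kernel)) h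
      · rcases brec_true h with h | h
        · exact mRel_good (T := T) (by decide) [Lt.b, Lt.d, Lt.ci, Lt.ci, Lt.b] [Lt.c, Lt.c, Lt.di] (pair_rel hinv hr (by decide +kernel)) h
        · exact mRel_good (T := T) (by decide) [Lt.bi, Lt.fi, Lt.ci, Lt.b] [Lt.fi, Lt.c, Lt.c, Lt.fi] (pair_rel hinv hr (by decide +kernel)) h
  · rcases brec_true h with h | h
    · rcases brec_true h with h | h
      · exact mRel_good (T := T) (by decide) [Lt.bi, Lt.f, Lt.b, Lt.f] [Lt.b, Lt.f, Lt.ci, Lt.d] (pair_rel hinv hr (by decide +kernel)) h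
      · rcases brec_true h with h | h
        · exact mRel_good (T := T) (by decide) [Lt.ci, Lt.bi, Lt.d, Lt.f, Lt.di] [Lt.d, Lt.ci, Lt.bi] (pair_rel hinv hr (by decide +kernel)) h
        · exact mRel_good (T := T) (by decide) [Lt.b, Lt.di, Lt.f] [Lt.fi, Lt.di, Lt.ci, Lt.bi, Lt.ci] (pair_rel hinv hr (by decide +kernel)) h
    · rcases brec_true h with h | h
      · exact mRel_good (T := T) (by decide) [Lt.ci, Lt.bi, Lt.fi, Lt.d, Lt.d, Lt.b, Lt.c] [Lt.b] (pair_rel hinv hr (by decide +kernel)) h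
      · rcases brec_true h with h | h
        · exact mRel_good (T := T) (by decide) [Lt.d, Lt.ci, Lt.fi, Lt.fi, Lt.di] [Lt.bi, Lt.ci, Lt.b] (pair_rel hinv hr (by decide +kernel)) h
        · exact mRel_good (T := T) (by decide) [Lt.f, Lt.f] [Lt.d, Lt.ci, Lt.ei, Lt.fi, Lt.e, Lt.f, Lt.ei] (pair_rel hinv hr (by decide +kernel)) h
theorem dM_81_s (hinv : ∀ x, g (inv x) = (g x)⁻¹) (hr : ∀ r ∈ rels, (r.map g).prod = 1) (j z1 z2 u : ℕ) (h : dM_81 j z1 z2 u = true) : GoodM (fa g) T MG M (cP g H) u := by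
  unfold dM_81 at h
  rcases brec_true h with h | h
  · exact dM_79_s hinv hr j z1 z2 u h
  · exact dM_80_s hinv hr j z1 z2 u h
theorem dM_82_s (hinv : ∀ x, g (inv x) = (g x)⁻¹) (hr : ∀ r ∈ rels, (r.map g).prod = 1) (j z1 z2 u : ℕ) (h : dM_82 j z1 z2 u = true) : GoodM (fa g) T MG M (cP g H) u := by
  unfold dM_82 at h
  rcases brec_true h with h | h
  · exact dM_78_s hinv hr j z1 z2 u h
  · exact dM_81_s hinv hr j z1 z2 u h
theorem dM_83_s (hinv : ∀ x, g (inv x) = (g x)⁻¹) (hr : ∀ r ∈ rels, (r.map g).prod = 1) (j z1 z2 u : ℕ) (h : dM_83 j z1 z2 u = true) : GoodM (fa g) T MG M (cP g H) u := by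
  unfold dM_83 at h
  rcases brec_true h with h | h
  · exact dM_75_s hinv hr j z1 z2 u h
  · exact dM_82_s hinv hr j z1 z2 u h
theorem dM_84_s (hinv : ∀ x, g (inv x) = (g x)⁻¹) (hr : ∀ r ∈ rels, (r.map g).prod = 1) (j z1 z2 u : ℕ) (h : dM_84 j z1 z2 u = true) : GoodM (fa g) T MG M (cP g H) u := by
  unfold dM_84 at h
  rcases brec_true h with h | h
  · rcases brec_true h with h | h
    · rcases brec_true h with h | h
      · exact mRel_good (T := T) (by decide) [Lt.d, Lt.fi, Lt.c, Lt.fi] [Lt.b, Lt.ci, Lt.d, Lt.b] (pair_rel hinv hr (by decide +kernel)) h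
      · exact mRel_good (T := T) (by decide) [Lt.fi, Lt.b, Lt.f, Lt.d, Lt.ei, Lt.bi, Lt.c, Lt.fi, Lt.ei] [] (pair_rel hinv hr (by decide +kernel)) h
    · rcases brec_true h with h | h
      · exact mRel_good (T := T) (by decide) [Lt.fi, Lt.fi, Lt.d, Lt.fi, Lt.d, Lt.d] [Lt.di, Lt.fi] (pair_rel hinv hr (by decide +kernel)) h
      · rcases brec_true h with h | h
        · exact mRel_good (T := T) (by decide) [Lt.bi, Lt.ci, Lt.b, Lt.ci] [Lt.ci, Lt.ci, Lt.di, Lt.c] (pair_rel hinv hr (by decide +kernel)) h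
        · exact mRel_good (T := T) (by decide) [Lt.d] [Lt.ci, Lt.bi, Lt.di, Lt.fi, Lt.b, Lt.c, Lt.bi] (pair_rel hinv hr (by decide +kernel)) h
  · rcases brec_true h with h | h
    · rcases brec_true h with h | h
      · exact mRel_good (T := T) (by decide) [Lt.fi, Lt.b, Lt.f, Lt.d, Lt.ei] [Lt.e, Lt.f, Lt.ci, Lt.b] (pair_rel hinv hr (by decide +kernel)) h
      · exact mRel_good (T := T) (by decide) [Lt.e, Lt.fi, Lt.ei, Lt.f, Lt.c] [Lt.fi, Lt.e, Lt.fi, Lt.d] (pair_rel hinv hr (by decide +kernel)) h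
    · rcases brec_true h with h | h
      · exact mRel_good (T := T) (by decide) [Lt.c, Lt.d, Lt.d, Lt.bi, Lt.f, Lt.c] [Lt.f, Lt.b] (pair_rel hinv hr (by decide +kernel)) h
      · rcases brec_true h with h | h
        · exact mRel_good (T := T) (by decide) [Lt.di, Lt.f, Lt.b, Lt.c, Lt.b, Lt.ci] [Lt.d, Lt.b] (pair_rel hinv hr (by decide +kernel)) h
        · exact mRel_good (T := T) (by decide) [Lt.bi, Lt.ci] [Lt.d, Lt.ci, Lt.fi, Lt.fi, Lt.di, Lt.bi] (pair_rel hinv hr (by decide +kernel)) h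
theorem dM_85_s (hinv : ∀ x, g (inv x) = (g x)⁻¹) (hr : ∀ r ∈ rels, (r.map g).prod = 1) (j z1 z2 u : ℕ) (h : dM_85 j z1 z2 u = true) : GoodM (fa g) T MG M (cP g H) u := by
  unfold dM_85 at h
  rcases brec_true h with h | h
  · rcases brec_true h with h | h
    · rcases brec_true h with h | h
      · exact mRel_good (T := T) (by decide) [Lt.fi, Lt.b, Lt.c, Lt.b, Lt.ci, Lt.bi, Lt.fi] [Lt.d] (pair_rel hinv hr (by decide +kernel)) h
      · exact mRel_good (T := T) (by decide) [Lt.di, Lt.f, Lt.f, Lt.e, Lt.fi] [Lt.ci, Lt.ei, Lt.fi, Lt.e] (pair_rel hinv hr (by decide +kernel)) h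
    · rcases brec_true h with h | h
      · exact mRel_good (T := T) (by decide) [Lt.bi, Lt.di, Lt.di, Lt.fi, Lt.bi] [Lt.fi, Lt.d, Lt.c] (pair_rel hinv hr (by decide +kernel)) h
      · rcases brec_true h with h | h
        · exact mRel_good (T := T) (by decide) [Lt.c, Lt.d, Lt.f, Lt.ci, Lt.b] [Lt.b, Lt.di, Lt.f] (pair_rel hinv hr (by decide +kernel)) h
        · exact mRel_good (T := T) (by decide) [Lt.b, Lt.di, Lt.ci, Lt.d] [Lt.c, Lt.di, Lt.b, Lt.c] (pair_rel hinv hr (by decide +kernel)) h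
  · rcases brec_true h with h | h
    · rcases brec_true h with h | h
      · exact mRel_good (T := T) (by decide) [Lt.c, Lt.e, Lt.bi] [Lt.ei, Lt.b, Lt.ei, Lt.ci, Lt.ei] (pair_rel hinv hr (by decide +kernel)) h
      · rcases brec_true h with h | h
        · exact mRel_good (T := T) (by decide) [Lt.fi] [Lt.e, Lt.fi, Lt.ei, Lt.f, Lt.c, Lt.di, Lt.f, Lt.ei] (pair_rel hinv hr (by decide +kernel)) h
        · exact mRel_good (T := T) (by decide) [Lt.c, Lt.di, Lt.bi, Lt.ci, Lt.b, Lt.d] [Lt.fi, Lt.fi] (pair_rel hinv hr (by decide +kernel)) h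
    · rcases brec_true h with h | h
      · exact mRel_good (T := T) (by decide) [Lt.f, Lt.di, Lt.ci, Lt.ei, Lt.fi] [Lt.di, Lt.e, Lt.fi, Lt.ei] (pair_rel hinv hr (by decide +kernel)) h
      · rcases brec_true h with h | h
        · exact mRel_good (T := T) (by decide) [Lt.fi, Lt.e, Lt.f] [Lt.e, Lt.c, Lt.di, Lt.f, Lt.f, Lt.e] (pair_rel hinv hr (by decide +kernel)) h
        · exact mRel_good (T := T) (by decide) [Lt.bi, Lt.di, Lt.di] [Lt.c, Lt.bi, Lt.ci, Lt.bi, Lt.fi] (pair_rel hinv hr (by decide +kernel)) h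
theorem dM_86_s (hinv : ∀ x, g (inv x) = (g x)⁻¹) (hr : ∀ r ∈ rels, (r.map g).prod = 1) (j z1 z2 u : ℕ) (h : dM_86 j z1 z2 u = true) : GoodM (fa g) T MG M (cP g H) u := by
  unfold dM_86 at h
  rcases brec_true h with h | h
  · exact dM_84_s hinv hr j z1 z2 u h
  · exact dM_85_s hinv hr j z1 z2 u h
theorem dM_87_s (hinv : ∀ x, g (inv x) = (g x)⁻¹) (hr : ∀ r ∈ rels, (r.map g).prod = 1) (j z1 z2 u : ℕ) (h : dM_87 j z1 z2 u = true) : GoodM (fa g) T MG M (cP g H) u := by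
  unfold dM_87 at h
  rcases brec_true h with h | h
  · rcases brec_true h with h | h
    · rcases brec_true h with h | h
      · exact mRel_good (T := T) (by decide) [Lt.f, Lt.c, Lt.b, Lt.c, Lt.d, Lt.f] [Lt.d, Lt.bi] (pair_rel hinv hr (by decide +kernel)) h
      · exact mRel_good (T := T) (by decide) [Lt.c, Lt.fi, Lt.di] [Lt.b, Lt.fi, Lt.d, Lt.bi, Lt.c] (pair_rel hinv hr (by decide +kernel)) h
    · rcases brec_true h with h | h
      · exact mRel_good (T := T) (by decide) [Lt.bi, Lt.ci, Lt.bi, Lt.f, Lt.d] [Lt.ci, Lt.bi, Lt.fi] (pair_rel hinv hr (by decide +kernel)) h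
      · rcases brec_true h with h | h
        · exact mRel_good (T := T) (by decide) [Lt.di, Lt.ci, Lt.bi, Lt.d, Lt.f] [Lt.ci, Lt.bi, Lt.d] (pair_rel hinv hr (by decide +kernel)) h
        · exact mRel_good (T := T) (by decide) [Lt.di, Lt.f, Lt.bi, Lt.di, Lt.di] [Lt.c, Lt.b, Lt.f] (pair_rel hinv hr (by decide +kernel)) h
  · rcases brec_true h with h | h
    · rcases brec_true h with h | h
      · exact mRel_good (T := T) (by decide) [Lt.bi, Lt.ci, Lt.bi, Lt.fi, Lt.d] [Lt.ci, Lt.bi, Lt.di] (pair_rel hinv hr (by decide +kernel)) h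
      · rcases brec_true h with h | h
        · exact mRel_good (T := T) (by decide) [Lt.bi, Lt.fi, Lt.ci, Lt.b, Lt.f] [Lt.fi, Lt.c, Lt.c] (pair_rel hinv hr (by decide +kernel)) h
        · exact mRel_good (T := T) (by decide) [Lt.b, Lt.ci, Lt.bi, Lt.di, Lt.di] [Lt.ci, Lt.bi, Lt.fi] (pair_rel hinv hr (by decide +kernel)) h
    · rcases brec_true h with h | h
      · exact mRel_good (T := T) (by decide) [Lt.fi, Lt.e, Lt.f, Lt.ei] [Lt.e, Lt.c, Lt.di, Lt.f, Lt.f] (pair_rel hinv hr (by decide +kernel)) h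
      · rcases brec_true h with h | h
        · exact mRel_good (T := T) (by decide) [Lt.d, Lt.b, Lt.b] [Lt.ci, Lt.bi, Lt.f, Lt.b, Lt.c] (pair_rel hinv hr (by decide +kernel)) h
        · exact mRel_good (T := T) (by decide) [Lt.ci, Lt.f] [Lt.fi, Lt.bi, Lt.di, Lt.c, Lt.bi, Lt.d] (pair_rel hinv hr (by decide +kernel)) h
theorem dM_88_s (hinv : ∀ x, g (inv x) = (g x)⁻¹) (hr : ∀ r ∈ rels, (r.map g).prod = 1) (j z1 z2 u : ℕ) (h : dM_88 j z1 z2 u = true) : GoodM (fa g) T MG M (cP g H) u := by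
  unfold dM_88 at h
  rcases brec_true h with h | h
  · rcases brec_true h with h | h
    · rcases brec_true h with h | h
      · exact mRel_good (T := T) (by decide) [Lt.ci, Lt.d, Lt.fi, Lt.bi, Lt.fi] [Lt.fi, Lt.bi, Lt.bi] (pair_rel hinv hr (by decide +kernel)) h
      · exact mRel_good (T := T) (by decide) [Lt.ci, Lt.ci] [Lt.fi, Lt.bi, Lt.c, Lt.f, Lt.b, Lt.fi] (pair_rel hinv hr (by decide +kernel)) h
    · rcases brec_true h with h | h
      · exact mRel_good (T := T) (by decide) [Lt.d, Lt.f, Lt.b, Lt.di] [Lt.ci, Lt.bi, Lt.ci, Lt.fi] (pair_rel hinv hr (by decide +kernel)) h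
      · rcases brec_true h with h | h
        · exact mRel_good (T := T) (by decide) [Lt.f, Lt.ei, Lt.fi, Lt.e, Lt.fi, Lt.d, Lt.ci, Lt.fi] [Lt.ei] (pair_rel hinv hr (by decide +kernel)) h
        · exact mRel_good (T := T) (by decide) [Lt.ci, Lt.bi, Lt.fi, Lt.d, Lt.d] [Lt.b, Lt.ci, Lt.bi] (pair_rel hinv hr (by decide +kernel)) h
  · rcases brec_true h with h | h
    · rcases brec_true h with h | h
      · exact mRel_good (T := T) (by decide) [Lt.ci, Lt.fi, Lt.b, Lt.di] [Lt.bi, Lt.fi, Lt.c, Lt.d] (pair_rel hinv hr (by decide +kernel)) h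
      · rcases brec_true h with h | h
        · exact mRel_good (T := T) (by decide) [Lt.f, Lt.d, Lt.d] [Lt.c, Lt.di, Lt.di, Lt.fi, Lt.c] (pair_rel hinv hr (by decide +kernel)) h
        · exact mRel_good (T := T) (by decide) [Lt.c, Lt.di, Lt.f, Lt.ei, Lt.f] [Lt.fi, Lt.e, Lt.f, Lt.ei] (pair_rel hinv hr (by decide +kernel)) h
    · rcases brec_true h with h | h
      · exact mRel_good (T := T) (by decide) [Lt.b, Lt.ci, Lt.fi, Lt.d, Lt.c, Lt.bi, Lt.d] [Lt.d, Lt.ci] (pair_rel hinv hr (by decide +kernel)) h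
      · rcases brec_true h with h | h
        · exact mRel_good (T := T) (by decide) [Lt.f, Lt.ci, Lt.d, Lt.fi] [Lt.bi, Lt.bi, Lt.f, Lt.b] (pair_rel hinv hr (by decide +kernel)) h
        · exact mRel_good (T := T) (by decide) [Lt.ci, Lt.b, Lt.e] [Lt.fi, Lt.ei, Lt.fi, Lt.b, Lt.f, Lt.d] (pair_rel hinv hr (by decide +kernel)) h
theorem dM_89_s (hinv : ∀ x, g (inv x) = (g x)⁻¹) (hr : ∀ r ∈ rels, (r.map g).prod = 1) (j z1 z2 u : ℕ) (h : dM_89 j z1 z2 u = true) : GoodM (fa g) T MG M (cP g H) u := by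
  unfold dM_89 at h
  rcases brec_true h with h | h
  · exact dM_87_s hinv hr j z1 z2 u h
  · exact dM_88_s hinv hr j z1 z2 u h
theorem dM_90_s (hinv : ∀ x, g (inv x) = (g x)⁻¹) (hr : ∀ r ∈ rels, (r.map g).prod = 1) (j z1 z2 u : ℕ) (h : dM_90 j z1 z2 u = true) : GoodM (fa g) T MG M (cP g H) u := by
  unfold dM_90 at h
  rcases brec_true h with h | h
  · exact dM_86_s hinv hr j z1 z2 u h
  · exact dM_89_s hinv hr j z1 z2 u h
theorem dM_91_s (hinv : ∀ x, g (inv x) = (g x)⁻¹) (hr : ∀ r ∈ rels, (r.map g).prod = 1) (j z1 z2 u : ℕ) (h : dM_91 j z1 z2 u = true) : GoodM (fa g) T MG M (cP g H) u := by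
  unfold dM_91 at h
  rcases brec_true h with h | h
  · rcases brec_true h with h | h
    · rcases brec_true h with h | h
      · exact mRel_good (T := T) (by decide) [Lt.f, Lt.f, Lt.c, Lt.bi, Lt.bi, Lt.ci] [Lt.bi, Lt.d] (pair_rel hinv hr (by decide +kernel)) h
      · exact mRel_good (T := T) (by decide) [Lt.ci, Lt.fi, Lt.fi, Lt.bi, Lt.d, Lt.c] [Lt.bi, Lt.bi] (pair_rel hinv hr (by decide +kernel)) h
    · rcases brec_true h with h | h
      · exact mRel_good (T := T) (by decide) [Lt.c, Lt.di, Lt.ci, Lt.bi, Lt.d, Lt.f] [Lt.bi, Lt.d] (pair_rel hinv hr (by decide +kernel)) h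
      · rcases brec_true h with h | h
        · exact mRel_good (T := T) (by decide) [Lt.bi, Lt.ci, Lt.bi, Lt.f, Lt.d, Lt.f] [Lt.ci, Lt.bi] (pair_rel hinv hr (by decide +kernel)) h
        · exact mRel_good (T := T) (by decide) [Lt.c, Lt.c, Lt.bi, Lt.ci] [Lt.di, Lt.c, Lt.c, Lt.bi] (pair_rel hinv hr (by decide +kernel)) h
  · rcases brec_true h with h | h
    · rcases brec_true h with h | h
      · exact mRel_good (T := T) (by decide) [Lt.d, Lt.bi] [Lt.di, Lt.ci, Lt.f, Lt.b, Lt.ci, Lt.fi] (pair_rel hinv hr (by decide +kernel)) h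
      · exact mRel_good (T := T) (by decide) [Lt.c, Lt.c, Lt.di, Lt.bi, Lt.c] [Lt.b, Lt.d, Lt.ci] (pair_rel hinv hr (by decide +kernel)) h
    · rcases brec_true h with h | h
      · exact mRel_good (T := T) (by decide) [Lt.b, Lt.ei, Lt.ci, Lt.ei, Lt.b, Lt.ei, Lt.ci, Lt.ei] [] (pair_rel hinv hr (by decide +kernel)) h
      · rcases brec_true h with h | h
        · exact mRel_good (T := T) (by decide) [Lt.d, Lt.bi, Lt.c, Lt.d, Lt.f, Lt.ci, Lt.b] [Lt.f] (pair_rel hinv hr (by decide +kernel)) h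
        · exact mRel_good (T := T) (by decide) [Lt.c, Lt.d, Lt.c, Lt.bi] [Lt.bi, Lt.f, Lt.ci, Lt.d] (pair_rel hinv hr (by decide +kernel)) h
theorem dM_92_s (hinv : ∀ x, g (inv x) = (g x)⁻¹) (hr : ∀ r ∈ rels, (r.map g).prod = 1) (j z1 z2 u : ℕ) (h : dM_92 j z1 z2 u = true) : GoodM (fa g) T MG M (cP g H) u := by
  unfold dM_92 at h
  rcases brec_true h with h | h
  · rcases brec_true h with h | h
    · rcases brec_true h with h | h
      · exact mRel_good (T := T) (by decide) [Lt.fi, Lt.di, Lt.bi, Lt.c, Lt.b] [Lt.f, Lt.c, Lt.di] (pair_rel hinv hr (by decide +kernel)) h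
      · exact mRel_good (T := T) (by decide) [Lt.d, Lt.ci, Lt.b, Lt.di, Lt.ci] [Lt.b, Lt.c, Lt.di] (pair_rel hinv hr (by decide +kernel)) h
    · rcases brec_true h with h | h
      · exact mRel_good (T := T) (by decide) [Lt.f, Lt.ci, Lt.b, Lt.e, Lt.di, Lt.fi, Lt.bi, Lt.f, Lt.e] [] (pair_rel hinv hr (by decide +kernel)) h
      · rcases brec_true h with h | h
        · exact mRel_good (T := T) (by decide) [Lt.e, Lt.fi, Lt.ei] [Lt.fi, Lt.e, Lt.fi, Lt.d, Lt.ci, Lt.fi] (pair_rel hinv hr (by decide +kernel)) h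
        · exact mRel_good (T := T) (by decide) [Lt.ei, Lt.fi, Lt.fi, Lt.d, Lt.ci, Lt.ei, Lt.fi] [Lt.fi, Lt.ei] (pair_rel hinv hr (by decide +kernel)) h
  · rcases brec_true h with h | h
    · rcases brec_true h with h | h
      · exact mRel_good (T := T) (by decide) [Lt.d, Lt.ci, Lt.fi] [Lt.b, Lt.f, Lt.c, Lt.di, Lt.b] (pair_rel hinv hr (by decide +kernel)) h
      · rcases brec_true h with h | h
        · exact mRel_good (T := T) (by decide) [Lt.f, Lt.c, Lt.di, Lt.f, Lt.ei, Lt.f, Lt.e] [Lt.e, Lt.f] (pair_rel hinv hr (by decide +kernel)) h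
        · exact mRel_good (T := T) (by decide) [Lt.di, Lt.f, Lt.ei, Lt.f] [Lt.ci, Lt.fi, Lt.e, Lt.f, Lt.ei] (pair_rel hinv hr (by decide +kernel)) h
    · rcases brec_true h with h | h
      · exact mRel_good (T := T) (by decide) [Lt.d, Lt.ci] [Lt.f, Lt.f, Lt.e, Lt.fi, Lt.ei, Lt.f, Lt.e] (pair_rel hinv hr (by decide +kernel)) h
      · rcases brec_true h with h | h
        · exact mRel_good (T := T) (by decide) [Lt.f] [Lt.ei, Lt.f, Lt.c, Lt.di, Lt.f, Lt.ei, Lt.f, Lt.e] (pair_rel hinv hr (by decide +kernel)) h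
        · exact mRel_good (T := T) (by decide) [Lt.di, Lt.ci, Lt.ei, Lt.fi, Lt.e] [Lt.fi, Lt.di, Lt.e, Lt.fi] (pair_rel hinv hr (by decide +kernel)) h
theorem dM_93_s (hinv : ∀ x, g (inv x) = (g x)⁻¹) (hr : ∀ r ∈ rels, (r.map g).prod = 1) (j z1 z2 u : ℕ) (h : dM_93 j z1 z2 u = true) : GoodM (fa g) T MG M (cP g H) u := by
  unfold dM_93 at h
  rcases brec_true h with h | h
  · exact dM_91_s hinv hr j z1 z2 u h
  · exact dM_92_s hinv hr j z1 z2 u h
theorem dM_94_s (hinv : ∀ x, g (inv x) = (g x)⁻¹) (hr : ∀ r ∈ rels, (r.map g).prod = 1) (j z1 z2 u : ℕ) (h : dM_94 j z1 z2 u = true) : GoodM (fa g) T MG M (cP g H) u := by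
  unfold dM_94 at h
  rcases brec_true h with h | h
  · rcases brec_true h with h | h
    · rcases brec_true h with h | h
      · exact mRel_good (T := T) (by decide) [Lt.f, Lt.ei, Lt.fi, Lt.fi, Lt.d, Lt.ci] [Lt.ei, Lt.f, Lt.e] (pair_rel hinv hr (by decide +kernel)) h
      · exact mRel_good (T := T) (by decide) [Lt.fi, Lt.e, Lt.fi, Lt.d, Lt.ci, Lt.fi, Lt.e] [Lt.e, Lt.fi] (pair_rel hinv hr (by decide +kernel)) h
    · rcases brec_true h with h | h
      · exact mRel_good (T := T) (by decide) [Lt.d, Lt.fi, Lt.di, Lt.e, Lt.fi, Lt.ei, Lt.f] [Lt.ci, Lt.ei] (pair_rel hinv hr (by decide +kernel)) h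
      · rcases brec_true h with h | h
        · exact mRel_good (T := T) (by decide) [Lt.fi, Lt.e, Lt.f, Lt.ei, Lt.fi, Lt.fi, Lt.d, Lt.ci, Lt.ei] [] (pair_rel hinv hr (by decide +kernel)) h
        · exact mRel_good (T := T) (by decide) [Lt.e, Lt.fi] [Lt.fi, Lt.e, Lt.fi, Lt.d, Lt.ci, Lt.fi, Lt.e] (pair_rel hinv hr (by decide +kernel)) h
  · rcases brec_true h with h | h
    · rcases brec_true h with h | h
      · exact mRel_good (T := T) (by decide) [Lt.d, Lt.ci, Lt.fi, Lt.e, Lt.f, Lt.ei] [Lt.f, Lt.ei, Lt.f] (pair_rel hinv hr (by decide +kernel)) h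
      · rcases brec_true h with h | h
        · exact mRel_good (T := T) (by decide) [Lt.c, Lt.b, Lt.b, Lt.ci] [Lt.di, Lt.b, Lt.f, Lt.f] (pair_rel hinv hr (by decide +kernel)) h
        · exact mRel_good (T := T) (by decide) [Lt.d, Lt.b, Lt.ci, Lt.bi, Lt.f, Lt.d, Lt.b] [Lt.ci] (pair_rel hinv hr (by decide +kernel)) h
    · rcases brec_true h with h | h
      · exact mRel_good (T := T) (by decide) [Lt.bi, Lt.d] [Lt.f, Lt.c, Lt.di, Lt.b, Lt.f, Lt.c] (pair_rel hinv hr (by decide +kernel)) h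
      · rcases brec_true h with h | h
        · exact mRel_good (T := T) (by decide) [Lt.bi, Lt.fi, Lt.b, Lt.b, Lt.f] [Lt.f, Lt.di, Lt.c] (pair_rel hinv hr (by decide +kernel)) h
        · exact mRel_good (T := T) (by decide) [Lt.b, Lt.di, Lt.ci, Lt.d, Lt.ci, Lt.bi] [Lt.c, Lt.di] (pair_rel hinv hr (by decide +kernel)) h
theorem dM_95_s (hinv : ∀ x, g (inv x) = (g x)⁻¹) (hr : ∀ r ∈ rels, (r.map g).prod = 1) (j z1 z2 u : ℕ) (h : dM_95 j z1 z2 u = true) : GoodM (fa g) T MG M (cP g H) u := by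
  unfold dM_95 at h
  rcases brec_true h with h | h
  · rcases brec_true h with h | h
    · rcases brec_true h with h | h
      · exact mRel_good (T := T) (by decide) [Lt.d, Lt.d] [Lt.b, Lt.di, Lt.di, Lt.b, Lt.di, Lt.bi] (pair_rel hinv hr (by decide +kernel)) h
      · exact mRel_good (T := T) (by decide) [Lt.d, Lt.d, Lt.bi, Lt.d] [Lt.b, Lt.di, Lt.bi, Lt.di] (pair_rel hinv hr (by decide +kernel)) h
    · rcases brec_true h with h | h
      · exact mRel_good (T := T) (by decide) [Lt.fi, Lt.di, Lt.bi] [Lt.f, Lt.c, Lt.di, Lt.bi, Lt.ci] (pair_rel hinv hr (by decide +kernel)) h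
      · rcases brec_true h with h | h
        · exact mRel_good (T := T) (by decide) [Lt.c, Lt.fi] [Lt.f, Lt.di, Lt.b, Lt.ci, Lt.d, Lt.b] (pair_rel hinv hr (by decide +kernel)) h
        · exact mRel_good (T := T) (by decide) [Lt.fi] [Lt.ci, Lt.b, Lt.e, Lt.di, Lt.fi, Lt.bi, Lt.f, Lt.e] (pair_rel hinv hr (by decide +kernel)) h
  · rcases brec_true h with h | h
    · rcases brec_true h with h | h
      · exact mRel_good (T := T) (by decide) [Lt.f, Lt.b, Lt.ci, Lt.fi, Lt.b, Lt.di] [Lt.c, Lt.d] (pair_rel hinv hr (by decide +kernel)) h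
      · rcases brec_true h with h | h
        · exact mRel_good (T := T) (by decide) [Lt.d, Lt.ci] [Lt.b, Lt.f, Lt.c, Lt.di, Lt.b, Lt.f] (pair_rel hinv hr (by decide +kernel)) h
        · exact mRel_good (T := T) (by decide) [Lt.ci, Lt.di, Lt.c, Lt.b] [Lt.bi, Lt.ci, Lt.d, Lt.c] (pair_rel hinv hr (by decide +kernel)) h
    · rcases brec_true h with h | h
      · exact mRel_good (T := T) (by decide) [Lt.ci, Lt.fi, Lt.d, Lt.c, Lt.bi] [Lt.bi, Lt.d, Lt.ci, Lt.di] (pair_rel hinv hr (by decide +kernel)) h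
      · rcases brec_true h with h | h
        · exact mRel_good (T := T) (by decide) [Lt.di, Lt.f, Lt.di, Lt.f, Lt.f] [Lt.d, Lt.f, Lt.d] (pair_rel hinv hr (by decide +kernel)) h
        · exact mRel_good (T := T) (by decide) [Lt.d, Lt.ei, Lt.bi, Lt.c, Lt.fi] [Lt.fi, Lt.bi, Lt.f, Lt.e] (pair_rel hinv hr (by decide +kernel)) h
theorem dM_96_s (hinv : ∀ x, g (inv x) = (g x)⁻¹) (hr : ∀ r ∈ rels, (r.map g).prod = 1) (j z1 z2 u : ℕ) (h : dM_96 j z1 z2 u = true) : GoodM (fa g) T MG M (cP g H) u := by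
  unfold dM_96 at h
  rcases brec_true h with h | h
  · exact dM_94_s hinv hr j z1 z2 u h
  · exact dM_95_s hinv hr j z1 z2 u h
theorem dM_97_s (hinv : ∀ x, g (inv x) = (g x)⁻¹) (hr : ∀ r ∈ rels, (r.map g).prod = 1) (j z1 z2 u : ℕ) (h : dM_97 j z1 z2 u = true) : GoodM (fa g) T MG M (cP g H) u := by
  unfold dM_97 at h
  rcases brec_true h with h | h
  · exact dM_93_s hinv hr j z1 z2 u h
  · exact dM_96_s hinv hr j z1 z2 u h
theorem dM_98_s (hinv : ∀ x, g (inv x) = (g x)⁻¹) (hr : ∀ r ∈ rels, (r.map g).prod = 1) (j z1 z2 u : ℕ) (h : dM_98 j z1 z2 u = true) : GoodM (fa g) T MG M (cP g H) u := by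
  unfold dM_98 at h
  rcases brec_true h with h | h
  · exact dM_90_s hinv hr j z1 z2 u h
  · exact dM_97_s hinv hr j z1 z2 u h
theorem dM_99_s (hinv : ∀ x, g (inv x) = (g x)⁻¹) (hr : ∀ r ∈ rels, (r.map g).prod = 1) (j z1 z2 u : ℕ) (h : dM_99 j z1 z2 u = true) : GoodM (fa g) T MG M (cP g H) u := by
  unfold dM_99 at h
  rcases brec_true h with h | h
  · exact dM_83_s hinv hr j z1 z2 u h
  · exact dM_98_s hinv hr j z1 z2 u h
theorem dM_100_s (hinv : ∀ x, g (inv x) = (g x)⁻¹) (hr : ∀ r ∈ rels, (r.map g).prod = 1) (j z1 z2 u : ℕ) (h : dM_100 j z1 z2 u = true) : GoodM (fa g) T MG M (cP g H) u := by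
  unfold dM_100 at h
  rcases brec_true h with h | h
  · exact dM_68_s hinv hr j z1 z2 u h
  · exact dM_99_s hinv hr j z1 z2 u h
theorem dM_101_s (hinv : ∀ x, g (inv x) = (g x)⁻¹) (hr : ∀ r ∈ rels, (r.map g).prod = 1) (j z1 z2 u : ℕ) (h : dM_101 j z1 z2 u = true) : GoodM (fa g) T MG M (cP g H) u := by
  unfold dM_101 at h
  rcases brec_true h with h | h
  · exact dM_37_s hinv hr j z1 z2 u h
  · exact dM_100_s hinv hr j z1 z2 u h
theorem dM_102_s (hinv : ∀ x, g (inv x) = (g x)⁻¹) (hr : ∀ r ∈ rels, (r.map g).prod = 1) (j z1 z2 u : ℕ) (h : dM_102 j z1 z2 u = true) : GoodM (fa g) T MG M (cP g H) u := by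
  unfold dM_102 at h
  rcases brec_true h with h | h
  · rcases brec_true h with h | h
    · rcases brec_true h with h | h
      · exact mRel_good (T := T) (by decide) [Lt.c, Lt.d, Lt.f] [Lt.bi, Lt.ci, Lt.fi, Lt.d, Lt.bi] (pair_rel hinv hr (by decide +kernel)) h
      · exact mRel_good (T := T) (by decide) [Lt.c, Lt.fi, Lt.bi, Lt.bi, Lt.f] [Lt.d, Lt.fi, Lt.bi] (pair_rel hinv hr (by decide +kernel)) h
    · rcases brec_true h with h | h
      · exact mRel_good (T := T) (by decide) [Lt.di, Lt.ci, Lt.ci, Lt.bi, Lt.ci, Lt.b] [Lt.fi, Lt.d] (pair_rel hinv hr (by decide +kernel)) h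
      · rcases brec_true h with h | h
        · exact mRel_good (T := T) (by decide) [Lt.f, Lt.bi, Lt.c, Lt.fi, Lt.di] [Lt.d, Lt.bi, Lt.c] (pair_rel hinv hr (by decide +kernel)) h
        · exact mRel_good (T := T) (by decide) [Lt.ci, Lt.fi] [Lt.b, Lt.c, Lt.d, Lt.f, Lt.b, Lt.di] (pair_rel hinv hr (by decide +kernel)) h
  · rcases brec_true h with h | h
    · rcases brec_true h with h | h
      · exact mRel_good (T := T) (by decide) [Lt.bi, Lt.f, Lt.c, Lt.bi, Lt.fi] [Lt.di, Lt.di, Lt.ci] (pair_rel hinv hr (by decide +kernel)) h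
      · exact mRel_good (T := T) (by decide) [Lt.ci] [Lt.bi, Lt.bi, Lt.ci, Lt.di, Lt.b, Lt.f, Lt.f] (pair_rel hinv hr (by decide +kernel)) h
    · rcases brec_true h with h | h
      · exact mRel_good (T := T) (by decide) [Lt.f, Lt.b, Lt.c, Lt.bi, Lt.bi, Lt.di] [Lt.b, Lt.c] (pair_rel hinv hr (by decide +kernel)) h
      · rcases brec_true h with h | h
        · exact mRel_good (T := T) (by decide) [Lt.f] [Lt.b, Lt.f, Lt.d, Lt.ei, Lt.bi, Lt.c, Lt.fi, Lt.ei] (pair_rel hinv hr (by decide +kernel)) h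
        · exact mRel_good (T := T) (by decide) [Lt.fi, Lt.d, Lt.c, Lt.b] [Lt.bi, Lt.di, Lt.di, Lt.fi] (pair_rel hinv hr (by decide +kernel)) h
theorem dM_103_s (hinv : ∀ x, g (inv x) = (g x)⁻¹) (hr : ∀ r ∈ rels, (r.map g).prod = 1) (j z1 z2 u : ℕ) (h : dM_103 j z1 z2 u = true) : GoodM (fa g) T MG M (cP g H) u := by
  unfold dM_103 at h
  rcases brec_true h with h | h
  · rcases brec_true h with h | h
    · rcases brec_true h with h | h
      · exact mRel_good (T := T) (by decide) [Lt.di, Lt.f, Lt.c, Lt.b, Lt.c, Lt.d] [Lt.bi, Lt.fi] (pair_rel hinv hr (by decide +kernel)) h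
      · exact mRel_good (T := T) (by decide) [Lt.bi, Lt.c, Lt.b, Lt.c] [Lt.di, Lt.f, Lt.di, Lt.ci] (pair_rel hinv hr (by decide +kernel)) h
    · rcases brec_true h with h | h
      · exact mRel_good (T := T) (by decide) [Lt.di, Lt.c, Lt.fi, Lt.bi, Lt.bi, Lt.f] [Lt.fi, Lt.bi] (pair_rel hinv hr (by decide +kernel)) h
      · rcases brec_true h with h | h
        · exact mRel_good (T := T) (by decide) [Lt.c, Lt.d, Lt.d, Lt.bi] [Lt.f, Lt.b, Lt.ci, Lt.fi] (pair_rel hinv hr (by decide +kernel)) h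
        · exact mRel_good (T := T) (by decide) [Lt.c, Lt.di, Lt.f] [Lt.fi, Lt.e, Lt.f, Lt.ei, Lt.fi, Lt.e] (pair_rel hinv hr (by decide +kernel)) h
  · rcases brec_true h with h | h
    · rcases brec_true h with h | h
      · exact mRel_good (T := T) (by decide) [Lt.bi, Lt.c, Lt.fi, Lt.di, Lt.ci, Lt.b] [Lt.fi, Lt.d] (pair_rel hinv hr (by decide +kernel)) h
      · rcases brec_true h with h | h
        · exact mRel_good (T := T) (by decide) [Lt.di, Lt.e, Lt.fi, Lt.ei] [Lt.f, Lt.di, Lt.ci, Lt.ei, Lt.fi] (pair_rel hinv hr (by decide +kernel)) h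
        · exact mRel_good (T := T) (by decide) [Lt.ei, Lt.f, Lt.c, Lt.di, Lt.f, Lt.ei, Lt.f] [Lt.f, Lt.ei] (pair_rel hinv hr (by decide +kernel)) h
    · rcases brec_true h with h | h
      · exact mRel_good (T := T) (by decide) [Lt.b, Lt.ei, Lt.ci] [Lt.e, Lt.c, Lt.e, Lt.bi, Lt.e] (pair_rel hinv hr (by decide +kernel)) h
      · rcases brec_true h with h | h
        · exact mRel_good (T := T) (by decide) [Lt.c, Lt.d, Lt.c, Lt.bi, Lt.di, Lt.c] [Lt.bi, Lt.f] (pair_rel hinv hr (by decide +kernel)) h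
        · exact mRel_good (T := T) (by decide) [Lt.fi, Lt.c, Lt.c, Lt.fi] [Lt.bi, Lt.fi, Lt.ci, Lt.b] (pair_rel hinv hr (by decide +kernel)) h
theorem dM_104_s (hinv : ∀ x, g (inv x) = (g x)⁻¹) (hr : ∀ r ∈ rels, (r.map g).prod = 1) (j z1 z2 u : ℕ) (h : dM_104 j z1 z2 u = true) : GoodM (fa g) T MG M (cP g H) u := by
  unfold dM_104 at h
  rcases brec_true h with h | h
  · exact dM_102_s hinv hr j z1 z2 u h
  · exact dM_103_s hinv hr j z1 z2 u h
theorem dM_105_s (hinv : ∀ x, g (inv x) = (g x)⁻¹) (hr : ∀ r ∈ rels, (r.map g).prod = 1) (j z1 z2 u : ℕ) (h : dM_105 j z1 z2 u = true) : GoodM (fa g) T MG M (cP g H) u := by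
  unfold dM_105 at h
  rcases brec_true h with h | h
  · rcases brec_true h with h | h
    · rcases brec_true h with h | h
      · exact mRel_good (T := T) (by decide) [Lt.f, Lt.bi] [Lt.d, Lt.bi, Lt.c, Lt.d, Lt.f, Lt.ci] (pair_rel hinv hr (by decide +kernel)) h
      · exact mRel_good (T := T) (by decide) [Lt.bi, Lt.ci, Lt.bi, Lt.f] [Lt.ci, Lt.bi, Lt.fi, Lt.di] (pair_rel hinv hr (by decide +kernel)) h
    · rcases brec_true h with h | h
      · exact mRel_good (T := T) (by decide) [Lt.bi, Lt.fi] [Lt.di, Lt.f, Lt.c, Lt.b, Lt.c, Lt.d] (pair_rel hinv hr (by decide +kernel)) h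
      · rcases brec_true h with h | h
        · exact mRel_good (T := T) (by decide) [Lt.d, Lt.f, Lt.di, Lt.ci, Lt.ei, Lt.fi] [Lt.e, Lt.fi, Lt.ei] (pair_rel hinv hr (by decide +kernel)) h
        · exact mRel_good (T := T) (by decide) [Lt.d, Lt.f, Lt.d, Lt.fi, Lt.fi] [Lt.di, Lt.f, Lt.di] (pair_rel hinv hr (by decide +kernel)) h
  · rcases brec_true h with h | h
    · rcases brec_true h with h | h
      · exact mRel_good (T := T) (by decide) [Lt.ci, Lt.d, Lt.c, Lt.bi] [Lt.b, Lt.ci, Lt.di, Lt.c] (pair_rel hinv hr (by decide +kernel)) h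
      · exact mRel_good (T := T) (by decide) [Lt.f, Lt.f, Lt.e, Lt.fi, Lt.ei] [Lt.d, Lt.ci, Lt.ei, Lt.fi] (pair_rel hinv hr (by decide +kernel)) h
    · rcases brec_true h with h | h
      · exact mRel_good (T := T) (by decide) [Lt.f, Lt.di, Lt.f, Lt.f, Lt.di, Lt.fi] [Lt.d, Lt.d] (pair_rel hinv hr (by decide +kernel)) h
      · rcases brec_true h with h | h
        · exact mRel_good (T := T) (by decide) [Lt.bi, Lt.d] [Lt.f, Lt.f, Lt.c, Lt.bi, Lt.bi, Lt.ci] (pair_rel hinv hr (by decide +kernel)) h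
        · exact mRel_good (T := T) (by decide) [Lt.f, Lt.b, Lt.c, Lt.b] [Lt.d, Lt.d, Lt.b, Lt.c] (pair_rel hinv hr (by decide +kernel)) h
theorem dM_106_s (hinv : ∀ x, g (inv x) = (g x)⁻¹) (hr : ∀ r ∈ rels, (r.map g).prod = 1) (j z1 z2 u : ℕ) (h : dM_106 j z1 z2 u = true) : GoodM (fa g) T MG M (cP g H) u := by
  unfold dM_106 at h
  rcases brec_true h with h | h
  · rcases brec_true h with h | h
    · rcases brec_true h with h | h
      · exact mRel_good (T := T) (by decide) [Lt.bi, Lt.fi, Lt.di, Lt.ci, Lt.bi, Lt.ci, Lt.fi] [Lt.di] (pair_rel hinv hr (by decide +kernel)) h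
      · exact mRel_good (T := T) (by decide) [Lt.ci, Lt.b] [Lt.d, Lt.f, Lt.ci, Lt.b, Lt.fi, Lt.d] (pair_rel hinv hr (by decide +kernel)) h
    · rcases brec_true h with h | h
      · exact mRel_good (T := T) (by decide) [Lt.d, Lt.ci] [Lt.di, Lt.fi, Lt.c, Lt.di, Lt.di, Lt.fi] (pair_rel hinv hr (by decide +kernel)) h
      · rcases brec_true h with h | h
        · exact mRel_good (T := T) (by decide) [Lt.ci, Lt.d, Lt.ci] [Lt.d, Lt.bi, Lt.c, Lt.di, Lt.b] (pair_rel hinv hr (by decide +kernel)) h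
        · exact mRel_good (T := T) (by decide) [Lt.b, Lt.d, Lt.bi, Lt.d, Lt.d, Lt.bi] [Lt.di, Lt.di] (pair_rel hinv hr (by decide +kernel)) h
  · rcases brec_true h with h | h
    · rcases brec_true h with h | h
      · exact mRel_good (T := T) (by decide) [Lt.di, Lt.fi, Lt.b, Lt.c, Lt.b] [Lt.f, Lt.b, Lt.c] (pair_rel hinv hr (by decide +kernel)) h
      · rcases brec_true h with h | h
        · exact mRel_good (T := T) (by decide) [Lt.bi, Lt.c, Lt.fi, Lt.di] [Lt.fi, Lt.d, Lt.bi, Lt.c] (pair_rel hinv hr (by decide +kernel)) h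
        · exact mRel_good (T := T) (by decide) [Lt.di, Lt.fi, Lt.bi, Lt.f, Lt.e] [Lt.ei, Lt.bi, Lt.c, Lt.fi] (pair_rel hinv hr (by decide +kernel)) h
    · rcases brec_true h with h | h
      · exact mRel_good (T := T) (by decide) [Lt.c, Lt.di, Lt.bi, Lt.c, Lt.c] [Lt.ci, Lt.b, Lt.d] (pair_rel hinv hr (by decide +kernel)) h
      · rcases brec_true h with h | h
        · exact mRel_good (T := T) (by decide) [Lt.c, Lt.di] [Lt.ei, Lt.fi, Lt.e, Lt.f, Lt.ei, Lt.fi, Lt.fi] (pair_rel hinv hr (by decide +kernel)) h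
        · exact mRel_good (T := T) (by decide) [Lt.bi, Lt.di, Lt.fi, Lt.b, Lt.c, Lt.bi] [Lt.c, Lt.d] (pair_rel hinv hr (by decide +kernel)) h
theorem dM_107_s (hinv : ∀ x, g (inv x) = (g x)⁻¹) (hr : ∀ r ∈ rels, (r.map g).prod = 1) (j z1 z2 u : ℕ) (h : dM_107 j z1 z2 u = true) : GoodM (fa g) T MG M (cP g H) u := by
  unfold dM_107 at h
  rcases brec_true h with h | h
  · exact dM_105_s hinv hr j z1 z2 u h
  · exact dM_106_s hinv hr j z1 z2 u h
theorem dM_108_s (hinv : ∀ x, g (inv x) = (g x)⁻¹) (hr : ∀ r ∈ rels, (r.map g).prod = 1) (j z1 z2 u : ℕ) (h : dM_108 j z1 z2 u = true) : GoodM (fa g) T MG M (cP g H) u := by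
  unfold dM_108 at h
  rcases brec_true h with h | h
  · exact dM_104_s hinv hr j z1 z2 u h
  · exact dM_107_s hinv hr j z1 z2 u h
theorem dM_109_s (hinv : ∀ x, g (inv x) = (g x)⁻¹) (hr : ∀ r ∈ rels, (r.map g).prod = 1) (j z1 z2 u : ℕ) (h : dM_109 j z1 z2 u = true) : GoodM (fa g) T MG M (cP g H) u := by
  unfold dM_109 at h
  rcases brec_true h with h | h
  · rcases brec_true h with h | h
    · rcases brec_true h with h | h
      · exact mRel_good (T := T) (by decide) [Lt.bi, Lt.e, Lt.c] [Lt.ei, Lt.ci, Lt.ei, Lt.b, Lt.ei] (pair_rel hinv hr (by decide +kernel)) h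
      · exact mRel_good (T := T) (by decide) [Lt.b, Lt.fi, Lt.c, Lt.c] [Lt.fi, Lt.ci, Lt.b, Lt.f] (pair_rel hinv hr (by decide +kernel)) h
    · rcases brec_true h with h | h
      · exact mRel_good (T := T) (by decide) [Lt.bi, Lt.c, Lt.f] [Lt.f, Lt.ci, Lt.ci, Lt.f, Lt.bi] (pair_rel hinv hr (by decide +kernel)) h
      · rcases brec_true h with h | h
        · exact mRel_good (T := T) (by decide) [Lt.b, Lt.di, Lt.f, Lt.c] [Lt.fi, Lt.di, Lt.ci, Lt.bi] (pair_rel hinv hr (by decide +kernel)) h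
        · exact mRel_good (T := T) (by decide) [Lt.ci, Lt.ci, Lt.b, Lt.d, Lt.ci, Lt.ci] [Lt.di, Lt.bi] (pair_rel hinv hr (by decide +kernel)) h
  · rcases brec_true h with h | h
    · rcases brec_true h with h | h
      · exact mRel_good (T := T) (by decide) [Lt.d, Lt.f, Lt.ci, Lt.b] [Lt.ci, Lt.b, Lt.di, Lt.f] (pair_rel hinv hr (by decide +kernel)) h
      · exact mRel_good (T := T) (by decide) [Lt.bi, Lt.d, Lt.ci, Lt.fi, Lt.bi, Lt.d] [Lt.f, Lt.c] (pair_rel hinv hr (by decide +kernel)) h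
    · rcases brec_true h with h | h
      · exact mRel_good (T := T) (by decide) [Lt.d, Lt.d, Lt.ci, Lt.f, Lt.d] [Lt.fi, Lt.c, Lt.di] (pair_rel hinv hr (by decide +kernel)) h
      · rcases brec_true h with h | h
        · exact mRel_good (T := T) (by decide) [Lt.bi, Lt.c, Lt.b] [Lt.d, Lt.f, Lt.f, Lt.c, Lt.di] (pair_rel hinv hr (by decide +kernel)) h
        · exact mRel_good (T := T) (by decide) [Lt.di, Lt.di, Lt.ci, Lt.f, Lt.b, Lt.ci] [Lt.bi, Lt.f] (pair_rel hinv hr (by decide +kernel)) h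
theorem dM_110_s (hinv : ∀ x, g (inv x) = (g x)⁻¹) (hr : ∀ r ∈ rels, (r.map g).prod = 1) (j z1 z2 u : ℕ) (h : dM_110 j z1 z2 u = true) : GoodM (fa g) T MG M (cP g H) u := by
  unfold dM_110 at h
  rcases brec_true h with h | h
  · rcases brec_true h with h | h
    · rcases brec_true h with h | h
      · exact mRel_good (T := T) (by decide) [Lt.d, Lt.f] [Lt.b, Lt.c, Lt.d, Lt.ci, Lt.bi, Lt.d] (pair_rel hinv hr (by decide +kernel)) h
      · exact mRel_good (T := T) (by decide) [Lt.bi, Lt.di, Lt.di, Lt.b, Lt.di] [Lt.d, Lt.bi, Lt.d] (pair_rel hinv hr (by decide +kernel)) h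
    · rcases brec_true h with h | h
      · exact mRel_good (T := T) (by decide) [Lt.b, Lt.b, Lt.ci, Lt.fi, Lt.fi, Lt.bi] [Lt.ci, Lt.di] (pair_rel hinv hr (by decide +kernel)) h
      · rcases brec_true h with h | h
        · exact mRel_good (T := T) (by decide) [Lt.di, Lt.b, Lt.c, Lt.di, Lt.c, Lt.d, Lt.bi, Lt.c] [] (pair_rel hinv hr (by decide +kernel)) h
        · exact mRel_good (T := T) (by decide) [Lt.f, Lt.d, Lt.fi] [Lt.di, Lt.di, Lt.f, Lt.di, Lt.f] (pair_rel hinv hr (by decide +kernel)) h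
  · rcases brec_true h with h | h
    · rcases brec_true h with h | h
      · exact mRel_good (T := T) (by decide) [Lt.d, Lt.fi, Lt.d, Lt.bi] [Lt.ci, Lt.ci, Lt.bi, Lt.ci] (pair_rel hinv hr (by decide +kernel)) h
      · rcases brec_true h with h | h
        · exact mRel_good (T := T) (by decide) [Lt.c, Lt.fi, Lt.bi, Lt.bi, Lt.f, Lt.b] [Lt.d, Lt.fi] (pair_rel hinv hr (by decide +kernel)) h
        · exact mRel_good (T := T) (by decide) [Lt.b, Lt.c, Lt.bi, Lt.ci, Lt.bi, Lt.f] [Lt.fi, Lt.di] (pair_rel hinv hr (by decide +kernel)) h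
    · rcases brec_true h with h | h
      · exact mRel_good (T := T) (by decide) [Lt.b, Lt.di] [Lt.c, Lt.b, Lt.c, Lt.c, Lt.d, Lt.fi] (pair_rel hinv hr (by decide +kernel)) h
      · rcases brec_true h with h | h
        · exact mRel_good (T := T) (by decide) [Lt.e, Lt.f, Lt.ei, Lt.fi, Lt.e] [Lt.f, Lt.c, Lt.di, Lt.f] (pair_rel hinv hr (by decide +kernel)) h
        · exact mRel_good (T := T) (by decide) [Lt.d] [Lt.bi, Lt.c, Lt.c, Lt.di, Lt.bi, Lt.c, Lt.c] (pair_rel hinv hr (by decide +kernel)) h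
theorem dM_111_s (hinv : ∀ x, g (inv x) = (g x)⁻¹) (hr : ∀ r ∈ rels, (r.map g).prod = 1) (j z1 z2 u : ℕ) (h : dM_111 j z1 z2 u = true) : GoodM (fa g) T MG M (cP g H) u := by
  unfold dM_111 at h
  rcases brec_true h with h | h
  · exact dM_109_s hinv hr j z1 z2 u h
  · exact dM_110_s hinv hr j z1 z2 u h
theorem dM_112_s (hinv : ∀ x, g (inv x) = (g x)⁻¹) (hr : ∀ r ∈ rels, (r.map g).prod = 1) (j z1 z2 u : ℕ) (h : dM_112 j z1 z2 u = true) : GoodM (fa g) T MG M (cP g H) u := by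
  unfold dM_112 at h
  rcases brec_true h with h | h
  · rcases brec_true h with h | h
    · rcases brec_true h with h | h
      · exact mRel_good (T := T) (by decide) [Lt.c, Lt.bi, Lt.ci] [Lt.bi, Lt.di, Lt.di, Lt.f, Lt.b] (pair_rel hinv hr (by decide +kernel)) h
      · exact mRel_good (T := T) (by decide) [Lt.d, Lt.c, Lt.bi, Lt.ci, Lt.d, Lt.c, Lt.bi] [Lt.c] (pair_rel hinv hr (by decide +kernel)) h
    · rcases brec_true h with h | h
      · exact mRel_good (T := T) (by decide) [Lt.b, Lt.c, Lt.c] [Lt.ci, Lt.b, Lt.di, Lt.f, Lt.di] (pair_rel hinv hr (by decide +kernel)) h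
      · rcases brec_true h with h | h
        · exact mRel_good (T := T) (by decide) [Lt.bi, Lt.bi, Lt.di, Lt.ci] [Lt.ci, Lt.bi, Lt.fi, Lt.b] (pair_rel hinv hr (by decide +kernel)) h
        · exact mRel_good (T := T) (by decide) [Lt.ei, Lt.f, Lt.e, Lt.fi] [Lt.fi, Lt.d, Lt.ci, Lt.fi, Lt.e] (pair_rel hinv hr (by decide +kernel)) h
  · rcases brec_true h with h | h
    · rcases brec_true h with h | h
      · exact mRel_good (T := T) (by decide) [Lt.bi, Lt.ci] [Lt.c, Lt.c, Lt.d, Lt.fi, Lt.d, Lt.bi] (pair_rel hinv hr (by decide +kernel)) h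
      · rcases brec_true h with h | h
        · exact mRel_good (T := T) (by decide) [Lt.bi, Lt.f] [Lt.di, Lt.di, Lt.ci, Lt.f, Lt.b, Lt.ci] (pair_rel hinv hr (by decide +kernel)) h
        · exact mRel_good (T := T) (by decide) [Lt.di, Lt.b, Lt.f, Lt.c, Lt.di] [Lt.ci, Lt.fi, Lt.bi] (pair_rel hinv hr (by decide +kernel)) h
    · rcases brec_true h with h | h
      · exact mRel_good (T := T) (by decide) [Lt.c, Lt.bi, Lt.bi, Lt.ci, Lt.di, Lt.b, Lt.f] [Lt.fi] (pair_rel hinv hr (by decide +kernel)) h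
      · rcases brec_true h with h | h
        · exact mRel_good (T := T) (by decide) [Lt.b, Lt.e] [Lt.c, Lt.fi, Lt.ei, Lt.fi, Lt.b, Lt.f, Lt.d] (pair_rel hinv hr (by decide +kernel)) h
        · exact mRel_good (T := T) (by decide) [Lt.c, Lt.di, Lt.f, Lt.f, Lt.e, Lt.fi, Lt.ei] [Lt.ei, Lt.fi] (pair_rel hinv hr (by decide +kernel)) h
theorem dM_113_s (hinv : ∀ x, g (inv x) = (g x)⁻¹) (hr : ∀ r ∈ rels, (r.map g).prod = 1) (j z1 z2 u : ℕ) (h : dM_113 j z1 z2 u = true) : GoodM (fa g) T MG M (cP g H) u := by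
  unfold dM_113 at h
  rcases brec_true h with h | h
  · rcases brec_true h with h | h
    · rcases brec_true h with h | h
      · exact mRel_good (T := T) (by decide) [Lt.bi, Lt.f, Lt.e, Lt.f, Lt.ci, Lt.b, Lt.e, Lt.di] [Lt.f] (pair_rel hinv hr (by decide +kernel)) h
      · exact mRel_good (T := T) (by decide) [Lt.fi, Lt.e] [Lt.e, Lt.c, Lt.di, Lt.f, Lt.f, Lt.e, Lt.fi] (pair_rel hinv hr (by decide +kernel)) h
    · rcases brec_true h with h | h
      · exact mRel_good (T := T) (by decide) [Lt.bi, Lt.d, Lt.ci, Lt.fi, Lt.bi, Lt.d, Lt.ci, Lt.fi] [] (pair_rel hinv hr (by decide +kernel)) h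
      · rcases brec_true h with h | h
        · exact mRel_good (T := T) (by decide) [Lt.d, Lt.f, Lt.b, Lt.c] [Lt.fi, Lt.b, Lt.c, Lt.b] (pair_rel hinv hr (by decide +kernel)) h
        · exact mRel_good (T := T) (by decide) [Lt.b, Lt.ci] [Lt.fi, Lt.c, Lt.d, Lt.d, Lt.bi, Lt.f] (pair_rel hinv hr (by decide +kernel)) h
  · rcases brec_true h with h | h
    · rcases brec_true h with h | h
      · exact mRel_good (T := T) (by decide) [Lt.d, Lt.ei, Lt.bi, Lt.c, Lt.fi, Lt.ei, Lt.fi] [Lt.fi, Lt.bi] (pair_rel hinv hr (by decide +kernel)) h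
      · rcases brec_true h with h | h
        · exact mRel_good (T := T) (by decide) [Lt.bi, Lt.ci, Lt.di, Lt.b, Lt.f] [Lt.b, Lt.ci, Lt.fi] (pair_rel hinv hr (by decide +kernel)) h
        · exact mRel_good (T := T) (by decide) [Lt.fi, Lt.di, Lt.ci, Lt.bi] [Lt.b, Lt.di, Lt.f, Lt.c] (pair_rel hinv hr (by decide +kernel)) h
    · rcases brec_true h with h | h
      · exact mRel_good (T := T) (by decide) [Lt.b, Lt.f, Lt.ci, Lt.ci] [Lt.c, Lt.f, Lt.b, Lt.fi] (pair_rel hinv hr (by decide +kernel)) h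
      · rcases brec_true h with h | h
        · exact mRel_good (T := T) (by decide) [Lt.b, Lt.di, Lt.ci] [Lt.c, Lt.di, Lt.b, Lt.c, Lt.di] (pair_rel hinv hr (by decide +kernel)) h
        · exact mRel_good (T := T) (by decide) [Lt.d, Lt.d] [Lt.ci, Lt.f, Lt.b, Lt.ci, Lt.fi, Lt.b] (pair_rel hinv hr (by decide +kernel)) h
theorem dM_114_s (hinv : ∀ x, g (inv x) = (g x)⁻¹) (hr : ∀ r ∈ rels, (r.map g).prod = 1) (j z1 z2 u : ℕ) (h : dM_114 j z1 z2 u = true) : GoodM (fa g) T MG M (cP g H) u := by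
  unfold dM_114 at h
  rcases brec_true h with h | h
  · exact dM_112_s hinv hr j z1 z2 u h
  · exact dM_113_s hinv hr j z1 z2 u h
theorem dM_115_s (hinv : ∀ x, g (inv x) = (g x)⁻¹) (hr : ∀ r ∈ rels, (r.map g).prod = 1) (j z1 z2 u : ℕ) (h : dM_115 j z1 z2 u = true) : GoodM (fa g) T MG M (cP g H) u := by
  unfold dM_115 at h
  rcases brec_true h with h | h
  · exact dM_111_s hinv hr j z1 z2 u h
  · exact dM_114_s hinv hr j z1 z2 u h
theorem dM_116_s (hinv : ∀ x, g (inv x) = (g x)⁻¹) (hr : ∀ r ∈ rels, (r.map g).prod = 1) (j z1 z2 u : ℕ) (h : dM_116 j z1 z2 u = true) : GoodM (fa g) T MG M (cP g H) u := by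
  unfold dM_116 at h
  rcases brec_true h with h | h
  · exact dM_108_s hinv hr j z1 z2 u h
  · exact dM_115_s hinv hr j z1 z2 u h
theorem dM_117_s (hinv : ∀ x, g (inv x) = (g x)⁻¹) (hr : ∀ r ∈ rels, (r.map g).prod = 1) (j z1 z2 u : ℕ) (h : dM_117 j z1 z2 u = true) : GoodM (fa g) T MG M (cP g H) u := by
  unfold dM_117 at h
  rcases brec_true h with h | h
  · rcases brec_true h with h | h
    · rcases brec_true h with h | h
      · exact mRel_good (T := T) (by decide) [Lt.bi, Lt.c, Lt.di, Lt.b] [Lt.di, Lt.ci, Lt.d, Lt.ci] (pair_rel hinv hr (by decide +kernel)) h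
      · exact mRel_good (T := T) (by decide) [Lt.ci, Lt.b, Lt.di] [Lt.d, Lt.f, Lt.ci, Lt.b, Lt.fi] (pair_rel hinv hr (by decide +kernel)) h
    · rcases brec_true h with h | h
      · exact mRel_good (T := T) (by decide) [Lt.fi, Lt.bi, Lt.f, Lt.e] [Lt.d, Lt.ei, Lt.bi, Lt.c, Lt.fi] (pair_rel hinv hr (by decide +kernel)) h
      · rcases brec_true h with h | h
        · exact mRel_good (T := T) (by decide) [Lt.c] [Lt.fi, Lt.b, Lt.di, Lt.di, Lt.ci, Lt.f, Lt.b] (pair_rel hinv hr (by decide +kernel)) h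
        · exact mRel_good (T := T) (by decide) [Lt.c, Lt.fi, Lt.di, Lt.ci, Lt.b] [Lt.b, Lt.fi, Lt.d] (pair_rel hinv hr (by decide +kernel)) h
  · rcases brec_true h with h | h
    · rcases brec_true h with h | h
      · exact mRel_good (T := T) (by decide) [Lt.ci, Lt.b, Lt.d, Lt.f, Lt.f, Lt.c] [Lt.b, Lt.d] (pair_rel hinv hr (by decide +kernel)) h
      · exact mRel_good (T := T) (by decide) [Lt.di, Lt.c, Lt.fi] [Lt.fi, Lt.bi, Lt.fi, Lt.b, Lt.b] (pair_rel hinv hr (by decide +kernel)) h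
    · rcases brec_true h with h | h
      · exact mRel_good (T := T) (by decide) [Lt.b, Lt.c, Lt.b, Lt.ci] [Lt.fi, Lt.d, Lt.d, Lt.b] (pair_rel hinv hr (by decide +kernel)) h
      · rcases brec_true h with h | h
        · exact mRel_good (T := T) (by decide) [Lt.di, Lt.ci, Lt.bi, Lt.ci, Lt.fi, Lt.d, Lt.bi] [Lt.f] (pair_rel hinv hr (by decide +kernel)) h
        · exact mRel_good (T := T) (by decide) [Lt.di, Lt.b, Lt.c, Lt.di, Lt.ci, Lt.bi] [Lt.fi, Lt.di] (pair_rel hinv hr (by decide +kernel)) h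
theorem dM_118_s (hinv : ∀ x, g (inv x) = (g x)⁻¹) (hr : ∀ r ∈ rels, (r.map g).prod = 1) (j z1 z2 u : ℕ) (h : dM_118 j z1 z2 u = true) : GoodM (fa g) T MG M (cP g H) u := by
  unfold dM_118 at h
  rcases brec_true h with h | h
  · rcases brec_true h with h | h
    · rcases brec_true h with h | h
      · exact mRel_good (T := T) (by decide) [Lt.f, Lt.b, Lt.c, Lt.bi, Lt.ci, Lt.bi] [Lt.di, Lt.fi] (pair_rel hinv hr (by decide +kernel)) h
      · exact mRel_good (T := T) (by decide) [Lt.d, Lt.ci, Lt.ei, Lt.fi, Lt.e] [Lt.f, Lt.f, Lt.e, Lt.fi] (pair_rel hinv hr (by decide +kernel)) h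
    · rcases brec_true h with h | h
      · exact mRel_good (T := T) (by decide) [Lt.f, Lt.ci] [Lt.b, Lt.c, Lt.d, Lt.c, Lt.bi, Lt.di] (pair_rel hinv hr (by decide +kernel)) h
      · rcases brec_true h with h | h
        · exact mRel_good (T := T) (by decide) [Lt.f, Lt.ci, Lt.b, Lt.e, Lt.di, Lt.fi, Lt.bi, Lt.f] [Lt.ei] (pair_rel hinv hr (by decide +kernel)) h
        · exact mRel_good (T := T) (by decide) [Lt.c, Lt.di, Lt.b] [Lt.b, Lt.di, Lt.ci, Lt.d, Lt.ci] (pair_rel hinv hr (by decide +kernel)) h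
  · rcases brec_true h with h | h
    · rcases brec_true h with h | h
      · exact mRel_good (T := T) (by decide) [Lt.c, Lt.di, Lt.di] [Lt.f, Lt.d, Lt.d, Lt.ci, Lt.f] (pair_rel hinv hr (by decide +kernel)) h
      · rcases brec_true h with h | h
        · exact mRel_good (T := T) (by decide) [Lt.d, Lt.d, Lt.bi, Lt.f, Lt.c, Lt.bi, Lt.fi, Lt.c] [] (pair_rel hinv hr (by decide +kernel)) h
        · exact mRel_good (T := T) (by decide) [Lt.c, Lt.di, Lt.f, Lt.ei, Lt.f, Lt.e, Lt.fi, Lt.ei] [Lt.fi] (pair_rel hinv hr (by decide +kernel)) h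
    · rcases brec_true h with h | h
      · exact mRel_good (T := T) (by decide) [Lt.di, Lt.bi] [Lt.ci, Lt.fi, Lt.fi, Lt.di, Lt.bi, Lt.c] (pair_rel hinv hr (by decide +kernel)) h
      · rcases brec_true h with h | h
        · exact mRel_good (T := T) (by decide) [Lt.bi, Lt.d, Lt.ci, Lt.b, Lt.di, Lt.ci] [Lt.c, Lt.di] (pair_rel hinv hr (by decide +kernel)) h
        · exact mRel_good (T := T) (by decide) [Lt.di, Lt.ci, Lt.ci, Lt.bi] [Lt.fi, Lt.d, Lt.bi, Lt.c] (pair_rel hinv hr (by decide +kernel)) h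
theorem dM_119_s (hinv : ∀ x, g (inv x) = (g x)⁻¹) (hr : ∀ r ∈ rels, (r.map g).prod = 1) (j z1 z2 u : ℕ) (h : dM_119 j z1 z2 u = true) : GoodM (fa g) T MG M (cP g H) u := by
  unfold dM_119 at h
  rcases brec_true h with h | h
  · exact dM_117_s hinv hr j z1 z2 u h
  · exact dM_118_s hinv hr j z1 z2 u h
theorem dM_120_s (hinv : ∀ x, g (inv x) = (g x)⁻¹) (hr : ∀ r ∈ rels, (r.map g).prod = 1) (j z1 z2 u : ℕ) (h : dM_120 j z1 z2 u = true) : GoodM (fa g) T MG M (cP g H) u := by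
  unfold dM_120 at h
  rcases brec_true h with h | h
  · rcases brec_true h with h | h
    · rcases brec_true h with h | h
      · exact mRel_good (T := T) (by decide) [Lt.b, Lt.di, Lt.di, Lt.ci, Lt.f] [Lt.f, Lt.c, Lt.bi] (pair_rel hinv hr (by decide +kernel)) h
      · exact mRel_good (T := T) (by decide) [Lt.bi, Lt.c, Lt.bi, Lt.c] [Lt.ci, Lt.b, Lt.ci, Lt.b] (pair_rel hinv hr (by decide +kernel)) h
    · rcases brec_true h with h | h
      · exact mRel_good (T := T) (by decide) [Lt.bi, Lt.fi, Lt.c, Lt.d, Lt.d, Lt.bi] [Lt.ci, Lt.fi] (pair_rel hinv hr (by decide +kernel)) h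
      · rcases brec_true h with h | h
        · exact mRel_good (T := T) (by decide) [Lt.bi, Lt.ci, Lt.b, Lt.d, Lt.f, Lt.f, Lt.c, Lt.di] [] (pair_rel hinv hr (by decide +kernel)) h
        · exact mRel_good (T := T) (by decide) [Lt.di, Lt.b, Lt.di, Lt.bi, Lt.di, Lt.di, Lt.b] [Lt.d] (pair_rel hinv hr (by decide +kernel)) h
  · rcases brec_true h with h | h
    · rcases brec_true h with h | h
      · exact mRel_good (T := T) (by decide) [Lt.f, Lt.c, Lt.bi, Lt.bi, Lt.ci] [Lt.fi, Lt.bi, Lt.d] (pair_rel hinv hr (by decide +kernel)) h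
      · rcases brec_true h with h | h
        · exact mRel_good (T := T) (by decide) [Lt.fi, Lt.d, Lt.d, Lt.b, Lt.c, Lt.bi, Lt.ci] [Lt.b] (pair_rel hinv hr (by decide +kernel)) h
        · exact mRel_good (T := T) (by decide) [Lt.b, Lt.c] [Lt.ci, Lt.b, Lt.di, Lt.f, Lt.di, Lt.ci] (pair_rel hinv hr (by decide +kernel)) h
    · rcases brec_true h with h | h
      · exact mRel_good (T := T) (by decide) [Lt.b, Lt.ci, Lt.bi, Lt.fi, Lt.b, Lt.c, Lt.d, Lt.b] [] (pair_rel hinv hr (by decide +kernel)) h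
      · rcases brec_true h with h | h
        · exact mRel_good (T := T) (by decide) [Lt.fi, Lt.fi, Lt.d, Lt.ci] [Lt.e, Lt.fi, Lt.ei, Lt.f, Lt.e] (pair_rel hinv hr (by decide +kernel)) h
        · exact mRel_good (T := T) (by decide) [Lt.bi, Lt.d, Lt.d] [Lt.di, Lt.bi, Lt.di, Lt.di, Lt.b] (pair_rel hinv hr (by decide +kernel)) h
theorem dM_121_s (hinv : ∀ x, g (inv x) = (g x)⁻¹) (hr : ∀ r ∈ rels, (r.map g).prod = 1) (j z1 z2 u : ℕ) (h : dM_121 j z1 z2 u = true) : GoodM (fa g) T MG M (cP g H) u := by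
  unfold dM_121 at h
  rcases brec_true h with h | h
  · rcases brec_true h with h | h
    · rcases brec_true h with h | h
      · exact mRel_good (T := T) (by decide) [Lt.b, Lt.ci] [Lt.ci, Lt.d, Lt.c, Lt.bi, Lt.ci, Lt.d] (pair_rel hinv hr (by decide +kernel)) h
      · exact mRel_good (T := T) (by decide) [Lt.bi, Lt.c, Lt.di, Lt.b, Lt.c, Lt.di, Lt.c] [Lt.di] (pair_rel hinv hr (by decide +kernel)) h
    · rcases brec_true h with h | h
      · exact mRel_good (T := T) (by decide) [Lt.f, Lt.b, Lt.f] [Lt.b, Lt.b, Lt.f, Lt.ci, Lt.d] (pair_rel hinv hr (by decide +kernel)) h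
      · rcases brec_true h with h | h
        · exact mRel_good (T := T) (by decide) [Lt.fi, Lt.e] [Lt.c, Lt.di, Lt.f, Lt.ei, Lt.f, Lt.e, Lt.fi] (pair_rel hinv hr (by decide +kernel)) h
        · exact mRel_good (T := T) (by decide) [Lt.di, Lt.f, Lt.b] [Lt.d, Lt.b, Lt.c, Lt.bi, Lt.ci] (pair_rel hinv hr (by decide +kernel)) h
  · rcases brec_true h with h | h
    · rcases brec_true h with h | h
      · exact mRel_good (T := T) (by decide) [Lt.ci, Lt.f, Lt.bi, Lt.fi, Lt.ci, Lt.b] [Lt.c, Lt.fi] (pair_rel hinv hr (by decide +kernel)) h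
      · rcases brec_true h with h | h
        · exact mRel_good (T := T) (by decide) [Lt.di, Lt.ci, Lt.bi, Lt.f, Lt.ci, Lt.d] [Lt.c, Lt.bi] (pair_rel hinv hr (by decide +kernel)) h
        · exact mRel_good (T := T) (by decide) [Lt.f, Lt.di, Lt.ci, Lt.ei] [Lt.di, Lt.e, Lt.fi, Lt.ei, Lt.f] (pair_rel hinv hr (by decide +kernel)) h
    · rcases brec_true h with h | h
      · exact mRel_good (T := T) (by decide) [Lt.c, Lt.bi, Lt.ci, Lt.d] [Lt.di, Lt.c, Lt.b, Lt.ci] (pair_rel hinv hr (by decide +kernel)) h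
      · rcases brec_true h with h | h
        · exact mRel_good (T := T) (by decide) [Lt.bi, Lt.c, Lt.d, Lt.f, Lt.ci] [Lt.di, Lt.f, Lt.bi] (pair_rel hinv hr (by decide +kernel)) h
        · exact mRel_good (T := T) (by decide) [Lt.d, Lt.d] [Lt.fi, Lt.bi, Lt.ci, Lt.di, Lt.f, Lt.bi] (pair_rel hinv hr (by decide +kernel)) h
theorem dM_122_s (hinv : ∀ x, g (inv x) = (g x)⁻¹) (hr : ∀ r ∈ rels, (r.map g).prod = 1) (j z1 z2 u : ℕ) (h : dM_122 j z1 z2 u = true) : GoodM (fa g) T MG M (cP g H) u := by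
  unfold dM_122 at h
  rcases brec_true h with h | h
  · exact dM_120_s hinv hr j z1 z2 u h
  · exact dM_121_s hinv hr j z1 z2 u h
theorem dM_123_s (hinv : ∀ x, g (inv x) = (g x)⁻¹) (hr : ∀ r ∈ rels, (r.map g).prod = 1) (j z1 z2 u : ℕ) (h : dM_123 j z1 z2 u = true) : GoodM (fa g) T MG M (cP g H) u := by
  unfold dM_123 at h
  rcases brec_true h with h | h
  · exact dM_119_s hinv hr j z1 z2 u h
  · exact dM_122_s hinv hr j z1 z2 u h
theorem dM_124_s (hinv : ∀ x, g (inv x) = (g x)⁻¹) (hr : ∀ r ∈ rels, (r.map g).prod = 1) (j z1 z2 u : ℕ) (h : dM_124 j z1 z2 u = true) : GoodM (fa g) T MG M (cP g H) u := by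
  unfold dM_124 at h
  rcases brec_true h with h | h
  · rcases brec_true h with h | h
    · rcases brec_true h with h | h
      · exact mRel_good (T := T) (by decide) [Lt.f, Lt.b, Lt.c] [Lt.b, Lt.c, Lt.d, Lt.b, Lt.b] (pair_rel hinv hr (by decide +kernel)) h
      · exact mRel_good (T := T) (by decide) [Lt.c, Lt.b, Lt.ci, Lt.bi] [Lt.bi, Lt.fi, Lt.d, Lt.d] (pair_rel hinv hr (by decide +kernel)) h
    · rcases brec_true h with h | h
      · exact mRel_good (T := T) (by decide) [Lt.b, Lt.ci, Lt.bi, Lt.fi, Lt.di] [Lt.ci, Lt.bi, Lt.f] (pair_rel hinv hr (by decide +kernel)) h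
      · rcases brec_true h with h | h
        · exact mRel_good (T := T) (by decide) [Lt.b, Lt.ci, Lt.di] [Lt.di, Lt.c, Lt.fi, Lt.b, Lt.c] (pair_rel hinv hr (by decide +kernel)) h
        · exact mRel_good (T := T) (by decide) [Lt.ci, Lt.bi, Lt.di] [Lt.bi, Lt.ci, Lt.bi, Lt.fi, Lt.d] (pair_rel hinv hr (by decide +kernel)) h
  · rcases brec_true h with h | h
    · rcases brec_true h with h | h
      · exact mRel_good (T := T) (by decide) [Lt.di, Lt.fi, Lt.bi, Lt.f, Lt.e, Lt.f, Lt.ci] [Lt.ei, Lt.bi] (pair_rel hinv hr (by decide +kernel)) h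
      · exact mRel_good (T := T) (by decide) [Lt.di, Lt.b, Lt.di, Lt.di, Lt.b] [Lt.d, Lt.b, Lt.d] (pair_rel hinv hr (by decide +kernel)) h
    · rcases brec_true h with h | h
      · exact mRel_good (T := T) (by decide) [Lt.bi, Lt.c, Lt.bi, Lt.c, Lt.bi, Lt.c] [Lt.ci, Lt.b] (pair_rel hinv hr (by decide +kernel)) h
      · rcases brec_true h with h | h
        · exact mRel_good (T := T) (by decide) [Lt.di, Lt.di] [Lt.b, Lt.d, Lt.bi, Lt.d, Lt.d, Lt.bi] (pair_rel hinv hr (by decide +kernel)) h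
        · exact mRel_good (T := T) (by decide) [Lt.b, Lt.ci, Lt.di, Lt.c, Lt.b, Lt.ci] [Lt.ci, Lt.d] (pair_rel hinv hr (by decide +kernel)) h
theorem dM_125_s (hinv : ∀ x, g (inv x) = (g x)⁻¹) (hr : ∀ r ∈ rels, (r.map g).prod = 1) (j z1 z2 u : ℕ) (h : dM_125 j z1 z2 u = true) : GoodM (fa g) T MG M (cP g H) u := by
  unfold dM_125 at h
  rcases brec_true h with h | h
  · rcases brec_true h with h | h
    · rcases brec_true h with h | h
      · exact mRel_good (T := T) (by decide) [Lt.b, Lt.c, Lt.d, Lt.f, Lt.b, Lt.di] [Lt.ci, Lt.fi] (pair_rel hinv hr (by decide +kernel)) h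
      · exact mRel_good (T := T) (by decide) [Lt.c, Lt.di] [Lt.bi, Lt.d, Lt.fi, Lt.di, Lt.b, Lt.c] (pair_rel hinv hr (by decide +kernel)) h
    · rcases brec_true h with h | h
      · exact mRel_good (T := T) (by decide) [Lt.b, Lt.c, Lt.c, Lt.d] [Lt.ci, Lt.b, Lt.di, Lt.f] (pair_rel hinv hr (by decide +kernel)) h
      · rcases brec_true h with h | h
        · exact mRel_good (T := T) (by decide) [Lt.fi, Lt.bi, Lt.c, Lt.f] [Lt.ci, Lt.ci, Lt.f, Lt.bi] (pair_rel hinv hr (by decide +kernel)) h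
        · exact mRel_good (T := T) (by decide) [Lt.c, Lt.bi, Lt.ci, Lt.bi, Lt.f, Lt.d] [Lt.bi, Lt.fi] (pair_rel hinv hr (by decide +kernel)) h
  · rcases brec_true h with h | h
    · rcases brec_true h with h | h
      · exact mRel_good (T := T) (by decide) [Lt.b, Lt.ci, Lt.fi] [Lt.fi, Lt.c, Lt.d, Lt.d, Lt.bi] (pair_rel hinv hr (by decide +kernel)) h
      · rcases brec_true h with h | h
        · exact mRel_good (T := T) (by decide) [Lt.c] [Lt.b, Lt.f, Lt.ci, Lt.ci, Lt.f, Lt.bi, Lt.fi] (pair_rel hinv hr (by decide +kernel)) h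
        · exact mRel_good (T := T) (by decide) [Lt.ci, Lt.b] [Lt.di, Lt.b, Lt.c, Lt.di, Lt.c, Lt.d] (pair_rel hinv hr (by decide +kernel)) h
    · rcases brec_true h with h | h
      · exact mRel_good (T := T) (by decide) [Lt.ci, Lt.di] [Lt.bi, Lt.di, Lt.c, Lt.fi, Lt.b, Lt.c] (pair_rel hinv hr (by decide +kernel)) h
      · rcases brec_true h with h | h
        · exact mRel_good (T := T) (by decide) [Lt.fi, Lt.ei] [Lt.ei, Lt.fi, Lt.e, Lt.fi, Lt.d, Lt.ci, Lt.fi] (pair_rel hinv hr (by decide +kernel)) h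
        · exact mRel_good (T := T) (by decide) [Lt.fi, Lt.b, Lt.c, Lt.d, Lt.c] [Lt.ci, Lt.d, Lt.b] (pair_rel hinv hr (by decide +kernel)) h
theorem dM_126_s (hinv : ∀ x, g (inv x) = (g x)⁻¹) (hr : ∀ r ∈ rels, (r.map g).prod = 1) (j z1 z2 u : ℕ) (h : dM_126 j z1 z2 u = true) : GoodM (fa g) T MG M (cP g H) u := by
  unfold dM_126 at h
  rcases brec_true h with h | h
  · exact dM_124_s hinv hr j z1 z2 u h
  · exact dM_125_s hinv hr j z1 z2 u h
theorem dM_127_s (hinv : ∀ x, g (inv x) = (g x)⁻¹) (hr : ∀ r ∈ rels, (r.map g).prod = 1) (j z1 z2 u : ℕ) (h : dM_127 j z1 z2 u = true) : GoodM (fa g) T MG M (cP g H) u := by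
  unfold dM_127 at h
  rcases brec_true h with h | h
  · rcases brec_true h with h | h
    · rcases brec_true h with h | h
      · exact mRel_good (T := T) (by decide) [Lt.c, Lt.di, Lt.di, Lt.fi, Lt.c, Lt.di, Lt.di] [Lt.f] (pair_rel hinv hr (by decide +kernel)) h
      · exact mRel_good (T := T) (by decide) [Lt.di, Lt.ci] [Lt.bi, Lt.c, Lt.di, Lt.b, Lt.c, Lt.di] (pair_rel hinv hr (by decide +kernel)) h
    · rcases brec_true h with h | h
      · exact mRel_good (T := T) (by decide) [Lt.ci, Lt.b, Lt.ci, Lt.b, Lt.ci, Lt.b, Lt.ci, Lt.b] [] (pair_rel hinv hr (by decide +kernel)) h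
      · rcases brec_true h with h | h
        · exact mRel_good (T := T) (by decide) [Lt.bi, Lt.ci, Lt.b] [Lt.d, Lt.ci, Lt.fi, Lt.fi, Lt.di] (pair_rel hinv hr (by decide +kernel)) h
        · exact mRel_good (T := T) (by decide) [Lt.ci, Lt.di, Lt.b, Lt.f, Lt.f] [Lt.b, Lt.b, Lt.ci] (pair_rel hinv hr (by decide +kernel)) h
  · rcases brec_true h with h | h
    · rcases brec_true h with h | h
      · exact mRel_good (T := T) (by decide) [Lt.bi, Lt.d, Lt.fi, Lt.di, Lt.b, Lt.c] [Lt.c, Lt.di] (pair_rel hinv hr (by decide +kernel)) h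
      · rcases brec_true h with h | h
        · exact mRel_good (T := T) (by decide) [Lt.f, Lt.ci, Lt.d, Lt.b, Lt.ci, Lt.di, Lt.ci] [Lt.b] (pair_rel hinv hr (by decide +kernel)) h
        · exact mRel_good (T := T) (by decide) [Lt.f, Lt.di, Lt.b] [Lt.di, Lt.b, Lt.c, Lt.d, Lt.ci] (pair_rel hinv hr (by decide +kernel)) h
    · rcases brec_true h with h | h
      · exact mRel_good (T := T) (by decide) [Lt.c, Lt.c, Lt.fi] [Lt.f, Lt.bi, Lt.fi, Lt.ci, Lt.b] (pair_rel hinv hr (by decide +kernel)) h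
      · rcases brec_true h with h | h
        · exact mRel_good (T := T) (by decide) [Lt.c, Lt.c, Lt.bi, Lt.ci, Lt.b] [Lt.di, Lt.c, Lt.c] (pair_rel hinv hr (by decide +kernel)) h
        · exact mRel_good (T := T) (by decide) [Lt.d, Lt.b, Lt.fi, Lt.d, Lt.c, Lt.b] [Lt.di, Lt.fi] (pair_rel hinv hr (by decide +kernel)) h
theorem dM_128_s (hinv : ∀ x, g (inv x) = (g x)⁻¹) (hr : ∀ r ∈ rels, (r.map g).prod = 1) (j z1 z2 u : ℕ) (h : dM_128 j z1 z2 u = true) : GoodM (fa g) T MG M (cP g H) u := by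
  unfold dM_128 at h
  rcases brec_true h with h | h
  · rcases brec_true h with h | h
    · rcases brec_true h with h | h
      · exact mRel_good (T := T) (by decide) [Lt.b, Lt.fi, Lt.d] [Lt.c, Lt.fi, Lt.di, Lt.ci, Lt.b] (pair_rel hinv hr (by decide +kernel)) h
      · exact mRel_good (T := T) (by decide) [Lt.bi, Lt.c] [Lt.di, Lt.ci, Lt.d, Lt.ci, Lt.bi, Lt.d] (pair_rel hinv hr (by decide +kernel)) h
    · rcases brec_true h with h | h
      · exact mRel_good (T := T) (by decide) [Lt.c, Lt.fi, Lt.bi, Lt.c, Lt.f, Lt.b, Lt.fi] [Lt.ci] (pair_rel hinv hr (by decide +kernel)) h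
      · rcases brec_true h with h | h
        · exact mRel_good (T := T) (by decide) [Lt.c, Lt.b, Lt.ci, Lt.di] [Lt.d, Lt.c, Lt.bi, Lt.ci] (pair_rel hinv hr (by decide +kernel)) h
        · exact mRel_good (T := T) (by decide) [Lt.bi, Lt.di, Lt.c, Lt.bi, Lt.d, Lt.fi, Lt.c] [Lt.f] (pair_rel hinv hr (by decide +kernel)) h
  · rcases brec_true h with h | h
    · rcases brec_true h with h | h
      · exact mRel_good (T := T) (by decide) [Lt.e, Lt.f, Lt.ei, Lt.fi, Lt.e, Lt.fi] [Lt.f, Lt.c, Lt.di] (pair_rel hinv hr (by decide +kernel)) h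
      · rcases brec_true h with h | h
        · exact mRel_good (T := T) (by decide) [Lt.d, Lt.bi] [Lt.ci, Lt.d, Lt.ci, Lt.bi, Lt.d, Lt.ci] (pair_rel hinv hr (by decide +kernel)) h
        · exact mRel_good (T := T) (by decide) [Lt.ei, Lt.fi, Lt.e] [Lt.fi, Lt.ei, Lt.f, Lt.c, Lt.di, Lt.f] (pair_rel hinv hr (by decide +kernel)) h
    · rcases brec_true h with h | h
      · exact mRel_good (T := T) (by decide) [Lt.d, Lt.f, Lt.ci] [Lt.ci, Lt.b, Lt.di, Lt.f, Lt.bi] (pair_rel hinv hr (by decide +kernel)) h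
      · rcases brec_true h with h | h
        · exact mRel_good (T := T) (by decide) [Lt.fi, Lt.b, Lt.f] [Lt.e, Lt.f, Lt.ci, Lt.b, Lt.e, Lt.di] (pair_rel hinv hr (by decide +kernel)) h
        · exact mRel_good (T := T) (by decide) [Lt.ci, Lt.bi, Lt.fi, Lt.d] [Lt.b, Lt.ci, Lt.bi, Lt.di] (pair_rel hinv hr (by decide +kernel)) h
theorem dM_129_s (hinv : ∀ x, g (inv x) = (g x)⁻¹) (hr : ∀ r ∈ rels, (r.map g).prod = 1) (j z1 z2 u : ℕ) (h : dM_129 j z1 z2 u = true) : GoodM (fa g) T MG M (cP g H) u := by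
  unfold dM_129 at h
  rcases brec_true h with h | h
  · exact dM_127_s hinv hr j z1 z2 u h
  · exact dM_128_s hinv hr j z1 z2 u h
theorem dM_130_s (hinv : ∀ x, g (inv x) = (g x)⁻¹) (hr : ∀ r ∈ rels, (r.map g).prod = 1) (j z1 z2 u : ℕ) (h : dM_130 j z1 z2 u = true) : GoodM (fa g) T MG M (cP g H) u := by
  unfold dM_130 at h
  rcases brec_true h with h | h
  · exact dM_126_s hinv hr j z1 z2 u h
  · exact dM_129_s hinv hr j z1 z2 u h
theorem dM_131_s (hinv : ∀ x, g (inv x) = (g x)⁻¹) (hr : ∀ r ∈ rels, (r.map g).prod = 1) (j z1 z2 u : ℕ) (h : dM_131 j z1 z2 u = true) : GoodM (fa g) T MG M (cP g H) u := by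
  unfold dM_131 at h
  rcases brec_true h with h | h
  · exact dM_123_s hinv hr j z1 z2 u h
  · exact dM_130_s hinv hr j z1 z2 u h
theorem dM_132_s (hinv : ∀ x, g (inv x) = (g x)⁻¹) (hr : ∀ r ∈ rels, (r.map g).prod = 1) (j z1 z2 u : ℕ) (h : dM_132 j z1 z2 u = true) : GoodM (fa g) T MG M (cP g H) u := by
  unfold dM_132 at h
  rcases brec_true h with h | h
  · exact dM_116_s hinv hr j z1 z2 u h
  · exact dM_131_s hinv hr j z1 z2 u h
theorem dM_133_s (hinv : ∀ x, g (inv x) = (g x)⁻¹) (hr : ∀ r ∈ rels, (r.map g).prod = 1) (j z1 z2 u : ℕ) (h : dM_133 j z1 z2 u = true) : GoodM (fa g) T MG M (cP g H) u := by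
  unfold dM_133 at h
  rcases brec_true h with h | h
  · rcases brec_true h with h | h
    · rcases brec_true h with h | h
      · exact mRel_good (T := T) (by decide) [Lt.c, Lt.d, Lt.ci, Lt.bi, Lt.d, Lt.fi, Lt.di] [Lt.bi] (pair_rel hinv hr (by decide +kernel)) h
      · exact mRel_good (T := T) (by decide) [Lt.d, Lt.f] [Lt.ci, Lt.b, Lt.di, Lt.f, Lt.bi, Lt.c] (pair_rel hinv hr (by decide +kernel)) h
    · rcases brec_true h with h | h
      · exact mRel_good (T := T) (by decide) [Lt.fi, Lt.c, Lt.c, Lt.fi, Lt.bi] [Lt.bi, Lt.fi, Lt.ci] (pair_rel hinv hr (by decide +kernel)) h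
      · rcases brec_true h with h | h
        · exact mRel_good (T := T) (by decide) [Lt.c, Lt.fi, Lt.bi, Lt.di, Lt.c, Lt.bi] [Lt.f, Lt.di] (pair_rel hinv hr (by decide +kernel)) h
        · exact mRel_good (T := T) (by decide) [Lt.ci, Lt.bi, Lt.d, Lt.ci] [Lt.di, Lt.c, Lt.d, Lt.bi] (pair_rel hinv hr (by decide +kernel)) h
  · rcases brec_true h with h | h
    · rcases brec_true h with h | h
      · exact mRel_good (T := T) (by decide) [Lt.di, Lt.f, Lt.bi, Lt.di] [Lt.c, Lt.b, Lt.f, Lt.d] (pair_rel hinv hr (by decide +kernel)) h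
      · rcases brec_true h with h | h
        · exact mRel_good (T := T) (by decide) [Lt.di, Lt.fi, Lt.bi, Lt.ci] [Lt.d, Lt.b, Lt.fi, Lt.d] (pair_rel hinv hr (by decide +kernel)) h
        · exact mRel_good (T := T) (by decide) [Lt.e, Lt.c, Lt.di] [Lt.fi, Lt.e, Lt.f, Lt.ei, Lt.fi, Lt.fi] (pair_rel hinv hr (by decide +kernel)) h
    · rcases brec_true h with h | h
      · exact mRel_good (T := T) (by decide) [Lt.di, Lt.fi, Lt.di, Lt.di, Lt.f, Lt.di, Lt.f] [Lt.fi] (pair_rel hinv hr (by decide +kernel)) h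
      · rcases brec_true h with h | h
        · exact mRel_good (T := T) (by decide) [Lt.f, Lt.c] [Lt.fi, Lt.bi, Lt.d, Lt.c, Lt.b, Lt.b] (pair_rel hinv hr (by decide +kernel)) h
        · exact mRel_good (T := T) (by decide) [Lt.ci, Lt.fi, Lt.bi, Lt.d, Lt.ci, Lt.fi, Lt.bi, Lt.d] [] (pair_rel hinv hr (by decide +kernel)) h
theorem dM_134_s (hinv : ∀ x, g (inv x) = (g x)⁻¹) (hr : ∀ r ∈ rels, (r.map g).prod = 1) (j z1 z2 u : ℕ) (h : dM_134 j z1 z2 u = true) : GoodM (fa g) T MG M (cP g H) u := by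
  unfold dM_134 at h
  rcases brec_true h with h | h
  · rcases brec_true h with h | h
    · rcases brec_true h with h | h
      · exact mRel_good (T := T) (by decide) [Lt.f, Lt.f, Lt.c, Lt.di, Lt.bi, Lt.ci, Lt.b] [Lt.di] (pair_rel hinv hr (by decide +kernel)) h
      · exact mRel_good (T := T) (by decide) [Lt.bi, Lt.ci, Lt.d, Lt.c, Lt.bi] [Lt.ci, Lt.di, Lt.c] (pair_rel hinv hr (by decide +kernel)) h
    · rcases brec_true h with h | h
      · exact mRel_good (T := T) (by decide) [Lt.di, Lt.f] [Lt.d, Lt.b, Lt.c, Lt.bi, Lt.ci, Lt.bi] (pair_rel hinv hr (by decide +kernel)) h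
      · rcases brec_true h with h | h
        · exact mRel_good (T := T) (by decide) [Lt.c, Lt.b] [Lt.di, Lt.b, Lt.f, Lt.f, Lt.c, Lt.bi] (pair_rel hinv hr (by decide +kernel)) h
        · exact mRel_good (T := T) (by decide) [Lt.c, Lt.b, Lt.ci, Lt.ci, Lt.di, Lt.c] [Lt.b, Lt.ci] (pair_rel hinv hr (by decide +kernel)) h
  · rcases brec_true h with h | h
    · rcases brec_true h with h | h
      · exact mRel_good (T := T) (by decide) [Lt.d, Lt.bi, Lt.fi] [Lt.f, Lt.c, Lt.b, Lt.c, Lt.d] (pair_rel hinv hr (by decide +kernel)) h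
      · exact mRel_good (T := T) (by decide) [Lt.bi, Lt.f, Lt.d, Lt.b, Lt.c, Lt.d, Lt.b] [Lt.c] (pair_rel hinv hr (by decide +kernel)) h
    · rcases brec_true h with h | h
      · exact mRel_good (T := T) (by decide) [Lt.d, Lt.fi, Lt.bi, Lt.fi, Lt.b, Lt.b] [Lt.c, Lt.fi] (pair_rel hinv hr (by decide +kernel)) h
      · rcases brec_true h with h | h
        · exact mRel_good (T := T) (by decide) [Lt.di, Lt.ci, Lt.bi, Lt.di, Lt.fi, Lt.b, Lt.c, Lt.bi] [] (pair_rel hinv hr (by decide +kernel)) h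
        · exact mRel_good (T := T) (by decide) [Lt.di, Lt.f, Lt.di, Lt.ci, Lt.ci, Lt.bi] [Lt.bi, Lt.c] (pair_rel hinv hr (by decide +kernel)) h
theorem dM_135_s (hinv : ∀ x, g (inv x) = (g x)⁻¹) (hr : ∀ r ∈ rels, (r.map g).prod = 1) (j z1 z2 u : ℕ) (h : dM_135 j z1 z2 u = true) : GoodM (fa g) T MG M (cP g H) u := by
  unfold dM_135 at h
  rcases brec_true h with h | h
  · rcases brec_true h with h | h
    · rcases brec_true h with h | h
      · exact mRel_good (T := T) (by decide) [Lt.fi, Lt.b, Lt.c, Lt.b, Lt.ci, Lt.bi] [Lt.d, Lt.f] (pair_rel hinv hr (by decide +kernel)) h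
      · exact mRel_good (T := T) (by decide) [Lt.fi, Lt.d] [Lt.f, Lt.di, Lt.fi, Lt.di, Lt.di, Lt.f] (pair_rel hinv hr (by decide +kernel)) h
    · rcases brec_true h with h | h
      · exact mRel_good (T := T) (by decide) [Lt.fi, Lt.di, Lt.ci, Lt.b, Lt.di] [Lt.ci, Lt.b, Lt.fi] (pair_rel hinv hr (by decide +kernel)) h
      · rcases brec_true h with h | h
        · exact mRel_good (T := T) (by decide) [Lt.bi, Lt.di, Lt.ci, Lt.bi, Lt.di, Lt.fi] [Lt.ci, Lt.bi] (pair_rel hinv hr (by decide +kernel)) h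
        · exact mRel_good (T := T) (by decide) [Lt.bi] [Lt.ci, Lt.bi, Lt.f, Lt.d, Lt.b, Lt.c, Lt.d] (pair_rel hinv hr (by decide +kernel)) h
  · rcases brec_true h with h | h
    · rcases brec_true h with h | h
      · exact mRel_good (T := T) (by decide) [Lt.b, Lt.b] [Lt.f, Lt.b, Lt.f, Lt.di, Lt.c, Lt.fi] (pair_rel hinv hr (by decide +kernel)) h
      · rcases brec_true h with h | h
        · exact mRel_good (T := T) (by decide) [Lt.bi, Lt.d] [Lt.c, Lt.d, Lt.ci, Lt.bi, Lt.d, Lt.fi] (pair_rel hinv hr (by decide +kernel)) h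
        · exact mRel_good (T := T) (by decide) [Lt.d, Lt.bi, Lt.d, Lt.d, Lt.b, Lt.d] [Lt.di, Lt.b] (pair_rel hinv hr (by decide +kernel)) h
    · rcases brec_true h with h | h
      · exact mRel_good (T := T) (by decide) [Lt.c, Lt.bi, Lt.c] [Lt.b, Lt.ci, Lt.b, Lt.ci, Lt.b] (pair_rel hinv hr (by decide +kernel)) h
      · rcases brec_true h with h | h
        · exact mRel_good (T := T) (by decide) [Lt.f, Lt.di, Lt.ci] [Lt.d, Lt.bi, Lt.c, Lt.b, Lt.c] (pair_rel hinv hr (by decide +kernel)) h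
        · exact mRel_good (T := T) (by decide) [Lt.d, Lt.c, Lt.bi, Lt.di, Lt.c, Lt.fi] [Lt.ci, Lt.bi] (pair_rel hinv hr (by decide +kernel)) h
theorem dM_136_s (hinv : ∀ x, g (inv x) = (g x)⁻¹) (hr : ∀ r ∈ rels, (r.map g).prod = 1) (j z1 z2 u : ℕ) (h : dM_136 j z1 z2 u = true) : GoodM (fa g) T MG M (cP g H) u := by
  unfold dM_136 at h
  rcases brec_true h with h | h
  · exact dM_134_s hinv hr j z1 z2 u h
  · exact dM_135_s hinv hr j z1 z2 u h
theorem dM_137_s (hinv : ∀ x, g (inv x) = (g x)⁻¹) (hr : ∀ r ∈ rels, (r.map g).prod = 1) (j z1 z2 u : ℕ) (h : dM_137 j z1 z2 u = true) : GoodM (fa g) T MG M (cP g H) u := by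
  unfold dM_137 at h
  rcases brec_true h with h | h
  · exact dM_133_s hinv hr j z1 z2 u h
  · exact dM_136_s hinv hr j z1 z2 u h
theorem dM_138_s (hinv : ∀ x, g (inv x) = (g x)⁻¹) (hr : ∀ r ∈ rels, (r.map g).prod = 1) (j z1 z2 u : ℕ) (h : dM_138 j z1 z2 u = true) : GoodM (fa g) T MG M (cP g H) u := by
  unfold dM_138 at h
  rcases brec_true h with h | h
  · rcases brec_true h with h | h
    · rcases brec_true h with h | h
      · exact mRel_good (T := T) (by decide) [Lt.c, Lt.b] [Lt.b, Lt.d, Lt.f, Lt.f, Lt.c, Lt.di] (pair_rel hinv hr (by decide +kernel)) h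
      · exact mRel_good (T := T) (by decide) [Lt.d, Lt.c, Lt.c, Lt.bi] [Lt.c, Lt.c, Lt.bi, Lt.c] (pair_rel hinv hr (by decide +kernel)) h
    · rcases brec_true h with h | h
      · exact mRel_good (T := T) (by decide) [Lt.f, Lt.c, Lt.di, Lt.bi] [Lt.fi, Lt.di, Lt.bi, Lt.c] (pair_rel hinv hr (by decide +kernel)) h
      · rcases brec_true h with h | h
        · exact mRel_good (T := T) (by decide) [Lt.fi, Lt.d, Lt.c, Lt.b, Lt.f] [Lt.bi, Lt.di, Lt.di] (pair_rel hinv hr (by decide +kernel)) h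
        · exact mRel_good (T := T) (by decide) [Lt.b, Lt.d, Lt.ci, Lt.fi] [Lt.ci, Lt.b, Lt.d, Lt.f] (pair_rel hinv hr (by decide +kernel)) h
  · rcases brec_true h with h | h
    · rcases brec_true h with h | h
      · exact mRel_good (T := T) (by decide) [Lt.b, Lt.b, Lt.f, Lt.ci, Lt.d, Lt.fi, Lt.bi] [Lt.f] (pair_rel hinv hr (by decide +kernel)) h
      · exact mRel_good (T := T) (by decide) [Lt.bi, Lt.ci] [Lt.f, Lt.d, Lt.d, Lt.b, Lt.fi, Lt.d] (pair_rel hinv hr (by decide +kernel)) h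
    · rcases brec_true h with h | h
      · exact mRel_good (T := T) (by decide) [Lt.fi, Lt.b, Lt.c, Lt.d] [Lt.ci, Lt.d, Lt.b, Lt.ci] (pair_rel hinv hr (by decide +kernel)) h
      · rcases brec_true h with h | h
        · exact mRel_good (T := T) (by decide) [Lt.b, Lt.b, Lt.ci, Lt.fi] [Lt.ci, Lt.di, Lt.b, Lt.f] (pair_rel hinv hr (by decide +kernel)) h
        · exact mRel_good (T := T) (by decide) [Lt.d, Lt.fi, Lt.d, Lt.bi, Lt.c, Lt.b] [Lt.ci, Lt.ci] (pair_rel hinv hr (by decide +kernel)) h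
theorem dM_139_s (hinv : ∀ x, g (inv x) = (g x)⁻¹) (hr : ∀ r ∈ rels, (r.map g).prod = 1) (j z1 z2 u : ℕ) (h : dM_139 j z1 z2 u = true) : GoodM (fa g) T MG M (cP g H) u := by
  unfold dM_139 at h
  rcases brec_true h with h | h
  · rcases brec_true h with h | h
    · rcases brec_true h with h | h
      · exact mRel_good (T := T) (by decide) [Lt.bi, Lt.di, Lt.c, Lt.fi, Lt.b, Lt.c, Lt.d] [Lt.ci] (pair_rel hinv hr (by decide +kernel)) h
      · exact mRel_good (T := T) (by decide) [Lt.d, Lt.d, Lt.bi, Lt.d, Lt.d] [Lt.b, Lt.di, Lt.bi] (pair_rel hinv hr (by decide +kernel)) h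
    · rcases brec_true h with h | h
      · exact mRel_good (T := T) (by decide) [Lt.fi, Lt.e, Lt.f, Lt.ei, Lt.fi, Lt.fi] [Lt.e, Lt.c, Lt.di] (pair_rel hinv hr (by decide +kernel)) h
      · rcases brec_true h with h | h
        · exact mRel_good (T := T) (by decide) [Lt.ci, Lt.fi, Lt.fi, Lt.di, Lt.bi, Lt.c, Lt.b] [Lt.di] (pair_rel hinv hr (by decide +kernel)) h
        · exact mRel_good (T := T) (by decide) [Lt.di, Lt.ci, Lt.bi, Lt.f, Lt.b] [Lt.b, Lt.b, Lt.ci] (pair_rel hinv hr (by decide +kernel)) h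
  · rcases brec_true h with h | h
    · rcases brec_true h with h | h
      · exact mRel_good (T := T) (by decide) [Lt.c, Lt.bi, Lt.d] [Lt.d, Lt.b, Lt.f, Lt.ci, Lt.f] (pair_rel hinv hr (by decide +kernel)) h
      · rcases brec_true h with h | h
        · exact mRel_good (T := T) (by decide) [Lt.f, Lt.e] [Lt.b, Lt.f, Lt.d, Lt.ei, Lt.bi, Lt.c, Lt.fi] (pair_rel hinv hr (by decide +kernel)) h
        · exact mRel_good (T := T) (by decide) [Lt.fi, Lt.d, Lt.bi, Lt.c, Lt.b] [Lt.di, Lt.ci, Lt.ci] (pair_rel hinv hr (by decide +kernel)) h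
    · rcases brec_true h with h | h
      · exact mRel_good (T := T) (by decide) [Lt.bi, Lt.f, Lt.ci, Lt.d, Lt.b] [Lt.c, Lt.d, Lt.c] (pair_rel hinv hr (by decide +kernel)) h
      · rcases brec_true h with h | h
        · exact mRel_good (T := T) (by decide) [Lt.fi, Lt.di, Lt.e, Lt.fi, Lt.ei, Lt.f, Lt.e, Lt.c, Lt.d] [] (pair_rel hinv hr (by decide +kernel)) h
        · exact mRel_good (T := T) (by decide) [Lt.di, Lt.b, Lt.c, Lt.di, Lt.c] [Lt.ci, Lt.b, Lt.di] (pair_rel hinv hr (by decide +kernel)) h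
theorem dM_140_s (hinv : ∀ x, g (inv x) = (g x)⁻¹) (hr : ∀ r ∈ rels, (r.map g).prod = 1) (j z1 z2 u : ℕ) (h : dM_140 j z1 z2 u = true) : GoodM (fa g) T MG M (cP g H) u := by
  unfold dM_140 at h
  rcases brec_true h with h | h
  · exact dM_138_s hinv hr j z1 z2 u h
  · exact dM_139_s hinv hr j z1 z2 u h
theorem dM_141_s (hinv : ∀ x, g (inv x) = (g x)⁻¹) (hr : ∀ r ∈ rels, (r.map g).prod = 1) (j z1 z2 u : ℕ) (h : dM_141 j z1 z2 u = true) : GoodM (fa g) T MG M (cP g H) u := by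
  unfold dM_141 at h
  rcases brec_true h with h | h
  · rcases brec_true h with h | h
    · rcases brec_true h with h | h
      · exact mRel_good (T := T) (by decide) [Lt.c, Lt.c] [Lt.di, Lt.c, Lt.c, Lt.bi, Lt.c, Lt.b] (pair_rel hinv hr (by decide +kernel)) h
      · exact mRel_good (T := T) (by decide) [Lt.d, Lt.b, Lt.c, Lt.bi, Lt.ci, Lt.bi] [Lt.di, Lt.f] (pair_rel hinv hr (by decide +kernel)) h
    · rcases brec_true h with h | h
      · exact mRel_good (T := T) (by decide) [Lt.fi, Lt.bi, Lt.di, Lt.c, Lt.bi, Lt.d, Lt.fi, Lt.c] [] (pair_rel hinv hr (by decide +kernel)) h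
      · rcases brec_true h with h | h
        · exact mRel_good (T := T) (by decide) [Lt.b] [Lt.bi, Lt.di, Lt.ci, Lt.bi, Lt.f, Lt.b, Lt.c] (pair_rel hinv hr (by decide +kernel)) h
        · exact mRel_good (T := T) (by decide) [Lt.f, Lt.ei, Lt.fi, Lt.fi, Lt.d, Lt.ci, Lt.ei] [Lt.ei, Lt.f] (pair_rel hinv hr (by decide +kernel)) h
  · rcases brec_true h with h | h
    · rcases brec_true h with h | h
      · exact mRel_good (T := T) (by decide) [Lt.d, Lt.d, Lt.b, Lt.d] [Lt.b, Lt.di, Lt.di, Lt.b] (pair_rel hinv hr (by decide +kernel)) h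
      · rcases brec_true h with h | h
        · exact mRel_good (T := T) (by decide) [Lt.fi, Lt.di, Lt.ci] [Lt.ci, Lt.b, Lt.fi, Lt.d, Lt.bi] (pair_rel hinv hr (by decide +kernel)) h
        · exact mRel_good (T := T) (by decide) [Lt.bi, Lt.di, Lt.di, Lt.fi, Lt.bi, Lt.ci, Lt.di, Lt.f] [] (pair_rel hinv hr (by decide +kernel)) h
    · rcases brec_true h with h | h
      · exact mRel_good (T := T) (by decide) [Lt.c, Lt.bi, Lt.c] [Lt.ci, Lt.d, Lt.c, Lt.c, Lt.bi] (pair_rel hinv hr (by decide +kernel)) h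
      · rcases brec_true h with h | h
        · exact mRel_good (T := T) (by decide) [Lt.e, Lt.f, Lt.ei, Lt.fi] [Lt.f, Lt.e, Lt.c, Lt.di, Lt.f] (pair_rel hinv hr (by decide +kernel)) h
        · exact mRel_good (T := T) (by decide) [Lt.d, Lt.bi, Lt.fi, Lt.di, Lt.ci, Lt.bi, Lt.ci] [Lt.f] (pair_rel hinv hr (by decide +kernel)) h
theorem dM_142_s (hinv : ∀ x, g (inv x) = (g x)⁻¹) (hr : ∀ r ∈ rels, (r.map g).prod = 1) (j z1 z2 u : ℕ) (h : dM_142 j z1 z2 u = true) : GoodM (fa g) T MG M (cP g H) u := by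
  unfold dM_142 at h
  rcases brec_true h with h | h
  · rcases brec_true h with h | h
    · rcases brec_true h with h | h
      · exact mRel_good (T := T) (by decide) [Lt.e, Lt.c, Lt.di, Lt.f, Lt.f, Lt.e, Lt.fi] [Lt.fi, Lt.e] (pair_rel hinv hr (by decide +kernel)) h
      · exact mRel_good (T := T) (by decide) [Lt.fi] [Lt.c, Lt.bi, Lt.ci, Lt.ci, Lt.bi, Lt.f, Lt.c, Lt.di] (pair_rel hinv hr (by decide +kernel)) h
    · rcases brec_true h with h | h
      · exact mRel_good (T := T) (by decide) [Lt.c, Lt.bi, Lt.ci, Lt.bi] [Lt.bi, Lt.di, Lt.di, Lt.f] (pair_rel hinv hr (by decide +kernel)) h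
      · rcases brec_true h with h | h
        · exact mRel_good (T := T) (by decide) [Lt.c, Lt.c, Lt.bi, Lt.c, Lt.b] [Lt.d, Lt.c, Lt.c] (pair_rel hinv hr (by decide +kernel)) h
        · exact mRel_good (T := T) (by decide) [Lt.fi, Lt.d, Lt.fi, Lt.d, Lt.d, Lt.f] [Lt.f, Lt.di] (pair_rel hinv hr (by decide +kernel)) h
  · rcases brec_true h with h | h
    · rcases brec_true h with h | h
      · exact mRel_good (T := T) (by decide) [Lt.d, Lt.ci, Lt.ci, Lt.b] [Lt.bi, Lt.c, Lt.c, Lt.di] (pair_rel hinv hr (by decide +kernel)) h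
      · rcases brec_true h with h | h
        · exact mRel_good (T := T) (by decide) [Lt.f, Lt.di, Lt.b, Lt.ci, Lt.d, Lt.b] [Lt.c, Lt.fi] (pair_rel hinv hr (by decide +kernel)) h
        · exact mRel_good (T := T) (by decide) [Lt.bi, Lt.ci, Lt.b, Lt.ci, Lt.ci, Lt.d] [Lt.ci, Lt.ci] (pair_rel hinv hr (by decide +kernel)) h
    · rcases brec_true h with h | h
      · exact mRel_good (T := T) (by decide) [Lt.c, Lt.c, Lt.d, Lt.fi] [Lt.bi, Lt.ci, Lt.b, Lt.di] (pair_rel hinv hr (by decide +kernel)) h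
      · rcases brec_true h with h | h
        · exact mRel_good (T := T) (by decide) [Lt.bi, Lt.fi, Lt.di] [Lt.c, Lt.bi, Lt.ci, Lt.bi, Lt.f] (pair_rel hinv hr (by decide +kernel)) h
        · exact mRel_good (T := T) (by decide) [Lt.di] [Lt.ci, Lt.bi, Lt.d, Lt.ci, Lt.b, Lt.di, Lt.ci] (pair_rel hinv hr (by decide +kernel)) h
theorem dM_143_s (hinv : ∀ x, g (inv x) = (g x)⁻¹) (hr : ∀ r ∈ rels, (r.map g).prod = 1) (j z1 z2 u : ℕ) (h : dM_143 j z1 z2 u = true) : GoodM (fa g) T MG M (cP g H) u := by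
  unfold dM_143 at h
  rcases brec_true h with h | h
  · exact dM_141_s hinv hr j z1 z2 u h
  · exact dM_142_s hinv hr j z1 z2 u h
theorem dM_144_s (hinv : ∀ x, g (inv x) = (g x)⁻¹) (hr : ∀ r ∈ rels, (r.map g).prod = 1) (j z1 z2 u : ℕ) (h : dM_144 j z1 z2 u = true) : GoodM (fa g) T MG M (cP g H) u := by
  unfold dM_144 at h
  rcases brec_true h with h | h
  · exact dM_140_s hinv hr j z1 z2 u h
  · exact dM_143_s hinv hr j z1 z2 u h
theorem dM_145_s (hinv : ∀ x, g (inv x) = (g x)⁻¹) (hr : ∀ r ∈ rels, (r.map g).prod = 1) (j z1 z2 u : ℕ) (h : dM_145 j z1 z2 u = true) : GoodM (fa g) T MG M (cP g H) u := by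
  unfold dM_145 at h
  rcases brec_true h with h | h
  · exact dM_137_s hinv hr j z1 z2 u h
  · exact dM_144_s hinv hr j z1 z2 u h
theorem dM_146_s (hinv : ∀ x, g (inv x) = (g x)⁻¹) (hr : ∀ r ∈ rels, (r.map g).prod = 1) (j z1 z2 u : ℕ) (h : dM_146 j z1 z2 u = true) : GoodM (fa g) T MG M (cP g H) u := by
  unfold dM_146 at h
  rcases brec_true h with h | h
  · rcases brec_true h with h | h
    · rcases brec_true h with h | h
      · exact mRel_good (T := T) (by decide) [Lt.c, Lt.di, Lt.ci, Lt.bi, Lt.d] [Lt.bi, Lt.d, Lt.fi] (pair_rel hinv hr (by decide +kernel)) h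
      · exact mRel_good (T := T) (by decide) [Lt.d, Lt.d, Lt.b, Lt.fi, Lt.d, Lt.c, Lt.b] [Lt.fi] (pair_rel hinv hr (by decide +kernel)) h
    · rcases brec_true h with h | h
      · exact mRel_good (T := T) (by decide) [Lt.b, Lt.c, Lt.d, Lt.c, Lt.bi, Lt.di] [Lt.f, Lt.ci] (pair_rel hinv hr (by decide +kernel)) h
      · rcases brec_true h with h | h
        · exact mRel_good (T := T) (by decide) [Lt.di] [Lt.b, Lt.c, Lt.d, Lt.b, Lt.ci, Lt.bi, Lt.f] (pair_rel hinv hr (by decide +kernel)) h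
        · exact mRel_good (T := T) (by decide) [Lt.ci, Lt.ci, Lt.di, Lt.c, Lt.c] [Lt.bi, Lt.ci, Lt.b] (pair_rel hinv hr (by decide +kernel)) h
  · rcases brec_true h with h | h
    · rcases brec_true h with h | h
      · exact mRel_good (T := T) (by decide) [Lt.bi, Lt.ci, Lt.b] [Lt.ci, Lt.ci, Lt.di, Lt.c, Lt.c] (pair_rel hinv hr (by decide +kernel)) h
      · exact mRel_good (T := T) (by decide) [Lt.bi, Lt.d] [Lt.di, Lt.bi, Lt.di, Lt.di, Lt.b, Lt.di] (pair_rel hinv hr (by decide +kernel)) h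
    · rcases brec_true h with h | h
      · exact mRel_good (T := T) (by decide) [Lt.di, Lt.di, Lt.fi, Lt.c, Lt.di, Lt.di] [Lt.ci, Lt.f] (pair_rel hinv hr (by decide +kernel)) h
      · rcases brec_true h with h | h
        · exact mRel_good (T := T) (by decide) [Lt.fi, Lt.fi, Lt.di, Lt.bi] [Lt.c, Lt.di, Lt.bi, Lt.ci] (pair_rel hinv hr (by decide +kernel)) h
        · exact mRel_good (T := T) (by decide) [Lt.c, Lt.b, Lt.ci, Lt.di, Lt.c] [Lt.d, Lt.c, Lt.bi] (pair_rel hinv hr (by decide +kernel)) h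
theorem dM_147_s (hinv : ∀ x, g (inv x) = (g x)⁻¹) (hr : ∀ r ∈ rels, (r.map g).prod = 1) (j z1 z2 u : ℕ) (h : dM_147 j z1 z2 u = true) : GoodM (fa g) T MG M (cP g H) u := by
  unfold dM_147 at h
  rcases brec_true h with h | h
  · rcases brec_true h with h | h
    · rcases brec_true h with h | h
      · exact mRel_good (T := T) (by decide) [Lt.ci, Lt.bi, Lt.di, Lt.di, Lt.f, Lt.b] [Lt.bi, Lt.ci] (pair_rel hinv hr (by decide +kernel)) h
      · exact mRel_good (T := T) (by decide) [Lt.b, Lt.c, Lt.d, Lt.b] [Lt.f, Lt.b, Lt.c, Lt.bi] (pair_rel hinv hr (by decide +kernel)) h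
    · rcases brec_true h with h | h
      · exact mRel_good (T := T) (by decide) [Lt.fi, Lt.di, Lt.di, Lt.f] [Lt.d, Lt.fi, Lt.fi, Lt.d] (pair_rel hinv hr (by decide +kernel)) h
      · rcases brec_true h with h | h
        · exact mRel_good (T := T) (by decide) [Lt.fi, Lt.ei, Lt.f, Lt.e, Lt.c, Lt.di, Lt.f, Lt.f, Lt.e] [] (pair_rel hinv hr (by decide +kernel)) h
        · exact mRel_good (T := T) (by decide) [Lt.fi, Lt.e, Lt.f, Lt.ei, Lt.fi, Lt.fi, Lt.d, Lt.ci] [Lt.e] (pair_rel hinv hr (by decide +kernel)) h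
  · rcases brec_true h with h | h
    · rcases brec_true h with h | h
      · exact mRel_good (T := T) (by decide) [Lt.b, Lt.d, Lt.f, Lt.f, Lt.c, Lt.di, Lt.bi] [Lt.c] (pair_rel hinv hr (by decide +kernel)) h
      · rcases brec_true h with h | h
        · exact mRel_good (T := T) (by decide) [Lt.c, Lt.bi, Lt.bi, Lt.di, Lt.ci, Lt.bi] [Lt.bi, Lt.fi] (pair_rel hinv hr (by decide +kernel)) h
        · exact mRel_good (T := T) (by decide) [Lt.f, Lt.c, Lt.bi, Lt.bi, Lt.ci, Lt.di, Lt.b, Lt.f] [] (pair_rel hinv hr (by decide +kernel)) h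
    · rcases brec_true h with h | h
      · exact mRel_good (T := T) (by decide) [Lt.bi, Lt.ci, Lt.b, Lt.d] [Lt.d, Lt.ci, Lt.fi, Lt.fi] (pair_rel hinv hr (by decide +kernel)) h
      · rcases brec_true h with h | h
        · exact mRel_good (T := T) (by decide) [Lt.b, Lt.di, Lt.f] [Lt.c, Lt.d, Lt.f, Lt.ci, Lt.b] (pair_rel hinv hr (by decide +kernel)) h
        · exact mRel_good (T := T) (by decide) [Lt.bi, Lt.ci] [Lt.c, Lt.d, Lt.f, Lt.b, Lt.di, Lt.f] (pair_rel hinv hr (by decide +kernel)) h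
theorem dM_148_s (hinv : ∀ x, g (inv x) = (g x)⁻¹) (hr : ∀ r ∈ rels, (r.map g).prod = 1) (j z1 z2 u : ℕ) (h : dM_148 j z1 z2 u = true) : GoodM (fa g) T MG M (cP g H) u := by
  unfold dM_148 at h
  rcases brec_true h with h | h
  · exact dM_146_s hinv hr j z1 z2 u h
  · exact dM_147_s hinv hr j z1 z2 u h
theorem dM_149_s (hinv : ∀ x, g (inv x) = (g x)⁻¹) (hr : ∀ r ∈ rels, (r.map g).prod = 1) (j z1 z2 u : ℕ) (h : dM_149 j z1 z2 u = true) : GoodM (fa g) T MG M (cP g H) u := by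
  unfold dM_149 at h
  rcases brec_true h with h | h
  · rcases brec_true h with h | h
    · rcases brec_true h with h | h
      · exact mRel_good (T := T) (by decide) [Lt.ei, Lt.fi, Lt.b, Lt.f, Lt.d, Lt.ei, Lt.bi] [Lt.f, Lt.ci] (pair_rel hinv hr (by decide +kernel)) h
      · exact mRel_good (T := T) (by decide) [Lt.di] [Lt.c, Lt.bi, Lt.ci, Lt.ci, Lt.f, Lt.c, Lt.c, Lt.f] (pair_rel hinv hr (by decide +kernel)) h
    · rcases brec_true h with h | h
      · exact mRel_good (T := T) (by decide) [Lt.ci, Lt.b, Lt.fi, Lt.d, Lt.bi] [Lt.fi, Lt.di, Lt.ci] (pair_rel hinv hr (by decide +kernel)) h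
      · rcases brec_true h with h | h
        · exact mRel_good (T := T) (by decide) [Lt.d, Lt.ci, Lt.fi, Lt.e, Lt.f, Lt.ei, Lt.fi, Lt.e] [Lt.f] (pair_rel hinv hr (by decide +kernel)) h
        · exact mRel_good (T := T) (by decide) [Lt.b, Lt.d, Lt.c, Lt.bi, Lt.ci, Lt.b] [Lt.fi, Lt.d, Lt.bi] (pair_rel hinv hr (by decide +kernel)) h
  · rcases brec_true h with h | h
    · rcases brec_true h with h | h
      · exact mRel_good (T := T) (by decide) [Lt.f, Lt.di, Lt.f] [Lt.d, Lt.d, Lt.f, Lt.d, Lt.fi] (pair_rel hinv hr (by decide +kernel)) h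
      · rcases brec_true h with h | h
        · exact mRel_good (T := T) (by decide) [Lt.d, Lt.fi, Lt.di] [Lt.b, Lt.c, Lt.di, Lt.ci, Lt.bi] (pair_rel hinv hr (by decide +kernel)) h
        · exact mRel_good (T := T) (by decide) [Lt.di, Lt.ci, Lt.b] [Lt.f, Lt.ci, Lt.b, Lt.fi, Lt.d] (pair_rel hinv hr (by decide +kernel)) h
    · rcases brec_true h with h | h
      · exact mRel_good (T := T) (by decide) [Lt.c, Lt.c, Lt.di, Lt.bi, Lt.c, Lt.c] [Lt.b, Lt.d] (pair_rel hinv hr (by decide +kernel)) h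
      · rcases brec_true h with h | h
        · exact mRel_good (T := T) (by decide) [Lt.ci, Lt.fi, Lt.bi] [Lt.bi, Lt.f, Lt.f, Lt.di, Lt.c, Lt.f] (pair_rel hinv hr (by decide +kernel)) h
        · exact mRel_good (T := T) (by decide) [Lt.bi, Lt.di, Lt.c] [Lt.ci, Lt.di, Lt.ci, Lt.bi, Lt.f] (pair_rel hinv hr (by decide +kernel)) h
theorem dM_150_s (hinv : ∀ x, g (inv x) = (g x)⁻¹) (hr : ∀ r ∈ rels, (r.map g).prod = 1) (j z1 z2 u : ℕ) (h : dM_150 j z1 z2 u = true) : GoodM (fa g) T MG M (cP g H) u := by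
  unfold dM_150 at h
  rcases brec_true h with h | h
  · rcases brec_true h with h | h
    · rcases brec_true h with h | h
      · exact mRel_good (T := T) (by decide) [Lt.di, Lt.ci, Lt.bi] [Lt.f, Lt.b, Lt.di, Lt.f, Lt.c] (pair_rel hinv hr (by decide +kernel)) h
      · exact mRel_good (T := T) (by decide) [Lt.b, Lt.c, Lt.d, Lt.b] [Lt.di, Lt.fi, Lt.b, Lt.c] (pair_rel hinv hr (by decide +kernel)) h
    · rcases brec_true h with h | h
      · exact mRel_good (T := T) (by decide) [Lt.di, Lt.ci, Lt.bi, Lt.di] [Lt.b, Lt.ci, Lt.bi, Lt.f] (pair_rel hinv hr (by decide +kernel)) h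
      · rcases brec_true h with h | h
        · exact mRel_good (T := T) (by decide) [Lt.d, Lt.ci, Lt.bi, Lt.d] [Lt.c, Lt.d, Lt.bi, Lt.c] (pair_rel hinv hr (by decide +kernel)) h
        · exact mRel_good (T := T) (by decide) [Lt.c, Lt.b, Lt.b, Lt.ci, Lt.fi, Lt.fi] [Lt.di, Lt.b] (pair_rel hinv hr (by decide +kernel)) h
  · rcases brec_true h with h | h
    · rcases brec_true h with h | h
      · exact mRel_good (T := T) (by decide) [Lt.bi, Lt.d, Lt.c] [Lt.f, Lt.f, Lt.c, Lt.bi, Lt.bi] (pair_rel hinv hr (by decide +kernel)) h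
      · rcases brec_true h with h | h
        · exact mRel_good (T := T) (by decide) [Lt.d, Lt.ci, Lt.b, Lt.di, Lt.ci, Lt.d] [Lt.b, Lt.c] (pair_rel hinv hr (by decide +kernel)) h
        · exact mRel_good (T := T) (by decide) [Lt.bi, Lt.c, Lt.fi, Lt.ei] [Lt.e, Lt.di, Lt.fi, Lt.bi, Lt.f] (pair_rel hinv hr (by decide +kernel)) h
    · rcases brec_true h with h | h
      · exact mRel_good (T := T) (by decide) [Lt.ci, Lt.f, Lt.b, Lt.ci, Lt.fi, Lt.b] [Lt.d, Lt.d] (pair_rel hinv hr (by decide +kernel)) h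
      · rcases brec_true h with h | h
        · exact mRel_good (T := T) (by decide) [Lt.bi, Lt.d, Lt.fi, Lt.c, Lt.fi, Lt.bi] [Lt.ci, Lt.d] (pair_rel hinv hr (by decide +kernel)) h
        · exact mRel_good (T := T) (by decide) [Lt.f, Lt.di] [Lt.di, Lt.b, Lt.c, Lt.d, Lt.ci, Lt.bi] (pair_rel hinv hr (by decide +kernel)) h
theorem dM_151_s (hinv : ∀ x, g (inv x) = (g x)⁻¹) (hr : ∀ r ∈ rels, (r.map g).prod = 1) (j z1 z2 u : ℕ) (h : dM_151 j z1 z2 u = true) : GoodM (fa g) T MG M (cP g H) u := by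
  unfold dM_151 at h
  rcases brec_true h with h | h
  · exact dM_149_s hinv hr j z1 z2 u h
  · exact dM_150_s hinv hr j z1 z2 u h
theorem dM_152_s (hinv : ∀ x, g (inv x) = (g x)⁻¹) (hr : ∀ r ∈ rels, (r.map g).prod = 1) (j z1 z2 u : ℕ) (h : dM_152 j z1 z2 u = true) : GoodM (fa g) T MG M (cP g H) u := by
  unfold dM_152 at h
  rcases brec_true h with h | h
  · exact dM_148_s hinv hr j z1 z2 u h
  · exact dM_151_s hinv hr j z1 z2 u h
theorem dM_153_s (hinv : ∀ x, g (inv x) = (g x)⁻¹) (hr : ∀ r ∈ rels, (r.map g).prod = 1) (j z1 z2 u : ℕ) (h : dM_153 j z1 z2 u = true) : GoodM (fa g) T MG M (cP g H) u := by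
  unfold dM_153 at h
  rcases brec_true h with h | h
  · rcases brec_true h with h | h
    · rcases brec_true h with h | h
      · exact mRel_good (T := T) (by decide) [Lt.di, Lt.c, Lt.bi, Lt.d, Lt.fi, Lt.c] [Lt.b, Lt.f] (pair_rel hinv hr (by decide +kernel)) h
      · exact mRel_good (T := T) (by decide) [Lt.f, Lt.ci, Lt.b, Lt.fi, Lt.d, Lt.bi] [Lt.di, Lt.ci] (pair_rel hinv hr (by decide +kernel)) h
    · rcases brec_true h with h | h
      · exact mRel_good (T := T) (by decide) [Lt.d, Lt.f, Lt.f] [Lt.bi, Lt.c, Lt.b, Lt.d, Lt.ci] (pair_rel hinv hr (by decide +kernel)) h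
      · rcases brec_true h with h | h
        · exact mRel_good (T := T) (by decide) [Lt.bi, Lt.ci, Lt.b, Lt.di] [Lt.c, Lt.c, Lt.d, Lt.fi] (pair_rel hinv hr (by decide +kernel)) h
        · exact mRel_good (T := T) (by decide) [Lt.fi, Lt.di, Lt.ci, Lt.b, Lt.di, Lt.f] [Lt.ci, Lt.b] (pair_rel hinv hr (by decide +kernel)) h
  · rcases brec_true h with h | h
    · rcases brec_true h with h | h
      · exact mRel_good (T := T) (by decide) [Lt.e, Lt.fi, Lt.ei, Lt.f, Lt.c, Lt.di, Lt.f] [Lt.fi, Lt.e] (pair_rel hinv hr (by decide +kernel)) h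
      · exact mRel_good (T := T) (by decide) [Lt.fi, Lt.d, Lt.bi] [Lt.di, Lt.ci, Lt.ci, Lt.bi, Lt.ci] (pair_rel hinv hr (by decide +kernel)) h
    · rcases brec_true h with h | h
      · exact mRel_good (T := T) (by decide) [Lt.fi, Lt.b, Lt.c, Lt.d, Lt.b, Lt.b] [Lt.b, Lt.c] (pair_rel hinv hr (by decide +kernel)) h
      · rcases brec_true h with h | h
        · exact mRel_good (T := T) (by decide) [Lt.b, Lt.c, Lt.b, Lt.ci] [Lt.f, Lt.d, Lt.f, Lt.b] (pair_rel hinv hr (by decide +kernel)) h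
        · exact mRel_good (T := T) (by decide) [Lt.c, Lt.d, Lt.d, Lt.bi, Lt.f, Lt.c, Lt.bi, Lt.fi] [] (pair_rel hinv hr (by decide +kernel)) h
theorem dM_154_s (hinv : ∀ x, g (inv x) = (g x)⁻¹) (hr : ∀ r ∈ rels, (r.map g).prod = 1) (j z1 z2 u : ℕ) (h : dM_154 j z1 z2 u = true) : GoodM (fa g) T MG M (cP g H) u := by
  unfold dM_154 at h
  rcases brec_true h with h | h
  · rcases brec_true h with h | h
    · rcases brec_true h with h | h
      · exact mRel_good (T := T) (by decide) [Lt.d, Lt.bi, Lt.bi, Lt.f, Lt.c, Lt.b] [Lt.f, Lt.f, Lt.ci] (pair_rel hinv hr (by decide +kernel)) h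
      · exact mRel_good (T := T) (by decide) [Lt.bi, Lt.d, Lt.ci, Lt.fi, Lt.bi, Lt.d, Lt.ci] [Lt.f] (pair_rel hinv hr (by decide +kernel)) h
    · rcases brec_true h with h | h
      · exact mRel_good (T := T) (by decide) [Lt.fi] [Lt.c, Lt.bi, Lt.fi, Lt.c, Lt.d, Lt.d, Lt.bi] (pair_rel hinv hr (by decide +kernel)) h
      · rcases brec_true h with h | h
        · exact mRel_good (T := T) (by decide) [Lt.fi, Lt.e, Lt.f] [Lt.c, Lt.di, Lt.f, Lt.ei, Lt.f, Lt.e] (pair_rel hinv hr (by decide +kernel)) h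
        · exact mRel_good (T := T) (by decide) [Lt.fi, Lt.fi, Lt.bi] [Lt.c, Lt.bi, Lt.bi, Lt.ci, Lt.di] (pair_rel hinv hr (by decide +kernel)) h
  · rcases brec_true h with h | h
    · rcases brec_true h with h | h
      · exact mRel_good (T := T) (by decide) [Lt.di, Lt.di, Lt.ci, Lt.f, Lt.b, Lt.ci, Lt.fi] [Lt.bi] (pair_rel hinv hr (by decide +kernel)) h
      · rcases brec_true h with h | h
        · exact mRel_good (T := T) (by decide) [Lt.ci] [Lt.b, Lt.ci, Lt.bi, Lt.fi, Lt.di, Lt.fi, Lt.b] (pair_rel hinv hr (by decide +kernel)) h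
        · exact mRel_good (T := T) (by decide) [Lt.c, Lt.d, Lt.f, Lt.b, Lt.di, Lt.f, Lt.c] [Lt.bi] (pair_rel hinv hr (by decide +kernel)) h
    · rcases brec_true h with h | h
      · exact mRel_good (T := T) (by decide) [Lt.bi, Lt.di, Lt.c, Lt.bi] [Lt.f, Lt.ci, Lt.f, Lt.di] (pair_rel hinv hr (by decide +kernel)) h
      · rcases brec_true h with h | h
        · exact mRel_good (T := T) (by decide) [Lt.d, Lt.b, Lt.fi, Lt.d, Lt.c, Lt.b, Lt.f] [Lt.di] (pair_rel hinv hr (by decide +kernel)) h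
        · exact mRel_good (T := T) (by decide) [Lt.bi, Lt.ci, Lt.di] [Lt.b, Lt.ci, Lt.fi, Lt.fi, Lt.bi] (pair_rel hinv hr (by decide +kernel)) h
theorem dM_155_s (hinv : ∀ x, g (inv x) = (g x)⁻¹) (hr : ∀ r ∈ rels, (r.map g).prod = 1) (j z1 z2 u : ℕ) (h : dM_155 j z1 z2 u = true) : GoodM (fa g) T MG M (cP g H) u := by
  unfold dM_155 at h
  rcases brec_true h with h | h
  · exact dM_153_s hinv hr j z1 z2 u h
  · exact dM_154_s hinv hr j z1 z2 u h
theorem dM_156_s (hinv : ∀ x, g (inv x) = (g x)⁻¹) (hr : ∀ r ∈ rels, (r.map g).prod = 1) (j z1 z2 u : ℕ) (h : dM_156 j z1 z2 u = true) : GoodM (fa g) T MG M (cP g H) u := by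
  unfold dM_156 at h
  rcases brec_true h with h | h
  · rcases brec_true h with h | h
    · rcases brec_true h with h | h
      · exact mRel_good (T := T) (by decide) [Lt.b] [Lt.fi, Lt.ci, Lt.d, Lt.b, Lt.b, Lt.c, Lt.bi, Lt.bi] (pair_rel hinv hr (by decide +kernel)) h
      · exact mRel_good (T := T) (by decide) [Lt.ci, Lt.bi, Lt.ci, Lt.fi] [Lt.d, Lt.f, Lt.b, Lt.di] (pair_rel hinv hr (by decide +kernel)) h
    · rcases brec_true h with h | h
      · exact mRel_good (T := T) (by decide) [Lt.bi, Lt.f, Lt.d] [Lt.c, Lt.bi, Lt.di, Lt.ci, Lt.bi] (pair_rel hinv hr (by decide +kernel)) h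
      · rcases brec_true h with h | h
        · exact mRel_good (T := T) (by decide) [Lt.d, Lt.fi, Lt.d, Lt.d, Lt.f] [Lt.f, Lt.f, Lt.di] (pair_rel hinv hr (by decide +kernel)) h
        · exact mRel_good (T := T) (by decide) [Lt.di, Lt.bi, Lt.c, Lt.b, Lt.d, Lt.ci] [Lt.f, Lt.f] (pair_rel hinv hr (by decide +kernel)) h
  · rcases brec_true h with h | h
    · rcases brec_true h with h | h
      · exact mRel_good (T := T) (by decide) [Lt.ci, Lt.d, Lt.c, Lt.c, Lt.bi, Lt.ci, Lt.b, Lt.ci] [] (pair_rel hinv hr (by decide +kernel)) h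
      · rcases brec_true h with h | h
        · exact mRel_good (T := T) (by decide) [Lt.d, Lt.bi, Lt.c, Lt.b] [Lt.f, Lt.di, Lt.ci, Lt.ci] (pair_rel hinv hr (by decide +kernel)) h
        · exact mRel_good (T := T) (by decide) [Lt.b, Lt.ci, Lt.di, Lt.c, Lt.b, Lt.ci, Lt.di, Lt.c] [] (pair_rel hinv hr (by decide +kernel)) h
    · rcases brec_true h with h | h
      · exact mRel_good (T := T) (by decide) [Lt.di, Lt.di, Lt.f] [Lt.b, Lt.c, Lt.bi, Lt.ci, Lt.bi] (pair_rel hinv hr (by decide +kernel)) h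
      · rcases brec_true h with h | h
        · exact mRel_good (T := T) (by decide) [Lt.di, Lt.f, Lt.f, Lt.di] [Lt.fi, Lt.d, Lt.d, Lt.f] (pair_rel hinv hr (by decide +kernel)) h
        · exact mRel_good (T := T) (by decide) [Lt.bi, Lt.di, Lt.di, Lt.f] [Lt.c, Lt.bi, Lt.ci, Lt.bi] (pair_rel hinv hr (by decide +kernel)) h
theorem dM_157_s (hinv : ∀ x, g (inv x) = (g x)⁻¹) (hr : ∀ r ∈ rels, (r.map g).prod = 1) (j z1 z2 u : ℕ) (h : dM_157 j z1 z2 u = true) : GoodM (fa g) T MG M (cP g H) u := by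
  unfold dM_157 at h
  rcases brec_true h with h | h
  · rcases brec_true h with h | h
    · rcases brec_true h with h | h
      · exact mRel_good (T := T) (by decide) [Lt.di, Lt.fi, Lt.b] [Lt.b, Lt.c, Lt.d, Lt.b, Lt.ci] (pair_rel hinv hr (by decide +kernel)) h
      · exact mRel_good (T := T) (by decide) [Lt.b, Lt.ci, Lt.d, Lt.b, Lt.f] [Lt.d, Lt.fi, Lt.c] (pair_rel hinv hr (by decide +kernel)) h
    · rcases brec_true h with h | h
      · exact mRel_good (T := T) (by decide) [Lt.di, Lt.di, Lt.b, Lt.di] [Lt.bi, Lt.d, Lt.d, Lt.b] (pair_rel hinv hr (by decide +kernel)) h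
      · rcases brec_true h with h | h
        · exact mRel_good (T := T) (by decide) [Lt.d, Lt.b, Lt.b, Lt.ci, Lt.bi, Lt.fi, Lt.b, Lt.c] [] (pair_rel hinv hr (by decide +kernel)) h
        · exact mRel_good (T := T) (by decide) [Lt.b, Lt.c, Lt.c, Lt.d, Lt.fi, Lt.d] [Lt.ci, Lt.b] (pair_rel hinv hr (by decide +kernel)) h
  · rcases brec_true h with h | h
    · rcases brec_true h with h | h
      · exact mRel_good (T := T) (by decide) [Lt.ci, Lt.di, Lt.c] [Lt.bi, Lt.ci, Lt.d, Lt.c, Lt.bi] (pair_rel hinv hr (by decide +kernel)) h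
      · rcases brec_true h with h | h
        · exact mRel_good (T := T) (by decide) [Lt.di, Lt.ci, Lt.ei, Lt.fi] [Lt.fi, Lt.di, Lt.e, Lt.fi, Lt.ei] (pair_rel hinv hr (by decide +kernel)) h
        · exact mRel_good (T := T) (by decide) [Lt.bi, Lt.fi, Lt.b, Lt.c, Lt.d, Lt.b] [Lt.c, Lt.bi] (pair_rel hinv hr (by decide +kernel)) h
    · rcases brec_true h with h | h
      · exact mRel_good (T := T) (by decide) [Lt.b, Lt.f] [Lt.bi, Lt.f, Lt.b, Lt.f, Lt.di, Lt.c] (pair_rel hinv hr (by decide +kernel)) h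
      · rcases brec_true h with h | h
        · exact mRel_good (T := T) (by decide) [Lt.ci, Lt.b] [Lt.b, Lt.c, Lt.c, Lt.d, Lt.fi, Lt.d] (pair_rel hinv hr (by decide +kernel)) h
        · exact mRel_good (T := T) (by decide) [Lt.c, Lt.b, Lt.ci, Lt.ci] [Lt.b, Lt.ci, Lt.ci, Lt.d] (pair_rel hinv hr (by decide +kernel)) h
theorem dM_158_s (hinv : ∀ x, g (inv x) = (g x)⁻¹) (hr : ∀ r ∈ rels, (r.map g).prod = 1) (j z1 z2 u : ℕ) (h : dM_158 j z1 z2 u = true) : GoodM (fa g) T MG M (cP g H) u := by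
  unfold dM_158 at h
  rcases brec_true h with h | h
  · exact dM_156_s hinv hr j z1 z2 u h
  · exact dM_157_s hinv hr j z1 z2 u h
theorem dM_159_s (hinv : ∀ x, g (inv x) = (g x)⁻¹) (hr : ∀ r ∈ rels, (r.map g).prod = 1) (j z1 z2 u : ℕ) (h : dM_159 j z1 z2 u = true) : GoodM (fa g) T MG M (cP g H) u := by
  unfold dM_159 at h
  rcases brec_true h with h | h
  · exact dM_155_s hinv hr j z1 z2 u h
  · exact dM_158_s hinv hr j z1 z2 u h
theorem dM_160_s (hinv : ∀ x, g (inv x) = (g x)⁻¹) (hr : ∀ r ∈ rels, (r.map g).prod = 1) (j z1 z2 u : ℕ) (h : dM_160 j z1 z2 u = true) : GoodM (fa g) T MG M (cP g H) u := by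
  unfold dM_160 at h
  rcases brec_true h with h | h
  · exact dM_152_s hinv hr j z1 z2 u h
  · exact dM_159_s hinv hr j z1 z2 u h
theorem dM_161_s (hinv : ∀ x, g (inv x) = (g x)⁻¹) (hr : ∀ r ∈ rels, (r.map g).prod = 1) (j z1 z2 u : ℕ) (h : dM_161 j z1 z2 u = true) : GoodM (fa g) T MG M (cP g H) u := by
  unfold dM_161 at h
  rcases brec_true h with h | h
  · exact dM_145_s hinv hr j z1 z2 u h
  · exact dM_160_s hinv hr j z1 z2 u h
theorem dM_162_s (hinv : ∀ x, g (inv x) = (g x)⁻¹) (hr : ∀ r ∈ rels, (r.map g).prod = 1) (j z1 z2 u : ℕ) (h : dM_162 j z1 z2 u = true) : GoodM (fa g) T MG M (cP g H) u := by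
  unfold dM_162 at h
  rcases brec_true h with h | h
  · rcases brec_true h with h | h
    · rcases brec_true h with h | h
      · exact mRel_good (T := T) (by decide) [Lt.b, Lt.di, Lt.f, Lt.c, Lt.b] [Lt.fi, Lt.di, Lt.ci] (pair_rel hinv hr (by decide +kernel)) h
      · exact mRel_good (T := T) (by decide) [Lt.d, Lt.f] [Lt.bi, Lt.c, Lt.b, Lt.d, Lt.ci, Lt.fi] (pair_rel hinv hr (by decide +kernel)) h
    · rcases brec_true h with h | h
      · exact mRel_good (T := T) (by decide) [Lt.bi, Lt.d, Lt.c, Lt.b, Lt.b] [Lt.f, Lt.f, Lt.c] (pair_rel hinv hr (by decide +kernel)) h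
      · rcases brec_true h with h | h
        · exact mRel_good (T := T) (by decide) [Lt.d, Lt.ci, Lt.ci, Lt.b, Lt.d] [Lt.bi, Lt.c, Lt.c] (pair_rel hinv hr (by decide +kernel)) h
        · exact mRel_good (T := T) (by decide) [Lt.di, Lt.f, Lt.di, Lt.ci] [Lt.bi, Lt.c, Lt.b, Lt.c] (pair_rel hinv hr (by decide +kernel)) h
  · rcases brec_true h with h | h
    · rcases brec_true h with h | h
      · exact mRel_good (T := T) (by decide) [Lt.b, Lt.c, Lt.d, Lt.b, Lt.ci, Lt.bi] [Lt.di, Lt.fi] (pair_rel hinv hr (by decide +kernel)) h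
      · exact mRel_good (T := T) (by decide) [Lt.di, Lt.f] [Lt.ci, Lt.ei, Lt.fi, Lt.e, Lt.f, Lt.ei, Lt.fi] (pair_rel hinv hr (by decide +kernel)) h
    · rcases brec_true h with h | h
      · exact mRel_good (T := T) (by decide) [Lt.ei, Lt.fi, Lt.e, Lt.fi, Lt.d, Lt.ci, Lt.fi, Lt.e, Lt.f] [] (pair_rel hinv hr (by decide +kernel)) h
      · rcases brec_true h with h | h
        · exact mRel_good (T := T) (by decide) [Lt.bi, Lt.e, Lt.c, Lt.e, Lt.bi, Lt.e, Lt.c] [Lt.ei] (pair_rel hinv hr (by decide +kernel)) h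
        · exact mRel_good (T := T) (by decide) [Lt.c, Lt.d, Lt.b] [Lt.bi, Lt.di, Lt.fi, Lt.b, Lt.c] (pair_rel hinv hr (by decide +kernel)) h
theorem dM_163_s (hinv : ∀ x, g (inv x) = (g x)⁻¹) (hr : ∀ r ∈ rels, (r.map g).prod = 1) (j z1 z2 u : ℕ) (h : dM_163 j z1 z2 u = true) : GoodM (fa g) T MG M (cP g H) u := by
  unfold dM_163 at h
  rcases brec_true h with h | h
  · rcases brec_true h with h | h
    · rcases brec_true h with h | h
      · exact mRel_good (T := T) (by decide) [Lt.ci, Lt.bi, Lt.d, Lt.ci, Lt.b] [Lt.di, Lt.c, Lt.d] (pair_rel hinv hr (by decide +kernel)) h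
      · exact mRel_good (T := T) (by decide) [Lt.bi, Lt.di, Lt.fi, Lt.b] [Lt.c, Lt.d, Lt.b, Lt.ci] (pair_rel hinv hr (by decide +kernel)) h
    · rcases brec_true h with h | h
      · exact mRel_good (T := T) (by decide) [Lt.f, Lt.b, Lt.fi, Lt.c, Lt.c, Lt.fi] [Lt.ci, Lt.b] (pair_rel hinv hr (by decide +kernel)) h
      · rcases brec_true h with h | h
        · exact mRel_good (T := T) (by decide) [Lt.d, Lt.fi, Lt.c, Lt.fi, Lt.bi, Lt.di] [Lt.b, Lt.ci] (pair_rel hinv hr (by decide +kernel)) h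
        · exact mRel_good (T := T) (by decide) [Lt.b, Lt.c, Lt.d, Lt.b, Lt.ci] [Lt.di, Lt.fi, Lt.b] (pair_rel hinv hr (by decide +kernel)) h
  · rcases brec_true h with h | h
    · rcases brec_true h with h | h
      · exact mRel_good (T := T) (by decide) [Lt.d, Lt.fi, Lt.bi, Lt.fi, Lt.b] [Lt.c, Lt.fi, Lt.bi] (pair_rel hinv hr (by decide +kernel)) h
      · rcases brec_true h with h | h
        · exact mRel_good (T := T) (by decide) [Lt.b, Lt.ci, Lt.bi] [Lt.di, Lt.ci, Lt.bi, Lt.di, Lt.fi] (pair_rel hinv hr (by decide +kernel)) h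
        · exact mRel_good (T := T) (by decide) [Lt.d, Lt.ci, Lt.f, Lt.d, Lt.d, Lt.ci, Lt.f] [Lt.di] (pair_rel hinv hr (by decide +kernel)) h
    · rcases brec_true h with h | h
      · exact mRel_good (T := T) (by decide) [Lt.bi, Lt.di, Lt.c, Lt.fi] [Lt.ci, Lt.di, Lt.ci, Lt.bi] (pair_rel hinv hr (by decide +kernel)) h
      · rcases brec_true h with h | h
        · exact mRel_good (T := T) (by decide) [Lt.bi, Lt.c, Lt.d, Lt.f, Lt.ci, Lt.b] [Lt.di, Lt.f] (pair_rel hinv hr (by decide +kernel)) h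
        · exact mRel_good (T := T) (by decide) [Lt.fi, Lt.b, Lt.c] [Lt.ci, Lt.d, Lt.b, Lt.ci, Lt.di] (pair_rel hinv hr (by decide +kernel)) h
theorem dM_164_s (hinv : ∀ x, g (inv x) = (g x)⁻¹) (hr : ∀ r ∈ rels, (r.map g).prod = 1) (j z1 z2 u : ℕ) (h : dM_164 j z1 z2 u = true) : GoodM (fa g) T MG M (cP g H) u := by
  unfold dM_164 at h
  rcases brec_true h with h | h
  · exact dM_162_s hinv hr j z1 z2 u h
  · exact dM_163_s hinv hr j z1 z2 u h
theorem dM_165_s (hinv : ∀ x, g (inv x) = (g x)⁻¹) (hr : ∀ r ∈ rels, (r.map g).prod = 1) (j z1 z2 u : ℕ) (h : dM_165 j z1 z2 u = true) : GoodM (fa g) T MG M (cP g H) u := by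
  unfold dM_165 at h
  rcases brec_true h with h | h
  · rcases brec_true h with h | h
    · rcases brec_true h with h | h
      · exact mRel_good (T := T) (by decide) [Lt.fi, Lt.b, Lt.c, Lt.d] [Lt.b, Lt.c, Lt.bi, Lt.bi] (pair_rel hinv hr (by decide +kernel)) h
      · exact mRel_good (T := T) (by decide) [Lt.fi, Lt.di, Lt.fi, Lt.b, Lt.c] [Lt.b, Lt.c, Lt.bi] (pair_rel hinv hr (by decide +kernel)) h
    · rcases brec_true h with h | h
      · exact mRel_good (T := T) (by decide) [Lt.c, Lt.di] [Lt.fi, Lt.b, Lt.c, Lt.c, Lt.b, Lt.ci, Lt.fi] (pair_rel hinv hr (by decide +kernel)) h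
      · rcases brec_true h with h | h
        · exact mRel_good (T := T) (by decide) [Lt.bi, Lt.c] [Lt.e, Lt.di, Lt.fi, Lt.bi, Lt.f, Lt.e, Lt.f] (pair_rel hinv hr (by decide +kernel)) h
        · exact mRel_good (T := T) (by decide) [Lt.e, Lt.fi, Lt.ei] [Lt.fi, Lt.fi, Lt.d, Lt.ci, Lt.ei, Lt.fi] (pair_rel hinv hr (by decide +kernel)) h
  · rcases brec_true h with h | h
    · rcases brec_true h with h | h
      · exact mRel_good (T := T) (by decide) [Lt.ci, Lt.b] [Lt.bi, Lt.c, Lt.bi, Lt.c, Lt.bi, Lt.c] (pair_rel hinv hr (by decide +kernel)) h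
      · rcases brec_true h with h | h
        · exact mRel_good (T := T) (by decide) [Lt.di, Lt.b, Lt.di, Lt.bi, Lt.di] [Lt.d, Lt.bi, Lt.d] (pair_rel hinv hr (by decide +kernel)) h
        · exact mRel_good (T := T) (by decide) [Lt.c, Lt.b, Lt.c, Lt.fi] [Lt.fi, Lt.b, Lt.b, Lt.di, Lt.f] (pair_rel hinv hr (by decide +kernel)) h
    · rcases brec_true h with h | h
      · exact mRel_good (T := T) (by decide) [Lt.bi, Lt.di] [Lt.f, Lt.ci, Lt.f, Lt.di, Lt.b, Lt.ci] (pair_rel hinv hr (by decide +kernel)) h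
      · rcases brec_true h with h | h
        · exact mRel_good (T := T) (by decide) [Lt.c, Lt.di, Lt.b, Lt.c, Lt.di, Lt.c, Lt.d, Lt.bi] [] (pair_rel hinv hr (by decide +kernel)) h
        · exact mRel_good (T := T) (by decide) [Lt.bi, Lt.d, Lt.fi, Lt.di, Lt.b, Lt.c, Lt.d, Lt.ci] [] (pair_rel hinv hr (by decide +kernel)) h
theorem dM_166_s (hinv : ∀ x, g (inv x) = (g x)⁻¹) (hr : ∀ r ∈ rels, (r.map g).prod = 1) (j z1 z2 u : ℕ) (h : dM_166 j z1 z2 u = true) : GoodM (fa g) T MG M (cP g H) u := by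
  unfold dM_166 at h
  rcases brec_true h with h | h
  · rcases brec_true h with h | h
    · rcases brec_true h with h | h
      · exact mRel_good (T := T) (by decide) [Lt.bi, Lt.fi, Lt.c] [Lt.ci, Lt.fi, Lt.b, Lt.di, Lt.di] (pair_rel hinv hr (by decide +kernel)) h
      · exact mRel_good (T := T) (by decide) [Lt.d, Lt.d, Lt.bi, Lt.f] [Lt.ci, Lt.f, Lt.b, Lt.ci] (pair_rel hinv hr (by decide +kernel)) h
    · rcases brec_true h with h | h
      · exact mRel_good (T := T) (by decide) [Lt.ci, Lt.ci, Lt.b] [Lt.di, Lt.bi, Lt.c, Lt.c, Lt.di] (pair_rel hinv hr (by decide +kernel)) h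
      · rcases brec_true h with h | h
        · exact mRel_good (T := T) (by decide) [Lt.d, Lt.b, Lt.b, Lt.ci, Lt.bi] [Lt.ci, Lt.bi, Lt.f] (pair_rel hinv hr (by decide +kernel)) h
        · exact mRel_good (T := T) (by decide) [Lt.di, Lt.b, Lt.fi, Lt.di, Lt.di, Lt.ci, Lt.b, Lt.ci, Lt.f] [] (pair_rel hinv hr (by decide +kernel)) h
  · rcases brec_true h with h | h
    · rcases brec_true h with h | h
      · exact mRel_good (T := T) (by decide) [Lt.b, Lt.di, Lt.di, Lt.ci, Lt.f, Lt.b] [Lt.f, Lt.c] (pair_rel hinv hr (by decide +kernel)) h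
      · rcases brec_true h with h | h
        · exact mRel_good (T := T) (by decide) [Lt.b, Lt.ci, Lt.bi, Lt.f] [Lt.di, Lt.ci, Lt.bi, Lt.di] (pair_rel hinv hr (by decide +kernel)) h
        · exact mRel_good (T := T) (by decide) [Lt.di, Lt.ci, Lt.bi, Lt.d, Lt.f, Lt.di] [Lt.ci, Lt.bi] (pair_rel hinv hr (by decide +kernel)) h
    · rcases brec_true h with h | h
      · exact mRel_good (T := T) (by decide) [Lt.b, Lt.ci, Lt.bi, Lt.di, Lt.di, Lt.f, Lt.b] [Lt.ci] (pair_rel hinv hr (by decide +kernel)) h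
      · rcases brec_true h with h | h
        · exact mRel_good (T := T) (by decide) [Lt.fi, Lt.b, Lt.c, Lt.d, Lt.c, Lt.bi, Lt.di] [Lt.ci] (pair_rel hinv hr (by decide +kernel)) h
        · exact mRel_good (T := T) (by decide) [Lt.c, Lt.d, Lt.ci, Lt.bi, Lt.d, Lt.fi] [Lt.bi, Lt.d] (pair_rel hinv hr (by decide +kernel)) h
theorem dM_167_s (hinv : ∀ x, g (inv x) = (g x)⁻¹) (hr : ∀ r ∈ rels, (r.map g).prod = 1) (j z1 z2 u : ℕ) (h : dM_167 j z1 z2 u = true) : GoodM (fa g) T MG M (cP g H) u := by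
  unfold dM_167 at h
  rcases brec_true h with h | h
  · exact dM_165_s hinv hr j z1 z2 u h
  · exact dM_166_s hinv hr j z1 z2 u h
theorem dM_168_s (hinv : ∀ x, g (inv x) = (g x)⁻¹) (hr : ∀ r ∈ rels, (r.map g).prod = 1) (j z1 z2 u : ℕ) (h : dM_168 j z1 z2 u = true) : GoodM (fa g) T MG M (cP g H) u := by
  unfold dM_168 at h
  rcases brec_true h with h | h
  · exact dM_164_s hinv hr j z1 z2 u h
  · exact dM_167_s hinv hr j z1 z2 u h
theorem dM_169_s (hinv : ∀ x, g (inv x) = (g x)⁻¹) (hr : ∀ r ∈ rels, (r.map g).prod = 1) (j z1 z2 u : ℕ) (h : dM_169 j z1 z2 u = true) : GoodM (fa g) T MG M (cP g H) u := by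
  unfold dM_169 at h
  rcases brec_true h with h | h
  · rcases brec_true h with h | h
    · rcases brec_true h with h | h
      · exact mRel_good (T := T) (by decide) [Lt.c, Lt.bi, Lt.di] [Lt.bi, Lt.f, Lt.d, Lt.b, Lt.c] (pair_rel hinv hr (by decide +kernel)) h
      · exact mRel_good (T := T) (by decide) [Lt.fi, Lt.c, Lt.c, Lt.fi, Lt.bi, Lt.c] [Lt.bi, Lt.fi] (pair_rel hinv hr (by decide +kernel)) h
    · rcases brec_true h with h | h
      · exact mRel_good (T := T) (by decide) [Lt.f, Lt.bi, Lt.fi, Lt.ci, Lt.b, Lt.f, Lt.ci] [Lt.c] (pair_rel hinv hr (by decide +kernel)) h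
      · rcases brec_true h with h | h
        · exact mRel_good (T := T) (by decide) [Lt.c, Lt.c, Lt.bi] [Lt.di, Lt.c, Lt.c, Lt.bi, Lt.c] (pair_rel hinv hr (by decide +kernel)) h
        · exact mRel_good (T := T) (by decide) [Lt.e, Lt.fi, Lt.ei, Lt.f, Lt.e, Lt.c, Lt.di] [Lt.fi, Lt.fi] (pair_rel hinv hr (by decide +kernel)) h
  · rcases brec_true h with h | h
    · rcases brec_true h with h | h
      · exact mRel_good (T := T) (by decide) [Lt.c, Lt.bi, Lt.di, Lt.ci, Lt.bi] [Lt.bi, Lt.f, Lt.d] (pair_rel hinv hr (by decide +kernel)) h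
      · exact mRel_good (T := T) (by decide) [Lt.bi, Lt.d, Lt.d, Lt.bi, Lt.d] [Lt.di, Lt.bi, Lt.di] (pair_rel hinv hr (by decide +kernel)) h
    · rcases brec_true h with h | h
      · exact mRel_good (T := T) (by decide) [Lt.di, Lt.b, Lt.c, Lt.d, Lt.ci, Lt.bi] [Lt.f, Lt.di] (pair_rel hinv hr (by decide +kernel)) h
      · rcases brec_true h with h | h
        · exact mRel_good (T := T) (by decide) [Lt.fi, Lt.e, Lt.f, Lt.ei, Lt.fi] [Lt.e, Lt.c, Lt.di, Lt.f] (pair_rel hinv hr (by decide +kernel)) h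
        · exact mRel_good (T := T) (by decide) [Lt.d, Lt.b] [Lt.ci, Lt.bi, Lt.di, Lt.fi, Lt.b, Lt.c] (pair_rel hinv hr (by decide +kernel)) h
theorem dM_170_s (hinv : ∀ x, g (inv x) = (g x)⁻¹) (hr : ∀ r ∈ rels, (r.map g).prod = 1) (j z1 z2 u : ℕ) (h : dM_170 j z1 z2 u = true) : GoodM (fa g) T MG M (cP g H) u := by
  unfold dM_170 at h
  rcases brec_true h with h | h
  · rcases brec_true h with h | h
    · rcases brec_true h with h | h
      · exact mRel_good (T := T) (by decide) [Lt.fi, Lt.bi, Lt.f, Lt.e, Lt.f, Lt.ci, Lt.b, Lt.e, Lt.di] [] (pair_rel hinv hr (by decide +kernel)) h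
      · exact mRel_good (T := T) (by decide) [Lt.bi, Lt.d, Lt.fi, Lt.c, Lt.fi, Lt.bi, Lt.di] [Lt.ci] (pair_rel hinv hr (by decide +kernel)) h
    · rcases brec_true h with h | h
      · exact mRel_good (T := T) (by decide) [Lt.bi, Lt.c, Lt.bi, Lt.c, Lt.bi, Lt.c, Lt.bi, Lt.c] [] (pair_rel hinv hr (by decide +kernel)) h
      · rcases brec_true h with h | h
        · exact mRel_good (T := T) (by decide) [Lt.b, Lt.f, Lt.di, Lt.c] [Lt.fi, Lt.b, Lt.b, Lt.f] (pair_rel hinv hr (by decide +kernel)) h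
        · exact mRel_good (T := T) (by decide) [Lt.c, Lt.bi, Lt.di, Lt.c, Lt.fi, Lt.b] [Lt.di, Lt.ci] (pair_rel hinv hr (by decide +kernel)) h
  · rcases brec_true h with h | h
    · rcases brec_true h with h | h
      · exact mRel_good (T := T) (by decide) [Lt.d, Lt.f, Lt.d] [Lt.di, Lt.f, Lt.di, Lt.f, Lt.f] (pair_rel hinv hr (by decide +kernel)) h
      · rcases brec_true h with h | h
        · exact mRel_good (T := T) (by decide) [Lt.fi, Lt.d, Lt.bi, Lt.fi, Lt.di, Lt.ci, Lt.bi, Lt.ci] [] (pair_rel hinv hr (by decide +kernel)) h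
        · exact mRel_good (T := T) (by decide) [Lt.fi, Lt.ei, Lt.f, Lt.c, Lt.di, Lt.f] [Lt.ei, Lt.fi, Lt.e] (pair_rel hinv hr (by decide +kernel)) h
    · rcases brec_true h with h | h
      · exact mRel_good (T := T) (by decide) [Lt.c, Lt.c, Lt.fi, Lt.bi, Lt.c, Lt.f] [Lt.f, Lt.bi] (pair_rel hinv hr (by decide +kernel)) h
      · rcases brec_true h with h | h
        · exact mRel_good (T := T) (by decide) [Lt.f, Lt.c, Lt.bi, Lt.fi] [Lt.b, Lt.di, Lt.di, Lt.ci] (pair_rel hinv hr (by decide +kernel)) h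
        · exact mRel_good (T := T) (by decide) [Lt.d, Lt.b, Lt.ci, Lt.di, Lt.ci, Lt.bi] [Lt.c, Lt.fi] (pair_rel hinv hr (by decide +kernel)) h
theorem dM_171_s (hinv : ∀ x, g (inv x) = (g x)⁻¹) (hr : ∀ r ∈ rels, (r.map g).prod = 1) (j z1 z2 u : ℕ) (h : dM_171 j z1 z2 u = true) : GoodM (fa g) T MG M (cP g H) u := by
  unfold dM_171 at h
  rcases brec_true h with h | h
  · exact dM_169_s hinv hr j z1 z2 u h
  · exact dM_170_s hinv hr j z1 z2 u h
theorem dM_172_s (hinv : ∀ x, g (inv x) = (g x)⁻¹) (hr : ∀ r ∈ rels, (r.map g).prod = 1) (j z1 z2 u : ℕ) (h : dM_172 j z1 z2 u = true) : GoodM (fa g) T MG M (cP g H) u := by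
  unfold dM_172 at h
  rcases brec_true h with h | h
  · rcases brec_true h with h | h
    · rcases brec_true h with h | h
      · exact mRel_good (T := T) (by decide) [Lt.f, Lt.d, Lt.f, Lt.b] [Lt.b, Lt.c, Lt.b, Lt.ci] (pair_rel hinv hr (by decide +kernel)) h
      · exact mRel_good (T := T) (by decide) [Lt.d, Lt.d, Lt.b] [Lt.f, Lt.b, Lt.c, Lt.b, Lt.ci] (pair_rel hinv hr (by decide +kernel)) h
    · rcases brec_true h with h | h
      · exact mRel_good (T := T) (by decide) [Lt.f, Lt.ci, Lt.ci] [Lt.bi, Lt.c, Lt.f, Lt.b, Lt.fi] (pair_rel hinv hr (by decide +kernel)) h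
      · rcases brec_true h with h | h
        · exact mRel_good (T := T) (by decide) [Lt.bi, Lt.ci, Lt.di, Lt.f, Lt.bi, Lt.di, Lt.di, Lt.fi] [] (pair_rel hinv hr (by decide +kernel)) h
        · exact mRel_good (T := T) (by decide) [Lt.ci, Lt.fi, Lt.fi, Lt.bi, Lt.d] [Lt.bi, Lt.bi, Lt.ci] (pair_rel hinv hr (by decide +kernel)) h
  · rcases brec_true h with h | h
    · rcases brec_true h with h | h
      · exact mRel_good (T := T) (by decide) [Lt.b, Lt.d, Lt.f, Lt.f, Lt.c, Lt.di] [Lt.c, Lt.b] (pair_rel hinv hr (by decide +kernel)) h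
      · rcases brec_true h with h | h
        · exact mRel_good (T := T) (by decide) [Lt.bi, Lt.ci, Lt.b, Lt.di, Lt.f] [Lt.c, Lt.c, Lt.d] (pair_rel hinv hr (by decide +kernel)) h
        · exact mRel_good (T := T) (by decide) [Lt.fi, Lt.bi, Lt.f, Lt.e, Lt.f, Lt.ci, Lt.b, Lt.e] [Lt.d] (pair_rel hinv hr (by decide +kernel)) h
    · rcases brec_true h with h | h
      · exact mRel_good (T := T) (by decide) [Lt.b, Lt.ci, Lt.bi] [Lt.bi, Lt.di, Lt.ci, Lt.bi, Lt.f] (pair_rel hinv hr (by decide +kernel)) h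
      · rcases brec_true h with h | h
        · exact mRel_good (T := T) (by decide) [Lt.f, Lt.ci, Lt.f, Lt.di] [Lt.bi, Lt.di, Lt.c, Lt.bi] (pair_rel hinv hr (by decide +kernel)) h
        · exact mRel_good (T := T) (by decide) [Lt.f, Lt.bi, Lt.di, Lt.di] [Lt.d, Lt.c, Lt.b, Lt.f] (pair_rel hinv hr (by decide +kernel)) h
theorem dM_173_s (hinv : ∀ x, g (inv x) = (g x)⁻¹) (hr : ∀ r ∈ rels, (r.map g).prod = 1) (j z1 z2 u : ℕ) (h : dM_173 j z1 z2 u = true) : GoodM (fa g) T MG M (cP g H) u := by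
  unfold dM_173 at h
  rcases brec_true h with h | h
  · rcases brec_true h with h | h
    · rcases brec_true h with h | h
      · exact mRel_good (T := T) (by decide) [Lt.bi, Lt.c, Lt.fi, Lt.ei, Lt.fi, Lt.b, Lt.f, Lt.d] [Lt.e] (pair_rel hinv hr (by decide +kernel)) h
      · exact mRel_good (T := T) (by decide) [Lt.f, Lt.ei, Lt.fi, Lt.fi, Lt.d, Lt.ci, Lt.ei, Lt.fi, Lt.e] [] (pair_rel hinv hr (by decide +kernel)) h
    · rcases brec_true h with h | h
      · exact mRel_good (T := T) (by decide) [Lt.f, Lt.ci, Lt.d, Lt.b, Lt.ci, Lt.di, Lt.ci, Lt.bi] [] (pair_rel hinv hr (by decide +kernel)) h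
      · rcases brec_true h with h | h
        · exact mRel_good (T := T) (by decide) [Lt.b, Lt.ci, Lt.di, Lt.ci, Lt.bi] [Lt.di, Lt.c, Lt.fi] (pair_rel hinv hr (by decide +kernel)) h
        · exact mRel_good (T := T) (by decide) [Lt.b, Lt.c, Lt.b, Lt.ci, Lt.bi, Lt.fi, Lt.di] [Lt.f] (pair_rel hinv hr (by decide +kernel)) h
  · rcases brec_true h with h | h
    · rcases brec_true h with h | h
      · exact mRel_good (T := T) (by decide) [Lt.bi, Lt.di, Lt.di] [Lt.fi, Lt.d, Lt.c, Lt.b, Lt.f] (pair_rel hinv hr (by decide +kernel)) h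
      · rcases brec_true h with h | h
        · exact mRel_good (T := T) (by decide) [Lt.c, Lt.bi, Lt.d, Lt.fi] [Lt.d, Lt.b, Lt.f, Lt.ci] (pair_rel hinv hr (by decide +kernel)) h
        · exact mRel_good (T := T) (by decide) [Lt.d, Lt.f, Lt.di, Lt.b, Lt.c] [Lt.b, Lt.c, Lt.d] (pair_rel hinv hr (by decide +kernel)) h
    · rcases brec_true h with h | h
      · exact mRel_good (T := T) (by decide) [Lt.b, Lt.f, Lt.ci] [Lt.di, Lt.c, Lt.bi, Lt.d, Lt.fi] (pair_rel hinv hr (by decide +kernel)) h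
      · rcases brec_true h with h | h
        · exact mRel_good (T := T) (by decide) [Lt.bi, Lt.bi, Lt.ci] [Lt.ci, Lt.fi, Lt.fi, Lt.bi, Lt.d] (pair_rel hinv hr (by decide +kernel)) h
        · exact mRel_good (T := T) (by decide) [Lt.di, Lt.c, Lt.fi, Lt.b, Lt.c, Lt.d] [Lt.b, Lt.ci] (pair_rel hinv hr (by decide +kernel)) h
theorem dM_174_s (hinv : ∀ x, g (inv x) = (g x)⁻¹) (hr : ∀ r ∈ rels, (r.map g).prod = 1) (j z1 z2 u : ℕ) (h : dM_174 j z1 z2 u = true) : GoodM (fa g) T MG M (cP g H) u := by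
  unfold dM_174 at h
  rcases brec_true h with h | h
  · exact dM_172_s hinv hr j z1 z2 u h
  · exact dM_173_s hinv hr j z1 z2 u h
theorem dM_175_s (hinv : ∀ x, g (inv x) = (g x)⁻¹) (hr : ∀ r ∈ rels, (r.map g).prod = 1) (j z1 z2 u : ℕ) (h : dM_175 j z1 z2 u = true) : GoodM (fa g) T MG M (cP g H) u := by
  unfold dM_175 at h
  rcases brec_true h with h | h
  · exact dM_171_s hinv hr j z1 z2 u h
  · exact dM_174_s hinv hr j z1 z2 u h
theorem dM_176_s (hinv : ∀ x, g (inv x) = (g x)⁻¹) (hr : ∀ r ∈ rels, (r.map g).prod = 1) (j z1 z2 u : ℕ) (h : dM_176 j z1 z2 u = true) : GoodM (fa g) T MG M (cP g H) u := by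
  unfold dM_176 at h
  rcases brec_true h with h | h
  · exact dM_168_s hinv hr j z1 z2 u h
  · exact dM_175_s hinv hr j z1 z2 u h
theorem dM_177_s (hinv : ∀ x, g (inv x) = (g x)⁻¹) (hr : ∀ r ∈ rels, (r.map g).prod = 1) (j z1 z2 u : ℕ) (h : dM_177 j z1 z2 u = true) : GoodM (fa g) T MG M (cP g H) u := by
  unfold dM_177 at h
  rcases brec_true h with h | h
  · rcases brec_true h with h | h
    · rcases brec_true h with h | h
      · exact mRel_good (T := T) (by decide) [Lt.d, Lt.ci, Lt.fi, Lt.fi, Lt.di, Lt.bi, Lt.c, Lt.b] [] (pair_rel hinv hr (by decide +kernel)) h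
      · exact mRel_good (T := T) (by decide) [Lt.c, Lt.b, Lt.c, Lt.d, Lt.f] [Lt.fi, Lt.d, Lt.bi] (pair_rel hinv hr (by decide +kernel)) h
    · rcases brec_true h with h | h
      · exact mRel_good (T := T) (by decide) [Lt.di] [Lt.b, Lt.ci, Lt.di, Lt.ci, Lt.bi, Lt.f, Lt.ci] (pair_rel hinv hr (by decide +kernel)) h
      · rcases brec_true h with h | h
        · exact mRel_good (T := T) (by decide) [Lt.f, Lt.c, Lt.di] [Lt.bi, Lt.d, Lt.ci, Lt.fi, Lt.bi] (pair_rel hinv hr (by decide +kernel)) h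
        · exact mRel_good (T := T) (by decide) [Lt.e] [Lt.fi, Lt.e, Lt.f, Lt.ei, Lt.d, Lt.f, Lt.di, Lt.ci] (pair_rel hinv hr (by decide +kernel)) h
  · rcases brec_true h with h | h
    · rcases brec_true h with h | h
      · exact mRel_good (T := T) (by decide) [Lt.bi, Lt.di, Lt.di, Lt.b] [Lt.d, Lt.bi, Lt.d, Lt.d] (pair_rel hinv hr (by decide +kernel)) h
      · exact mRel_good (T := T) (by decide) [Lt.f, Lt.b, Lt.f, Lt.di, Lt.c, Lt.fi] [Lt.b, Lt.b] (pair_rel hinv hr (by decide +kernel)) h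
    · rcases brec_true h with h | h
      · exact mRel_good (T := T) (by decide) [Lt.ci, Lt.b, Lt.di, Lt.ci, Lt.d, Lt.ci] [Lt.di, Lt.b] (pair_rel hinv hr (by decide +kernel)) h
      · rcases brec_true h with h | h
        · exact mRel_good (T := T) (by decide) [Lt.di, Lt.di, Lt.f, Lt.b, Lt.c, Lt.b, Lt.ci, Lt.bi] [] (pair_rel hinv hr (by decide +kernel)) h
        · exact mRel_good (T := T) (by decide) [Lt.b, Lt.e, Lt.di, Lt.fi, Lt.bi, Lt.f] [Lt.c, Lt.fi, Lt.ei] (pair_rel hinv hr (by decide +kernel)) h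
theorem dM_178_s (hinv : ∀ x, g (inv x) = (g x)⁻¹) (hr : ∀ r ∈ rels, (r.map g).prod = 1) (j z1 z2 u : ℕ) (h : dM_178 j z1 z2 u = true) : GoodM (fa g) T MG M (cP g H) u := by
  unfold dM_178 at h
  rcases brec_true h with h | h
  · rcases brec_true h with h | h
    · rcases brec_true h with h | h
      · exact mRel_good (T := T) (by decide) [Lt.bi, Lt.c, Lt.bi, Lt.c, Lt.bi, Lt.c, Lt.bi] [Lt.ci] (pair_rel hinv hr (by decide +kernel)) h
      · exact mRel_good (T := T) (by decide) [Lt.b, Lt.d, Lt.ci] [Lt.c, Lt.c, Lt.di, Lt.bi, Lt.c] (pair_rel hinv hr (by decide +kernel)) h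
    · rcases brec_true h with h | h
      · exact mRel_good (T := T) (by decide) [Lt.ci, Lt.b, Lt.ci] [Lt.b, Lt.ci, Lt.ci, Lt.di, Lt.c] (pair_rel hinv hr (by decide +kernel)) h
      · rcases brec_true h with h | h
        · exact mRel_good (T := T) (by decide) [Lt.d, Lt.c, Lt.c, Lt.bi, Lt.ci] [Lt.c, Lt.c, Lt.bi] (pair_rel hinv hr (by decide +kernel)) h
        · exact mRel_good (T := T) (by decide) [Lt.bi, Lt.ci, Lt.di, Lt.f] [Lt.f, Lt.d, Lt.d, Lt.b] (pair_rel hinv hr (by decide +kernel)) h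
  · rcases brec_true h with h | h
    · rcases brec_true h with h | h
      · exact mRel_good (T := T) (by decide) [Lt.bi, Lt.c, Lt.di, Lt.b, Lt.c, Lt.di, Lt.c, Lt.d] [] (pair_rel hinv hr (by decide +kernel)) h
      · rcases brec_true h with h | h
        · exact mRel_good (T := T) (by decide) [Lt.bi, Lt.f, Lt.b, Lt.f, Lt.di, Lt.c] [Lt.b, Lt.f] (pair_rel hinv hr (by decide +kernel)) h
        · exact mRel_good (T := T) (by decide) [Lt.di, Lt.c, Lt.fi, Lt.b, Lt.c] [Lt.b, Lt.ci, Lt.di] (pair_rel hinv hr (by decide +kernel)) h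
    · rcases brec_true h with h | h
      · exact mRel_good (T := T) (by decide) [Lt.d, Lt.ci, Lt.ei, Lt.fi, Lt.e, Lt.f, Lt.ei, Lt.fi] [Lt.f] (pair_rel hinv hr (by decide +kernel)) h
      · rcases brec_true h with h | h
        · exact mRel_good (T := T) (by decide) [Lt.fi, Lt.fi, Lt.bi, Lt.d] [Lt.c, Lt.bi, Lt.bi, Lt.ci] (pair_rel hinv hr (by decide +kernel)) h
        · exact mRel_good (T := T) (by decide) [Lt.f] [Lt.e, Lt.f, Lt.ei, Lt.d, Lt.f, Lt.di, Lt.ci, Lt.ei] (pair_rel hinv hr (by decide +kernel)) h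
theorem dM_179_s (hinv : ∀ x, g (inv x) = (g x)⁻¹) (hr : ∀ r ∈ rels, (r.map g).prod = 1) (j z1 z2 u : ℕ) (h : dM_179 j z1 z2 u = true) : GoodM (fa g) T MG M (cP g H) u := by
  unfold dM_179 at h
  rcases brec_true h with h | h
  · exact dM_177_s hinv hr j z1 z2 u h
  · exact dM_178_s hinv hr j z1 z2 u h
theorem dM_180_s (hinv : ∀ x, g (inv x) = (g x)⁻¹) (hr : ∀ r ∈ rels, (r.map g).prod = 1) (j z1 z2 u : ℕ) (h : dM_180 j z1 z2 u = true) : GoodM (fa g) T MG M (cP g H) u := by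
  unfold dM_180 at h
  rcases brec_true h with h | h
  · rcases brec_true h with h | h
    · rcases brec_true h with h | h
      · exact mRel_good (T := T) (by decide) [Lt.c, Lt.di, Lt.f, Lt.ei] [Lt.fi, Lt.e, Lt.f, Lt.ei, Lt.fi] (pair_rel hinv hr (by decide +kernel)) h
      · exact mRel_good (T := T) (by decide) [Lt.bi, Lt.di, Lt.ci, Lt.bi, Lt.f] [Lt.b, Lt.ci, Lt.bi] (pair_rel hinv hr (by decide +kernel)) h
    · rcases brec_true h with h | h
      · exact mRel_good (T := T) (by decide) [Lt.fi, Lt.d, Lt.bi, Lt.fi] [Lt.c, Lt.b, Lt.c, Lt.d] (pair_rel hinv hr (by decide +kernel)) h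
      · rcases brec_true h with h | h
        · exact mRel_good (T := T) (by decide) [Lt.fi, Lt.fi, Lt.d, Lt.ci, Lt.ei, Lt.fi, Lt.e, Lt.f, Lt.ei] [] (pair_rel hinv hr (by decide +kernel)) h
        · exact mRel_good (T := T) (by decide) [Lt.f, Lt.bi, Lt.c, Lt.fi] [Lt.d, Lt.bi, Lt.c, Lt.d] (pair_rel hinv hr (by decide +kernel)) h
  · rcases brec_true h with h | h
    · rcases brec_true h with h | h
      · exact mRel_good (T := T) (by decide) [Lt.d, Lt.ci, Lt.ci] [Lt.bi, Lt.c, Lt.c, Lt.di, Lt.bi] (pair_rel hinv hr (by decide +kernel)) h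
      · rcases brec_true h with h | h
        · exact mRel_good (T := T) (by decide) [Lt.di, Lt.ci, Lt.bi, Lt.di, Lt.fi, Lt.b] [Lt.b, Lt.ci] (pair_rel hinv hr (by decide +kernel)) h
        · exact mRel_good (T := T) (by decide) [Lt.b, Lt.ci, Lt.bi, Lt.f, Lt.d, Lt.b, Lt.c] [Lt.di] (pair_rel hinv hr (by decide +kernel)) h
    · rcases brec_true h with h | h
      · exact mRel_good (T := T) (by decide) [Lt.di, Lt.c, Lt.fi, Lt.b, Lt.c, Lt.d, Lt.c, Lt.bi] [] (pair_rel hinv hr (by decide +kernel)) h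
      · rcases brec_true h with h | h
        · exact mRel_good (T := T) (by decide) [Lt.bi, Lt.di, Lt.c, Lt.fi, Lt.b, Lt.c] [Lt.ci, Lt.di] (pair_rel hinv hr (by decide +kernel)) h
        · exact mRel_good (T := T) (by decide) [Lt.e, Lt.fi, Lt.ei, Lt.f, Lt.c, Lt.di, Lt.f, Lt.ei, Lt.f] [] (pair_rel hinv hr (by decide +kernel)) h
theorem dM_181_s (hinv : ∀ x, g (inv x) = (g x)⁻¹) (hr : ∀ r ∈ rels, (r.map g).prod = 1) (j z1 z2 u : ℕ) (h : dM_181 j z1 z2 u = true) : GoodM (fa g) T MG M (cP g H) u := by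
  unfold dM_181 at h
  rcases brec_true h with h | h
  · rcases brec_true h with h | h
    · rcases brec_true h with h | h
      · exact mRel_good (T := T) (by decide) [Lt.f, Lt.e, Lt.fi, Lt.ei, Lt.f, Lt.c] [Lt.e, Lt.fi, Lt.d] (pair_rel hinv hr (by decide +kernel)) h
      · exact mRel_good (T := T) (by decide) [Lt.e, Lt.f, Lt.ei, Lt.fi, Lt.fi, Lt.d, Lt.ci, Lt.ei, Lt.fi] [] (pair_rel hinv hr (by decide +kernel)) h
    · rcases brec_true h with h | h
      · exact mRel_good (T := T) (by decide) [Lt.c, Lt.fi, Lt.bi, Lt.bi] [Lt.d, Lt.fi, Lt.bi, Lt.fi] (pair_rel hinv hr (by decide +kernel)) h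
      · rcases brec_true h with h | h
        · exact mRel_good (T := T) (by decide) [Lt.b, Lt.f, Lt.ci, Lt.d, Lt.fi] [Lt.bi, Lt.f, Lt.b] (pair_rel hinv hr (by decide +kernel)) h
        · exact mRel_good (T := T) (by decide) [Lt.di, Lt.ci, Lt.d, Lt.ci, Lt.bi] [Lt.bi, Lt.c, Lt.di] (pair_rel hinv hr (by decide +kernel)) h
  · rcases brec_true h with h | h
    · rcases brec_true h with h | h
      · exact mRel_good (T := T) (by decide) [Lt.f, Lt.e, Lt.fi, Lt.ei, Lt.f, Lt.e, Lt.c] [Lt.fi, Lt.d] (pair_rel hinv hr (by decide +kernel)) h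
      · rcases brec_true h with h | h
        · exact mRel_good (T := T) (by decide) [Lt.fi, Lt.e, Lt.fi, Lt.d, Lt.ci, Lt.fi] [Lt.e, Lt.fi, Lt.ei] (pair_rel hinv hr (by decide +kernel)) h
        · exact mRel_good (T := T) (by decide) [Lt.d, Lt.b, Lt.c] [Lt.fi, Lt.b, Lt.c, Lt.bi, Lt.di] (pair_rel hinv hr (by decide +kernel)) h
    · rcases brec_true h with h | h
      · exact mRel_good (T := T) (by decide) [Lt.fi] [Lt.e, Lt.f, Lt.ci, Lt.b, Lt.e, Lt.di, Lt.fi, Lt.bi] (pair_rel hinv hr (by decide +kernel)) h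
      · rcases brec_true h with h | h
        · exact mRel_good (T := T) (by decide) [Lt.ci, Lt.bi, Lt.d, Lt.fi, Lt.di, Lt.b, Lt.c, Lt.d] [] (pair_rel hinv hr (by decide +kernel)) h
        · exact mRel_good (T := T) (by decide) [Lt.e, Lt.f, Lt.ei, Lt.fi] [Lt.f, Lt.c, Lt.di, Lt.f, Lt.ei] (pair_rel hinv hr (by decide +kernel)) h
theorem dM_182_s (hinv : ∀ x, g (inv x) = (g x)⁻¹) (hr : ∀ r ∈ rels, (r.map g).prod = 1) (j z1 z2 u : ℕ) (h : dM_182 j z1 z2 u = true) : GoodM (fa g) T MG M (cP g H) u := by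
  unfold dM_182 at h
  rcases brec_true h with h | h
  · exact dM_180_s hinv hr j z1 z2 u h
  · exact dM_181_s hinv hr j z1 z2 u h
theorem dM_183_s (hinv : ∀ x, g (inv x) = (g x)⁻¹) (hr : ∀ r ∈ rels, (r.map g).prod = 1) (j z1 z2 u : ℕ) (h : dM_183 j z1 z2 u = true) : GoodM (fa g) T MG M (cP g H) u := by
  unfold dM_183 at h
  rcases brec_true h with h | h
  · exact dM_179_s hinv hr j z1 z2 u h
  · exact dM_182_s hinv hr j z1 z2 u h
theorem dM_184_s (hinv : ∀ x, g (inv x) = (g x)⁻¹) (hr : ∀ r ∈ rels, (r.map g).prod = 1) (j z1 z2 u : ℕ) (h : dM_184 j z1 z2 u = true) : GoodM (fa g) T MG M (cP g H) u := by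
  unfold dM_184 at h
  rcases brec_true h with h | h
  · rcases brec_true h with h | h
    · rcases brec_true h with h | h
      · exact mRel_good (T := T) (by decide) [Lt.bi, Lt.di] [Lt.c, Lt.bi, Lt.ci, Lt.bi, Lt.fi, Lt.d] (pair_rel hinv hr (by decide +kernel)) h
      · exact mRel_good (T := T) (by decide) [Lt.b, Lt.ci, Lt.bi, Lt.di, Lt.di, Lt.f] [Lt.ci, Lt.bi] (pair_rel hinv hr (by decide +kernel)) h
    · rcases brec_true h with h | h
      · exact mRel_good (T := T) (by decide) [Lt.fi, Lt.b, Lt.b] [Lt.b, Lt.f, Lt.di, Lt.c, Lt.fi] (pair_rel hinv hr (by decide +kernel)) h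
      · rcases brec_true h with h | h
        · exact mRel_good (T := T) (by decide) [Lt.di, Lt.b] [Lt.f, Lt.di, Lt.b, Lt.c, Lt.di, Lt.ci] (pair_rel hinv hr (by decide +kernel)) h
        · exact mRel_good (T := T) (by decide) [Lt.b, Lt.ci, Lt.b, Lt.ci, Lt.b, Lt.ci, Lt.b] [Lt.c] (pair_rel hinv hr (by decide +kernel)) h
  · rcases brec_true h with h | h
    · rcases brec_true h with h | h
      · exact mRel_good (T := T) (by decide) [Lt.di, Lt.di, Lt.ci, Lt.f, Lt.b, Lt.ci, Lt.fi, Lt.b] [] (pair_rel hinv hr (by decide +kernel)) h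
      · exact mRel_good (T := T) (by decide) [Lt.ci, Lt.ei, Lt.fi] [Lt.di, Lt.f, Lt.f, Lt.e, Lt.fi, Lt.ei] (pair_rel hinv hr (by decide +kernel)) h
    · rcases brec_true h with h | h
      · exact mRel_good (T := T) (by decide) [Lt.c, Lt.fi, Lt.bi] [Lt.f, Lt.di, Lt.b, Lt.ci, Lt.d] (pair_rel hinv hr (by decide +kernel)) h
      · rcases brec_true h with h | h
        · exact mRel_good (T := T) (by decide) [Lt.c, Lt.di, Lt.ci, Lt.bi, Lt.d, Lt.f, Lt.di] [Lt.bi] (pair_rel hinv hr (by decide +kernel)) h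
        · exact mRel_good (T := T) (by decide) [Lt.c, Lt.di, Lt.c, Lt.d, Lt.bi] [Lt.bi, Lt.d, Lt.ci] (pair_rel hinv hr (by decide +kernel)) h
theorem dM_185_s (hinv : ∀ x, g (inv x) = (g x)⁻¹) (hr : ∀ r ∈ rels, (r.map g).prod = 1) (j z1 z2 u : ℕ) (h : dM_185 j z1 z2 u = true) : GoodM (fa g) T MG M (cP g H) u := by
  unfold dM_185 at h
  rcases brec_true h with h | h
  · rcases brec_true h with h | h
    · rcases brec_true h with h | h
      · exact mRel_good (T := T) (by decide) [Lt.di, Lt.b, Lt.di, Lt.bi, Lt.di, Lt.di] [Lt.d, Lt.bi] (pair_rel hinv hr (by decide +kernel)) h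
      · exact mRel_good (T := T) (by decide) [Lt.ci, Lt.f, Lt.di, Lt.b, Lt.ci, Lt.d] [Lt.fi, Lt.bi] (pair_rel hinv hr (by decide +kernel)) h
    · rcases brec_true h with h | h
      · exact mRel_good (T := T) (by decide) [Lt.c, Lt.b, Lt.f] [Lt.di, Lt.f, Lt.bi, Lt.di, Lt.di] (pair_rel hinv hr (by decide +kernel)) h
      · rcases brec_true h with h | h
        · exact mRel_good (T := T) (by decide) [Lt.f, Lt.ci, Lt.ci, Lt.f] [Lt.bi, Lt.c, Lt.f, Lt.b] (pair_rel hinv hr (by decide +kernel)) h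
        · exact mRel_good (T := T) (by decide) [Lt.b, Lt.ci, Lt.d] [Lt.d, Lt.fi, Lt.c, Lt.fi, Lt.bi] (pair_rel hinv hr (by decide +kernel)) h
  · rcases brec_true h with h | h
    · rcases brec_true h with h | h
      · exact mRel_good (T := T) (by decide) [Lt.c, Lt.c, Lt.b, Lt.ci, Lt.di] [Lt.f, Lt.c, Lt.c, Lt.f] (pair_rel hinv hr (by decide +kernel)) h
      · rcases brec_true h with h | h
        · exact mRel_good (T := T) (by decide) [Lt.c, Lt.b, Lt.ci] [Lt.bi, Lt.f, Lt.d, Lt.f, Lt.b] (pair_rel hinv hr (by decide +kernel)) h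
        · exact mRel_good (T := T) (by decide) [Lt.b] [Lt.ci, Lt.b, Lt.d, Lt.f, Lt.f, Lt.c, Lt.di] (pair_rel hinv hr (by decide +kernel)) h
    · rcases brec_true h with h | h
      · exact mRel_good (T := T) (by decide) [Lt.bi, Lt.ci, Lt.d] [Lt.ci, Lt.di, Lt.c, Lt.b, Lt.ci] (pair_rel hinv hr (by decide +kernel)) h
      · rcases brec_true h with h | h
        · exact mRel_good (T := T) (by decide) [Lt.di, Lt.di, Lt.b, Lt.di, Lt.di, Lt.b, Lt.di] [Lt.b] (pair_rel hinv hr (by decide +kernel)) h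
        · exact mRel_good (T := T) (by decide) [Lt.d, Lt.f, Lt.f, Lt.c] [Lt.bi, Lt.c, Lt.b, Lt.d] (pair_rel hinv hr (by decide +kernel)) h
theorem dM_186_s (hinv : ∀ x, g (inv x) = (g x)⁻¹) (hr : ∀ r ∈ rels, (r.map g).prod = 1) (j z1 z2 u : ℕ) (h : dM_186 j z1 z2 u = true) : GoodM (fa g) T MG M (cP g H) u := by
  unfold dM_186 at h
  rcases brec_true h with h | h
  · exact dM_184_s hinv hr j z1 z2 u h
  · exact dM_185_s hinv hr j z1 z2 u h
theorem dM_187_s (hinv : ∀ x, g (inv x) = (g x)⁻¹) (hr : ∀ r ∈ rels, (r.map g).prod = 1) (j z1 z2 u : ℕ) (h : dM_187 j z1 z2 u = true) : GoodM (fa g) T MG M (cP g H) u := by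
  unfold dM_187 at h
  rcases brec_true h with h | h
  · rcases brec_true h with h | h
    · rcases brec_true h with h | h
      · exact mRel_good (T := T) (by decide) [Lt.ei, Lt.fi, Lt.fi, Lt.d, Lt.ci, Lt.ei, Lt.fi, Lt.e] [Lt.fi] (pair_rel hinv hr (by decide +kernel)) h
      · exact mRel_good (T := T) (by decide) [Lt.fi, Lt.ei, Lt.f, Lt.e] [Lt.ei, Lt.fi, Lt.fi, Lt.d, Lt.ci] (pair_rel hinv hr (by decide +kernel)) h
    · rcases brec_true h with h | h
      · exact mRel_good (T := T) (by decide) [Lt.f, Lt.e, Lt.f, Lt.ci, Lt.b] [Lt.b, Lt.f, Lt.d, Lt.ei] (pair_rel hinv hr (by decide +kernel)) h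
      · rcases brec_true h with h | h
        · exact mRel_good (T := T) (by decide) [Lt.d, Lt.ci, Lt.fi] [Lt.f, Lt.ei, Lt.f, Lt.e, Lt.fi, Lt.ei] (pair_rel hinv hr (by decide +kernel)) h
        · exact mRel_good (T := T) (by decide) [Lt.fi, Lt.di] [Lt.di, Lt.b, Lt.c, Lt.di, Lt.ci, Lt.bi] (pair_rel hinv hr (by decide +kernel)) h
  · rcases brec_true h with h | h
    · rcases brec_true h with h | h
      · exact mRel_good (T := T) (by decide) [Lt.ci, Lt.ei] [Lt.di, Lt.f, Lt.f, Lt.e, Lt.fi, Lt.ei, Lt.f] (pair_rel hinv hr (by decide +kernel)) h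
      · rcases brec_true h with h | h
        · exact mRel_good (T := T) (by decide) [Lt.fi, Lt.fi] [Lt.c, Lt.di, Lt.bi, Lt.ci, Lt.b, Lt.d] (pair_rel hinv hr (by decide +kernel)) h
        · exact mRel_good (T := T) (by decide) [Lt.fi] [Lt.e, Lt.c, Lt.di, Lt.f, Lt.f, Lt.e, Lt.fi, Lt.ei] (pair_rel hinv hr (by decide +kernel)) h
    · rcases brec_true h with h | h
      · exact mRel_good (T := T) (by decide) [Lt.d, Lt.fi, Lt.di, Lt.e] [Lt.ci, Lt.ei, Lt.fi, Lt.e, Lt.f] (pair_rel hinv hr (by decide +kernel)) h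
      · rcases brec_true h with h | h
        · exact mRel_good (T := T) (by decide) [Lt.ei, Lt.f] [Lt.f, Lt.ei, Lt.d, Lt.f, Lt.di, Lt.ci, Lt.ei] (pair_rel hinv hr (by decide +kernel)) h
        · exact mRel_good (T := T) (by decide) [Lt.ci, Lt.di] [Lt.c, Lt.bi, Lt.ci, Lt.b, Lt.ci, Lt.ci] (pair_rel hinv hr (by decide +kernel)) h
theorem dM_188_s (hinv : ∀ x, g (inv x) = (g x)⁻¹) (hr : ∀ r ∈ rels, (r.map g).prod = 1) (j z1 z2 u : ℕ) (h : dM_188 j z1 z2 u = true) : GoodM (fa g) T MG M (cP g H) u := by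
  unfold dM_188 at h
  rcases brec_true h with h | h
  · rcases brec_true h with h | h
    · rcases brec_true h with h | h
      · exact mRel_good (T := T) (by decide) [Lt.ci, Lt.fi] [Lt.di, Lt.bi, Lt.ci, Lt.b, Lt.d, Lt.f] (pair_rel hinv hr (by decide +kernel)) h
      · exact mRel_good (T := T) (by decide) [Lt.c, Lt.fi, Lt.ei] [Lt.b, Lt.e, Lt.di, Lt.fi, Lt.bi, Lt.f] (pair_rel hinv hr (by decide +kernel)) h
    · rcases brec_true h with h | h
      · exact mRel_good (T := T) (by decide) [Lt.d] [Lt.fi, Lt.b, Lt.c, Lt.bi, Lt.di, Lt.ci, Lt.bi] (pair_rel hinv hr (by decide +kernel)) h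
      · rcases brec_true h with h | h
        · exact mRel_good (T := T) (by decide) [Lt.f, Lt.ei] [Lt.ei, Lt.f, Lt.e, Lt.c, Lt.di, Lt.f, Lt.f] (pair_rel hinv hr (by decide +kernel)) h
        · exact mRel_good (T := T) (by decide) [Lt.f, Lt.c, Lt.bi, Lt.bi, Lt.ci, Lt.di] [Lt.fi, Lt.bi] (pair_rel hinv hr (by decide +kernel)) h
  · rcases brec_true h with h | h
    · rcases brec_true h with h | h
      · exact mRel_good (T := T) (by decide) [Lt.di, Lt.c, Lt.d, Lt.bi, Lt.c, Lt.di] [Lt.ci, Lt.bi] (pair_rel hinv hr (by decide +kernel)) h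
      · rcases brec_true h with h | h
        · exact mRel_good (T := T) (by decide) [Lt.fi, Lt.bi, Lt.fi, Lt.b, Lt.b, Lt.f, Lt.ci] [Lt.di] (pair_rel hinv hr (by decide +kernel)) h
        · exact mRel_good (T := T) (by decide) [Lt.d, Lt.bi, Lt.c, Lt.d, Lt.f] [Lt.f, Lt.bi, Lt.c] (pair_rel hinv hr (by decide +kernel)) h
    · rcases brec_true h with h | h
      · exact mRel_good (T := T) (by decide) [Lt.c, Lt.d, Lt.f] [Lt.b, Lt.di, Lt.f, Lt.bi, Lt.c] (pair_rel hinv hr (by decide +kernel)) h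
      · rcases brec_true h with h | h
        · exact mRel_good (T := T) (by decide) [Lt.bi, Lt.f, Lt.d] [Lt.c, Lt.b, Lt.ci, Lt.bi, Lt.fi] (pair_rel hinv hr (by decide +kernel)) h
        · exact mRel_good (T := T) (by decide) [Lt.c, Lt.bi] [Lt.ci, Lt.d, Lt.c, Lt.c, Lt.bi, Lt.ci] (pair_rel hinv hr (by decide +kernel)) h
theorem dM_189_s (hinv : ∀ x, g (inv x) = (g x)⁻¹) (hr : ∀ r ∈ rels, (r.map g).prod = 1) (j z1 z2 u : ℕ) (h : dM_189 j z1 z2 u = true) : GoodM (fa g) T MG M (cP g H) u := by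
  unfold dM_189 at h
  rcases brec_true h with h | h
  · exact dM_187_s hinv hr j z1 z2 u h
  · exact dM_188_s hinv hr j z1 z2 u h
theorem dM_190_s (hinv : ∀ x, g (inv x) = (g x)⁻¹) (hr : ∀ r ∈ rels, (r.map g).prod = 1) (j z1 z2 u : ℕ) (h : dM_190 j z1 z2 u = true) : GoodM (fa g) T MG M (cP g H) u := by
  unfold dM_190 at h
  rcases brec_true h with h | h
  · exact dM_186_s hinv hr j z1 z2 u h
  · exact dM_189_s hinv hr j z1 z2 u h
theorem dM_191_s (hinv : ∀ x, g (inv x) = (g x)⁻¹) (hr : ∀ r ∈ rels, (r.map g).prod = 1) (j z1 z2 u : ℕ) (h : dM_191 j z1 z2 u = true) : GoodM (fa g) T MG M (cP g H) u := by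
  unfold dM_191 at h
  rcases brec_true h with h | h
  · exact dM_183_s hinv hr j z1 z2 u h
  · exact dM_190_s hinv hr j z1 z2 u h
theorem dM_192_s (hinv : ∀ x, g (inv x) = (g x)⁻¹) (hr : ∀ r ∈ rels, (r.map g).prod = 1) (j z1 z2 u : ℕ) (h : dM_192 j z1 z2 u = true) : GoodM (fa g) T MG M (cP g H) u := by
  unfold dM_192 at h
  rcases brec_true h with h | h
  · exact dM_176_s hinv hr j z1 z2 u h
  · exact dM_191_s hinv hr j z1 z2 u h
theorem dM_193_s (hinv : ∀ x, g (inv x) = (g x)⁻¹) (hr : ∀ r ∈ rels, (r.map g).prod = 1) (j z1 z2 u : ℕ) (h : dM_193 j z1 z2 u = true) : GoodM (fa g) T MG M (cP g H) u := by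
  unfold dM_193 at h
  rcases brec_true h with h | h
  · exact dM_161_s hinv hr j z1 z2 u h
  · exact dM_192_s hinv hr j z1 z2 u h
theorem dM_194_s (hinv : ∀ x, g (inv x) = (g x)⁻¹) (hr : ∀ r ∈ rels, (r.map g).prod = 1) (j z1 z2 u : ℕ) (h : dM_194 j z1 z2 u = true) : GoodM (fa g) T MG M (cP g H) u := by
  unfold dM_194 at h
  rcases brec_true h with h | h
  · exact dM_132_s hinv hr j z1 z2 u h
  · exact dM_193_s hinv hr j z1 z2 u h
theorem dM_195_s (hinv : ∀ x, g (inv x) = (g x)⁻¹) (hr : ∀ r ∈ rels, (r.map g).prod = 1) (j z1 z2 u : ℕ) (h : dM_195 j z1 z2 u = true) : GoodM (fa g) T MG M (cP g H) u := by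
  unfold dM_195 at h
  rcases brec_true h with h | h
  · rcases brec_true h with h | h
    · rcases brec_true h with h | h
      · exact mRel_good (T := T) (by decide) [Lt.c] [Lt.fi, Lt.fi, Lt.di, Lt.bi, Lt.c, Lt.b, Lt.d] (pair_rel hinv hr (by decide +kernel)) h
      · exact mRel_good (T := T) (by decide) [Lt.e, Lt.f, Lt.ei, Lt.d] [Lt.f, Lt.e, Lt.c, Lt.d, Lt.fi] (pair_rel hinv hr (by decide +kernel)) h
    · rcases brec_true h with h | h
      · exact mRel_good (T := T) (by decide) [Lt.c] [Lt.fi, Lt.d, Lt.bi, Lt.fi, Lt.di, Lt.ci, Lt.bi] (pair_rel hinv hr (by decide +kernel)) h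
      · rcases brec_true h with h | h
        · exact mRel_good (T := T) (by decide) [Lt.fi, Lt.ei, Lt.f] [Lt.ei, Lt.fi, Lt.fi, Lt.d, Lt.ci, Lt.ei] (pair_rel hinv hr (by decide +kernel)) h
        · exact mRel_good (T := T) (by decide) [Lt.f, Lt.b] [Lt.ci, Lt.b, Lt.f, Lt.ci, Lt.ci, Lt.f] (pair_rel hinv hr (by decide +kernel)) h
  · rcases brec_true h with h | h
    · rcases brec_true h with h | h
      · exact mRel_good (T := T) (by decide) [Lt.bi, Lt.fi, Lt.di] [Lt.di, Lt.f, Lt.c, Lt.b, Lt.c] (pair_rel hinv hr (by decide +kernel)) h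
      · exact mRel_good (T := T) (by decide) [Lt.b, Lt.ci, Lt.bi, Lt.fi, Lt.b] [Lt.bi, Lt.di, Lt.ci] (pair_rel hinv hr (by decide +kernel)) h
    · rcases brec_true h with h | h
      · exact mRel_good (T := T) (by decide) [Lt.fi, Lt.di, Lt.e, Lt.fi, Lt.ei, Lt.f, Lt.e] [Lt.di, Lt.ci] (pair_rel hinv hr (by decide +kernel)) h
      · rcases brec_true h with h | h
        · exact mRel_good (T := T) (by decide) [Lt.b, Lt.di, Lt.di, Lt.b, Lt.di, Lt.bi] [Lt.d, Lt.d] (pair_rel hinv hr (by decide +kernel)) h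
        · exact mRel_good (T := T) (by decide) [Lt.c, Lt.fi, Lt.bi, Lt.c] [Lt.ci, Lt.f, Lt.bi, Lt.fi] (pair_rel hinv hr (by decide +kernel)) h
theorem dM_196_s (hinv : ∀ x, g (inv x) = (g x)⁻¹) (hr : ∀ r ∈ rels, (r.map g).prod = 1) (j z1 z2 u : ℕ) (h : dM_196 j z1 z2 u = true) : GoodM (fa g) T MG M (cP g H) u := by
  unfold dM_196 at h
  rcases brec_true h with h | h
  · rcases brec_true h with h | h
    · rcases brec_true h with h | h
      · exact mRel_good (T := T) (by decide) [Lt.ci, Lt.ci, Lt.di, Lt.c, Lt.c, Lt.bi] [Lt.bi, Lt.ci] (pair_rel hinv hr (by decide +kernel)) h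
      · exact mRel_good (T := T) (by decide) [Lt.f, Lt.bi, Lt.di, Lt.di, Lt.fi, Lt.bi] [Lt.d, Lt.c] (pair_rel hinv hr (by decide +kernel)) h
    · rcases brec_true h with h | h
      · exact mRel_good (T := T) (by decide) [Lt.di, Lt.b, Lt.c, Lt.d] [Lt.f, Lt.di, Lt.b, Lt.c] (pair_rel hinv hr (by decide +kernel)) h
      · rcases brec_true h with h | h
        · exact mRel_good (T := T) (by decide) [Lt.c, Lt.f, Lt.b] [Lt.b, Lt.f, Lt.ci, Lt.ci, Lt.f] (pair_rel hinv hr (by decide +kernel)) h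
        · exact mRel_good (T := T) (by decide) [Lt.c, Lt.di, Lt.bi] [Lt.fi, Lt.fi, Lt.di, Lt.bi, Lt.c] (pair_rel hinv hr (by decide +kernel)) h
  · rcases brec_true h with h | h
    · rcases brec_true h with h | h
      · exact mRel_good (T := T) (by decide) [Lt.bi, Lt.e, Lt.c, Lt.e, Lt.bi, Lt.e] [Lt.ei, Lt.ci] (pair_rel hinv hr (by decide +kernel)) h
      · rcases brec_true h with h | h
        · exact mRel_good (T := T) (by decide) [Lt.c, Lt.b, Lt.b, Lt.ci, Lt.fi, Lt.fi, Lt.bi, Lt.d] [] (pair_rel hinv hr (by decide +kernel)) h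
        · exact mRel_good (T := T) (by decide) [Lt.fi, Lt.c, Lt.d, Lt.d, Lt.bi] [Lt.b, Lt.ci, Lt.fi] (pair_rel hinv hr (by decide +kernel)) h
    · rcases brec_true h with h | h
      · exact mRel_good (T := T) (by decide) [Lt.ci, Lt.b, Lt.fi] [Lt.fi, Lt.di, Lt.ci, Lt.b, Lt.di] (pair_rel hinv hr (by decide +kernel)) h
      · rcases brec_true h with h | h
        · exact mRel_good (T := T) (by decide) [Lt.bi, Lt.c, Lt.d, Lt.f, Lt.ci, Lt.b, Lt.fi] [Lt.di] (pair_rel hinv hr (by decide +kernel)) h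
        · exact mRel_good (T := T) (by decide) [Lt.bi, Lt.c, Lt.c, Lt.di, Lt.bi, Lt.c] [Lt.d, Lt.ci] (pair_rel hinv hr (by decide +kernel)) h
theorem dM_197_s (hinv : ∀ x, g (inv x) = (g x)⁻¹) (hr : ∀ r ∈ rels, (r.map g).prod = 1) (j z1 z2 u : ℕ) (h : dM_197 j z1 z2 u = true) : GoodM (fa g) T MG M (cP g H) u := by
  unfold dM_197 at h
  rcases brec_true h with h | h
  · exact dM_195_s hinv hr j z1 z2 u h
  · exact dM_196_s hinv hr j z1 z2 u h
theorem dM_198_s (hinv : ∀ x, g (inv x) = (g x)⁻¹) (hr : ∀ r ∈ rels, (r.map g).prod = 1) (j z1 z2 u : ℕ) (h : dM_198 j z1 z2 u = true) : GoodM (fa g) T MG M (cP g H) u := by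
  unfold dM_198 at h
  rcases brec_true h with h | h
  · rcases brec_true h with h | h
    · rcases brec_true h with h | h
      · exact mRel_good (T := T) (by decide) [Lt.ci, Lt.bi] [Lt.bi, Lt.ci, Lt.bi, Lt.f, Lt.d, Lt.f] (pair_rel hinv hr (by decide +kernel)) h
      · exact mRel_good (T := T) (by decide) [Lt.c, Lt.c, Lt.f, Lt.d, Lt.c] [Lt.fi, Lt.c, Lt.c, Lt.b] (pair_rel hinv hr (by decide +kernel)) h
    · rcases brec_true h with h | h
      · exact mRel_good (T := T) (by decide) [Lt.b, Lt.f] [Lt.f, Lt.e, Lt.f, Lt.ci, Lt.b, Lt.e, Lt.di] (pair_rel hinv hr (by decide +kernel)) h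
      · rcases brec_true h with h | h
        · exact mRel_good (T := T) (by decide) [Lt.f, Lt.bi] [Lt.bi, Lt.di, Lt.di, Lt.fi, Lt.b, Lt.ci, Lt.f] (pair_rel hinv hr (by decide +kernel)) h
        · exact mRel_good (T := T) (by decide) [Lt.ci, Lt.b, Lt.di, Lt.f, Lt.di, Lt.ci] [Lt.b, Lt.c] (pair_rel hinv hr (by decide +kernel)) h
  · rcases brec_true h with h | h
    · rcases brec_true h with h | h
      · exact mRel_good (T := T) (by decide) [Lt.d, Lt.ci, Lt.fi, Lt.d, Lt.c] [Lt.di, Lt.fi, Lt.ci, Lt.d] (pair_rel hinv hr (by decide +kernel)) h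
      · exact mRel_good (T := T) (by decide) [Lt.ci, Lt.di, Lt.f, Lt.bi] [Lt.b, Lt.f, Lt.d, Lt.d] (pair_rel hinv hr (by decide +kernel)) h
    · rcases brec_true h with h | h
      · exact mRel_good (T := T) (by decide) [Lt.di, Lt.bi, Lt.ci] [Lt.ci, Lt.fi, Lt.fi, Lt.di, Lt.bi] (pair_rel hinv hr (by decide +kernel)) h
      · rcases brec_true h with h | h
        · exact mRel_good (T := T) (by decide) [Lt.f, Lt.c, Lt.di, Lt.f, Lt.ei, Lt.f, Lt.e, Lt.fi] [Lt.e] (pair_rel hinv hr (by decide +kernel)) h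
        · exact mRel_good (T := T) (by decide) [Lt.d, Lt.ci] [Lt.c, Lt.d, Lt.bi, Lt.c, Lt.di, Lt.b] (pair_rel hinv hr (by decide +kernel)) h
theorem dM_199_s (hinv : ∀ x, g (inv x) = (g x)⁻¹) (hr : ∀ r ∈ rels, (r.map g).prod = 1) (j z1 z2 u : ℕ) (h : dM_199 j z1 z2 u = true) : GoodM (fa g) T MG M (cP g H) u := by
  unfold dM_199 at h
  rcases brec_true h with h | h
  · rcases brec_true h with h | h
    · rcases brec_true h with h | h
      · exact mRel_good (T := T) (by decide) [Lt.ci, Lt.f, Lt.di] [Lt.fi, Lt.bi, Lt.di, Lt.c, Lt.bi] (pair_rel hinv hr (by decide +kernel)) h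
      · exact mRel_good (T := T) (by decide) [Lt.f, Lt.f, Lt.di, Lt.fi, Lt.di, Lt.di] [Lt.d, Lt.fi] (pair_rel hinv hr (by decide +kernel)) h
    · rcases brec_true h with h | h
      · exact mRel_good (T := T) (by decide) [Lt.b] [Lt.c, Lt.b, Lt.ci, Lt.ci, Lt.di, Lt.c, Lt.c] (pair_rel hinv hr (by decide +kernel)) h
      · rcases brec_true h with h | h
        · exact mRel_good (T := T) (by decide) [Lt.ci, Lt.di, Lt.f, Lt.c, Lt.di, Lt.di, Lt.fi] [Lt.di, Lt.c] (pair_rel hinv hr (by decide +kernel)) h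
        · exact mRel_good (T := T) (by decide) [Lt.di, Lt.fi, Lt.c] [Lt.c, Lt.c, Lt.fi, Lt.di, Lt.fi, Lt.di] (pair_rel hinv hr (by decide +kernel)) h
  · rcases brec_true h with h | h
    · rcases brec_true h with h | h
      · exact mRel_good (T := T) (by decide) [Lt.d, Lt.f, Lt.di, Lt.ci, Lt.ei, Lt.fi, Lt.e, Lt.f, Lt.ei] [] (pair_rel hinv hr (by decide +kernel)) h
      · rcases brec_true h with h | h
        · exact mRel_good (T := T) (by decide) [Lt.fi, Lt.fi, Lt.d, Lt.ci, Lt.ei] [Lt.e, Lt.fi, Lt.ei, Lt.f] (pair_rel hinv hr (by decide +kernel)) h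
        · exact mRel_good (T := T) (by decide) [Lt.c, Lt.bi] [Lt.fi, Lt.fi, Lt.bi, Lt.d, Lt.c, Lt.b] (pair_rel hinv hr (by decide +kernel)) h
    · rcases brec_true h with h | h
      · exact mRel_good (T := T) (by decide) [Lt.f, Lt.d, Lt.d, Lt.ci, Lt.f, Lt.d, Lt.d] [Lt.c] (pair_rel hinv hr (by decide +kernel)) h
      · rcases brec_true h with h | h
        · exact mRel_good (T := T) (by decide) [Lt.c, Lt.bi, Lt.di] [Lt.di, Lt.ci, Lt.bi, Lt.f, Lt.ci] (pair_rel hinv hr (by decide +kernel)) h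
        · exact mRel_good (T := T) (by decide) [Lt.c, Lt.b, Lt.ci, Lt.bi, Lt.di, Lt.di, Lt.f] [Lt.bi] (pair_rel hinv hr (by decide +kernel)) h
theorem dM_200_s (hinv : ∀ x, g (inv x) = (g x)⁻¹) (hr : ∀ r ∈ rels, (r.map g).prod = 1) (j z1 z2 u : ℕ) (h : dM_200 j z1 z2 u = true) : GoodM (fa g) T MG M (cP g H) u := by
  unfold dM_200 at h
  rcases brec_true h with h | h
  · exact dM_198_s hinv hr j z1 z2 u h
  · exact dM_199_s hinv hr j z1 z2 u h
theorem dM_201_s (hinv : ∀ x, g (inv x) = (g x)⁻¹) (hr : ∀ r ∈ rels, (r.map g).prod = 1) (j z1 z2 u : ℕ) (h : dM_201 j z1 z2 u = true) : GoodM (fa g) T MG M (cP g H) u := by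
  unfold dM_201 at h
  rcases brec_true h with h | h
  · exact dM_197_s hinv hr j z1 z2 u h
  · exact dM_200_s hinv hr j z1 z2 u h
theorem dM_202_s (hinv : ∀ x, g (inv x) = (g x)⁻¹) (hr : ∀ r ∈ rels, (r.map g).prod = 1) (j z1 z2 u : ℕ) (h : dM_202 j z1 z2 u = true) : GoodM (fa g) T MG M (cP g H) u := by
  unfold dM_202 at h
  rcases brec_true h with h | h
  · rcases brec_true h with h | h
    · rcases brec_true h with h | h
      · exact mRel_good (T := T) (by decide) [Lt.f, Lt.b, Lt.c, Lt.b, Lt.ci] [Lt.d, Lt.d, Lt.b] (pair_rel hinv hr (by decide +kernel)) h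
      · exact mRel_good (T := T) (by decide) [Lt.f, Lt.ci] [Lt.bi, Lt.di, Lt.c, Lt.bi, Lt.d, Lt.fi] (pair_rel hinv hr (by decide +kernel)) h
    · rcases brec_true h with h | h
      · exact mRel_good (T := T) (by decide) [Lt.fi, Lt.d, Lt.ci, Lt.fi, Lt.e, Lt.f, Lt.ei, Lt.fi, Lt.e] [] (pair_rel hinv hr (by decide +kernel)) h
      · rcases brec_true h with h | h
        · exact mRel_good (T := T) (by decide) [Lt.d] [Lt.di, Lt.b, Lt.di, Lt.di, Lt.b, Lt.di, Lt.bi] (pair_rel hinv hr (by decide +kernel)) h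
        · exact mRel_good (T := T) (by decide) [Lt.b, Lt.ci] [Lt.c, Lt.bi, Lt.c, Lt.bi, Lt.c, Lt.bi] (pair_rel hinv hr (by decide +kernel)) h
  · rcases brec_true h with h | h
    · rcases brec_true h with h | h
      · exact mRel_good (T := T) (by decide) [Lt.fi, Lt.ei] [Lt.ei, Lt.fi, Lt.fi, Lt.d, Lt.ci, Lt.ei, Lt.fi] (pair_rel hinv hr (by decide +kernel)) h
      · exact mRel_good (T := T) (by decide) [Lt.c, Lt.di, Lt.b, Lt.c, Lt.di, Lt.c, Lt.d] [Lt.b] (pair_rel hinv hr (by decide +kernel)) h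
    · rcases brec_true h with h | h
      · exact mRel_good (T := T) (by decide) [Lt.c] [Lt.bi, Lt.f, Lt.ci, Lt.d, Lt.b, Lt.ci, Lt.di] (pair_rel hinv hr (by decide +kernel)) h
      · rcases brec_true h with h | h
        · exact mRel_good (T := T) (by decide) [Lt.fi, Lt.c] [Lt.b, Lt.ci, Lt.fi, Lt.b, Lt.di, Lt.di] (pair_rel hinv hr (by decide +kernel)) h
        · exact mRel_good (T := T) (by decide) [Lt.c, Lt.d, Lt.d, Lt.f, Lt.bi] [Lt.b, Lt.ci, Lt.f, Lt.di] (pair_rel hinv hr (by decide +kernel)) h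
theorem dM_203_s (hinv : ∀ x, g (inv x) = (g x)⁻¹) (hr : ∀ r ∈ rels, (r.map g).prod = 1) (j z1 z2 u : ℕ) (h : dM_203 j z1 z2 u = true) : GoodM (fa g) T MG M (cP g H) u := by
  unfold dM_203 at h
  rcases brec_true h with h | h
  · rcases brec_true h with h | h
    · rcases brec_true h with h | h
      · exact mRel_good (T := T) (by decide) [Lt.ci, Lt.di, Lt.c] [Lt.c, Lt.bi, Lt.ci, Lt.b, Lt.ci] (pair_rel hinv hr (by decide +kernel)) h
      · exact mRel_good (T := T) (by decide) [Lt.fi, Lt.di, Lt.ci, Lt.bi, Lt.ci, Lt.fi, Lt.d] [Lt.b] (pair_rel hinv hr (by decide +kernel)) h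
    · rcases brec_true h with h | h
      · exact mRel_good (T := T) (by decide) [Lt.b, Lt.f, Lt.f, Lt.c, Lt.bi, Lt.bi] [Lt.d, Lt.c] (pair_rel hinv hr (by decide +kernel)) h
      · rcases brec_true h with h | h
        · exact mRel_good (T := T) (by decide) [Lt.f] [Lt.di, Lt.ci, Lt.bi, Lt.ci, Lt.fi, Lt.d, Lt.bi] (pair_rel hinv hr (by decide +kernel)) h
        · exact mRel_good (T := T) (by decide) [Lt.c, Lt.c, Lt.fi, Lt.bi] [Lt.f, Lt.bi, Lt.fi, Lt.ci] (pair_rel hinv hr (by decide +kernel)) h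
  · rcases brec_true h with h | h
    · rcases brec_true h with h | h
      · exact mRel_good (T := T) (by decide) [Lt.di, Lt.ci, Lt.f, Lt.b, Lt.ci, Lt.fi, Lt.b, Lt.di] [] (pair_rel hinv hr (by decide +kernel)) h
      · rcases brec_true h with h | h
        · exact mRel_good (T := T) (by decide) [Lt.ci, Lt.fi, Lt.b, Lt.di, Lt.di, Lt.ci] [Lt.bi, Lt.fi] (pair_rel hinv hr (by decide +kernel)) h
        · exact mRel_good (T := T) (by decide) [Lt.di, Lt.di, Lt.fi] [Lt.ci, Lt.f, Lt.d, Lt.d, Lt.ci] (pair_rel hinv hr (by decide +kernel)) h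
    · rcases brec_true h with h | h
      · exact mRel_good (T := T) (by decide) [Lt.c, Lt.di, Lt.f, Lt.f, Lt.e, Lt.fi, Lt.ei, Lt.f, Lt.e] [] (pair_rel hinv hr (by decide +kernel)) h
      · rcases brec_true h with h | h
        · exact mRel_good (T := T) (by decide) [Lt.ci, Lt.di] [Lt.bi, Lt.ci, Lt.d, Lt.c, Lt.bi, Lt.ci] (pair_rel hinv hr (by decide +kernel)) h
        · exact mRel_good (T := T) (by decide) [Lt.bi, Lt.bi, Lt.ci, Lt.di, Lt.b] [Lt.ci, Lt.fi, Lt.fi] (pair_rel hinv hr (by decide +kernel)) h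
theorem dM_204_s (hinv : ∀ x, g (inv x) = (g x)⁻¹) (hr : ∀ r ∈ rels, (r.map g).prod = 1) (j z1 z2 u : ℕ) (h : dM_204 j z1 z2 u = true) : GoodM (fa g) T MG M (cP g H) u := by
  unfold dM_204 at h
  rcases brec_true h with h | h
  · exact dM_202_s hinv hr j z1 z2 u h
  · exact dM_203_s hinv hr j z1 z2 u h
theorem dM_205_s (hinv : ∀ x, g (inv x) = (g x)⁻¹) (hr : ∀ r ∈ rels, (r.map g).prod = 1) (j z1 z2 u : ℕ) (h : dM_205 j z1 z2 u = true) : GoodM (fa g) T MG M (cP g H) u := by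
  unfold dM_205 at h
  rcases brec_true h with h | h
  · rcases brec_true h with h | h
    · rcases brec_true h with h | h
      · exact mRel_good (T := T) (by decide) [Lt.fi, Lt.bi, Lt.di, Lt.c, Lt.bi, Lt.d] [Lt.ci, Lt.f] (pair_rel hinv hr (by decide +kernel)) h
      · exact mRel_good (T := T) (by decide) [Lt.b, Lt.c, Lt.bi, Lt.ci, Lt.bi, Lt.fi, Lt.d, Lt.d] [] (pair_rel hinv hr (by decide +kernel)) h
    · rcases brec_true h with h | h
      · exact mRel_good (T := T) (by decide) [Lt.f, Lt.c] [Lt.bi, Lt.d, Lt.ci, Lt.fi, Lt.bi, Lt.d] (pair_rel hinv hr (by decide +kernel)) h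
      · rcases brec_true h with h | h
        · exact mRel_good (T := T) (by decide) [Lt.d, Lt.fi, Lt.d] [Lt.ci, Lt.ci, Lt.bi, Lt.ci, Lt.b] (pair_rel hinv hr (by decide +kernel)) h
        · exact mRel_good (T := T) (by decide) [Lt.b, Lt.ci, Lt.bi, Lt.fi] [Lt.ci, Lt.bi, Lt.f, Lt.d] (pair_rel hinv hr (by decide +kernel)) h
  · rcases brec_true h with h | h
    · rcases brec_true h with h | h
      · exact mRel_good (T := T) (by decide) [Lt.di, Lt.fi, Lt.di] [Lt.fi, Lt.fi, Lt.d, Lt.fi, Lt.d] (pair_rel hinv hr (by decide +kernel)) h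
      · rcases brec_true h with h | h
        · exact mRel_good (T := T) (by decide) [Lt.b, Lt.c, Lt.b] [Lt.fi, Lt.d, Lt.d, Lt.b, Lt.c] (pair_rel hinv hr (by decide +kernel)) h
        · exact mRel_good (T := T) (by decide) [Lt.c, Lt.di, Lt.b, Lt.f, Lt.c] [Lt.fi, Lt.bi, Lt.d] (pair_rel hinv hr (by decide +kernel)) h
    · rcases brec_true h with h | h
      · exact mRel_good (T := T) (by decide) [Lt.f, Lt.b, Lt.c, Lt.b, Lt.ci, Lt.bi] [Lt.d, Lt.d] (pair_rel hinv hr (by decide +kernel)) h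
      · rcases brec_true h with h | h
        · exact mRel_good (T := T) (by decide) [Lt.f, Lt.e, Lt.f, Lt.ci, Lt.b, Lt.e, Lt.di, Lt.fi] [Lt.b] (pair_rel hinv hr (by decide +kernel)) h
        · exact mRel_good (T := T) (by decide) [Lt.f, Lt.b] [Lt.b, Lt.b, Lt.f, Lt.ci, Lt.d, Lt.fi] (pair_rel hinv hr (by decide +kernel)) h
theorem dM_206_s (hinv : ∀ x, g (inv x) = (g x)⁻¹) (hr : ∀ r ∈ rels, (r.map g).prod = 1) (j z1 z2 u : ℕ) (h : dM_206 j z1 z2 u = true) : GoodM (fa g) T MG M (cP g H) u := by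
  unfold dM_206 at h
  rcases brec_true h with h | h
  · rcases brec_true h with h | h
    · rcases brec_true h with h | h
      · exact mRel_good (T := T) (by decide) [Lt.d, Lt.ci, Lt.fi] [Lt.bi, Lt.ci, Lt.b, Lt.d, Lt.f] (pair_rel hinv hr (by decide +kernel)) h
      · exact mRel_good (T := T) (by decide) [Lt.f, Lt.c, Lt.bi, Lt.bi] [Lt.fi, Lt.bi, Lt.d, Lt.c] (pair_rel hinv hr (by decide +kernel)) h
    · rcases brec_true h with h | h
      · exact mRel_good (T := T) (by decide) [Lt.ci, Lt.b, Lt.e, Lt.di, Lt.fi, Lt.bi, Lt.f] [Lt.fi, Lt.ei] (pair_rel hinv hr (by decide +kernel)) h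
      · rcases brec_true h with h | h
        · exact mRel_good (T := T) (by decide) [Lt.di, Lt.f] [Lt.ci, Lt.fi, Lt.e, Lt.f, Lt.ei, Lt.fi, Lt.e] (pair_rel hinv hr (by decide +kernel)) h
        · exact mRel_good (T := T) (by decide) [Lt.d, Lt.bi, Lt.d, Lt.d, Lt.bi, Lt.d] [Lt.bi, Lt.di] (pair_rel hinv hr (by decide +kernel)) h
  · rcases brec_true h with h | h
    · rcases brec_true h with h | h
      · exact mRel_good (T := T) (by decide) [Lt.b, Lt.f, Lt.d] [Lt.f, Lt.e, Lt.f, Lt.ci, Lt.b, Lt.e] (pair_rel hinv hr (by decide +kernel)) h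
      · rcases brec_true h with h | h
        · exact mRel_good (T := T) (by decide) [Lt.b, Lt.f, Lt.ci, Lt.d] [Lt.bi, Lt.f, Lt.b, Lt.f] (pair_rel hinv hr (by decide +kernel)) h
        · exact mRel_good (T := T) (by decide) [Lt.f, Lt.d, Lt.d, Lt.b, Lt.fi] [Lt.bi, Lt.ci, Lt.di] (pair_rel hinv hr (by decide +kernel)) h
    · rcases brec_true h with h | h
      · exact mRel_good (T := T) (by decide) [Lt.di, Lt.f, Lt.bi, Lt.c] [Lt.bi, Lt.c, Lt.d, Lt.f] (pair_rel hinv hr (by decide +kernel)) h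
      · rcases brec_true h with h | h
        · exact mRel_good (T := T) (by decide) [Lt.fi, Lt.bi, Lt.fi] [Lt.di, Lt.c, Lt.fi, Lt.bi, Lt.bi] (pair_rel hinv hr (by decide +kernel)) h
        · exact mRel_good (T := T) (by decide) [Lt.b, Lt.f, Lt.d, Lt.d, Lt.b] [Lt.ci, Lt.di, Lt.f] (pair_rel hinv hr (by decide +kernel)) h
theorem dM_207_s (hinv : ∀ x, g (inv x) = (g x)⁻¹) (hr : ∀ r ∈ rels, (r.map g).prod = 1) (j z1 z2 u : ℕ) (h : dM_207 j z1 z2 u = true) : GoodM (fa g) T MG M (cP g H) u := by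
  unfold dM_207 at h
  rcases brec_true h with h | h
  · exact dM_205_s hinv hr j z1 z2 u h
  · exact dM_206_s hinv hr j z1 z2 u h
theorem dM_208_s (hinv : ∀ x, g (inv x) = (g x)⁻¹) (hr : ∀ r ∈ rels, (r.map g).prod = 1) (j z1 z2 u : ℕ) (h : dM_208 j z1 z2 u = true) : GoodM (fa g) T MG M (cP g H) u := by
  unfold dM_208 at h
  rcases brec_true h with h | h
  · exact dM_204_s hinv hr j z1 z2 u h
  · exact dM_207_s hinv hr j z1 z2 u h
theorem dM_209_s (hinv : ∀ x, g (inv x) = (g x)⁻¹) (hr : ∀ r ∈ rels, (r.map g).prod = 1) (j z1 z2 u : ℕ) (h : dM_209 j z1 z2 u = true) : GoodM (fa g) T MG M (cP g H) u := by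
  unfold dM_209 at h
  rcases brec_true h with h | h
  · exact dM_201_s hinv hr j z1 z2 u h
  · exact dM_208_s hinv hr j z1 z2 u h
theorem dM_210_s (hinv : ∀ x, g (inv x) = (g x)⁻¹) (hr : ∀ r ∈ rels, (r.map g).prod = 1) (j z1 z2 u : ℕ) (h : dM_210 j z1 z2 u = true) : GoodM (fa g) T MG M (cP g H) u := by
  unfold dM_210 at h
  rcases brec_true h with h | h
  · rcases brec_true h with h | h
    · rcases brec_true h with h | h
      · exact mRel_good (T := T) (by decide) [Lt.fi, Lt.di, Lt.fi] [Lt.b, Lt.c, Lt.bi, Lt.ci, Lt.bi] (pair_rel hinv hr (by decide +kernel)) h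
      · exact mRel_good (T := T) (by decide) [Lt.fi, Lt.d, Lt.bi, Lt.c, Lt.d, Lt.f] [Lt.bi, Lt.c] (pair_rel hinv hr (by decide +kernel)) h
    · rcases brec_true h with h | h
      · exact mRel_good (T := T) (by decide) [Lt.bi, Lt.f, Lt.b, Lt.f, Lt.di, Lt.c, Lt.fi] [Lt.b] (pair_rel hinv hr (by decide +kernel)) h
      · rcases brec_true h with h | h
        · exact mRel_good (T := T) (by decide) [Lt.ci, Lt.fi] [Lt.bi, Lt.fi, Lt.c, Lt.d, Lt.d, Lt.bi] (pair_rel hinv hr (by decide +kernel)) h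
        · exact mRel_good (T := T) (by decide) [Lt.bi, Lt.c, Lt.f, Lt.b, Lt.fi] [Lt.f, Lt.ci, Lt.ci] (pair_rel hinv hr (by decide +kernel)) h
  · rcases brec_true h with h | h
    · rcases brec_true h with h | h
      · exact mRel_good (T := T) (by decide) [Lt.di, Lt.ci, Lt.b, Lt.di] [Lt.f, Lt.ci, Lt.b, Lt.fi] (pair_rel hinv hr (by decide +kernel)) h
      · exact mRel_good (T := T) (by decide) [Lt.b, Lt.c, Lt.d, Lt.f, Lt.b, Lt.di, Lt.f] [Lt.ci] (pair_rel hinv hr (by decide +kernel)) h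
    · rcases brec_true h with h | h
      · exact mRel_good (T := T) (by decide) [Lt.di, Lt.ci, Lt.bi, Lt.d, Lt.f, Lt.di, Lt.b, Lt.c] [] (pair_rel hinv hr (by decide +kernel)) h
      · rcases brec_true h with h | h
        · exact mRel_good (T := T) (by decide) [Lt.fi, Lt.e, Lt.f] [Lt.e, Lt.c, Lt.d, Lt.fi, Lt.di, Lt.e] (pair_rel hinv hr (by decide +kernel)) h
        · exact mRel_good (T := T) (by decide) [Lt.bi, Lt.ci, Lt.bi] [Lt.ci, Lt.bi, Lt.fi, Lt.di, Lt.fi] (pair_rel hinv hr (by decide +kernel)) h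
theorem dM_211_s (hinv : ∀ x, g (inv x) = (g x)⁻¹) (hr : ∀ r ∈ rels, (r.map g).prod = 1) (j z1 z2 u : ℕ) (h : dM_211 j z1 z2 u = true) : GoodM (fa g) T MG M (cP g H) u := by
  unfold dM_211 at h
  rcases brec_true h with h | h
  · rcases brec_true h with h | h
    · rcases brec_true h with h | h
      · exact mRel_good (T := T) (by decide) [Lt.di, Lt.di, Lt.fi, Lt.bi, Lt.ci] [Lt.b, Lt.fi, Lt.d] (pair_rel hinv hr (by decide +kernel)) h
      · exact mRel_good (T := T) (by decide) [Lt.bi, Lt.fi, Lt.d, Lt.d, Lt.b, Lt.c] [Lt.c, Lt.b] (pair_rel hinv hr (by decide +kernel)) h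
    · rcases brec_true h with h | h
      · exact mRel_good (T := T) (by decide) [Lt.bi, Lt.f, Lt.d, Lt.b, Lt.c, Lt.d] [Lt.c, Lt.bi] (pair_rel hinv hr (by decide +kernel)) h
      · rcases brec_true h with h | h
        · exact mRel_good (T := T) (by decide) [Lt.c, Lt.b, Lt.ci, Lt.ci, Lt.di] [Lt.b, Lt.ci, Lt.ci] (pair_rel hinv hr (by decide +kernel)) h
        · exact mRel_good (T := T) (by decide) [Lt.d, Lt.fi] [Lt.fi, Lt.di, Lt.di, Lt.f, Lt.di, Lt.f] (pair_rel hinv hr (by decide +kernel)) h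
  · rcases brec_true h with h | h
    · rcases brec_true h with h | h
      · exact mRel_good (T := T) (by decide) [Lt.d, Lt.b] [Lt.c, Lt.bi, Lt.d, Lt.fi, Lt.c, Lt.fi] (pair_rel hinv hr (by decide +kernel)) h
      · rcases brec_true h with h | h
        · exact mRel_good (T := T) (by decide) [Lt.di] [Lt.f, Lt.di, Lt.ci, Lt.ei, Lt.fi, Lt.e, Lt.f, Lt.ei] (pair_rel hinv hr (by decide +kernel)) h
        · exact mRel_good (T := T) (by decide) [Lt.c, Lt.bi, Lt.fi, Lt.c, Lt.d] [Lt.fi, Lt.b, Lt.di] (pair_rel hinv hr (by decide +kernel)) h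
    · rcases brec_true h with h | h
      · exact mRel_good (T := T) (by decide) [Lt.e, Lt.fi] [Lt.f, Lt.e, Lt.fi, Lt.ei, Lt.f, Lt.c, Lt.di] (pair_rel hinv hr (by decide +kernel)) h
      · rcases brec_true h with h | h
        · exact mRel_good (T := T) (by decide) [Lt.ei, Lt.f, Lt.e] [Lt.fi, Lt.d, Lt.ci, Lt.fi, Lt.e, Lt.f] (pair_rel hinv hr (by decide +kernel)) h
        · exact mRel_good (T := T) (by decide) [Lt.di, Lt.di, Lt.f, Lt.b, Lt.c, Lt.b, Lt.ci] [Lt.b] (pair_rel hinv hr (by decide +kernel)) h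
theorem dM_212_s (hinv : ∀ x, g (inv x) = (g x)⁻¹) (hr : ∀ r ∈ rels, (r.map g).prod = 1) (j z1 z2 u : ℕ) (h : dM_212 j z1 z2 u = true) : GoodM (fa g) T MG M (cP g H) u := by
  unfold dM_212 at h
  rcases brec_true h with h | h
  · exact dM_210_s hinv hr j z1 z2 u h
  · exact dM_211_s hinv hr j z1 z2 u h
theorem dM_213_s (hinv : ∀ x, g (inv x) = (g x)⁻¹) (hr : ∀ r ∈ rels, (r.map g).prod = 1) (j z1 z2 u : ℕ) (h : dM_213 j z1 z2 u = true) : GoodM (fa g) T MG M (cP g H) u := by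
  unfold dM_213 at h
  rcases brec_true h with h | h
  · rcases brec_true h with h | h
    · rcases brec_true h with h | h
      · exact mRel_good (T := T) (by decide) [Lt.c, Lt.d, Lt.d, Lt.bi, Lt.f, Lt.c, Lt.bi] [Lt.f] (pair_rel hinv hr (by decide +kernel)) h
      · exact mRel_good (T := T) (by decide) [Lt.fi, Lt.di, Lt.ci, Lt.b, Lt.di, Lt.f, Lt.bi] [Lt.ci] (pair_rel hinv hr (by decide +kernel)) h
    · rcases brec_true h with h | h
      · exact mRel_good (T := T) (by decide) [Lt.fi, Lt.c, Lt.fi, Lt.bi, Lt.di] [Lt.di, Lt.b, Lt.ci] (pair_rel hinv hr (by decide +kernel)) h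
      · rcases brec_true h with h | h
        · exact mRel_good (T := T) (by decide) [Lt.c, Lt.bi, Lt.d, Lt.fi, Lt.c, Lt.fi] [Lt.d, Lt.b] (pair_rel hinv hr (by decide +kernel)) h
        · exact mRel_good (T := T) (by decide) [Lt.ci, Lt.b, Lt.di, Lt.f, Lt.bi] [Lt.d, Lt.f, Lt.ci] (pair_rel hinv hr (by decide +kernel)) h
  · rcases brec_true h with h | h
    · rcases brec_true h with h | h
      · exact mRel_good (T := T) (by decide) [Lt.b, Lt.fi, Lt.d] [Lt.di, Lt.di, Lt.fi, Lt.bi, Lt.ci] (pair_rel hinv hr (by decide +kernel)) h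
      · rcases brec_true h with h | h
        · exact mRel_good (T := T) (by decide) [Lt.d, Lt.fi, Lt.fi, Lt.d] [Lt.fi, Lt.di, Lt.di, Lt.f] (pair_rel hinv hr (by decide +kernel)) h
        · exact mRel_good (T := T) (by decide) [Lt.b, Lt.f, Lt.d, Lt.d] [Lt.ci, Lt.di, Lt.f, Lt.bi] (pair_rel hinv hr (by decide +kernel)) h
    · rcases brec_true h with h | h
      · exact mRel_good (T := T) (by decide) [Lt.f] [Lt.ei, Lt.f, Lt.e, Lt.c, Lt.di, Lt.f, Lt.f, Lt.e] (pair_rel hinv hr (by decide +kernel)) h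
      · rcases brec_true h with h | h
        · exact mRel_good (T := T) (by decide) [Lt.ci, Lt.d, Lt.c, Lt.c] [Lt.c, Lt.bi, Lt.c, Lt.b] (pair_rel hinv hr (by decide +kernel)) h
        · exact mRel_good (T := T) (by decide) [Lt.bi, Lt.di] [Lt.d, Lt.bi, Lt.d, Lt.d, Lt.bi, Lt.d] (pair_rel hinv hr (by decide +kernel)) h
theorem dM_214_s (hinv : ∀ x, g (inv x) = (g x)⁻¹) (hr : ∀ r ∈ rels, (r.map g).prod = 1) (j z1 z2 u : ℕ) (h : dM_214 j z1 z2 u = true) : GoodM (fa g) T MG M (cP g H) u := by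
  unfold dM_214 at h
  rcases brec_true h with h | h
  · rcases brec_true h with h | h
    · rcases brec_true h with h | h
      · exact mRel_good (T := T) (by decide) [Lt.d, Lt.fi, Lt.fi] [Lt.fi, Lt.di, Lt.di, Lt.f, Lt.di] (pair_rel hinv hr (by decide +kernel)) h
      · exact mRel_good (T := T) (by decide) [Lt.ci, Lt.fi, Lt.bi, Lt.fi, Lt.ci] [Lt.bi, Lt.f, Lt.f, Lt.di] (pair_rel hinv hr (by decide +kernel)) h
    · rcases brec_true h with h | h
      · exact mRel_good (T := T) (by decide) [Lt.c, Lt.bi] [Lt.fi, Lt.d, Lt.ci, Lt.fi, Lt.b, Lt.c, Lt.c] (pair_rel hinv hr (by decide +kernel)) h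
      · rcases brec_true h with h | h
        · exact mRel_good (T := T) (by decide) [Lt.c, Lt.f, Lt.b, Lt.fi, Lt.c] [Lt.b, Lt.f, Lt.ci] (pair_rel hinv hr (by decide +kernel)) h
        · exact mRel_good (T := T) (by decide) [Lt.ci, Lt.bi] [Lt.bi, Lt.di, Lt.ci, Lt.bi, Lt.di, Lt.fi] (pair_rel hinv hr (by decide +kernel)) h
  · rcases brec_true h with h | h
    · rcases brec_true h with h | h
      · exact mRel_good (T := T) (by decide) [Lt.c, Lt.c, Lt.bi, Lt.ci, Lt.b, Lt.ci] [Lt.di, Lt.c] (pair_rel hinv hr (by decide +kernel)) h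
      · rcases brec_true h with h | h
        · exact mRel_good (T := T) (by decide) [Lt.di, Lt.b, Lt.ci, Lt.d, Lt.b, Lt.f] [Lt.fi, Lt.c] (pair_rel hinv hr (by decide +kernel)) h
        · exact mRel_good (T := T) (by decide) [Lt.fi, Lt.b, Lt.c] [Lt.d, Lt.f, Lt.b, Lt.c, Lt.bi] (pair_rel hinv hr (by decide +kernel)) h
    · rcases brec_true h with h | h
      · exact mRel_good (T := T) (by decide) [Lt.di, Lt.ci, Lt.bi, Lt.f] [Lt.c, Lt.bi, Lt.di, Lt.c] (pair_rel hinv hr (by decide +kernel)) h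
      · rcases brec_true h with h | h
        · exact mRel_good (T := T) (by decide) [Lt.di, Lt.f, Lt.b, Lt.c] [Lt.d, Lt.b, Lt.c, Lt.bi] (pair_rel hinv hr (by decide +kernel)) h
        · exact mRel_good (T := T) (by decide) [Lt.ci, Lt.d, Lt.ci, Lt.bi, Lt.d] [Lt.d, Lt.bi, Lt.c] (pair_rel hinv hr (by decide +kernel)) h
theorem dM_215_s (hinv : ∀ x, g (inv x) = (g x)⁻¹) (hr : ∀ r ∈ rels, (r.map g).prod = 1) (j z1 z2 u : ℕ) (h : dM_215 j z1 z2 u = true) : GoodM (fa g) T MG M (cP g H) u := by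
  unfold dM_215 at h
  rcases brec_true h with h | h
  · exact dM_213_s hinv hr j z1 z2 u h
  · exact dM_214_s hinv hr j z1 z2 u h
theorem dM_216_s (hinv : ∀ x, g (inv x) = (g x)⁻¹) (hr : ∀ r ∈ rels, (r.map g).prod = 1) (j z1 z2 u : ℕ) (h : dM_216 j z1 z2 u = true) : GoodM (fa g) T MG M (cP g H) u := by
  unfold dM_216 at h
  rcases brec_true h with h | h
  · exact dM_212_s hinv hr j z1 z2 u h
  · exact dM_215_s hinv hr j z1 z2 u h
theorem dM_217_s (hinv : ∀ x, g (inv x) = (g x)⁻¹) (hr : ∀ r ∈ rels, (r.map g).prod = 1) (j z1 z2 u : ℕ) (h : dM_217 j z1 z2 u = true) : GoodM (fa g) T MG M (cP g H) u := by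
  unfold dM_217 at h
  rcases brec_true h with h | h
  · rcases brec_true h with h | h
    · rcases brec_true h with h | h
      · exact mRel_good (T := T) (by decide) [Lt.d, Lt.b, Lt.ci, Lt.di, Lt.ci, Lt.bi, Lt.f, Lt.ci] [] (pair_rel hinv hr (by decide +kernel)) h
      · exact mRel_good (T := T) (by decide) [Lt.ci, Lt.bi] [Lt.d, Lt.ci, Lt.bi, Lt.d, Lt.fi, Lt.di] (pair_rel hinv hr (by decide +kernel)) h
    · rcases brec_true h with h | h
      · exact mRel_good (T := T) (by decide) [Lt.c, Lt.fi, Lt.b, Lt.c, Lt.d] [Lt.d, Lt.b, Lt.ci] (pair_rel hinv hr (by decide +kernel)) h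
      · rcases brec_true h with h | h
        · exact mRel_good (T := T) (by decide) [Lt.fi, Lt.d, Lt.bi, Lt.fi, Lt.di, Lt.ci] [Lt.c, Lt.b] (pair_rel hinv hr (by decide +kernel)) h
        · exact mRel_good (T := T) (by decide) [Lt.c, Lt.di, Lt.bi, Lt.ci, Lt.b, Lt.d, Lt.f] [Lt.fi] (pair_rel hinv hr (by decide +kernel)) h
  · rcases brec_true h with h | h
    · rcases brec_true h with h | h
      · exact mRel_good (T := T) (by decide) [Lt.b, Lt.f, Lt.d, Lt.ei, Lt.bi, Lt.c, Lt.fi, Lt.ei] [Lt.f] (pair_rel hinv hr (by decide +kernel)) h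
      · exact mRel_good (T := T) (by decide) [Lt.di, Lt.c] [Lt.ci, Lt.bi, Lt.d, Lt.ci, Lt.b, Lt.di] (pair_rel hinv hr (by decide +kernel)) h
    · rcases brec_true h with h | h
      · exact mRel_good (T := T) (by decide) [Lt.c, Lt.bi, Lt.d, Lt.ci, Lt.di, Lt.b, Lt.ci, Lt.di] [Lt.fi] (pair_rel hinv hr (by decide +kernel)) h
      · rcases brec_true h with h | h
        · exact mRel_good (T := T) (by decide) [Lt.fi, Lt.bi] [Lt.c, Lt.di, Lt.b, Lt.f, Lt.c, Lt.di] (pair_rel hinv hr (by decide +kernel)) h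
        · exact mRel_good (T := T) (by decide) [Lt.di, Lt.b, Lt.f] [Lt.c, Lt.b, Lt.b, Lt.ci, Lt.fi] (pair_rel hinv hr (by decide +kernel)) h
theorem dM_218_s (hinv : ∀ x, g (inv x) = (g x)⁻¹) (hr : ∀ r ∈ rels, (r.map g).prod = 1) (j z1 z2 u : ℕ) (h : dM_218 j z1 z2 u = true) : GoodM (fa g) T MG M (cP g H) u := by
  unfold dM_218 at h
  rcases brec_true h with h | h
  · rcases brec_true h with h | h
    · rcases brec_true h with h | h
      · exact mRel_good (T := T) (by decide) [Lt.bi, Lt.d, Lt.c, Lt.b, Lt.b, Lt.ci, Lt.fi] [Lt.f] (pair_rel hinv hr (by decide +kernel)) h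
      · exact mRel_good (T := T) (by decide) [Lt.c, Lt.bi, Lt.di, Lt.ci, Lt.bi, Lt.di, Lt.fi, Lt.b] [] (pair_rel hinv hr (by decide +kernel)) h
    · rcases brec_true h with h | h
      · exact mRel_good (T := T) (by decide) [Lt.di, Lt.ci, Lt.f, Lt.b] [Lt.d, Lt.bi, Lt.f, Lt.c] (pair_rel hinv hr (by decide +kernel)) h
      · rcases brec_true h with h | h
        · exact mRel_good (T := T) (by decide) [Lt.f, Lt.d] [Lt.b, Lt.c, Lt.bi, Lt.di, Lt.ci, Lt.bi] (pair_rel hinv hr (by decide +kernel)) h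
        · exact mRel_good (T := T) (by decide) [Lt.b, Lt.ci] [Lt.di, Lt.ci, Lt.bi, Lt.di, Lt.fi, Lt.b] (pair_rel hinv hr (by decide +kernel)) h
  · rcases brec_true h with h | h
    · rcases brec_true h with h | h
      · exact mRel_good (T := T) (by decide) [Lt.f, Lt.d, Lt.fi, Lt.fi, Lt.d, Lt.fi, Lt.d, Lt.d] [] (pair_rel hinv hr (by decide +kernel)) h
      · rcases brec_true h with h | h
        · exact mRel_good (T := T) (by decide) [Lt.b, Lt.ci, Lt.b] [Lt.c, Lt.bi, Lt.c, Lt.bi, Lt.c] (pair_rel hinv hr (by decide +kernel)) h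
        · exact mRel_good (T := T) (by decide) [Lt.b, Lt.di, Lt.f, Lt.di, Lt.ci] [Lt.c, Lt.b, Lt.c] (pair_rel hinv hr (by decide +kernel)) h
    · rcases brec_true h with h | h
      · exact mRel_good (T := T) (by decide) [Lt.fi, Lt.fi, Lt.d, Lt.fi] [Lt.di, Lt.fi, Lt.di, Lt.di] (pair_rel hinv hr (by decide +kernel)) h
      · rcases brec_true h with h | h
        · exact mRel_good (T := T) (by decide) [Lt.b, Lt.c, Lt.d, Lt.c, Lt.bi] [Lt.f, Lt.ci, Lt.d] (pair_rel hinv hr (by decide +kernel)) h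
        · exact mRel_good (T := T) (by decide) [Lt.fi, Lt.d, Lt.bi] [Lt.bi, Lt.c, Lt.fi, Lt.di, Lt.ci] (pair_rel hinv hr (by decide +kernel)) h
theorem dM_219_s (hinv : ∀ x, g (inv x) = (g x)⁻¹) (hr : ∀ r ∈ rels, (r.map g).prod = 1) (j z1 z2 u : ℕ) (h : dM_219 j z1 z2 u = true) : GoodM (fa g) T MG M (cP g H) u := by
  unfold dM_219 at h
  rcases brec_true h with h | h
  · exact dM_217_s hinv hr j z1 z2 u h
  · exact dM_218_s hinv hr j z1 z2 u h
theorem dM_220_s (hinv : ∀ x, g (inv x) = (g x)⁻¹) (hr : ∀ r ∈ rels, (r.map g).prod = 1) (j z1 z2 u : ℕ) (h : dM_220 j z1 z2 u = true) : GoodM (fa g) T MG M (cP g H) u := by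
  unfold dM_220 at h
  rcases brec_true h with h | h
  · rcases brec_true h with h | h
    · rcases brec_true h with h | h
      · exact mRel_good (T := T) (by decide) [Lt.d, Lt.f, Lt.di, Lt.b, Lt.c, Lt.di] [Lt.b, Lt.c] (pair_rel hinv hr (by decide +kernel)) h
      · exact mRel_good (T := T) (by decide) [Lt.ci, Lt.d, Lt.c, Lt.c, Lt.bi, Lt.ci] [Lt.c, Lt.bi] (pair_rel hinv hr (by decide +kernel)) h
    · rcases brec_true h with h | h
      · exact mRel_good (T := T) (by decide) [Lt.f, Lt.di, Lt.ci, Lt.ci] [Lt.d, Lt.bi, Lt.c, Lt.b] (pair_rel hinv hr (by decide +kernel)) h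
      · rcases brec_true h with h | h
        · exact mRel_good (T := T) (by decide) [Lt.bi, Lt.c] [Lt.d, Lt.ci, Lt.ci, Lt.b, Lt.d, Lt.ci] (pair_rel hinv hr (by decide +kernel)) h
        · exact mRel_good (T := T) (by decide) [Lt.b, Lt.d] [Lt.c, Lt.b, Lt.d, Lt.ci, Lt.fi, Lt.fi] (pair_rel hinv hr (by decide +kernel)) h
  · rcases brec_true h with h | h
    · rcases brec_true h with h | h
      · exact mRel_good (T := T) (by decide) [Lt.b, Lt.f] [Lt.di, Lt.c, Lt.bi, Lt.d, Lt.fi, Lt.c] (pair_rel hinv hr (by decide +kernel)) h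
      · rcases brec_true h with h | h
        · exact mRel_good (T := T) (by decide) [Lt.fi, Lt.b, Lt.di, Lt.di, Lt.ci, Lt.f] [Lt.c, Lt.bi] (pair_rel hinv hr (by decide +kernel)) h
        · exact mRel_good (T := T) (by decide) [Lt.f, Lt.b, Lt.c, Lt.bi] [Lt.b, Lt.c, Lt.d, Lt.b] (pair_rel hinv hr (by decide +kernel)) h
    · rcases brec_true h with h | h
      · exact mRel_good (T := T) (by decide) [Lt.f, Lt.c, Lt.bi, Lt.fi, Lt.c, Lt.d, Lt.d] [Lt.b] (pair_rel hinv hr (by decide +kernel)) h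
      · rcases brec_true h with h | h
        · exact mRel_good (T := T) (by decide) [Lt.f, Lt.ci, Lt.d] [Lt.b, Lt.c, Lt.d, Lt.c, Lt.bi] (pair_rel hinv hr (by decide +kernel)) h
        · exact mRel_good (T := T) (by decide) [Lt.di, Lt.fi, Lt.c, Lt.di] [Lt.d, Lt.ci, Lt.f, Lt.d] (pair_rel hinv hr (by decide +kernel)) h
theorem dM_221_s (hinv : ∀ x, g (inv x) = (g x)⁻¹) (hr : ∀ r ∈ rels, (r.map g).prod = 1) (j z1 z2 u : ℕ) (h : dM_221 j z1 z2 u = true) : GoodM (fa g) T MG M (cP g H) u := by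
  unfold dM_221 at h
  rcases brec_true h with h | h
  · rcases brec_true h with h | h
    · rcases brec_true h with h | h
      · exact mRel_good (T := T) (by decide) [Lt.d, Lt.b, Lt.fi, Lt.d, Lt.c, Lt.b, Lt.f, Lt.d] [] (pair_rel hinv hr (by decide +kernel)) h
      · exact mRel_good (T := T) (by decide) [Lt.d, Lt.b, Lt.c, Lt.d, Lt.b] [Lt.fi, Lt.b, Lt.c] (pair_rel hinv hr (by decide +kernel)) h
    · rcases brec_true h with h | h
      · exact mRel_good (T := T) (by decide) [Lt.f, Lt.ci, Lt.f, Lt.di, Lt.b, Lt.ci, Lt.d] [Lt.bi] (pair_rel hinv hr (by decide +kernel)) h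
      · rcases brec_true h with h | h
        · exact mRel_good (T := T) (by decide) [Lt.fi, Lt.fi, Lt.bi, Lt.d, Lt.c, Lt.b, Lt.b, Lt.ci] [] (pair_rel hinv hr (by decide +kernel)) h
        · exact mRel_good (T := T) (by decide) [Lt.di, Lt.f, Lt.b, Lt.d, Lt.c, Lt.bi, Lt.ci, Lt.b, Lt.b] [] (pair_rel hinv hr (by decide +kernel)) h
  · rcases brec_true h with h | h
    · rcases brec_true h with h | h
      · exact mRel_good (T := T) (by decide) [Lt.c] [Lt.f, Lt.b, Lt.ci, Lt.fi, Lt.b, Lt.di, Lt.di] (pair_rel hinv hr (by decide +kernel)) h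
      · rcases brec_true h with h | h
        · exact mRel_good (T := T) (by decide) [Lt.c, Lt.bi, Lt.fi] [Lt.fi, Lt.b, Lt.di, Lt.di, Lt.ci] (pair_rel hinv hr (by decide +kernel)) h
        · exact mRel_good (T := T) (by decide) [Lt.di, Lt.bi, Lt.fi, Lt.d, Lt.bi, Lt.bi] [Lt.c, Lt.bi, Lt.ci] (pair_rel hinv hr (by decide +kernel)) h
    · rcases brec_true h with h | h
      · exact mRel_good (T := T) (by decide) [Lt.c, Lt.b, Lt.c, Lt.d, Lt.f, Lt.b, Lt.di] [Lt.fi] (pair_rel hinv hr (by decide +kernel)) h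
      · rcases brec_true h with h | h
        · exact mRel_good (T := T) (by decide) [Lt.c, Lt.c, Lt.bi, Lt.c] [Lt.d, Lt.c, Lt.c, Lt.bi] (pair_rel hinv hr (by decide +kernel)) h
        · exact mRel_good (T := T) (by decide) [Lt.d, Lt.d, Lt.b, Lt.fi] [Lt.fi, Lt.bi, Lt.ci, Lt.di] (pair_rel hinv hr (by decide +kernel)) h
theorem dM_222_s (hinv : ∀ x, g (inv x) = (g x)⁻¹) (hr : ∀ r ∈ rels, (r.map g).prod = 1) (j z1 z2 u : ℕ) (h : dM_222 j z1 z2 u = true) : GoodM (fa g) T MG M (cP g H) u := by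
  unfold dM_222 at h
  rcases brec_true h with h | h
  · exact dM_220_s hinv hr j z1 z2 u h
  · exact dM_221_s hinv hr j z1 z2 u h
theorem dM_223_s (hinv : ∀ x, g (inv x) = (g x)⁻¹) (hr : ∀ r ∈ rels, (r.map g).prod = 1) (j z1 z2 u : ℕ) (h : dM_223 j z1 z2 u = true) : GoodM (fa g) T MG M (cP g H) u := by
  unfold dM_223 at h
  rcases brec_true h with h | h
  · exact dM_219_s hinv hr j z1 z2 u h
  · exact dM_222_s hinv hr j z1 z2 u h
theorem dM_224_s (hinv : ∀ x, g (inv x) = (g x)⁻¹) (hr : ∀ r ∈ rels, (r.map g).prod = 1) (j z1 z2 u : ℕ) (h : dM_224 j z1 z2 u = true) : GoodM (fa g) T MG M (cP g H) u := by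
  unfold dM_224 at h
  rcases brec_true h with h | h
  · exact dM_216_s hinv hr j z1 z2 u h
  · exact dM_223_s hinv hr j z1 z2 u h
theorem dM_225_s (hinv : ∀ x, g (inv x) = (g x)⁻¹) (hr : ∀ r ∈ rels, (r.map g).prod = 1) (j z1 z2 u : ℕ) (h : dM_225 j z1 z2 u = true) : GoodM (fa g) T MG M (cP g H) u := by
  unfold dM_225 at h
  rcases brec_true h with h | h
  · exact dM_209_s hinv hr j z1 z2 u h
  · exact dM_224_s hinv hr j z1 z2 u h
theorem dM_226_s (hinv : ∀ x, g (inv x) = (g x)⁻¹) (hr : ∀ r ∈ rels, (r.map g).prod = 1) (j z1 z2 u : ℕ) (h : dM_226 j z1 z2 u = true) : GoodM (fa g) T MG M (cP g H) u := by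
  unfold dM_226 at h
  rcases brec_true h with h | h
  · rcases brec_true h with h | h
    · rcases brec_true h with h | h
      · exact mRel_good (T := T) (by decide) [Lt.ei, Lt.f, Lt.c, Lt.di, Lt.f, Lt.ei] [Lt.f, Lt.ei, Lt.fi] (pair_rel hinv hr (by decide +kernel)) h
      · exact mRel_good (T := T) (by decide) [Lt.bi] [Lt.d, Lt.c, Lt.bi, Lt.ci, Lt.b, Lt.b, Lt.di, Lt.f] (pair_rel hinv hr (by decide +kernel)) h
    · rcases brec_true h with h | h
      · exact mRel_good (T := T) (by decide) [Lt.b, Lt.b, Lt.c, Lt.bi] [Lt.di, Lt.c, Lt.f, Lt.b, Lt.b] (pair_rel hinv hr (by decide +kernel)) h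
      · rcases brec_true h with h | h
        · exact mRel_good (T := T) (by decide) [Lt.ci, Lt.ci, Lt.f, Lt.bi] [Lt.fi, Lt.bi, Lt.c, Lt.f] (pair_rel hinv hr (by decide +kernel)) h
        · exact mRel_good (T := T) (by decide) [Lt.fi, Lt.bi, Lt.ci] [Lt.d, Lt.d, Lt.b, Lt.fi, Lt.d] (pair_rel hinv hr (by decide +kernel)) h
  · rcases brec_true h with h | h
    · rcases brec_true h with h | h
      · exact mRel_good (T := T) (by decide) [Lt.b, Lt.f] [Lt.c, Lt.f, Lt.b, Lt.fi, Lt.c, Lt.c] (pair_rel hinv hr (by decide +kernel)) h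
      · exact mRel_good (T := T) (by decide) [Lt.c, Lt.d, Lt.bi, Lt.c] [Lt.d, Lt.ci, Lt.bi, Lt.d] (pair_rel hinv hr (by decide +kernel)) h
    · rcases brec_true h with h | h
      · exact mRel_good (T := T) (by decide) [Lt.d, Lt.f, Lt.d, Lt.fi, Lt.fi, Lt.d, Lt.fi] [Lt.di] (pair_rel hinv hr (by decide +kernel)) h
      · rcases brec_true h with h | h
        · exact mRel_good (T := T) (by decide) [Lt.bi, Lt.fi, Lt.c, Lt.d] [Lt.ci, Lt.fi, Lt.b, Lt.di] (pair_rel hinv hr (by decide +kernel)) h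
        · exact mRel_good (T := T) (by decide) [Lt.c, Lt.b, Lt.d] [Lt.b, Lt.d, Lt.f, Lt.f, Lt.c] (pair_rel hinv hr (by decide +kernel)) h
theorem dM_227_s (hinv : ∀ x, g (inv x) = (g x)⁻¹) (hr : ∀ r ∈ rels, (r.map g).prod = 1) (j z1 z2 u : ℕ) (h : dM_227 j z1 z2 u = true) : GoodM (fa g) T MG M (cP g H) u := by
  unfold dM_227 at h
  rcases brec_true h with h | h
  · rcases brec_true h with h | h
    · rcases brec_true h with h | h
      · exact mRel_good (T := T) (by decide) [Lt.di, Lt.di, Lt.fi, Lt.c, Lt.di] [Lt.ci, Lt.f, Lt.d] (pair_rel hinv hr (by decide +kernel)) h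
      · exact mRel_good (T := T) (by decide) [Lt.bi, Lt.c] [Lt.ci, Lt.ci, Lt.d, Lt.c, Lt.c, Lt.bi] (pair_rel hinv hr (by decide +kernel)) h
    · rcases brec_true h with h | h
      · exact mRel_good (T := T) (by decide) [Lt.d, Lt.c, Lt.b, Lt.f, Lt.d, Lt.d, Lt.b] [Lt.f] (pair_rel hinv hr (by decide +kernel)) h
      · rcases brec_true h with h | h
        · exact mRel_good (T := T) (by decide) [Lt.di, Lt.f, Lt.c, Lt.b, Lt.c, Lt.d, Lt.f] [Lt.bi] (pair_rel hinv hr (by decide +kernel)) h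
        · exact mRel_good (T := T) (by decide) [Lt.ci, Lt.d] [Lt.b, Lt.ci, Lt.di, Lt.c, Lt.b, Lt.ci] (pair_rel hinv hr (by decide +kernel)) h
  · rcases brec_true h with h | h
    · rcases brec_true h with h | h
      · exact mRel_good (T := T) (by decide) [Lt.b, Lt.f] [Lt.fi, Lt.b, Lt.b, Lt.f, Lt.ci, Lt.d] (pair_rel hinv hr (by decide +kernel)) h
      · rcases brec_true h with h | h
        · exact mRel_good (T := T) (by decide) [Lt.c, Lt.di] [Lt.b, Lt.di, Lt.ci, Lt.d, Lt.ci, Lt.bi] (pair_rel hinv hr (by decide +kernel)) h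
        · exact mRel_good (T := T) (by decide) [Lt.f, Lt.d, Lt.c, Lt.bi, Lt.ci] [Lt.ci, Lt.ci, Lt.fi, Lt.c] (pair_rel hinv hr (by decide +kernel)) h
    · rcases brec_true h with h | h
      · exact mRel_good (T := T) (by decide) [Lt.d, Lt.ci, Lt.b] [Lt.b, Lt.c, Lt.di, Lt.c, Lt.d] (pair_rel hinv hr (by decide +kernel)) h
      · rcases brec_true h with h | h
        · exact mRel_good (T := T) (by decide) [Lt.d] [Lt.f, Lt.b, Lt.c, Lt.b, Lt.ci, Lt.bi, Lt.di] (pair_rel hinv hr (by decide +kernel)) h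
        · exact mRel_good (T := T) (by decide) [Lt.ci, Lt.fi, Lt.bi, Lt.d, Lt.ci, Lt.fi, Lt.bi] [Lt.di] (pair_rel hinv hr (by decide +kernel)) h
theorem dM_228_s (hinv : ∀ x, g (inv x) = (g x)⁻¹) (hr : ∀ r ∈ rels, (r.map g).prod = 1) (j z1 z2 u : ℕ) (h : dM_228 j z1 z2 u = true) : GoodM (fa g) T MG M (cP g H) u := by
  unfold dM_228 at h
  rcases brec_true h with h | h
  · exact dM_226_s hinv hr j z1 z2 u h
  · exact dM_227_s hinv hr j z1 z2 u h
theorem dM_229_s (hinv : ∀ x, g (inv x) = (g x)⁻¹) (hr : ∀ r ∈ rels, (r.map g).prod = 1) (j z1 z2 u : ℕ) (h : dM_229 j z1 z2 u = true) : GoodM (fa g) T MG M (cP g H) u := by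
  unfold dM_229 at h
  rcases brec_true h with h | h
  · rcases brec_true h with h | h
    · rcases brec_true h with h | h
      · exact mRel_good (T := T) (by decide) [Lt.ci, Lt.fi, Lt.fi, Lt.ci, Lt.ci, Lt.di] [Lt.di, Lt.c, Lt.f] (pair_rel hinv hr (by decide +kernel)) h
      · exact mRel_good (T := T) (by decide) [Lt.b, Lt.ci, Lt.fi, Lt.b, Lt.di, Lt.di, Lt.ci] [Lt.fi] (pair_rel hinv hr (by decide +kernel)) h
    · rcases brec_true h with h | h
      · exact mRel_good (T := T) (by decide) [Lt.c] [Lt.b, Lt.fi, Lt.d, Lt.bi, Lt.c, Lt.d, Lt.f] (pair_rel hinv hr (by decide +kernel)) h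
      · rcases brec_true h with h | h
        · exact mRel_good (T := T) (by decide) [Lt.fi, Lt.c, Lt.d, Lt.d] [Lt.b, Lt.ci, Lt.fi, Lt.b] (pair_rel hinv hr (by decide +kernel)) h
        · exact mRel_good (T := T) (by decide) [Lt.c, Lt.bi, Lt.ci, Lt.d, Lt.c] [Lt.di, Lt.c, Lt.b] (pair_rel hinv hr (by decide +kernel)) h
  · rcases brec_true h with h | h
    · rcases brec_true h with h | h
      · exact mRel_good (T := T) (by decide) [Lt.bi, Lt.fi] [Lt.f, Lt.di, Lt.c, Lt.fi, Lt.bi, Lt.bi] (pair_rel hinv hr (by decide +kernel)) h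
      · rcases brec_true h with h | h
        · exact mRel_good (T := T) (by decide) [Lt.fi, Lt.di, Lt.e, Lt.fi] [Lt.di, Lt.ci, Lt.ei, Lt.fi, Lt.e] (pair_rel hinv hr (by decide +kernel)) h
        · exact mRel_good (T := T) (by decide) [Lt.b, Lt.f, Lt.ci, Lt.ci, Lt.f, Lt.bi, Lt.fi] [Lt.c] (pair_rel hinv hr (by decide +kernel)) h
    · rcases brec_true h with h | h
      · exact mRel_good (T := T) (by decide) [Lt.f, Lt.bi, Lt.di, Lt.di, Lt.fi] [Lt.d, Lt.c, Lt.b] (pair_rel hinv hr (by decide +kernel)) h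
      · rcases brec_true h with h | h
        · exact mRel_good (T := T) (by decide) [Lt.bi, Lt.ci, Lt.di, Lt.f, Lt.bi, Lt.di] [Lt.f, Lt.d] (pair_rel hinv hr (by decide +kernel)) h
        · exact mRel_good (T := T) (by decide) [Lt.c, Lt.d, Lt.d, Lt.f] [Lt.b, Lt.ci, Lt.f, Lt.di, Lt.b] (pair_rel hinv hr (by decide +kernel)) h
theorem dM_230_s (hinv : ∀ x, g (inv x) = (g x)⁻¹) (hr : ∀ r ∈ rels, (r.map g).prod = 1) (j z1 z2 u : ℕ) (h : dM_230 j z1 z2 u = true) : GoodM (fa g) T MG M (cP g H) u := by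
  unfold dM_230 at h
  rcases brec_true h with h | h
  · rcases brec_true h with h | h
    · rcases brec_true h with h | h
      · exact mRel_good (T := T) (by decide) [Lt.ci] [Lt.b, Lt.ci, Lt.di, Lt.c, Lt.b, Lt.ci, Lt.di] (pair_rel hinv hr (by decide +kernel)) h
      · exact mRel_good (T := T) (by decide) [Lt.bi, Lt.c] [Lt.di, Lt.f, Lt.di, Lt.ci, Lt.ci, Lt.bi] (pair_rel hinv hr (by decide +kernel)) h
    · rcases brec_true h with h | h
      · exact mRel_good (T := T) (by decide) [Lt.di, Lt.f, Lt.di] [Lt.d, Lt.f, Lt.d, Lt.fi, Lt.fi] (pair_rel hinv hr (by decide +kernel)) h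
      · rcases brec_true h with h | h
        · exact mRel_good (T := T) (by decide) [Lt.d, Lt.d, Lt.f, Lt.d] [Lt.f, Lt.di, Lt.f, Lt.f] (pair_rel hinv hr (by decide +kernel)) h
        · exact mRel_good (T := T) (by decide) [Lt.b, Lt.d, Lt.ci, Lt.fi, Lt.fi, Lt.di, Lt.bi] [Lt.ci] (pair_rel hinv hr (by decide +kernel)) h
  · rcases brec_true h with h | h
    · rcases brec_true h with h | h
      · exact mRel_good (T := T) (by decide) [Lt.di, Lt.di, Lt.b, Lt.di, Lt.bi, Lt.di, Lt.di, Lt.b] [] (pair_rel hinv hr (by decide +kernel)) h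
      · rcases brec_true h with h | h
        · exact mRel_good (T := T) (by decide) [Lt.ci, Lt.b, Lt.d, Lt.ci] [Lt.c, Lt.di, Lt.bi, Lt.c] (pair_rel hinv hr (by decide +kernel)) h
        · exact mRel_good (T := T) (by decide) [Lt.d, Lt.bi, Lt.fi, Lt.di] [Lt.f, Lt.c, Lt.b, Lt.c] (pair_rel hinv hr (by decide +kernel)) h
    · rcases brec_true h with h | h
      · exact mRel_good (T := T) (by decide) [Lt.c, Lt.d] [Lt.f, Lt.d, Lt.c, Lt.c, Lt.fi, Lt.di, Lt.fi] (pair_rel hinv hr (by decide +kernel)) h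
      · rcases brec_true h with h | h
        · exact mRel_good (T := T) (by decide) [Lt.d, Lt.c, Lt.b, Lt.b] [Lt.b, Lt.f, Lt.f, Lt.c] (pair_rel hinv hr (by decide +kernel)) h
        · exact mRel_good (T := T) (by decide) [Lt.c, Lt.d, Lt.b, Lt.b, Lt.ci, Lt.bi] [Lt.bi, Lt.f] (pair_rel hinv hr (by decide +kernel)) h
theorem dM_231_s (hinv : ∀ x, g (inv x) = (g x)⁻¹) (hr : ∀ r ∈ rels, (r.map g).prod = 1) (j z1 z2 u : ℕ) (h : dM_231 j z1 z2 u = true) : GoodM (fa g) T MG M (cP g H) u := by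
  unfold dM_231 at h
  rcases brec_true h with h | h
  · exact dM_229_s hinv hr j z1 z2 u h
  · exact dM_230_s hinv hr j z1 z2 u h
theorem dM_232_s (hinv : ∀ x, g (inv x) = (g x)⁻¹) (hr : ∀ r ∈ rels, (r.map g).prod = 1) (j z1 z2 u : ℕ) (h : dM_232 j z1 z2 u = true) : GoodM (fa g) T MG M (cP g H) u := by
  unfold dM_232 at h
  rcases brec_true h with h | h
  · exact dM_228_s hinv hr j z1 z2 u h
  · exact dM_231_s hinv hr j z1 z2 u h
theorem dM_233_s (hinv : ∀ x, g (inv x) = (g x)⁻¹) (hr : ∀ r ∈ rels, (r.map g).prod = 1) (j z1 z2 u : ℕ) (h : dM_233 j z1 z2 u = true) : GoodM (fa g) T MG M (cP g H) u := by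
  unfold dM_233 at h
  rcases brec_true h with h | h
  · rcases brec_true h with h | h
    · rcases brec_true h with h | h
      · exact mRel_good (T := T) (by decide) [Lt.di] [Lt.b, Lt.d, Lt.bi, Lt.d, Lt.d, Lt.bi, Lt.d] (pair_rel hinv hr (by decide +kernel)) h
      · exact mRel_good (T := T) (by decide) [Lt.f, Lt.b, Lt.di, Lt.f, Lt.c, Lt.b] [Lt.di, Lt.ci] (pair_rel hinv hr (by decide +kernel)) h
    · rcases brec_true h with h | h
      · exact mRel_good (T := T) (by decide) [Lt.f, Lt.b, Lt.ci] [Lt.c, Lt.d, Lt.d, Lt.bi, Lt.f] (pair_rel hinv hr (by decide +kernel)) h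
      · rcases brec_true h with h | h
        · exact mRel_good (T := T) (by decide) [Lt.d, Lt.fi, Lt.di, Lt.e, Lt.fi, Lt.ei] [Lt.ci, Lt.ei, Lt.fi] (pair_rel hinv hr (by decide +kernel)) h
        · exact mRel_good (T := T) (by decide) [Lt.f, Lt.b] [Lt.d, Lt.d, Lt.b, Lt.c, Lt.bi, Lt.ci] (pair_rel hinv hr (by decide +kernel)) h
  · rcases brec_true h with h | h
    · rcases brec_true h with h | h
      · exact mRel_good (T := T) (by decide) [Lt.f, Lt.d] [Lt.b, Lt.c, Lt.b, Lt.ci, Lt.bi, Lt.fi] (pair_rel hinv hr (by decide +kernel)) h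
      · exact mRel_good (T := T) (by decide) [Lt.f, Lt.di] [Lt.d, Lt.bi, Lt.c, Lt.b, Lt.c, Lt.c] (pair_rel hinv hr (by decide +kernel)) h
    · rcases brec_true h with h | h
      · exact mRel_good (T := T) (by decide) [Lt.bi, Lt.f, Lt.c, Lt.bi] [Lt.di, Lt.di, Lt.ci, Lt.f] (pair_rel hinv hr (by decide +kernel)) h
      · rcases brec_true h with h | h
        · exact mRel_good (T := T) (by decide) [Lt.d, Lt.d] [Lt.b, Lt.di, Lt.bi, Lt.di, Lt.di, Lt.b] (pair_rel hinv hr (by decide +kernel)) h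
        · exact mRel_good (T := T) (by decide) [Lt.f, Lt.di, Lt.b, Lt.c, Lt.di] [Lt.di, Lt.b, Lt.c] (pair_rel hinv hr (by decide +kernel)) h
theorem dM_234_s (hinv : ∀ x, g (inv x) = (g x)⁻¹) (hr : ∀ r ∈ rels, (r.map g).prod = 1) (j z1 z2 u : ℕ) (h : dM_234 j z1 z2 u = true) : GoodM (fa g) T MG M (cP g H) u := by
  unfold dM_234 at h
  rcases brec_true h with h | h
  · rcases brec_true h with h | h
    · rcases brec_true h with h | h
      · exact mRel_good (T := T) (by decide) [Lt.d, Lt.bi, Lt.d, Lt.d, Lt.bi, Lt.d, Lt.d] [Lt.bi] (pair_rel hinv hr (by decide +kernel)) h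
      · exact mRel_good (T := T) (by decide) [Lt.ci, Lt.bi, Lt.fi, Lt.di] [Lt.bi, Lt.ci, Lt.bi, Lt.f] (pair_rel hinv hr (by decide +kernel)) h
    · rcases brec_true h with h | h
      · exact mRel_good (T := T) (by decide) [Lt.c, Lt.bi, Lt.ci, Lt.b, Lt.ci, Lt.ci] [Lt.ci, Lt.di] (pair_rel hinv hr (by decide +kernel)) h
      · rcases brec_true h with h | h
        · exact mRel_good (T := T) (by decide) [Lt.ci, Lt.di, Lt.ci, Lt.bi, Lt.f] [Lt.bi, Lt.di, Lt.c] (pair_rel hinv hr (by decide +kernel)) h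
        · exact mRel_good (T := T) (by decide) [Lt.ci, Lt.bi, Lt.f, Lt.d, Lt.f] [Lt.b, Lt.ci, Lt.bi] (pair_rel hinv hr (by decide +kernel)) h
  · rcases brec_true h with h | h
    · rcases brec_true h with h | h
      · exact mRel_good (T := T) (by decide) [Lt.b, Lt.c, Lt.d, Lt.c, Lt.bi, Lt.di, Lt.c] [Lt.f] (pair_rel hinv hr (by decide +kernel)) h
      · rcases brec_true h with h | h
        · exact mRel_good (T := T) (by decide) [Lt.d, Lt.f, Lt.di] [Lt.b, Lt.c, Lt.d, Lt.ci, Lt.bi] (pair_rel hinv hr (by decide +kernel)) h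
        · exact mRel_good (T := T) (by decide) [Lt.b, Lt.c] [Lt.di, Lt.di, Lt.f, Lt.b, Lt.c, Lt.b] (pair_rel hinv hr (by decide +kernel)) h
    · rcases brec_true h with h | h
      · exact mRel_good (T := T) (by decide) [Lt.d, Lt.b] [Lt.di, Lt.f, Lt.b, Lt.c, Lt.b, Lt.ci] (pair_rel hinv hr (by decide +kernel)) h
      · rcases brec_true h with h | h
        · exact mRel_good (T := T) (by decide) [Lt.d, Lt.ci] [Lt.ci, Lt.bi, Lt.d, Lt.f, Lt.di, Lt.b] (pair_rel hinv hr (by decide +kernel)) h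
        · exact mRel_good (T := T) (by decide) [Lt.d, Lt.fi] [Lt.b, Lt.c, Lt.di, Lt.ci, Lt.bi, Lt.d] (pair_rel hinv hr (by decide +kernel)) h
theorem dM_235_s (hinv : ∀ x, g (inv x) = (g x)⁻¹) (hr : ∀ r ∈ rels, (r.map g).prod = 1) (j z1 z2 u : ℕ) (h : dM_235 j z1 z2 u = true) : GoodM (fa g) T MG M (cP g H) u := by
  unfold dM_235 at h
  rcases brec_true h with h | h
  · exact dM_233_s hinv hr j z1 z2 u h
  · exact dM_234_s hinv hr j z1 z2 u h
theorem dM_236_s (hinv : ∀ x, g (inv x) = (g x)⁻¹) (hr : ∀ r ∈ rels, (r.map g).prod = 1) (j z1 z2 u : ℕ) (h : dM_236 j z1 z2 u = true) : GoodM (fa g) T MG M (cP g H) u := by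
  unfold dM_236 at h
  rcases brec_true h with h | h
  · rcases brec_true h with h | h
    · rcases brec_true h with h | h
      · exact mRel_good (T := T) (by decide) [Lt.f, Lt.b, Lt.fi] [Lt.ci, Lt.b, Lt.f, Lt.ci, Lt.ci] (pair_rel hinv hr (by decide +kernel)) h
      · exact mRel_good (T := T) (by decide) [Lt.d, Lt.d, Lt.ci] [Lt.fi, Lt.c, Lt.di, Lt.di, Lt.fi] (pair_rel hinv hr (by decide +kernel)) h
    · rcases brec_true h with h | h
      · exact mRel_good (T := T) (by decide) [Lt.c, Lt.bi, Lt.c, Lt.bi, Lt.c, Lt.bi, Lt.c, Lt.bi] [] (pair_rel hinv hr (by decide +kernel)) h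
      · rcases brec_true h with h | h
        · exact mRel_good (T := T) (by decide) [Lt.bi, Lt.c, Lt.d] [Lt.di, Lt.f, Lt.bi, Lt.c, Lt.fi] (pair_rel hinv hr (by decide +kernel)) h
        · exact mRel_good (T := T) (by decide) [Lt.c, Lt.d, Lt.b, Lt.ci] [Lt.bi, Lt.di, Lt.fi, Lt.b] (pair_rel hinv hr (by decide +kernel)) h
  · rcases brec_true h with h | h
    · rcases brec_true h with h | h
      · exact mRel_good (T := T) (by decide) [Lt.ci, Lt.b, Lt.di, Lt.ci, Lt.d] [Lt.di, Lt.b, Lt.c] (pair_rel hinv hr (by decide +kernel)) h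
      · rcases brec_true h with h | h
        · exact mRel_good (T := T) (by decide) [Lt.d, Lt.f, Lt.di, Lt.ci, Lt.ei, Lt.fi, Lt.e, Lt.f] [Lt.e] (pair_rel hinv hr (by decide +kernel)) h
        · exact mRel_good (T := T) (by decide) [Lt.c, Lt.di, Lt.bi, Lt.ci, Lt.b] [Lt.fi, Lt.fi, Lt.di] (pair_rel hinv hr (by decide +kernel)) h
    · rcases brec_true h with h | h
      · exact mRel_good (T := T) (by decide) [Lt.bi, Lt.d, Lt.ci, Lt.fi, Lt.bi] [Lt.f, Lt.c, Lt.di] (pair_rel hinv hr (by decide +kernel)) h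
      · rcases brec_true h with h | h
        · exact mRel_good (T := T) (by decide) [Lt.bi, Lt.d] [Lt.c, Lt.di, Lt.ci, Lt.bi, Lt.d, Lt.f] (pair_rel hinv hr (by decide +kernel)) h
        · exact mRel_good (T := T) (by decide) [Lt.c, Lt.d, Lt.f, Lt.b, Lt.di, Lt.f] [Lt.bi, Lt.ci] (pair_rel hinv hr (by decide +kernel)) h
theorem dM_237_s (hinv : ∀ x, g (inv x) = (g x)⁻¹) (hr : ∀ r ∈ rels, (r.map g).prod = 1) (j z1 z2 u : ℕ) (h : dM_237 j z1 z2 u = true) : GoodM (fa g) T MG M (cP g H) u := by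
  unfold dM_237 at h
  rcases brec_true h with h | h
  · rcases brec_true h with h | h
    · rcases brec_true h with h | h
      · exact mRel_good (T := T) (by decide) [Lt.fi, Lt.c, Lt.d, Lt.d, Lt.bi, Lt.f] [Lt.b, Lt.ci] (pair_rel hinv hr (by decide +kernel)) h
      · exact mRel_good (T := T) (by decide) [Lt.b, Lt.c, Lt.d] [Lt.ci, Lt.fi, Lt.d, Lt.bi, Lt.fi] (pair_rel hinv hr (by decide +kernel)) h
    · rcases brec_true h with h | h
      · exact mRel_good (T := T) (by decide) [Lt.c, Lt.bi, Lt.ci, Lt.bi, Lt.fi, Lt.d] [Lt.bi, Lt.di] (pair_rel hinv hr (by decide +kernel)) h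
      · rcases brec_true h with h | h
        · exact mRel_good (T := T) (by decide) [Lt.c, Lt.bi, Lt.di, Lt.ci] [Lt.bi, Lt.f, Lt.d, Lt.b] (pair_rel hinv hr (by decide +kernel)) h
        · exact mRel_good (T := T) (by decide) [Lt.f, Lt.b, Lt.c, Lt.b, Lt.ci, Lt.bi, Lt.di, Lt.di] [] (pair_rel hinv hr (by decide +kernel)) h
  · rcases brec_true h with h | h
    · rcases brec_true h with h | h
      · exact mRel_good (T := T) (by decide) [Lt.d, Lt.c, Lt.b, Lt.b, Lt.ci, Lt.fi] [Lt.b, Lt.f] (pair_rel hinv hr (by decide +kernel)) h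
      · rcases brec_true h with h | h
        · exact mRel_good (T := T) (by decide) [Lt.fi, Lt.di, Lt.b, Lt.c, Lt.d, Lt.ci] [Lt.di, Lt.b] (pair_rel hinv hr (by decide +kernel)) h
        · exact mRel_good (T := T) (by decide) [Lt.fi, Lt.ci, Lt.b, Lt.f] [Lt.b, Lt.fi, Lt.c, Lt.c] (pair_rel hinv hr (by decide +kernel)) h
    · rcases brec_true h with h | h
      · exact mRel_good (T := T) (by decide) [Lt.di, Lt.b, Lt.c, Lt.d, Lt.ci, Lt.bi, Lt.d] [Lt.f] (pair_rel hinv hr (by decide +kernel)) h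
      · rcases brec_true h with h | h
        · exact mRel_good (T := T) (by decide) [Lt.ci, Lt.f, Lt.b] [Lt.d, Lt.d, Lt.bi, Lt.f, Lt.c] (pair_rel hinv hr (by decide +kernel)) h
        · exact mRel_good (T := T) (by decide) [Lt.ci, Lt.f, Lt.di, Lt.b, Lt.ci, Lt.d, Lt.b] [Lt.fi] (pair_rel hinv hr (by decide +kernel)) h
theorem dM_238_s (hinv : ∀ x, g (inv x) = (g x)⁻¹) (hr : ∀ r ∈ rels, (r.map g).prod = 1) (j z1 z2 u : ℕ) (h : dM_238 j z1 z2 u = true) : GoodM (fa g) T MG M (cP g H) u := by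
  unfold dM_238 at h
  rcases brec_true h with h | h
  · exact dM_236_s hinv hr j z1 z2 u h
  · exact dM_237_s hinv hr j z1 z2 u h
theorem dM_239_s (hinv : ∀ x, g (inv x) = (g x)⁻¹) (hr : ∀ r ∈ rels, (r.map g).prod = 1) (j z1 z2 u : ℕ) (h : dM_239 j z1 z2 u = true) : GoodM (fa g) T MG M (cP g H) u := by
  unfold dM_239 at h
  rcases brec_true h with h | h
  · exact dM_235_s hinv hr j z1 z2 u h
  · exact dM_238_s hinv hr j z1 z2 u h
theorem dM_240_s (hinv : ∀ x, g (inv x) = (g x)⁻¹) (hr : ∀ r ∈ rels, (r.map g).prod = 1) (j z1 z2 u : ℕ) (h : dM_240 j z1 z2 u = true) : GoodM (fa g) T MG M (cP g H) u := by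
  unfold dM_240 at h
  rcases brec_true h with h | h
  · exact dM_232_s hinv hr j z1 z2 u h
  · exact dM_239_s hinv hr j z1 z2 u h
theorem dM_241_s (hinv : ∀ x, g (inv x) = (g x)⁻¹) (hr : ∀ r ∈ rels, (r.map g).prod = 1) (j z1 z2 u : ℕ) (h : dM_241 j z1 z2 u = true) : GoodM (fa g) T MG M (cP g H) u := by
  unfold dM_241 at h
  rcases brec_true h with h | h
  · rcases brec_true h with h | h
    · rcases brec_true h with h | h
      · exact mRel_good (T := T) (by decide) [Lt.di, Lt.f, Lt.c] [Lt.bi, Lt.fi, Lt.di, Lt.ci, Lt.bi] (pair_rel hinv hr (by decide +kernel)) h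
      · exact mRel_good (T := T) (by decide) [Lt.c, Lt.b, Lt.d, Lt.ci, Lt.fi, Lt.fi] [Lt.b, Lt.d] (pair_rel hinv hr (by decide +kernel)) h
    · rcases brec_true h with h | h
      · exact mRel_good (T := T) (by decide) [Lt.c, Lt.bi, Lt.c, Lt.b, Lt.ci, Lt.ci, Lt.di, Lt.c] [] (pair_rel hinv hr (by decide +kernel)) h
      · rcases brec_true h with h | h
        · exact mRel_good (T := T) (by decide) [Lt.d, Lt.f, Lt.ci, Lt.b, Lt.fi, Lt.d, Lt.bi, Lt.c] [] (pair_rel hinv hr (by decide +kernel)) h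
        · exact mRel_good (T := T) (by decide) [Lt.d, Lt.c, Lt.bi, Lt.di] [Lt.ci, Lt.bi, Lt.f, Lt.ci] (pair_rel hinv hr (by decide +kernel)) h
  · rcases brec_true h with h | h
    · rcases brec_true h with h | h
      · exact mRel_good (T := T) (by decide) [Lt.c, Lt.b, Lt.ci, Lt.bi, Lt.fi, Lt.di] [Lt.bi, Lt.f] (pair_rel hinv hr (by decide +kernel)) h
      · exact mRel_good (T := T) (by decide) [Lt.b, Lt.c, Lt.b, Lt.ci, Lt.bi] [Lt.f, Lt.d, Lt.f] (pair_rel hinv hr (by decide +kernel)) h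
    · rcases brec_true h with h | h
      · exact mRel_good (T := T) (by decide) [Lt.ci, Lt.b, Lt.ci, Lt.ci, Lt.d, Lt.c, Lt.c] [Lt.b] (pair_rel hinv hr (by decide +kernel)) h
      · rcases brec_true h with h | h
        · exact mRel_good (T := T) (by decide) [Lt.d, Lt.fi, Lt.di, Lt.b, Lt.c, Lt.d, Lt.ci, Lt.bi] [] (pair_rel hinv hr (by decide +kernel)) h
        · exact mRel_good (T := T) (by decide) [Lt.c, Lt.d] [Lt.bi, Lt.d, Lt.f, Lt.di, Lt.b, Lt.c] (pair_rel hinv hr (by decide +kernel)) h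
theorem dM_242_s (hinv : ∀ x, g (inv x) = (g x)⁻¹) (hr : ∀ r ∈ rels, (r.map g).prod = 1) (j z1 z2 u : ℕ) (h : dM_242 j z1 z2 u = true) : GoodM (fa g) T MG M (cP g H) u := by
  unfold dM_242 at h
  rcases brec_true h with h | h
  · rcases brec_true h with h | h
    · rcases brec_true h with h | h
      · exact mRel_good (T := T) (by decide) [Lt.c, Lt.d] [Lt.bi, Lt.f, Lt.b, Lt.c, Lt.bi, Lt.bi] (pair_rel hinv hr (by decide +kernel)) h
      · exact mRel_good (T := T) (by decide) [Lt.b, Lt.d, Lt.bi, Lt.d, Lt.d, Lt.bi, Lt.d, Lt.d] [] (pair_rel hinv hr (by decide +kernel)) h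
    · rcases brec_true h with h | h
      · exact mRel_good (T := T) (by decide) [Lt.c, Lt.di, Lt.f, Lt.f, Lt.e, Lt.fi] [Lt.ei, Lt.fi, Lt.e] (pair_rel hinv hr (by decide +kernel)) h
      · rcases brec_true h with h | h
        · exact mRel_good (T := T) (by decide) [Lt.d, Lt.bi] [Lt.bi, Lt.di, Lt.di, Lt.b, Lt.di, Lt.di] (pair_rel hinv hr (by decide +kernel)) h
        · exact mRel_good (T := T) (by decide) [Lt.di, Lt.b, Lt.c, Lt.di, Lt.ci, Lt.bi, Lt.d, Lt.f] [] (pair_rel hinv hr (by decide +kernel)) h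
  · rcases brec_true h with h | h
    · rcases brec_true h with h | h
      · exact mRel_good (T := T) (by decide) [Lt.bi, Lt.ci, Lt.fi] [Lt.c, Lt.d, Lt.f, Lt.b, Lt.di] (pair_rel hinv hr (by decide +kernel)) h
      · rcases brec_true h with h | h
        · exact mRel_good (T := T) (by decide) [Lt.b, Lt.b, Lt.di, Lt.f, Lt.b] [Lt.c, Lt.b, Lt.ci, Lt.di] (pair_rel hinv hr (by decide +kernel)) h
        · exact mRel_good (T := T) (by decide) [Lt.di, Lt.fi, Lt.bi, Lt.ci, Lt.di, Lt.f, Lt.bi] [Lt.d] (pair_rel hinv hr (by decide +kernel)) h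
    · rcases brec_true h with h | h
      · exact mRel_good (T := T) (by decide) [Lt.c, Lt.bi, Lt.fi, Lt.c, Lt.d, Lt.d] [Lt.fi, Lt.b] (pair_rel hinv hr (by decide +kernel)) h
      · rcases brec_true h with h | h
        · exact mRel_good (T := T) (by decide) [Lt.d, Lt.fi, Lt.d, Lt.bi, Lt.c, Lt.b, Lt.c] [Lt.ci] (pair_rel hinv hr (by decide +kernel)) h
        · exact mRel_good (T := T) (by decide) [Lt.ci, Lt.ci, Lt.bi, Lt.ci, Lt.b] [Lt.d, Lt.fi, Lt.d] (pair_rel hinv hr (by decide +kernel)) h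
theorem dM_243_s (hinv : ∀ x, g (inv x) = (g x)⁻¹) (hr : ∀ r ∈ rels, (r.map g).prod = 1) (j z1 z2 u : ℕ) (h : dM_243 j z1 z2 u = true) : GoodM (fa g) T MG M (cP g H) u := by
  unfold dM_243 at h
  rcases brec_true h with h | h
  · exact dM_241_s hinv hr j z1 z2 u h
  · exact dM_242_s hinv hr j z1 z2 u h
theorem dM_244_s (hinv : ∀ x, g (inv x) = (g x)⁻¹) (hr : ∀ r ∈ rels, (r.map g).prod = 1) (j z1 z2 u : ℕ) (h : dM_244 j z1 z2 u = true) : GoodM (fa g) T MG M (cP g H) u := by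
  unfold dM_244 at h
  rcases brec_true h with h | h
  · rcases brec_true h with h | h
    · rcases brec_true h with h | h
      · exact mRel_good (T := T) (by decide) [Lt.fi, Lt.e, Lt.f, Lt.ei] [Lt.c, Lt.di, Lt.f, Lt.ei, Lt.f] (pair_rel hinv hr (by decide +kernel)) h
      · exact mRel_good (T := T) (by decide) [Lt.c, Lt.di, Lt.c, Lt.f, Lt.d] [Lt.fi, Lt.fi, Lt.ci, Lt.ci] (pair_rel hinv hr (by decide +kernel)) h
    · rcases brec_true h with h | h
      · exact mRel_good (T := T) (by decide) [Lt.f, Lt.d, Lt.b] [Lt.b, Lt.c, Lt.bi, Lt.di, Lt.ci] (pair_rel hinv hr (by decide +kernel)) h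
      · rcases brec_true h with h | h
        · exact mRel_good (T := T) (by decide) [Lt.d] [Lt.di, Lt.ci, Lt.f, Lt.b, Lt.ci, Lt.fi, Lt.b] (pair_rel hinv hr (by decide +kernel)) h
        · exact mRel_good (T := T) (by decide) [Lt.c, Lt.di, Lt.b, Lt.c] [Lt.b, Lt.di, Lt.ci, Lt.d] (pair_rel hinv hr (by decide +kernel)) h
  · rcases brec_true h with h | h
    · rcases brec_true h with h | h
      · exact mRel_good (T := T) (by decide) [Lt.c, Lt.di, Lt.b, Lt.f] [Lt.fi, Lt.bi, Lt.d, Lt.ci] (pair_rel hinv hr (by decide +kernel)) h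
      · rcases brec_true h with h | h
        · exact mRel_good (T := T) (by decide) [Lt.ci, Lt.bi] [Lt.d, Lt.c, Lt.bi, Lt.di, Lt.c, Lt.fi] (pair_rel hinv hr (by decide +kernel)) h
        · exact mRel_good (T := T) (by decide) [Lt.ci, Lt.d, Lt.ci, Lt.bi, Lt.d, Lt.ci, Lt.b] [Lt.d] (pair_rel hinv hr (by decide +kernel)) h
    · rcases brec_true h with h | h
      · exact mRel_good (T := T) (by decide) [Lt.f, Lt.b, Lt.c, Lt.bi, Lt.bi] [Lt.b, Lt.c, Lt.d] (pair_rel hinv hr (by decide +kernel)) h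
      · rcases brec_true h with h | h
        · exact mRel_good (T := T) (by decide) [Lt.ci, Lt.di, Lt.f, Lt.bi, Lt.di] [Lt.b, Lt.f, Lt.d] (pair_rel hinv hr (by decide +kernel)) h
        · exact mRel_good (T := T) (by decide) [Lt.b, Lt.f, Lt.ci, Lt.ci, Lt.f] [Lt.c, Lt.f, Lt.b] (pair_rel hinv hr (by decide +kernel)) h
theorem dM_245_s (hinv : ∀ x, g (inv x) = (g x)⁻¹) (hr : ∀ r ∈ rels, (r.map g).prod = 1) (j z1 z2 u : ℕ) (h : dM_245 j z1 z2 u = true) : GoodM (fa g) T MG M (cP g H) u := by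
  unfold dM_245 at h
  rcases brec_true h with h | h
  · rcases brec_true h with h | h
    · rcases brec_true h with h | h
      · exact mRel_good (T := T) (by decide) [Lt.b] [Lt.d, Lt.ci, Lt.fi, Lt.bi, Lt.d, Lt.ci, Lt.fi] (pair_rel hinv hr (by decide +kernel)) h
      · exact mRel_good (T := T) (by decide) [Lt.ci, Lt.d, Lt.b, Lt.ci, Lt.di, Lt.ci, Lt.bi] [Lt.fi] (pair_rel hinv hr (by decide +kernel)) h
    · rcases brec_true h with h | h
      · exact mRel_good (T := T) (by decide) [Lt.fi, Lt.ei, Lt.f, Lt.c] [Lt.ei, Lt.fi, Lt.e, Lt.fi, Lt.d] (pair_rel hinv hr (by decide +kernel)) h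
      · rcases brec_true h with h | h
        · exact mRel_good (T := T) (by decide) [Lt.b, Lt.f, Lt.di, Lt.c, Lt.fi] [Lt.fi, Lt.b, Lt.b] (pair_rel hinv hr (by decide +kernel)) h
        · exact mRel_good (T := T) (by decide) [Lt.e, Lt.f, Lt.ci, Lt.b, Lt.e, Lt.di] [Lt.fi, Lt.b, Lt.f] (pair_rel hinv hr (by decide +kernel)) h
  · rcases brec_true h with h | h
    · rcases brec_true h with h | h
      · exact mRel_good (T := T) (by decide) [Lt.ci, Lt.bi, Lt.fi] [Lt.bi, Lt.bi, Lt.di, Lt.ci, Lt.bi] (pair_rel hinv hr (by decide +kernel)) h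
      · rcases brec_true h with h | h
        · exact mRel_good (T := T) (by decide) [Lt.c, Lt.bi, Lt.ci] [Lt.ci, Lt.di, Lt.c, Lt.c, Lt.bi] (pair_rel hinv hr (by decide +kernel)) h
        · exact mRel_good (T := T) (by decide) [Lt.ci, Lt.di, Lt.ci, Lt.bi] [Lt.bi, Lt.di, Lt.c, Lt.fi] (pair_rel hinv hr (by decide +kernel)) h
    · rcases brec_true h with h | h
      · exact mRel_good (T := T) (by decide) [Lt.e, Lt.fi, Lt.ei, Lt.f, Lt.e, Lt.c, Lt.d] [Lt.d, Lt.f] (pair_rel hinv hr (by decide +kernel)) h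
      · rcases brec_true h with h | h
        · exact mRel_good (T := T) (by decide) [Lt.f, Lt.di, Lt.b, Lt.ci, Lt.d, Lt.b, Lt.f] [Lt.c] (pair_rel hinv hr (by decide +kernel)) h
        · exact mRel_good (T := T) (by decide) [Lt.di, Lt.ci, Lt.bi] [Lt.c, Lt.bi, Lt.di, Lt.c, Lt.fi] (pair_rel hinv hr (by decide +kernel)) h
theorem dM_246_s (hinv : ∀ x, g (inv x) = (g x)⁻¹) (hr : ∀ r ∈ rels, (r.map g).prod = 1) (j z1 z2 u : ℕ) (h : dM_246 j z1 z2 u = true) : GoodM (fa g) T MG M (cP g H) u := by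
  unfold dM_246 at h
  rcases brec_true h with h | h
  · exact dM_244_s hinv hr j z1 z2 u h
  · exact dM_245_s hinv hr j z1 z2 u h
theorem dM_247_s (hinv : ∀ x, g (inv x) = (g x)⁻¹) (hr : ∀ r ∈ rels, (r.map g).prod = 1) (j z1 z2 u : ℕ) (h : dM_247 j z1 z2 u = true) : GoodM (fa g) T MG M (cP g H) u := by
  unfold dM_247 at h
  rcases brec_true h with h | h
  · exact dM_243_s hinv hr j z1 z2 u h
  · exact dM_246_s hinv hr j z1 z2 u h
theorem dM_248_s (hinv : ∀ x, g (inv x) = (g x)⁻¹) (hr : ∀ r ∈ rels, (r.map g).prod = 1) (j z1 z2 u : ℕ) (h : dM_248 j z1 z2 u = true) : GoodM (fa g) T MG M (cP g H) u := by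
  unfold dM_248 at h
  rcases brec_true h with h | h
  · rcases brec_true h with h | h
    · rcases brec_true h with h | h
      · exact mRel_good (T := T) (by decide) [Lt.fi, Lt.e, Lt.f, Lt.ei, Lt.d] [Lt.e, Lt.c, Lt.d, Lt.fi] (pair_rel hinv hr (by decide +kernel)) h
      · exact mRel_good (T := T) (by decide) [Lt.f, Lt.ci, Lt.d, Lt.fi, Lt.bi, Lt.fi, Lt.b] [Lt.bi] (pair_rel hinv hr (by decide +kernel)) h
    · rcases brec_true h with h | h
      · exact mRel_good (T := T) (by decide) [Lt.f, Lt.d, Lt.fi, Lt.fi, Lt.d, Lt.fi, Lt.d] [Lt.di] (pair_rel hinv hr (by decide +kernel)) h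
      · rcases brec_true h with h | h
        · exact mRel_good (T := T) (by decide) [Lt.ci, Lt.ci] [Lt.bi, Lt.ci, Lt.b, Lt.ci, Lt.ci, Lt.d] (pair_rel hinv hr (by decide +kernel)) h
        · exact mRel_good (T := T) (by decide) [Lt.f, Lt.c, Lt.di, Lt.bi, Lt.ci] [Lt.fi, Lt.di, Lt.bi] (pair_rel hinv hr (by decide +kernel)) h
  · rcases brec_true h with h | h
    · rcases brec_true h with h | h
      · exact mRel_good (T := T) (by decide) [Lt.ci, Lt.di] [Lt.bi, Lt.d, Lt.fi, Lt.bi, Lt.d, Lt.f, Lt.c] (pair_rel hinv hr (by decide +kernel)) h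
      · exact mRel_good (T := T) (by decide) [Lt.di, Lt.fi, Lt.c] [Lt.d, Lt.ci, Lt.f, Lt.d, Lt.d] (pair_rel hinv hr (by decide +kernel)) h
    · rcases brec_true h with h | h
      · exact mRel_good (T := T) (by decide) [Lt.c, Lt.b, Lt.c, Lt.c, Lt.d, Lt.fi] [Lt.b, Lt.di] (pair_rel hinv hr (by decide +kernel)) h
      · rcases brec_true h with h | h
        · exact mRel_good (T := T) (by decide) [Lt.d] [Lt.b, Lt.c, Lt.di, Lt.c, Lt.d, Lt.bi, Lt.c] (pair_rel hinv hr (by decide +kernel)) h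
        · exact mRel_good (T := T) (by decide) [Lt.bi] [Lt.c, Lt.b, Lt.ci, Lt.bi, Lt.di, Lt.di, Lt.f] (pair_rel hinv hr (by decide +kernel)) h
theorem dM_249_s (hinv : ∀ x, g (inv x) = (g x)⁻¹) (hr : ∀ r ∈ rels, (r.map g).prod = 1) (j z1 z2 u : ℕ) (h : dM_249 j z1 z2 u = true) : GoodM (fa g) T MG M (cP g H) u := by
  unfold dM_249 at h
  rcases brec_true h with h | h
  · rcases brec_true h with h | h
    · rcases brec_true h with h | h
      · exact mRel_good (T := T) (by decide) [Lt.c, Lt.b, Lt.ci, Lt.di, Lt.c, Lt.b] [Lt.d, Lt.c] (pair_rel hinv hr (by decide +kernel)) h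
      · exact mRel_good (T := T) (by decide) [Lt.c, Lt.c] [Lt.bi, Lt.ci, Lt.b, Lt.di, Lt.f, Lt.di] (pair_rel hinv hr (by decide +kernel)) h
    · rcases brec_true h with h | h
      · exact mRel_good (T := T) (by decide) [Lt.d] [Lt.fi, Lt.c, Lt.di, Lt.di, Lt.fi, Lt.c, Lt.di] (pair_rel hinv hr (by decide +kernel)) h
      · rcases brec_true h with h | h
        · exact mRel_good (T := T) (by decide) [Lt.di, Lt.b, Lt.c, Lt.di, Lt.ci, Lt.bi, Lt.d] [Lt.fi] (pair_rel hinv hr (by decide +kernel)) h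
        · exact mRel_good (T := T) (by decide) [Lt.fi, Lt.di, Lt.ci, Lt.b] [Lt.ci, Lt.b, Lt.fi, Lt.d] (pair_rel hinv hr (by decide +kernel)) h
  · rcases brec_true h with h | h
    · rcases brec_true h with h | h
      · exact mRel_good (T := T) (by decide) [Lt.c, Lt.fi] [Lt.d, Lt.b, Lt.ci, Lt.di, Lt.ci, Lt.bi] (pair_rel hinv hr (by decide +kernel)) h
      · rcases brec_true h with h | h
        · exact mRel_good (T := T) (by decide) [Lt.bi, Lt.fi, Lt.b, Lt.b] [Lt.f, Lt.di, Lt.c, Lt.fi] (pair_rel hinv hr (by decide +kernel)) h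
        · exact mRel_good (T := T) (by decide) [Lt.f, Lt.ei, Lt.fi, Lt.e, Lt.fi, Lt.d] [Lt.ei, Lt.f, Lt.c] (pair_rel hinv hr (by decide +kernel)) h
    · rcases brec_true h with h | h
      · exact mRel_good (T := T) (by decide) [Lt.b, Lt.c, Lt.bi] [Lt.di, Lt.di, Lt.f, Lt.b, Lt.c] (pair_rel hinv hr (by decide +kernel)) h
      · rcases brec_true h with h | h
        · exact mRel_good (T := T) (by decide) [Lt.di, Lt.fi] [Lt.f, Lt.b, Lt.c, Lt.bi, Lt.ci, Lt.bi] (pair_rel hinv hr (by decide +kernel)) h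
        · exact mRel_good (T := T) (by decide) [Lt.c, Lt.b, Lt.c] [Lt.b, Lt.di, Lt.f, Lt.di, Lt.ci] (pair_rel hinv hr (by decide +kernel)) h
theorem dM_250_s (hinv : ∀ x, g (inv x) = (g x)⁻¹) (hr : ∀ r ∈ rels, (r.map g).prod = 1) (j z1 z2 u : ℕ) (h : dM_250 j z1 z2 u = true) : GoodM (fa g) T MG M (cP g H) u := by
  unfold dM_250 at h
  rcases brec_true h with h | h
  · exact dM_248_s hinv hr j z1 z2 u h
  · exact dM_249_s hinv hr j z1 z2 u h
theorem dM_251_s (hinv : ∀ x, g (inv x) = (g x)⁻¹) (hr : ∀ r ∈ rels, (r.map g).prod = 1) (j z1 z2 u : ℕ) (h : dM_251 j z1 z2 u = true) : GoodM (fa g) T MG M (cP g H) u := by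
  unfold dM_251 at h
  rcases brec_true h with h | h
  · rcases brec_true h with h | h
    · rcases brec_true h with h | h
      · exact mRel_good (T := T) (by decide) [Lt.d, Lt.f, Lt.di, Lt.b, Lt.c, Lt.di, Lt.ci] [Lt.b] (pair_rel hinv hr (by decide +kernel)) h
      · exact mRel_good (T := T) (by decide) [Lt.di, Lt.di, Lt.fi, Lt.bi] [Lt.b, Lt.fi, Lt.d, Lt.c] (pair_rel hinv hr (by decide +kernel)) h
    · rcases brec_true h with h | h
      · exact mRel_good (T := T) (by decide) [Lt.ci, Lt.d, Lt.fi, Lt.bi, Lt.fi, Lt.b, Lt.b, Lt.f] [] (pair_rel hinv hr (by decide +kernel)) h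
      · rcases brec_true h with h | h
        · exact mRel_good (T := T) (by decide) [Lt.b, Lt.c, Lt.d, Lt.b, Lt.ci, Lt.bi, Lt.f] [Lt.di] (pair_rel hinv hr (by decide +kernel)) h
        · exact mRel_good (T := T) (by decide) [Lt.d, Lt.c] [Lt.ci, Lt.bi, Lt.f, Lt.ci, Lt.d, Lt.b] (pair_rel hinv hr (by decide +kernel)) h
  · rcases brec_true h with h | h
    · rcases brec_true h with h | h
      · exact mRel_good (T := T) (by decide) [Lt.c, Lt.b, Lt.c] [Lt.fi, Lt.d, Lt.bi, Lt.fi, Lt.di] (pair_rel hinv hr (by decide +kernel)) h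
      · rcases brec_true h with h | h
        · exact mRel_good (T := T) (by decide) [Lt.c, Lt.c, Lt.bi, Lt.c, Lt.b, Lt.ci, Lt.ci] [Lt.d] (pair_rel hinv hr (by decide +kernel)) h
        · exact mRel_good (T := T) (by decide) [Lt.c, Lt.bi, Lt.bi] [Lt.fi, Lt.fi, Lt.bi, Lt.d, Lt.c] (pair_rel hinv hr (by decide +kernel)) h
    · rcases brec_true h with h | h
      · exact mRel_good (T := T) (by decide) [Lt.d, Lt.bi, Lt.d, Lt.d, Lt.b, Lt.d, Lt.bi] [Lt.di] (pair_rel hinv hr (by decide +kernel)) h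
      · rcases brec_true h with h | h
        · exact mRel_good (T := T) (by decide) [Lt.f, Lt.e, Lt.fi, Lt.ei, Lt.f] [Lt.e, Lt.fi, Lt.d, Lt.ci] (pair_rel hinv hr (by decide +kernel)) h
        · exact mRel_good (T := T) (by decide) [Lt.bi, Lt.di, Lt.di] [Lt.d, Lt.bi, Lt.d, Lt.d, Lt.bi] (pair_rel hinv hr (by decide +kernel)) h
theorem dM_252_s (hinv : ∀ x, g (inv x) = (g x)⁻¹) (hr : ∀ r ∈ rels, (r.map g).prod = 1) (j z1 z2 u : ℕ) (h : dM_252 j z1 z2 u = true) : GoodM (fa g) T MG M (cP g H) u := by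
  unfold dM_252 at h
  rcases brec_true h with h | h
  · rcases brec_true h with h | h
    · rcases brec_true h with h | h
      · exact mRel_good (T := T) (by decide) [Lt.c, Lt.di] [Lt.fi, Lt.bi, Lt.d, Lt.ci, Lt.fi, Lt.bi] (pair_rel hinv hr (by decide +kernel)) h
      · exact mRel_good (T := T) (by decide) [Lt.b, Lt.c, Lt.bi, Lt.bi] [Lt.fi, Lt.b, Lt.c, Lt.d] (pair_rel hinv hr (by decide +kernel)) h
    · rcases brec_true h with h | h
      · exact mRel_good (T := T) (by decide) [Lt.d, Lt.bi, Lt.d, Lt.d] [Lt.bi, Lt.di, Lt.di, Lt.b] (pair_rel hinv hr (by decide +kernel)) h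
      · rcases brec_true h with h | h
        · exact mRel_good (T := T) (by decide) [Lt.b, Lt.c, Lt.bi, Lt.di] [Lt.f, Lt.d, Lt.b, Lt.c] (pair_rel hinv hr (by decide +kernel)) h
        · exact mRel_good (T := T) (by decide) [Lt.b, Lt.c, Lt.bi, Lt.ci] [Lt.fi, Lt.di, Lt.fi, Lt.b] (pair_rel hinv hr (by decide +kernel)) h
  · rcases brec_true h with h | h
    · rcases brec_true h with h | h
      · exact mRel_good (T := T) (by decide) [Lt.d, Lt.f, Lt.di, Lt.b] [Lt.b, Lt.c, Lt.d, Lt.ci] (pair_rel hinv hr (by decide +kernel)) h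
      · rcases brec_true h with h | h
        · exact mRel_good (T := T) (by decide) [Lt.c, Lt.di] [Lt.fi, Lt.fi, Lt.di, Lt.bi, Lt.c, Lt.b] (pair_rel hinv hr (by decide +kernel)) h
        · exact mRel_good (T := T) (by decide) [Lt.b, Lt.d, Lt.bi, Lt.d, Lt.d, Lt.bi, Lt.d] [Lt.di] (pair_rel hinv hr (by decide +kernel)) h
    · rcases brec_true h with h | h
      · exact mRel_good (T := T) (by decide) [Lt.c, Lt.bi, Lt.c, Lt.bi] [Lt.b, Lt.ci, Lt.b, Lt.ci] (pair_rel hinv hr (by decide +kernel)) h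
      · rcases brec_true h with h | h
        · exact mRel_good (T := T) (by decide) [Lt.d, Lt.b, Lt.c, Lt.d, Lt.b, Lt.ci, Lt.bi, Lt.f] [] (pair_rel hinv hr (by decide +kernel)) h
        · exact mRel_good (T := T) (by decide) [Lt.ei, Lt.f, Lt.e, Lt.fi, Lt.ei, Lt.f] [Lt.fi, Lt.d, Lt.ci] (pair_rel hinv hr (by decide +kernel)) h
theorem dM_253_s (hinv : ∀ x, g (inv x) = (g x)⁻¹) (hr : ∀ r ∈ rels, (r.map g).prod = 1) (j z1 z2 u : ℕ) (h : dM_253 j z1 z2 u = true) : GoodM (fa g) T MG M (cP g H) u := by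
  unfold dM_253 at h
  rcases brec_true h with h | h
  · exact dM_251_s hinv hr j z1 z2 u h
  · exact dM_252_s hinv hr j z1 z2 u h
theorem dM_254_s (hinv : ∀ x, g (inv x) = (g x)⁻¹) (hr : ∀ r ∈ rels, (r.map g).prod = 1) (j z1 z2 u : ℕ) (h : dM_254 j z1 z2 u = true) : GoodM (fa g) T MG M (cP g H) u := by
  unfold dM_254 at h
  rcases brec_true h with h | h
  · exact dM_250_s hinv hr j z1 z2 u h
  · exact dM_253_s hinv hr j z1 z2 u h
theorem dM_255_s (hinv : ∀ x, g (inv x) = (g x)⁻¹) (hr : ∀ r ∈ rels, (r.map g).prod = 1) (j z1 z2 u : ℕ) (h : dM_255 j z1 z2 u = true) : GoodM (fa g) T MG M (cP g H) u := by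
  unfold dM_255 at h
  rcases brec_true h with h | h
  · exact dM_247_s hinv hr j z1 z2 u h
  · exact dM_254_s hinv hr j z1 z2 u h
theorem dM_256_s (hinv : ∀ x, g (inv x) = (g x)⁻¹) (hr : ∀ r ∈ rels, (r.map g).prod = 1) (j z1 z2 u : ℕ) (h : dM_256 j z1 z2 u = true) : GoodM (fa g) T MG M (cP g H) u := by
  unfold dM_256 at h
  rcases brec_true h with h | h
  · exact dM_240_s hinv hr j z1 z2 u h
  · exact dM_255_s hinv hr j z1 z2 u h
theorem dM_257_s (hinv : ∀ x, g (inv x) = (g x)⁻¹) (hr : ∀ r ∈ rels, (r.map g).prod = 1) (j z1 z2 u : ℕ) (h : dM_257 j z1 z2 u = true) : GoodM (fa g) T MG M (cP g H) u := by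
  unfold dM_257 at h
  rcases brec_true h with h | h
  · exact dM_225_s hinv hr j z1 z2 u h
  · exact dM_256_s hinv hr j z1 z2 u h
theorem dM_258_s (hinv : ∀ x, g (inv x) = (g x)⁻¹) (hr : ∀ r ∈ rels, (r.map g).prod = 1) (j z1 z2 u : ℕ) (h : dM_258 j z1 z2 u = true) : GoodM (fa g) T MG M (cP g H) u := by
  unfold dM_258 at h
  rcases brec_true h with h | h
  · rcases brec_true h with h | h
    · rcases brec_true h with h | h
      · exact mRel_good (T := T) (by decide) [Lt.b, Lt.c] [Lt.d, Lt.fi, Lt.di, Lt.b, Lt.c, Lt.d] (pair_rel hinv hr (by decide +kernel)) h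
      · exact mRel_good (T := T) (by decide) [Lt.d, Lt.ci, Lt.f, Lt.d, Lt.d, Lt.ci] [Lt.di, Lt.fi] (pair_rel hinv hr (by decide +kernel)) h
    · rcases brec_true h with h | h
      · exact mRel_good (T := T) (by decide) [Lt.f] [Lt.e, Lt.f, Lt.ei, Lt.fi, Lt.fi, Lt.d, Lt.ci, Lt.ei] (pair_rel hinv hr (by decide +kernel)) h
      · rcases brec_true h with h | h
        · exact mRel_good (T := T) (by decide) [Lt.d, Lt.bi, Lt.c] [Lt.f, Lt.di, Lt.ci, Lt.ci, Lt.bi] (pair_rel hinv hr (by decide +kernel)) h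
        · exact mRel_good (T := T) (by decide) [Lt.c, Lt.d, Lt.b, Lt.ci, Lt.bi, Lt.f] [Lt.bi, Lt.di] (pair_rel hinv hr (by decide +kernel)) h
  · rcases brec_true h with h | h
    · rcases brec_true h with h | h
      · exact mRel_good (T := T) (by decide) [Lt.ci, Lt.bi] [Lt.c, Lt.d, Lt.fi, Lt.d, Lt.bi, Lt.c] (pair_rel hinv hr (by decide +kernel)) h
      · exact mRel_good (T := T) (by decide) [Lt.di, Lt.f, Lt.f] [Lt.fi, Lt.d, Lt.d, Lt.f, Lt.d] (pair_rel hinv hr (by decide +kernel)) h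
    · rcases brec_true h with h | h
      · exact mRel_good (T := T) (by decide) [Lt.c, Lt.d, Lt.ci, Lt.bi, Lt.d, Lt.fi, Lt.di, Lt.b] [] (pair_rel hinv hr (by decide +kernel)) h
      · rcases brec_true h with h | h
        · exact mRel_good (T := T) (by decide) [Lt.b, Lt.c, Lt.b, Lt.ci, Lt.bi] [Lt.fi, Lt.d, Lt.d] (pair_rel hinv hr (by decide +kernel)) h
        · exact mRel_good (T := T) (by decide) [Lt.f, Lt.b] [Lt.c, Lt.d, Lt.d, Lt.bi, Lt.f, Lt.c] (pair_rel hinv hr (by decide +kernel)) h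
theorem dM_259_s (hinv : ∀ x, g (inv x) = (g x)⁻¹) (hr : ∀ r ∈ rels, (r.map g).prod = 1) (j z1 z2 u : ℕ) (h : dM_259 j z1 z2 u = true) : GoodM (fa g) T MG M (cP g H) u := by
  unfold dM_259 at h
  rcases brec_true h with h | h
  · rcases brec_true h with h | h
    · rcases brec_true h with h | h
      · exact mRel_good (T := T) (by decide) [Lt.fi, Lt.bi, Lt.d, Lt.c] [Lt.f, Lt.c, Lt.bi, Lt.bi] (pair_rel hinv hr (by decide +kernel)) h
      · exact mRel_good (T := T) (by decide) [Lt.di, Lt.b, Lt.c, Lt.di, Lt.c, Lt.d] [Lt.ci, Lt.b] (pair_rel hinv hr (by decide +kernel)) h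
    · rcases brec_true h with h | h
      · exact mRel_good (T := T) (by decide) [Lt.b, Lt.c, Lt.d, Lt.b, Lt.b] [Lt.f, Lt.b, Lt.c] (pair_rel hinv hr (by decide +kernel)) h
      · rcases brec_true h with h | h
        · exact mRel_good (T := T) (by decide) [Lt.c, Lt.bi, Lt.fi, Lt.c] [Lt.fi, Lt.b, Lt.di, Lt.di] (pair_rel hinv hr (by decide +kernel)) h
        · exact mRel_good (T := T) (by decide) [Lt.bi, Lt.c, Lt.b, Lt.c, Lt.c, Lt.d, Lt.fi] [Lt.di] (pair_rel hinv hr (by decide +kernel)) h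
  · rcases brec_true h with h | h
    · rcases brec_true h with h | h
      · exact mRel_good (T := T) (by decide) [Lt.di, Lt.b, Lt.f, Lt.f] [Lt.c, Lt.b, Lt.b, Lt.ci] (pair_rel hinv hr (by decide +kernel)) h
      · rcases brec_true h with h | h
        · exact mRel_good (T := T) (by decide) [Lt.di, Lt.fi, Lt.bi, Lt.f] [Lt.ei, Lt.bi, Lt.c, Lt.fi, Lt.ei] (pair_rel hinv hr (by decide +kernel)) h
        · exact mRel_good (T := T) (by decide) [Lt.fi, Lt.bi, Lt.bi] [Lt.ci, Lt.d, Lt.fi, Lt.bi, Lt.fi] (pair_rel hinv hr (by decide +kernel)) h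
    · rcases brec_true h with h | h
      · exact mRel_good (T := T) (by decide) [Lt.ci, Lt.bi] [Lt.d, Lt.b, Lt.ci, Lt.bi, Lt.f, Lt.d] (pair_rel hinv hr (by decide +kernel)) h
      · rcases brec_true h with h | h
        · exact mRel_good (T := T) (by decide) [Lt.bi, Lt.f, Lt.d, Lt.f] [Lt.c, Lt.b, Lt.ci, Lt.bi] (pair_rel hinv hr (by decide +kernel)) h
        · exact mRel_good (T := T) (by decide) [Lt.di, Lt.e, Lt.fi, Lt.ei, Lt.f, Lt.e] [Lt.f, Lt.di, Lt.ci] (pair_rel hinv hr (by decide +kernel)) h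
theorem dM_260_s (hinv : ∀ x, g (inv x) = (g x)⁻¹) (hr : ∀ r ∈ rels, (r.map g).prod = 1) (j z1 z2 u : ℕ) (h : dM_260 j z1 z2 u = true) : GoodM (fa g) T MG M (cP g H) u := by
  unfold dM_260 at h
  rcases brec_true h with h | h
  · exact dM_258_s hinv hr j z1 z2 u h
  · exact dM_259_s hinv hr j z1 z2 u h
theorem dM_261_s (hinv : ∀ x, g (inv x) = (g x)⁻¹) (hr : ∀ r ∈ rels, (r.map g).prod = 1) (j z1 z2 u : ℕ) (h : dM_261 j z1 z2 u = true) : GoodM (fa g) T MG M (cP g H) u := by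
  unfold dM_261 at h
  rcases brec_true h with h | h
  · rcases brec_true h with h | h
    · rcases brec_true h with h | h
      · exact mRel_good (T := T) (by decide) [Lt.fi, Lt.bi, Lt.d, Lt.ci, Lt.fi, Lt.bi, Lt.d, Lt.ci] [] (pair_rel hinv hr (by decide +kernel)) h
      · exact mRel_good (T := T) (by decide) [Lt.ci, Lt.ci, Lt.bi] [Lt.d, Lt.fi, Lt.d, Lt.bi, Lt.c] (pair_rel hinv hr (by decide +kernel)) h
    · rcases brec_true h with h | h
      · exact mRel_good (T := T) (by decide) [Lt.ci, Lt.di, Lt.b] [Lt.b, Lt.b, Lt.ci, Lt.fi, Lt.fi] (pair_rel hinv hr (by decide +kernel)) h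
      · rcases brec_true h with h | h
        · exact mRel_good (T := T) (by decide) [Lt.ci, Lt.b] [Lt.f, Lt.b, Lt.fi, Lt.c, Lt.c, Lt.fi] (pair_rel hinv hr (by decide +kernel)) h
        · exact mRel_good (T := T) (by decide) [Lt.b, Lt.ci, Lt.fi, Lt.d, Lt.ci, Lt.fi, Lt.b, Lt.c] [Lt.ci] (pair_rel hinv hr (by decide +kernel)) h
  · rcases brec_true h with h | h
    · rcases brec_true h with h | h
      · exact mRel_good (T := T) (by decide) [Lt.c, Lt.b, Lt.d, Lt.ci, Lt.fi] [Lt.b, Lt.d, Lt.f] (pair_rel hinv hr (by decide +kernel)) h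
      · exact mRel_good (T := T) (by decide) [Lt.c, Lt.bi, Lt.di, Lt.ci, Lt.bi, Lt.di] [Lt.bi, Lt.f] (pair_rel hinv hr (by decide +kernel)) h
    · rcases brec_true h with h | h
      · exact mRel_good (T := T) (by decide) [Lt.d, Lt.ci] [Lt.bi, Lt.c, Lt.c, Lt.di, Lt.bi, Lt.c] (pair_rel hinv hr (by decide +kernel)) h
      · rcases brec_true h with h | h
        · exact mRel_good (T := T) (by decide) [Lt.c, Lt.di, Lt.c, Lt.d] [Lt.bi, Lt.d, Lt.ci, Lt.b] (pair_rel hinv hr (by decide +kernel)) h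
        · exact mRel_good (T := T) (by decide) [Lt.ci, Lt.b, Lt.fi, Lt.d, Lt.bi, Lt.c] [Lt.fi, Lt.di] (pair_rel hinv hr (by decide +kernel)) h
theorem dM_262_s (hinv : ∀ x, g (inv x) = (g x)⁻¹) (hr : ∀ r ∈ rels, (r.map g).prod = 1) (j z1 z2 u : ℕ) (h : dM_262 j z1 z2 u = true) : GoodM (fa g) T MG M (cP g H) u := by
  unfold dM_262 at h
  rcases brec_true h with h | h
  · rcases brec_true h with h | h
    · rcases brec_true h with h | h
      · exact mRel_good (T := T) (by decide) [Lt.e, Lt.di, Lt.fi, Lt.bi, Lt.f, Lt.e, Lt.f] [Lt.bi, Lt.c] (pair_rel hinv hr (by decide +kernel)) h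
      · exact mRel_good (T := T) (by decide) [Lt.c, Lt.d, Lt.d] [Lt.f, Lt.b, Lt.ci, Lt.fi, Lt.b] (pair_rel hinv hr (by decide +kernel)) h
    · rcases brec_true h with h | h
      · exact mRel_good (T := T) (by decide) [Lt.c, Lt.fi] [Lt.ci, Lt.f, Lt.bi, Lt.fi, Lt.ci, Lt.b] (pair_rel hinv hr (by decide +kernel)) h
      · rcases brec_true h with h | h
        · exact mRel_good (T := T) (by decide) [Lt.ci, Lt.f, Lt.b, Lt.ci] [Lt.d, Lt.d, Lt.bi, Lt.f] (pair_rel hinv hr (by decide +kernel)) h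
        · exact mRel_good (T := T) (by decide) [Lt.c, Lt.b, Lt.c, Lt.fi, Lt.fi, Lt.d, Lt.bi] [Lt.fi, Lt.b] (pair_rel hinv hr (by decide +kernel)) h
  · rcases brec_true h with h | h
    · rcases brec_true h with h | h
      · exact mRel_good (T := T) (by decide) [Lt.di, Lt.c, Lt.d] [Lt.ci, Lt.bi, Lt.d, Lt.ci, Lt.b] (pair_rel hinv hr (by decide +kernel)) h
      · rcases brec_true h with h | h
        · exact mRel_good (T := T) (by decide) [Lt.bi, Lt.c, Lt.fi, Lt.ei, Lt.fi, Lt.b, Lt.f] [Lt.e, Lt.di] (pair_rel hinv hr (by decide +kernel)) h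
        · exact mRel_good (T := T) (by decide) [Lt.ci, Lt.d, Lt.c, Lt.di, Lt.fi] [Lt.f, Lt.bi, Lt.bi, Lt.bi] (pair_rel hinv hr (by decide +kernel)) h
    · rcases brec_true h with h | h
      · exact mRel_good (T := T) (by decide) [Lt.c, Lt.c, Lt.d] [Lt.bi, Lt.ci, Lt.b, Lt.di, Lt.f] (pair_rel hinv hr (by decide +kernel)) h
      · rcases brec_true h with h | h
        · exact mRel_good (T := T) (by decide) [Lt.bi, Lt.d, Lt.ci] [Lt.f, Lt.c, Lt.di, Lt.b, Lt.f] (pair_rel hinv hr (by decide +kernel)) h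
        · exact mRel_good (T := T) (by decide) [Lt.ei, Lt.bi, Lt.c, Lt.fi, Lt.ei] [Lt.di, Lt.fi, Lt.bi, Lt.f] (pair_rel hinv hr (by decide +kernel)) h
theorem dM_263_s (hinv : ∀ x, g (inv x) = (g x)⁻¹) (hr : ∀ r ∈ rels, (r.map g).prod = 1) (j z1 z2 u : ℕ) (h : dM_263 j z1 z2 u = true) : GoodM (fa g) T MG M (cP g H) u := by
  unfold dM_263 at h
  rcases brec_true h with h | h
  · exact dM_261_s hinv hr j z1 z2 u h
  · exact dM_262_s hinv hr j z1 z2 u h
theorem dM_264_s (hinv : ∀ x, g (inv x) = (g x)⁻¹) (hr : ∀ r ∈ rels, (r.map g).prod = 1) (j z1 z2 u : ℕ) (h : dM_264 j z1 z2 u = true) : GoodM (fa g) T MG M (cP g H) u := by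
  unfold dM_264 at h
  rcases brec_true h with h | h
  · exact dM_260_s hinv hr j z1 z2 u h
  · exact dM_263_s hinv hr j z1 z2 u h
theorem dM_265_s (hinv : ∀ x, g (inv x) = (g x)⁻¹) (hr : ∀ r ∈ rels, (r.map g).prod = 1) (j z1 z2 u : ℕ) (h : dM_265 j z1 z2 u = true) : GoodM (fa g) T MG M (cP g H) u := by
  unfold dM_265 at h
  rcases brec_true h with h | h
  · rcases brec_true h with h | h
    · rcases brec_true h with h | h
      · exact mRel_good (T := T) (by decide) [Lt.d, Lt.ci, Lt.bi, Lt.d, Lt.fi] [Lt.ci, Lt.bi, Lt.d] (pair_rel hinv hr (by decide +kernel)) h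
      · exact mRel_good (T := T) (by decide) [Lt.c, Lt.di, Lt.f] [Lt.ei, Lt.fi, Lt.e, Lt.f, Lt.ei, Lt.fi] (pair_rel hinv hr (by decide +kernel)) h
    · rcases brec_true h with h | h
      · exact mRel_good (T := T) (by decide) [Lt.fi, Lt.c] [Lt.di, Lt.b, Lt.ci, Lt.d, Lt.b, Lt.f] (pair_rel hinv hr (by decide +kernel)) h
      · rcases brec_true h with h | h
        · exact mRel_good (T := T) (by decide) [Lt.bi, Lt.d, Lt.fi, Lt.di, Lt.b] [Lt.c, Lt.di, Lt.ci] (pair_rel hinv hr (by decide +kernel)) h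
        · exact mRel_good (T := T) (by decide) [Lt.d] [Lt.di, Lt.fi, Lt.c, Lt.di, Lt.di, Lt.fi, Lt.c] (pair_rel hinv hr (by decide +kernel)) h
  · rcases brec_true h with h | h
    · rcases brec_true h with h | h
      · exact mRel_good (T := T) (by decide) [Lt.bi, Lt.d] [Lt.c, Lt.di, Lt.c, Lt.d, Lt.bi, Lt.c] (pair_rel hinv hr (by decide +kernel)) h
      · exact mRel_good (T := T) (by decide) [Lt.ci, Lt.bi, Lt.di] [Lt.d, Lt.b, Lt.ci, Lt.bi, Lt.f] (pair_rel hinv hr (by decide +kernel)) h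
    · rcases brec_true h with h | h
      · exact mRel_good (T := T) (by decide) [Lt.f, Lt.e, Lt.f, Lt.ci] [Lt.b, Lt.f, Lt.d, Lt.ei, Lt.bi] (pair_rel hinv hr (by decide +kernel)) h
      · rcases brec_true h with h | h
        · exact mRel_good (T := T) (by decide) [Lt.b, Lt.fi, Lt.c, Lt.c, Lt.fi, Lt.bi] [Lt.fi, Lt.ci] (pair_rel hinv hr (by decide +kernel)) h
        · exact mRel_good (T := T) (by decide) [Lt.d, Lt.ci, Lt.f] [Lt.di, Lt.fi, Lt.c, Lt.di, Lt.di] (pair_rel hinv hr (by decide +kernel)) h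
theorem dM_266_s (hinv : ∀ x, g (inv x) = (g x)⁻¹) (hr : ∀ r ∈ rels, (r.map g).prod = 1) (j z1 z2 u : ℕ) (h : dM_266 j z1 z2 u = true) : GoodM (fa g) T MG M (cP g H) u := by
  unfold dM_266 at h
  rcases brec_true h with h | h
  · rcases brec_true h with h | h
    · rcases brec_true h with h | h
      · exact mRel_good (T := T) (by decide) [Lt.bi, Lt.di, Lt.fi, Lt.b, Lt.c] [Lt.c, Lt.d, Lt.b] (pair_rel hinv hr (by decide +kernel)) h
      · exact mRel_good (T := T) (by decide) [Lt.fi, Lt.bi] [Lt.d, Lt.ei, Lt.bi, Lt.c, Lt.fi, Lt.ei, Lt.fi] (pair_rel hinv hr (by decide +kernel)) h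
    · rcases brec_true h with h | h
      · exact mRel_good (T := T) (by decide) [Lt.c, Lt.b, Lt.f, Lt.d, Lt.d, Lt.b] [Lt.di, Lt.f] (pair_rel hinv hr (by decide +kernel)) h
      · rcases brec_true h with h | h
        · exact mRel_good (T := T) (by decide) [Lt.di, Lt.fi, Lt.bi, Lt.f, Lt.e, Lt.f, Lt.ci, Lt.b, Lt.e] [] (pair_rel hinv hr (by decide +kernel)) h
        · exact mRel_good (T := T) (by decide) [Lt.b, Lt.ci, Lt.d, Lt.b] [Lt.d, Lt.fi, Lt.c, Lt.fi] (pair_rel hinv hr (by decide +kernel)) h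
  · rcases brec_true h with h | h
    · rcases brec_true h with h | h
      · exact mRel_good (T := T) (by decide) [Lt.d] [Lt.di, Lt.f, Lt.b, Lt.c, Lt.b, Lt.ci, Lt.bi] (pair_rel hinv hr (by decide +kernel)) h
      · rcases brec_true h with h | h
        · exact mRel_good (T := T) (by decide) [Lt.fi, Lt.ci, Lt.b, Lt.f, Lt.ci, Lt.ci, Lt.f] [Lt.b] (pair_rel hinv hr (by decide +kernel)) h
        · exact mRel_good (T := T) (by decide) [Lt.b, Lt.ci] [Lt.bi, Lt.di, Lt.ci, Lt.bi, Lt.f, Lt.b] (pair_rel hinv hr (by decide +kernel)) h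
    · rcases brec_true h with h | h
      · exact mRel_good (T := T) (by decide) [Lt.di, Lt.fi, Lt.b] [Lt.d, Lt.b, Lt.f, Lt.bi, Lt.fi, Lt.c] (pair_rel hinv hr (by decide +kernel)) h
      · rcases brec_true h with h | h
        · exact mRel_good (T := T) (by decide) [Lt.f, Lt.ci, Lt.f] [Lt.bi, Lt.di, Lt.c, Lt.bi, Lt.d] (pair_rel hinv hr (by decide +kernel)) h
        · exact mRel_good (T := T) (by decide) [Lt.f, Lt.c, Lt.di, Lt.f, Lt.ei, Lt.f, Lt.e, Lt.fi, Lt.ei] [] (pair_rel hinv hr (by decide +kernel)) h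
theorem dM_267_s (hinv : ∀ x, g (inv x) = (g x)⁻¹) (hr : ∀ r ∈ rels, (r.map g).prod = 1) (j z1 z2 u : ℕ) (h : dM_267 j z1 z2 u = true) : GoodM (fa g) T MG M (cP g H) u := by
  unfold dM_267 at h
  rcases brec_true h with h | h
  · exact dM_265_s hinv hr j z1 z2 u h
  · exact dM_266_s hinv hr j z1 z2 u h
theorem dM_268_s (hinv : ∀ x, g (inv x) = (g x)⁻¹) (hr : ∀ r ∈ rels, (r.map g).prod = 1) (j z1 z2 u : ℕ) (h : dM_268 j z1 z2 u = true) : GoodM (fa g) T MG M (cP g H) u := by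
  unfold dM_268 at h
  rcases brec_true h with h | h
  · rcases brec_true h with h | h
    · rcases brec_true h with h | h
      · exact mRel_good (T := T) (by decide) [Lt.di, Lt.ci, Lt.ci, Lt.bi, Lt.ci] [Lt.fi, Lt.d, Lt.bi] (pair_rel hinv hr (by decide +kernel)) h
      · exact mRel_good (T := T) (by decide) [Lt.c, Lt.di, Lt.di, Lt.fi, Lt.c, Lt.di] [Lt.f, Lt.d] (pair_rel hinv hr (by decide +kernel)) h
    · rcases brec_true h with h | h
      · exact mRel_good (T := T) (by decide) [Lt.bi, Lt.d] [Lt.ci, Lt.d, Lt.b, Lt.f, Lt.ci, Lt.f] (pair_rel hinv hr (by decide +kernel)) h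
      · rcases brec_true h with h | h
        · exact mRel_good (T := T) (by decide) [Lt.fi, Lt.b, Lt.di, Lt.di, Lt.ci] [Lt.c, Lt.bi, Lt.fi] (pair_rel hinv hr (by decide +kernel)) h
        · exact mRel_good (T := T) (by decide) [Lt.f, Lt.f, Lt.e, Lt.fi] [Lt.d, Lt.ci, Lt.ei, Lt.fi, Lt.e] (pair_rel hinv hr (by decide +kernel)) h
  · rcases brec_true h with h | h
    · rcases brec_true h with h | h
      · exact mRel_good (T := T) (by decide) [Lt.ci, Lt.d, Lt.b, Lt.f, Lt.ci, Lt.f, Lt.di] [Lt.bi] (pair_rel hinv hr (by decide +kernel)) h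
      · rcases brec_true h with h | h
        · exact mRel_good (T := T) (by decide) [Lt.di, Lt.f, Lt.bi, Lt.di, Lt.di, Lt.fi] [Lt.c, Lt.b] (pair_rel hinv hr (by decide +kernel)) h
        · exact mRel_good (T := T) (by decide) [Lt.ci, Lt.bi, Lt.f, Lt.ci, Lt.d, Lt.b] [Lt.d, Lt.c] (pair_rel hinv hr (by decide +kernel)) h
    · rcases brec_true h with h | h
      · exact mRel_good (T := T) (by decide) [Lt.bi, Lt.fi, Lt.b] [Lt.f, Lt.di, Lt.c, Lt.fi, Lt.bi] (pair_rel hinv hr (by decide +kernel)) h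
      · rcases brec_true h with h | h
        · exact mRel_good (T := T) (by decide) [Lt.bi, Lt.di, Lt.ci, Lt.bi] [Lt.ci, Lt.bi, Lt.f, Lt.d] (pair_rel hinv hr (by decide +kernel)) h
        · exact mRel_good (T := T) (by decide) [Lt.f] [Lt.fi, Lt.d, Lt.ci, Lt.ei, Lt.fi, Lt.e, Lt.f, Lt.ei] (pair_rel hinv hr (by decide +kernel)) h
theorem dM_269_s (hinv : ∀ x, g (inv x) = (g x)⁻¹) (hr : ∀ r ∈ rels, (r.map g).prod = 1) (j z1 z2 u : ℕ) (h : dM_269 j z1 z2 u = true) : GoodM (fa g) T MG M (cP g H) u := by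
  unfold dM_269 at h
  rcases brec_true h with h | h
  · rcases brec_true h with h | h
    · rcases brec_true h with h | h
      · exact mRel_good (T := T) (by decide) [Lt.c, Lt.c, Lt.bi, Lt.c, Lt.b, Lt.ci, Lt.ci, Lt.di] [] (pair_rel hinv hr (by decide +kernel)) h
      · exact mRel_good (T := T) (by decide) [Lt.b, Lt.di] [Lt.fi, Lt.di, Lt.ci, Lt.bi, Lt.ci, Lt.fi] (pair_rel hinv hr (by decide +kernel)) h
    · rcases brec_true h with h | h
      · exact mRel_good (T := T) (by decide) [Lt.b, Lt.f, Lt.ci, Lt.ci, Lt.f, Lt.bi] [Lt.c, Lt.f] (pair_rel hinv hr (by decide +kernel)) h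
      · rcases brec_true h with h | h
        · exact mRel_good (T := T) (by decide) [Lt.b, Lt.ci, Lt.fi, Lt.b, Lt.di, Lt.di, Lt.ci, Lt.f] [] (pair_rel hinv hr (by decide +kernel)) h
        · exact mRel_good (T := T) (by decide) [Lt.c, Lt.b] [Lt.fi, Lt.d, Lt.bi, Lt.fi, Lt.di, Lt.ci] (pair_rel hinv hr (by decide +kernel)) h
  · rcases brec_true h with h | h
    · rcases brec_true h with h | h
      · exact mRel_good (T := T) (by decide) [Lt.c, Lt.fi] [Lt.b, Lt.e, Lt.di, Lt.fi, Lt.bi, Lt.f, Lt.e] (pair_rel hinv hr (by decide +kernel)) h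
      · rcases brec_true h with h | h
        · exact mRel_good (T := T) (by decide) [Lt.b, Lt.ci, Lt.ci, Lt.d] [Lt.c, Lt.b, Lt.ci, Lt.ci] (pair_rel hinv hr (by decide +kernel)) h
        · exact mRel_good (T := T) (by decide) [Lt.d] [Lt.ci, Lt.ci, Lt.bi, Lt.ci, Lt.b, Lt.di, Lt.f] (pair_rel hinv hr (by decide +kernel)) h
    · rcases brec_true h with h | h
      · exact mRel_good (T := T) (by decide) [Lt.c, Lt.di, Lt.c, Lt.d, Lt.bi, Lt.c] [Lt.bi, Lt.d] (pair_rel hinv hr (by decide +kernel)) h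
      · rcases brec_true h with h | h
        · exact mRel_good (T := T) (by decide) [Lt.di, Lt.ci, Lt.bi, Lt.di, Lt.fi] [Lt.b, Lt.ci, Lt.bi] (pair_rel hinv hr (by decide +kernel)) h
        · exact mRel_good (T := T) (by decide) [Lt.di, Lt.fi, Lt.b, Lt.c, Lt.b, Lt.ci, Lt.bi] [Lt.f] (pair_rel hinv hr (by decide +kernel)) h
theorem dM_270_s (hinv : ∀ x, g (inv x) = (g x)⁻¹) (hr : ∀ r ∈ rels, (r.map g).prod = 1) (j z1 z2 u : ℕ) (h : dM_270 j z1 z2 u = true) : GoodM (fa g) T MG M (cP g H) u := by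
  unfold dM_270 at h
  rcases brec_true h with h | h
  · exact dM_268_s hinv hr j z1 z2 u h
  · exact dM_269_s hinv hr j z1 z2 u h
theorem dM_271_s (hinv : ∀ x, g (inv x) = (g x)⁻¹) (hr : ∀ r ∈ rels, (r.map g).prod = 1) (j z1 z2 u : ℕ) (h : dM_271 j z1 z2 u = true) : GoodM (fa g) T MG M (cP g H) u := by
  unfold dM_271 at h
  rcases brec_true h with h | h
  · exact dM_267_s hinv hr j z1 z2 u h
  · exact dM_270_s hinv hr j z1 z2 u h
theorem dM_272_s (hinv : ∀ x, g (inv x) = (g x)⁻¹) (hr : ∀ r ∈ rels, (r.map g).prod = 1) (j z1 z2 u : ℕ) (h : dM_272 j z1 z2 u = true) : GoodM (fa g) T MG M (cP g H) u := by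
  unfold dM_272 at h
  rcases brec_true h with h | h
  · exact dM_264_s hinv hr j z1 z2 u h
  · exact dM_271_s hinv hr j z1 z2 u h
theorem dM_273_s (hinv : ∀ x, g (inv x) = (g x)⁻¹) (hr : ∀ r ∈ rels, (r.map g).prod = 1) (j z1 z2 u : ℕ) (h : dM_273 j z1 z2 u = true) : GoodM (fa g) T MG M (cP g H) u := by
  unfold dM_273 at h
  rcases brec_true h with h | h
  · rcases brec_true h with h | h
    · rcases brec_true h with h | h
      · exact mRel_good (T := T) (by decide) [Lt.d, Lt.bi, Lt.fi, Lt.di, Lt.ci, Lt.bi] [Lt.f, Lt.c] (pair_rel hinv hr (by decide +kernel)) h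
      · exact mRel_good (T := T) (by decide) [Lt.b, Lt.di, Lt.di, Lt.b] [Lt.d, Lt.d, Lt.b, Lt.d] (pair_rel hinv hr (by decide +kernel)) h
    · rcases brec_true h with h | h
      · exact mRel_good (T := T) (by decide) [Lt.fi, Lt.bi, Lt.bi, Lt.f] [Lt.ci, Lt.d, Lt.fi, Lt.bi] (pair_rel hinv hr (by decide +kernel)) h
      · rcases brec_true h with h | h
        · exact mRel_good (T := T) (by decide) [Lt.f, Lt.di, Lt.fi, Lt.di, Lt.di, Lt.f, Lt.di, Lt.f] [] (pair_rel hinv hr (by decide +kernel)) h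
        · exact mRel_good (T := T) (by decide) [Lt.bi] [Lt.c, Lt.bi, Lt.di, Lt.ci, Lt.bi, Lt.di, Lt.fi] (pair_rel hinv hr (by decide +kernel)) h
  · rcases brec_true h with h | h
    · rcases brec_true h with h | h
      · exact mRel_good (T := T) (by decide) [Lt.di, Lt.e, Lt.fi, Lt.ei, Lt.f] [Lt.f, Lt.di, Lt.ci, Lt.ei] (pair_rel hinv hr (by decide +kernel)) h
      · exact mRel_good (T := T) (by decide) [Lt.d, Lt.c, Lt.bi] [Lt.ci, Lt.bi, Lt.f, Lt.ci, Lt.d] (pair_rel hinv hr (by decide +kernel)) h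
    · rcases brec_true h with h | h
      · exact mRel_good (T := T) (by decide) [Lt.di, Lt.ci, Lt.ei, Lt.fi, Lt.e, Lt.f] [Lt.fi, Lt.di, Lt.e] (pair_rel hinv hr (by decide +kernel)) h
      · rcases brec_true h with h | h
        · exact mRel_good (T := T) (by decide) [Lt.fi, Lt.bi, Lt.fi, Lt.b] [Lt.di, Lt.c, Lt.fi, Lt.bi] (pair_rel hinv hr (by decide +kernel)) h
        · exact mRel_good (T := T) (by decide) [Lt.c, Lt.fi, Lt.di, Lt.ci, Lt.b, Lt.di] [Lt.b, Lt.fi] (pair_rel hinv hr (by decide +kernel)) h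
theorem dM_274_s (hinv : ∀ x, g (inv x) = (g x)⁻¹) (hr : ∀ r ∈ rels, (r.map g).prod = 1) (j z1 z2 u : ℕ) (h : dM_274 j z1 z2 u = true) : GoodM (fa g) T MG M (cP g H) u := by
  unfold dM_274 at h
  rcases brec_true h with h | h
  · rcases brec_true h with h | h
    · rcases brec_true h with h | h
      · exact mRel_good (T := T) (by decide) [Lt.bi, Lt.f, Lt.e, Lt.f] [Lt.f, Lt.d, Lt.ei, Lt.bi, Lt.c] (pair_rel hinv hr (by decide +kernel)) h
      · exact mRel_good (T := T) (by decide) [Lt.c, Lt.fi, Lt.ei, Lt.fi, Lt.b, Lt.f] [Lt.b, Lt.e, Lt.di] (pair_rel hinv hr (by decide +kernel)) h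
    · rcases brec_true h with h | h
      · exact mRel_good (T := T) (by decide) [Lt.b, Lt.ci] [Lt.d, Lt.fi, Lt.c, Lt.fi, Lt.bi, Lt.di] (pair_rel hinv hr (by decide +kernel)) h
      · rcases brec_true h with h | h
        · exact mRel_good (T := T) (by decide) [Lt.b, Lt.c, Lt.d, Lt.b, Lt.b, Lt.ci, Lt.bi] [Lt.f] (pair_rel hinv hr (by decide +kernel)) h
        · exact mRel_good (T := T) (by decide) [Lt.d, Lt.d, Lt.b] [Lt.fi, Lt.bi, Lt.ci, Lt.di, Lt.f] (pair_rel hinv hr (by decide +kernel)) h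
  · rcases brec_true h with h | h
    · rcases brec_true h with h | h
      · exact mRel_good (T := T) (by decide) [Lt.d, Lt.c, Lt.b] [Lt.b, Lt.f, Lt.f, Lt.c, Lt.bi] (pair_rel hinv hr (by decide +kernel)) h
      · rcases brec_true h with h | h
        · exact mRel_good (T := T) (by decide) [Lt.di, Lt.di, Lt.b, Lt.di] [Lt.b, Lt.d, Lt.bi, Lt.d] (pair_rel hinv hr (by decide +kernel)) h
        · exact mRel_good (T := T) (by decide) [Lt.d] [Lt.c, Lt.c, Lt.bi, Lt.c, Lt.b, Lt.ci, Lt.ci] (pair_rel hinv hr (by decide +kernel)) h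
    · rcases brec_true h with h | h
      · exact mRel_good (T := T) (by decide) [Lt.di, Lt.c, Lt.bi, Lt.d, Lt.fi, Lt.c, Lt.fi] [Lt.b] (pair_rel hinv hr (by decide +kernel)) h
      · rcases brec_true h with h | h
        · exact mRel_good (T := T) (by decide) [Lt.b, Lt.f, Lt.c, Lt.di, Lt.b, Lt.f, Lt.c] [Lt.d] (pair_rel hinv hr (by decide +kernel)) h
        · exact mRel_good (T := T) (by decide) [Lt.di, Lt.fi, Lt.b, Lt.c, Lt.bi] [Lt.b, Lt.c, Lt.d] (pair_rel hinv hr (by decide +kernel)) h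
theorem dM_275_s (hinv : ∀ x, g (inv x) = (g x)⁻¹) (hr : ∀ r ∈ rels, (r.map g).prod = 1) (j z1 z2 u : ℕ) (h : dM_275 j z1 z2 u = true) : GoodM (fa g) T MG M (cP g H) u := by
  unfold dM_275 at h
  rcases brec_true h with h | h
  · exact dM_273_s hinv hr j z1 z2 u h
  · exact dM_274_s hinv hr j z1 z2 u h
theorem dM_276_s (hinv : ∀ x, g (inv x) = (g x)⁻¹) (hr : ∀ r ∈ rels, (r.map g).prod = 1) (j z1 z2 u : ℕ) (h : dM_276 j z1 z2 u = true) : GoodM (fa g) T MG M (cP g H) u := by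
  unfold dM_276 at h
  rcases brec_true h with h | h
  · rcases brec_true h with h | h
    · rcases brec_true h with h | h
      · exact mRel_good (T := T) (by decide) [Lt.c, Lt.fi, Lt.ei, Lt.fi] [Lt.b, Lt.e, Lt.di, Lt.fi, Lt.bi] (pair_rel hinv hr (by decide +kernel)) h
      · exact mRel_good (T := T) (by decide) [Lt.bi, Lt.f] [Lt.c, Lt.bi, Lt.di, Lt.ci, Lt.bi, Lt.di] (pair_rel hinv hr (by decide +kernel)) h
    · rcases brec_true h with h | h
      · exact mRel_good (T := T) (by decide) [Lt.f, Lt.di, Lt.fi] [Lt.fi, Lt.d, Lt.fi, Lt.d, Lt.d] (pair_rel hinv hr (by decide +kernel)) h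
      · rcases brec_true h with h | h
        · exact mRel_good (T := T) (by decide) [Lt.d, Lt.b, Lt.ci] [Lt.ci, Lt.bi, Lt.di, Lt.fi, Lt.b] (pair_rel hinv hr (by decide +kernel)) h
        · exact mRel_good (T := T) (by decide) [Lt.di, Lt.c] [Lt.c, Lt.bi, Lt.ci, Lt.d, Lt.c, Lt.bi] (pair_rel hinv hr (by decide +kernel)) h
  · rcases brec_true h with h | h
    · rcases brec_true h with h | h
      · exact mRel_good (T := T) (by decide) [Lt.f] [Lt.d, Lt.bi, Lt.fi, Lt.di, Lt.ci, Lt.bi, Lt.ci] (pair_rel hinv hr (by decide +kernel)) h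
      · rcases brec_true h with h | h
        · exact mRel_good (T := T) (by decide) [Lt.f] [Lt.e, Lt.fi, Lt.d, Lt.ci, Lt.fi, Lt.e, Lt.f, Lt.ei] (pair_rel hinv hr (by decide +kernel)) h
        · exact mRel_good (T := T) (by decide) [Lt.d] [Lt.ci, Lt.d, Lt.ci, Lt.bi, Lt.d, Lt.ci, Lt.b] (pair_rel hinv hr (by decide +kernel)) h
    · rcases brec_true h with h | h
      · exact mRel_good (T := T) (by decide) [Lt.ei, Lt.fi, Lt.e] [Lt.c, Lt.di, Lt.f, Lt.f, Lt.e, Lt.fi] (pair_rel hinv hr (by decide +kernel)) h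
      · rcases brec_true h with h | h
        · exact mRel_good (T := T) (by decide) [Lt.bi, Lt.ci, Lt.b, Lt.di, Lt.f, Lt.di, Lt.ci] [Lt.c] (pair_rel hinv hr (by decide +kernel)) h
        · exact mRel_good (T := T) (by decide) [Lt.f, Lt.ci, Lt.d, Lt.fi, Lt.bi] [Lt.bi, Lt.bi, Lt.f] (pair_rel hinv hr (by decide +kernel)) h
theorem dM_277_s (hinv : ∀ x, g (inv x) = (g x)⁻¹) (hr : ∀ r ∈ rels, (r.map g).prod = 1) (j z1 z2 u : ℕ) (h : dM_277 j z1 z2 u = true) : GoodM (fa g) T MG M (cP g H) u := by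
  unfold dM_277 at h
  rcases brec_true h with h | h
  · rcases brec_true h with h | h
    · rcases brec_true h with h | h
      · exact mRel_good (T := T) (by decide) [Lt.bi, Lt.e, Lt.c, Lt.e, Lt.bi, Lt.e, Lt.c, Lt.e] [] (pair_rel hinv hr (by decide +kernel)) h
      · exact mRel_good (T := T) (by decide) [Lt.fi, Lt.bi, Lt.d, Lt.ci, Lt.fi, Lt.bi] [Lt.c, Lt.di] (pair_rel hinv hr (by decide +kernel)) h
    · rcases brec_true h with h | h
      · exact mRel_good (T := T) (by decide) [Lt.b, Lt.c, Lt.di] [Lt.d, Lt.fi, Lt.di, Lt.b, Lt.c] (pair_rel hinv hr (by decide +kernel)) h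
      · rcases brec_true h with h | h
        · exact mRel_good (T := T) (by decide) [Lt.di, Lt.f] [Lt.bi, Lt.fi, Lt.di, Lt.ci, Lt.bi, Lt.ci] (pair_rel hinv hr (by decide +kernel)) h
        · exact mRel_good (T := T) (by decide) [Lt.ci, Lt.fi, Lt.bi, Lt.d, Lt.ci] [Lt.di, Lt.b, Lt.f] (pair_rel hinv hr (by decide +kernel)) h
  · rcases brec_true h with h | h
    · rcases brec_true h with h | h
      · exact mRel_good (T := T) (by decide) [Lt.ci, Lt.ei, Lt.fi, Lt.e, Lt.f, Lt.ei, Lt.d, Lt.f] [Lt.d] (pair_rel hinv hr (by decide +kernel)) h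
      · rcases brec_true h with h | h
        · exact mRel_good (T := T) (by decide) [Lt.bi, Lt.d, Lt.fi, Lt.bi, Lt.d, Lt.f, Lt.c, Lt.d] [Lt.ci] (pair_rel hinv hr (by decide +kernel)) h
        · exact mRel_good (T := T) (by decide) [Lt.c, Lt.c, Lt.di] [Lt.b, Lt.d, Lt.ci, Lt.ci, Lt.b] (pair_rel hinv hr (by decide +kernel)) h
    · rcases brec_true h with h | h
      · exact mRel_good (T := T) (by decide) [Lt.di, Lt.ci, Lt.ci] [Lt.fi, Lt.d, Lt.bi, Lt.c, Lt.b] (pair_rel hinv hr (by decide +kernel)) h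
      · rcases brec_true h with h | h
        · exact mRel_good (T := T) (by decide) [Lt.d, Lt.fi, Lt.c, Lt.bi, Lt.c, Lt.d, Lt.d] [Lt.b, Lt.fi] (pair_rel hinv hr (by decide +kernel)) h
        · exact mRel_good (T := T) (by decide) [Lt.ei, Lt.f, Lt.e, Lt.fi, Lt.ei] [Lt.fi, Lt.d, Lt.ci, Lt.fi] (pair_rel hinv hr (by decide +kernel)) h
theorem dM_278_s (hinv : ∀ x, g (inv x) = (g x)⁻¹) (hr : ∀ r ∈ rels, (r.map g).prod = 1) (j z1 z2 u : ℕ) (h : dM_278 j z1 z2 u = true) : GoodM (fa g) T MG M (cP g H) u := by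
  unfold dM_278 at h
  rcases brec_true h with h | h
  · exact dM_276_s hinv hr j z1 z2 u h
  · exact dM_277_s hinv hr j z1 z2 u h
theorem dM_279_s (hinv : ∀ x, g (inv x) = (g x)⁻¹) (hr : ∀ r ∈ rels, (r.map g).prod = 1) (j z1 z2 u : ℕ) (h : dM_279 j z1 z2 u = true) : GoodM (fa g) T MG M (cP g H) u := by
  unfold dM_279 at h
  rcases brec_true h with h | h
  · exact dM_275_s hinv hr j z1 z2 u h
  · exact dM_278_s hinv hr j z1 z2 u h
theorem dM_280_s (hinv : ∀ x, g (inv x) = (g x)⁻¹) (hr : ∀ r ∈ rels, (r.map g).prod = 1) (j z1 z2 u : ℕ) (h : dM_280 j z1 z2 u = true) : GoodM (fa g) T MG M (cP g H) u := by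
  unfold dM_280 at h
  rcases brec_true h with h | h
  · rcases brec_true h with h | h
    · rcases brec_true h with h | h
      · exact mRel_good (T := T) (by decide) [Lt.f, Lt.ci] [Lt.di, Lt.ci, Lt.b, Lt.di, Lt.f, Lt.bi] (pair_rel hinv hr (by decide +kernel)) h
      · exact mRel_good (T := T) (by decide) [Lt.d, Lt.bi, Lt.c, Lt.b, Lt.c, Lt.c] [Lt.f, Lt.di] (pair_rel hinv hr (by decide +kernel)) h
    · rcases brec_true h with h | h
      · exact mRel_good (T := T) (by decide) [Lt.fi, Lt.b, Lt.b, Lt.f] [Lt.b, Lt.f, Lt.di, Lt.c] (pair_rel hinv hr (by decide +kernel)) h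
      · rcases brec_true h with h | h
        · exact mRel_good (T := T) (by decide) [Lt.d, Lt.ci, Lt.f, Lt.d, Lt.d] [Lt.di, Lt.fi, Lt.c] (pair_rel hinv hr (by decide +kernel)) h
        · exact mRel_good (T := T) (by decide) [Lt.d, Lt.fi, Lt.d, Lt.bi, Lt.c] [Lt.ci, Lt.ci, Lt.bi] (pair_rel hinv hr (by decide +kernel)) h
  · rcases brec_true h with h | h
    · rcases brec_true h with h | h
      · exact mRel_good (T := T) (by decide) [Lt.d, Lt.fi, Lt.di, Lt.b] [Lt.b, Lt.c, Lt.di, Lt.ci] (pair_rel hinv hr (by decide +kernel)) h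
      · exact mRel_good (T := T) (by decide) [Lt.bi, Lt.di, Lt.ci, Lt.bi] [Lt.b, Lt.ci, Lt.bi, Lt.fi] (pair_rel hinv hr (by decide +kernel)) h
    · rcases brec_true h with h | h
      · exact mRel_good (T := T) (by decide) [Lt.f, Lt.bi] [Lt.d, Lt.c, Lt.b, Lt.f, Lt.d, Lt.d] (pair_rel hinv hr (by decide +kernel)) h
      · rcases brec_true h with h | h
        · exact mRel_good (T := T) (by decide) [Lt.fi, Lt.b, Lt.b, Lt.f, Lt.ci, Lt.d] [Lt.b, Lt.f] (pair_rel hinv hr (by decide +kernel)) h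
        · exact mRel_good (T := T) (by decide) [Lt.bi, Lt.c, Lt.b, Lt.d] [Lt.d, Lt.f, Lt.f, Lt.c] (pair_rel hinv hr (by decide +kernel)) h
theorem dM_281_s (hinv : ∀ x, g (inv x) = (g x)⁻¹) (hr : ∀ r ∈ rels, (r.map g).prod = 1) (j z1 z2 u : ℕ) (h : dM_281 j z1 z2 u = true) : GoodM (fa g) T MG M (cP g H) u := by
  unfold dM_281 at h
  rcases brec_true h with h | h
  · rcases brec_true h with h | h
    · rcases brec_true h with h | h
      · exact mRel_good (T := T) (by decide) [Lt.fi, Lt.d, Lt.bi, Lt.fi, Lt.di, Lt.ci, Lt.bi] [Lt.c] (pair_rel hinv hr (by decide +kernel)) h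
      · exact mRel_good (T := T) (by decide) [Lt.bi, Lt.ci, Lt.fi, Lt.d] [Lt.c, Lt.d, Lt.f, Lt.b] (pair_rel hinv hr (by decide +kernel)) h
    · rcases brec_true h with h | h
      · exact mRel_good (T := T) (by decide) [Lt.fi, Lt.b, Lt.c, Lt.d, Lt.b] [Lt.b, Lt.c, Lt.bi] (pair_rel hinv hr (by decide +kernel)) h
      · rcases brec_true h with h | h
        · exact mRel_good (T := T) (by decide) [Lt.di, Lt.b, Lt.c] [Lt.f, Lt.di, Lt.b, Lt.c, Lt.di] (pair_rel hinv hr (by decide +kernel)) h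
        · exact mRel_good (T := T) (by decide) [Lt.bi, Lt.fi, Lt.b, Lt.b, Lt.f, Lt.ci] [Lt.f, Lt.di] (pair_rel hinv hr (by decide +kernel)) h
  · rcases brec_true h with h | h
    · rcases brec_true h with h | h
      · exact mRel_good (T := T) (by decide) [Lt.fi, Lt.di] [Lt.ci, Lt.b, Lt.fi, Lt.d, Lt.bi, Lt.c] (pair_rel hinv hr (by decide +kernel)) h
      · rcases brec_true h with h | h
        · exact mRel_good (T := T) (by decide) [Lt.bi, Lt.d] [Lt.ci, Lt.di, Lt.f, Lt.c, Lt.bi, Lt.d, Lt.ci] (pair_rel hinv hr (by decide +kernel)) h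
        · exact mRel_good (T := T) (by decide) [Lt.bi] [Lt.di, Lt.f, Lt.c, Lt.b, Lt.c, Lt.d, Lt.f] (pair_rel hinv hr (by decide +kernel)) h
    · rcases brec_true h with h | h
      · exact mRel_good (T := T) (by decide) [Lt.fi, Lt.di, Lt.fi, Lt.di] [Lt.ci, Lt.ci, Lt.di, Lt.fi, Lt.c] (pair_rel hinv hr (by decide +kernel)) h
      · rcases brec_true h with h | h
        · exact mRel_good (T := T) (by decide) [Lt.ci, Lt.d, Lt.b, Lt.f] [Lt.bi, Lt.d, Lt.fi, Lt.c] (pair_rel hinv hr (by decide +kernel)) h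
        · exact mRel_good (T := T) (by decide) [Lt.d, Lt.f, Lt.b] [Lt.fi, Lt.b, Lt.c, Lt.b, Lt.ci] (pair_rel hinv hr (by decide +kernel)) h
theorem dM_282_s (hinv : ∀ x, g (inv x) = (g x)⁻¹) (hr : ∀ r ∈ rels, (r.map g).prod = 1) (j z1 z2 u : ℕ) (h : dM_282 j z1 z2 u = true) : GoodM (fa g) T MG M (cP g H) u := by
  unfold dM_282 at h
  rcases brec_true h with h | h
  · exact dM_280_s hinv hr j z1 z2 u h
  · exact dM_281_s hinv hr j z1 z2 u h
theorem dM_283_s (hinv : ∀ x, g (inv x) = (g x)⁻¹) (hr : ∀ r ∈ rels, (r.map g).prod = 1) (j z1 z2 u : ℕ) (h : dM_283 j z1 z2 u = true) : GoodM (fa g) T MG M (cP g H) u := by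
  unfold dM_283 at h
  rcases brec_true h with h | h
  · rcases brec_true h with h | h
    · rcases brec_true h with h | h
      · exact mRel_good (T := T) (by decide) [Lt.di, Lt.di] [Lt.b, Lt.c, Lt.bi, Lt.ci, Lt.bi, Lt.fi] (pair_rel hinv hr (by decide +kernel)) h
      · exact mRel_good (T := T) (by decide) [Lt.ci, Lt.fi, Lt.fi, Lt.di] [Lt.di, Lt.bi, Lt.ci, Lt.b] (pair_rel hinv hr (by decide +kernel)) h
    · rcases brec_true h with h | h
      · exact mRel_good (T := T) (by decide) [Lt.e, Lt.fi, Lt.d, Lt.ci, Lt.fi, Lt.e, Lt.f] [Lt.f, Lt.e] (pair_rel hinv hr (by decide +kernel)) h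
      · rcases brec_true h with h | h
        · exact mRel_good (T := T) (by decide) [Lt.fi, Lt.d, Lt.bi, Lt.fi, Lt.di] [Lt.c, Lt.b, Lt.c] (pair_rel hinv hr (by decide +kernel)) h
        · exact mRel_good (T := T) (by decide) [Lt.b, Lt.ci, Lt.b, Lt.ci] [Lt.c, Lt.bi, Lt.c, Lt.bi] (pair_rel hinv hr (by decide +kernel)) h
  · rcases brec_true h with h | h
    · rcases brec_true h with h | h
      · exact mRel_good (T := T) (by decide) [Lt.bi, Lt.f, Lt.c, Lt.bi, Lt.fi, Lt.c] [Lt.di, Lt.di] (pair_rel hinv hr (by decide +kernel)) h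
      · rcases brec_true h with h | h
        · exact mRel_good (T := T) (by decide) [Lt.d, Lt.ci, Lt.ei, Lt.fi] [Lt.f, Lt.f, Lt.e, Lt.fi, Lt.ei] (pair_rel hinv hr (by decide +kernel)) h
        · exact mRel_good (T := T) (by decide) [Lt.bi, Lt.ci, Lt.fi, Lt.d, Lt.bi] [Lt.c, Lt.d, Lt.f] (pair_rel hinv hr (by decide +kernel)) h
    · rcases brec_true h with h | h
      · exact mRel_good (T := T) (by decide) [Lt.b, Lt.d, Lt.ci, Lt.fi, Lt.fi] [Lt.ci, Lt.b, Lt.d] (pair_rel hinv hr (by decide +kernel)) h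
      · rcases brec_true h with h | h
        · exact mRel_good (T := T) (by decide) [Lt.ci, Lt.bi, Lt.f] [Lt.b, Lt.ci, Lt.bi, Lt.fi, Lt.di] (pair_rel hinv hr (by decide +kernel)) h
        · exact mRel_good (T := T) (by decide) [Lt.b, Lt.e, Lt.di, Lt.fi, Lt.bi, Lt.f, Lt.e, Lt.f] [Lt.c] (pair_rel hinv hr (by decide +kernel)) h
theorem dM_284_s (hinv : ∀ x, g (inv x) = (g x)⁻¹) (hr : ∀ r ∈ rels, (r.map g).prod = 1) (j z1 z2 u : ℕ) (h : dM_284 j z1 z2 u = true) : GoodM (fa g) T MG M (cP g H) u := by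
  unfold dM_284 at h
  rcases brec_true h with h | h
  · rcases brec_true h with h | h
    · rcases brec_true h with h | h
      · exact mRel_good (T := T) (by decide) [Lt.e, Lt.c, Lt.d] [Lt.fi, Lt.e, Lt.f, Lt.ei, Lt.d, Lt.f] (pair_rel hinv hr (by decide +kernel)) h
      · exact mRel_good (T := T) (by decide) [Lt.bi, Lt.bi, Lt.f, Lt.b] [Lt.f, Lt.ci, Lt.d, Lt.fi] (pair_rel hinv hr (by decide +kernel)) h
    · rcases brec_true h with h | h
      · exact mRel_good (T := T) (by decide) [Lt.ei, Lt.fi, Lt.e, Lt.fi, Lt.d, Lt.ci] [Lt.fi, Lt.ei, Lt.f] (pair_rel hinv hr (by decide +kernel)) h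
      · rcases brec_true h with h | h
        · exact mRel_good (T := T) (by decide) [Lt.bi, Lt.fi, Lt.c, Lt.d, Lt.d] [Lt.ci, Lt.fi, Lt.b] (pair_rel hinv hr (by decide +kernel)) h
        · exact mRel_good (T := T) (by decide) [Lt.f, Lt.b, Lt.ci, Lt.fi, Lt.b, Lt.di, Lt.di, Lt.ci] [] (pair_rel hinv hr (by decide +kernel)) h
  · rcases brec_true h with h | h
    · rcases brec_true h with h | h
      · exact mRel_good (T := T) (by decide) [Lt.ei, Lt.fi] [Lt.fi, Lt.ei, Lt.f, Lt.c, Lt.di, Lt.f, Lt.ei] (pair_rel hinv hr (by decide +kernel)) h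
      · rcases brec_true h with h | h
        · exact mRel_good (T := T) (by decide) [Lt.fi, Lt.di, Lt.bi, Lt.c, Lt.b, Lt.d, Lt.ci] [Lt.f] (pair_rel hinv hr (by decide +kernel)) h
        · exact mRel_good (T := T) (by decide) [Lt.b] [Lt.e, Lt.c, Lt.e, Lt.bi, Lt.e, Lt.c, Lt.e] (pair_rel hinv hr (by decide +kernel)) h
    · rcases brec_true h with h | h
      · exact mRel_good (T := T) (by decide) [Lt.di, Lt.bi, Lt.ci, Lt.b] [Lt.ci, Lt.fi, Lt.fi, Lt.di] (pair_rel hinv hr (by decide +kernel)) h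
      · rcases brec_true h with h | h
        · exact mRel_good (T := T) (by decide) [Lt.bi, Lt.d, Lt.d, Lt.b] [Lt.di, Lt.di, Lt.b, Lt.di] (pair_rel hinv hr (by decide +kernel)) h
        · exact mRel_good (T := T) (by decide) [Lt.fi, Lt.d, Lt.ci] [Lt.ei, Lt.f, Lt.e, Lt.fi, Lt.ei, Lt.f] (pair_rel hinv hr (by decide +kernel)) h
theorem dM_285_s (hinv : ∀ x, g (inv x) = (g x)⁻¹) (hr : ∀ r ∈ rels, (r.map g).prod = 1) (j z1 z2 u : ℕ) (h : dM_285 j z1 z2 u = true) : GoodM (fa g) T MG M (cP g H) u := by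
  unfold dM_285 at h
  rcases brec_true h with h | h
  · exact dM_283_s hinv hr j z1 z2 u h
  · exact dM_284_s hinv hr j z1 z2 u h
theorem dM_286_s (hinv : ∀ x, g (inv x) = (g x)⁻¹) (hr : ∀ r ∈ rels, (r.map g).prod = 1) (j z1 z2 u : ℕ) (h : dM_286 j z1 z2 u = true) : GoodM (fa g) T MG M (cP g H) u := by
  unfold dM_286 at h
  rcases brec_true h with h | h
  · exact dM_282_s hinv hr j z1 z2 u h
  · exact dM_285_s hinv hr j z1 z2 u h
theorem dM_287_s (hinv : ∀ x, g (inv x) = (g x)⁻¹) (hr : ∀ r ∈ rels, (r.map g).prod = 1) (j z1 z2 u : ℕ) (h : dM_287 j z1 z2 u = true) : GoodM (fa g) T MG M (cP g H) u := by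
  unfold dM_287 at h
  rcases brec_true h with h | h
  · exact dM_279_s hinv hr j z1 z2 u h
  · exact dM_286_s hinv hr j z1 z2 u h
theorem dM_288_s (hinv : ∀ x, g (inv x) = (g x)⁻¹) (hr : ∀ r ∈ rels, (r.map g).prod = 1) (j z1 z2 u : ℕ) (h : dM_288 j z1 z2 u = true) : GoodM (fa g) T MG M (cP g H) u := by
  unfold dM_288 at h
  rcases brec_true h with h | h
  · exact dM_272_s hinv hr j z1 z2 u h
  · exact dM_287_s hinv hr j z1 z2 u h
theorem dM_289_s (hinv : ∀ x, g (inv x) = (g x)⁻¹) (hr : ∀ r ∈ rels, (r.map g).prod = 1) (j z1 z2 u : ℕ) (h : dM_289 j z1 z2 u = true) : GoodM (fa g) T MG M (cP g H) u := by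
  unfold dM_289 at h
  rcases brec_true h with h | h
  · rcases brec_true h with h | h
    · rcases brec_true h with h | h
      · exact mRel_good (T := T) (by decide) [Lt.b, Lt.f, Lt.ci, Lt.f, Lt.di] [Lt.di, Lt.c, Lt.bi] (pair_rel hinv hr (by decide +kernel)) h
      · exact mRel_good (T := T) (by decide) [Lt.f, Lt.e, Lt.fi, Lt.ei, Lt.f, Lt.e, Lt.c, Lt.di] [Lt.fi] (pair_rel hinv hr (by decide +kernel)) h
    · rcases brec_true h with h | h
      · exact mRel_good (T := T) (by decide) [Lt.ci] [Lt.c, Lt.fi, Lt.bi, Lt.c, Lt.f, Lt.b, Lt.fi] (pair_rel hinv hr (by decide +kernel)) h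
      · rcases brec_true h with h | h
        · exact mRel_good (T := T) (by decide) [Lt.c, Lt.b, Lt.ci] [Lt.bi, Lt.fi, Lt.d, Lt.d, Lt.b] (pair_rel hinv hr (by decide +kernel)) h
        · exact mRel_good (T := T) (by decide) [Lt.b, Lt.ci, Lt.ci, Lt.di, Lt.c, Lt.c] [Lt.ci, Lt.b] (pair_rel hinv hr (by decide +kernel)) h
  · rcases brec_true h with h | h
    · rcases brec_true h with h | h
      · exact mRel_good (T := T) (by decide) [Lt.bi, Lt.di, Lt.c] [Lt.f, Lt.ci, Lt.f, Lt.di, Lt.b] (pair_rel hinv hr (by decide +kernel)) h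
      · exact mRel_good (T := T) (by decide) [Lt.d, Lt.bi, Lt.c] [Lt.ci, Lt.d, Lt.ci, Lt.bi, Lt.d] (pair_rel hinv hr (by decide +kernel)) h
    · rcases brec_true h with h | h
      · exact mRel_good (T := T) (by decide) [Lt.d, Lt.bi, Lt.f, Lt.c] [Lt.di, Lt.ci, Lt.f, Lt.b] (pair_rel hinv hr (by decide +kernel)) h
      · rcases brec_true h with h | h
        · exact mRel_good (T := T) (by decide) [Lt.c, Lt.b, Lt.b, Lt.ci, Lt.fi] [Lt.di, Lt.b, Lt.f] (pair_rel hinv hr (by decide +kernel)) h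
        · exact mRel_good (T := T) (by decide) [Lt.fi, Lt.e, Lt.f, Lt.ei, Lt.fi, Lt.e, Lt.fi, Lt.d, Lt.ci] [] (pair_rel hinv hr (by decide +kernel)) h
theorem dM_290_s (hinv : ∀ x, g (inv x) = (g x)⁻¹) (hr : ∀ r ∈ rels, (r.map g).prod = 1) (j z1 z2 u : ℕ) (h : dM_290 j z1 z2 u = true) : GoodM (fa g) T MG M (cP g H) u := by
  unfold dM_290 at h
  rcases brec_true h with h | h
  · rcases brec_true h with h | h
    · rcases brec_true h with h | h
      · exact mRel_good (T := T) (by decide) [Lt.di, Lt.e, Lt.fi, Lt.ei, Lt.f, Lt.e, Lt.c] [Lt.f, Lt.di] (pair_rel hinv hr (by decide +kernel)) h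
      · exact mRel_good (T := T) (by decide) [Lt.bi, Lt.ci, Lt.d, Lt.c, Lt.bi, Lt.ci, Lt.d, Lt.c] [] (pair_rel hinv hr (by decide +kernel)) h
    · rcases brec_true h with h | h
      · exact mRel_good (T := T) (by decide) [Lt.ci, Lt.b, Lt.f, Lt.ci, Lt.ci] [Lt.f, Lt.b, Lt.fi] (pair_rel hinv hr (by decide +kernel)) h
      · rcases brec_true h with h | h
        · exact mRel_good (T := T) (by decide) [Lt.bi, Lt.fi, Lt.di, Lt.ci] [Lt.di, Lt.f, Lt.c, Lt.b] (pair_rel hinv hr (by decide +kernel)) h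
        · exact mRel_good (T := T) (by decide) [Lt.b, Lt.c, Lt.d, Lt.c] [Lt.f, Lt.ci, Lt.d, Lt.b] (pair_rel hinv hr (by decide +kernel)) h
  · rcases brec_true h with h | h
    · rcases brec_true h with h | h
      · exact mRel_good (T := T) (by decide) [Lt.f, Lt.c, Lt.di, Lt.bi, Lt.ci, Lt.b, Lt.d] [Lt.fi] (pair_rel hinv hr (by decide +kernel)) h
      · rcases brec_true h with h | h
        · exact mRel_good (T := T) (by decide) [Lt.f, Lt.ci, Lt.d, Lt.fi, Lt.bi, Lt.fi] [Lt.bi, Lt.bi] (pair_rel hinv hr (by decide +kernel)) h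
        · exact mRel_good (T := T) (by decide) [Lt.ci, Lt.ci, Lt.di] [Lt.bi, Lt.ci, Lt.b, Lt.ci, Lt.ci] (pair_rel hinv hr (by decide +kernel)) h
    · rcases brec_true h with h | h
      · exact mRel_good (T := T) (by decide) [Lt.d, Lt.ci, Lt.b, Lt.di] [Lt.b, Lt.c, Lt.di, Lt.c] (pair_rel hinv hr (by decide +kernel)) h
      · rcases brec_true h with h | h
        · exact mRel_good (T := T) (by decide) [Lt.c, Lt.c, Lt.bi, Lt.ci, Lt.b, Lt.ci, Lt.ci] [Lt.di] (pair_rel hinv hr (by decide +kernel)) h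
        · exact mRel_good (T := T) (by decide) [Lt.f, Lt.ei, Lt.f, Lt.e, Lt.fi, Lt.ei, Lt.f] [Lt.d, Lt.ci] (pair_rel hinv hr (by decide +kernel)) h
theorem dM_291_s (hinv : ∀ x, g (inv x) = (g x)⁻¹) (hr : ∀ r ∈ rels, (r.map g).prod = 1) (j z1 z2 u : ℕ) (h : dM_291 j z1 z2 u = true) : GoodM (fa g) T MG M (cP g H) u := by
  unfold dM_291 at h
  rcases brec_true h with h | h
  · exact dM_289_s hinv hr j z1 z2 u h
  · exact dM_290_s hinv hr j z1 z2 u h
theorem dM_292_s (hinv : ∀ x, g (inv x) = (g x)⁻¹) (hr : ∀ r ∈ rels, (r.map g).prod = 1) (j z1 z2 u : ℕ) (h : dM_292 j z1 z2 u = true) : GoodM (fa g) T MG M (cP g H) u := by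
  unfold dM_292 at h
  rcases brec_true h with h | h
  · rcases brec_true h with h | h
    · rcases brec_true h with h | h
      · exact mRel_good (T := T) (by decide) [Lt.f, Lt.e, Lt.c, Lt.di] [Lt.e, Lt.f, Lt.ei, Lt.fi, Lt.fi] (pair_rel hinv hr (by decide +kernel)) h
      · exact mRel_good (T := T) (by decide) [Lt.bi, Lt.ci, Lt.bi, Lt.fi, Lt.d, Lt.d, Lt.b] [Lt.ci] (pair_rel hinv hr (by decide +kernel)) h
    · rcases brec_true h with h | h
      · exact mRel_good (T := T) (by decide) [Lt.f, Lt.f, Lt.c, Lt.di, Lt.bi, Lt.ci, Lt.b, Lt.d] [] (pair_rel hinv hr (by decide +kernel)) h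
      · rcases brec_true h with h | h
        · exact mRel_good (T := T) (by decide) [Lt.ci, Lt.b, Lt.di, Lt.f] [Lt.d, Lt.f, Lt.ci, Lt.b] (pair_rel hinv hr (by decide +kernel)) h
        · exact mRel_good (T := T) (by decide) [Lt.b, Lt.d, Lt.ci, Lt.ci, Lt.b, Lt.d] [Lt.c, Lt.c] (pair_rel hinv hr (by decide +kernel)) h
  · rcases brec_true h with h | h
    · rcases brec_true h with h | h
      · exact mRel_good (T := T) (by decide) [Lt.d, Lt.bi, Lt.d, Lt.d, Lt.bi] [Lt.bi, Lt.di, Lt.di] (pair_rel hinv hr (by decide +kernel)) h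
      · rcases brec_true h with h | h
        · exact mRel_good (T := T) (by decide) [Lt.d, Lt.ci, Lt.fi, Lt.fi, Lt.di, Lt.bi] [Lt.bi, Lt.ci] (pair_rel hinv hr (by decide +kernel)) h
        · exact mRel_good (T := T) (by decide) [Lt.di, Lt.ci] [Lt.fi, Lt.di, Lt.e, Lt.fi, Lt.ei, Lt.f, Lt.e] (pair_rel hinv hr (by decide +kernel)) h
    · rcases brec_true h with h | h
      · exact mRel_good (T := T) (by decide) [Lt.ci, Lt.ei, Lt.b] [Lt.e, Lt.bi, Lt.e, Lt.c, Lt.e] (pair_rel hinv hr (by decide +kernel)) h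
      · rcases brec_true h with h | h
        · exact mRel_good (T := T) (by decide) [Lt.di, Lt.ci, Lt.bi, Lt.f] [Lt.b, Lt.b, Lt.ci, Lt.bi] (pair_rel hinv hr (by decide +kernel)) h
        · exact mRel_good (T := T) (by decide) [Lt.bi, Lt.f, Lt.d, Lt.b, Lt.c, Lt.d, Lt.b, Lt.ci] [] (pair_rel hinv hr (by decide +kernel)) h
theorem dM_293_s (hinv : ∀ x, g (inv x) = (g x)⁻¹) (hr : ∀ r ∈ rels, (r.map g).prod = 1) (j z1 z2 u : ℕ) (h : dM_293 j z1 z2 u = true) : GoodM (fa g) T MG M (cP g H) u := by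
  unfold dM_293 at h
  rcases brec_true h with h | h
  · rcases brec_true h with h | h
    · rcases brec_true h with h | h
      · exact mRel_good (T := T) (by decide) [Lt.d, Lt.fi, Lt.d, Lt.d, Lt.f, Lt.d, Lt.fi] [Lt.f] (pair_rel hinv hr (by decide +kernel)) h
      · exact mRel_good (T := T) (by decide) [Lt.d] [Lt.c, Lt.fi, Lt.bi, Lt.bi, Lt.f, Lt.b, Lt.f] (pair_rel hinv hr (by decide +kernel)) h
    · rcases brec_true h with h | h
      · exact mRel_good (T := T) (by decide) [Lt.ci, Lt.bi, Lt.fi, Lt.b, Lt.c, Lt.d] [Lt.bi, Lt.bi] (pair_rel hinv hr (by decide +kernel)) h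
      · rcases brec_true h with h | h
        · exact mRel_good (T := T) (by decide) [Lt.c, Lt.d, Lt.fi, Lt.d, Lt.bi, Lt.c, Lt.b] [Lt.ci] (pair_rel hinv hr (by decide +kernel)) h
        · exact mRel_good (T := T) (by decide) [Lt.b, Lt.di] [Lt.c, Lt.d, Lt.f, Lt.ci, Lt.b, Lt.fi] (pair_rel hinv hr (by decide +kernel)) h
  · rcases brec_true h with h | h
    · rcases brec_true h with h | h
      · exact mRel_good (T := T) (by decide) [Lt.f, Lt.c, Lt.bi, Lt.ci] [Lt.d, Lt.ci, Lt.fi, Lt.b, Lt.c] (pair_rel hinv hr (by decide +kernel)) h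
      · rcases brec_true h with h | h
        · exact mRel_good (T := T) (by decide) [Lt.fi, Lt.d, Lt.bi, Lt.bi, Lt.c, Lt.b, Lt.ci, Lt.di, Lt.bi] [] (pair_rel hinv hr (by decide +kernel)) h
        · exact mRel_good (T := T) (by decide) [Lt.b, Lt.d, Lt.bi, Lt.d, Lt.d] [Lt.di, Lt.di, Lt.b] (pair_rel hinv hr (by decide +kernel)) h
    · rcases brec_true h with h | h
      · exact mRel_good (T := T) (by decide) [Lt.b, Lt.b, Lt.ci, Lt.bi, Lt.fi] [Lt.di, Lt.ci, Lt.bi] (pair_rel hinv hr (by decide +kernel)) h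
      · rcases brec_true h with h | h
        · exact mRel_good (T := T) (by decide) [Lt.c, Lt.di, Lt.b, Lt.f, Lt.c, Lt.di] [Lt.fi, Lt.bi] (pair_rel hinv hr (by decide +kernel)) h
        · exact mRel_good (T := T) (by decide) [Lt.b, Lt.c, Lt.b, Lt.ci, Lt.bi, Lt.di] [Lt.fi, Lt.d] (pair_rel hinv hr (by decide +kernel)) h
theorem dM_294_s (hinv : ∀ x, g (inv x) = (g x)⁻¹) (hr : ∀ r ∈ rels, (r.map g).prod = 1) (j z1 z2 u : ℕ) (h : dM_294 j z1 z2 u = true) : GoodM (fa g) T MG M (cP g H) u := by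
  unfold dM_294 at h
  rcases brec_true h with h | h
  · exact dM_292_s hinv hr j z1 z2 u h
  · exact dM_293_s hinv hr j z1 z2 u h
theorem dM_295_s (hinv : ∀ x, g (inv x) = (g x)⁻¹) (hr : ∀ r ∈ rels, (r.map g).prod = 1) (j z1 z2 u : ℕ) (h : dM_295 j z1 z2 u = true) : GoodM (fa g) T MG M (cP g H) u := by
  unfold dM_295 at h
  rcases brec_true h with h | h
  · exact dM_291_s hinv hr j z1 z2 u h
  · exact dM_294_s hinv hr j z1 z2 u h
theorem dM_296_s (hinv : ∀ x, g (inv x) = (g x)⁻¹) (hr : ∀ r ∈ rels, (r.map g).prod = 1) (j z1 z2 u : ℕ) (h : dM_296 j z1 z2 u = true) : GoodM (fa g) T MG M (cP g H) u := by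
  unfold dM_296 at h
  rcases brec_true h with h | h
  · rcases brec_true h with h | h
    · rcases brec_true h with h | h
      · exact mRel_good (T := T) (by decide) [Lt.d, Lt.ci, Lt.fi, Lt.e] [Lt.f, Lt.ei, Lt.f, Lt.e, Lt.fi] (pair_rel hinv hr (by decide +kernel)) h
      · exact mRel_good (T := T) (by decide) [Lt.ci, Lt.fi, Lt.fi, Lt.di, Lt.bi, Lt.c] [Lt.di, Lt.bi] (pair_rel hinv hr (by decide +kernel)) h
    · rcases brec_true h with h | h
      · exact mRel_good (T := T) (by decide) [Lt.ci, Lt.d, Lt.b, Lt.ci, Lt.di, Lt.ci] [Lt.fi, Lt.b] (pair_rel hinv hr (by decide +kernel)) h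
      · rcases brec_true h with h | h
        · exact mRel_good (T := T) (by decide) [Lt.f] [Lt.bi, Lt.f, Lt.e, Lt.f, Lt.ci, Lt.b, Lt.e, Lt.di] (pair_rel hinv hr (by decide +kernel)) h
        · exact mRel_good (T := T) (by decide) [Lt.bi] [Lt.ci, Lt.bi, Lt.fi, Lt.b, Lt.c, Lt.d, Lt.b] (pair_rel hinv hr (by decide +kernel)) h
  · rcases brec_true h with h | h
    · rcases brec_true h with h | h
      · exact mRel_good (T := T) (by decide) [Lt.e, Lt.f, Lt.ci] [Lt.fi, Lt.b, Lt.f, Lt.d, Lt.ei, Lt.bi] (pair_rel hinv hr (by decide +kernel)) h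
      · exact mRel_good (T := T) (by decide) [Lt.ci, Lt.f, Lt.d, Lt.d, Lt.ci] [Lt.di, Lt.di, Lt.fi] (pair_rel hinv hr (by decide +kernel)) h
    · rcases brec_true h with h | h
      · exact mRel_good (T := T) (by decide) [Lt.f, Lt.d, Lt.fi, Lt.fi, Lt.d, Lt.fi] [Lt.di, Lt.di] (pair_rel hinv hr (by decide +kernel)) h
      · rcases brec_true h with h | h
        · exact mRel_good (T := T) (by decide) [Lt.ci, Lt.di, Lt.ci, Lt.bi, Lt.f, Lt.ci] [Lt.bi, Lt.di] (pair_rel hinv hr (by decide +kernel)) h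
        · exact mRel_good (T := T) (by decide) [Lt.b, Lt.b, Lt.f, Lt.ci, Lt.d, Lt.fi] [Lt.f, Lt.b] (pair_rel hinv hr (by decide +kernel)) h
theorem dM_297_s (hinv : ∀ x, g (inv x) = (g x)⁻¹) (hr : ∀ r ∈ rels, (r.map g).prod = 1) (j z1 z2 u : ℕ) (h : dM_297 j z1 z2 u = true) : GoodM (fa g) T MG M (cP g H) u := by
  unfold dM_297 at h
  rcases brec_true h with h | h
  · rcases brec_true h with h | h
    · rcases brec_true h with h | h
      · exact mRel_good (T := T) (by decide) [Lt.b, Lt.c, Lt.d, Lt.ci, Lt.bi, Lt.d] [Lt.d, Lt.f] (pair_rel hinv hr (by decide +kernel)) h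
      · exact mRel_good (T := T) (by decide) [Lt.b, Lt.ci, Lt.bi, Lt.di] [Lt.ci, Lt.bi, Lt.fi, Lt.d] (pair_rel hinv hr (by decide +kernel)) h
    · rcases brec_true h with h | h
      · exact mRel_good (T := T) (by decide) [Lt.c, Lt.d, Lt.b, Lt.ci, Lt.bi, Lt.f, Lt.d] [Lt.bi] (pair_rel hinv hr (by decide +kernel)) h
      · rcases brec_true h with h | h
        · exact mRel_good (T := T) (by decide) [Lt.f] [Lt.fi, Lt.di, Lt.bi, Lt.c, Lt.b, Lt.d, Lt.ci] (pair_rel hinv hr (by decide +kernel)) h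
        · exact mRel_good (T := T) (by decide) [Lt.di, Lt.c, Lt.b, Lt.ci, Lt.di, Lt.c] [Lt.c, Lt.bi] (pair_rel hinv hr (by decide +kernel)) h
  · rcases brec_true h with h | h
    · rcases brec_true h with h | h
      · exact mRel_good (T := T) (by decide) [Lt.ci, Lt.f, Lt.di, Lt.b] [Lt.fi, Lt.bi, Lt.di, Lt.c] (pair_rel hinv hr (by decide +kernel)) h
      · rcases brec_true h with h | h
        · exact mRel_good (T := T) (by decide) [Lt.d, Lt.d, Lt.b, Lt.c] [Lt.f, Lt.b, Lt.c, Lt.b] (pair_rel hinv hr (by decide +kernel)) h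
        · exact mRel_good (T := T) (by decide) [Lt.fi, Lt.fi] [Lt.c, Lt.bi, Lt.bi, Lt.ci, Lt.di, Lt.b] (pair_rel hinv hr (by decide +kernel)) h
    · rcases brec_true h with h | h
      · exact mRel_good (T := T) (by decide) [Lt.b, Lt.c, Lt.c, Lt.d, Lt.fi, Lt.d, Lt.bi] [Lt.ci] (pair_rel hinv hr (by decide +kernel)) h
      · rcases brec_true h with h | h
        · exact mRel_good (T := T) (by decide) [Lt.c, Lt.d, Lt.ci, Lt.bi] [Lt.bi, Lt.d, Lt.f, Lt.di] (pair_rel hinv hr (by decide +kernel)) h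
        · exact mRel_good (T := T) (by decide) [Lt.ci, Lt.f, Lt.di, Lt.b, Lt.ci] [Lt.fi, Lt.bi, Lt.di] (pair_rel hinv hr (by decide +kernel)) h
theorem dM_298_s (hinv : ∀ x, g (inv x) = (g x)⁻¹) (hr : ∀ r ∈ rels, (r.map g).prod = 1) (j z1 z2 u : ℕ) (h : dM_298 j z1 z2 u = true) : GoodM (fa g) T MG M (cP g H) u := by
  unfold dM_298 at h
  rcases brec_true h with h | h
  · exact dM_296_s hinv hr j z1 z2 u h
  · exact dM_297_s hinv hr j z1 z2 u h
theorem dM_299_s (hinv : ∀ x, g (inv x) = (g x)⁻¹) (hr : ∀ r ∈ rels, (r.map g).prod = 1) (j z1 z2 u : ℕ) (h : dM_299 j z1 z2 u = true) : GoodM (fa g) T MG M (cP g H) u := by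
  unfold dM_299 at h
  rcases brec_true h with h | h
  · rcases brec_true h with h | h
    · rcases brec_true h with h | h
      · exact mRel_good (T := T) (by decide) [Lt.di, Lt.di, Lt.fi, Lt.bi, Lt.ci, Lt.di, Lt.f] [Lt.b] (pair_rel hinv hr (by decide +kernel)) h
      · exact mRel_good (T := T) (by decide) [Lt.f, Lt.ei, Lt.fi, Lt.fi, Lt.d] [Lt.ei, Lt.f, Lt.e, Lt.c] (pair_rel hinv hr (by decide +kernel)) h
    · rcases brec_true h with h | h
      · exact mRel_good (T := T) (by decide) [Lt.di, Lt.b] [Lt.d, Lt.bi, Lt.d, Lt.d, Lt.b, Lt.d] (pair_rel hinv hr (by decide +kernel)) h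
      · rcases brec_true h with h | h
        · exact mRel_good (T := T) (by decide) [Lt.ci, Lt.fi, Lt.b] [Lt.bi, Lt.fi, Lt.c, Lt.d, Lt.d] (pair_rel hinv hr (by decide +kernel)) h
        · exact mRel_good (T := T) (by decide) [Lt.b, Lt.ci] [Lt.bi, Lt.ci, Lt.di, Lt.b, Lt.f, Lt.f] (pair_rel hinv hr (by decide +kernel)) h
  · rcases brec_true h with h | h
    · rcases brec_true h with h | h
      · exact mRel_good (T := T) (by decide) [Lt.ci, Lt.ei, Lt.fi, Lt.e, Lt.f, Lt.ei] [Lt.di, Lt.f, Lt.f] (pair_rel hinv hr (by decide +kernel)) h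
      · rcases brec_true h with h | h
        · exact mRel_good (T := T) (by decide) [Lt.f, Lt.f, Lt.c, Lt.di] [Lt.di, Lt.bi, Lt.c, Lt.b] (pair_rel hinv hr (by decide +kernel)) h
        · exact mRel_good (T := T) (by decide) [Lt.ei, Lt.f, Lt.c, Lt.di, Lt.f] [Lt.f, Lt.ei, Lt.fi, Lt.e] (pair_rel hinv hr (by decide +kernel)) h
    · rcases brec_true h with h | h
      · exact mRel_good (T := T) (by decide) [Lt.e, Lt.c, Lt.di, Lt.f, Lt.f] [Lt.fi, Lt.e, Lt.f, Lt.ei] (pair_rel hinv hr (by decide +kernel)) h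
      · rcases brec_true h with h | h
        · exact mRel_good (T := T) (by decide) [Lt.d, Lt.c, Lt.b, Lt.f] [Lt.f, Lt.bi, Lt.di, Lt.di] (pair_rel hinv hr (by decide +kernel)) h
        · exact mRel_good (T := T) (by decide) [Lt.e, Lt.f, Lt.ei, Lt.fi, Lt.e, Lt.fi, Lt.d] [Lt.f, Lt.c] (pair_rel hinv hr (by decide +kernel)) h
theorem dM_300_s (hinv : ∀ x, g (inv x) = (g x)⁻¹) (hr : ∀ r ∈ rels, (r.map g).prod = 1) (j z1 z2 u : ℕ) (h : dM_300 j z1 z2 u = true) : GoodM (fa g) T MG M (cP g H) u := by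
  unfold dM_300 at h
  rcases brec_true h with h | h
  · rcases brec_true h with h | h
    · rcases brec_true h with h | h
      · exact mRel_good (T := T) (by decide) [Lt.d, Lt.b, Lt.f, Lt.ci, Lt.f, Lt.di, Lt.b, Lt.ci] [] (pair_rel hinv hr (by decide +kernel)) h
      · exact mRel_good (T := T) (by decide) [Lt.fi, Lt.d, Lt.ci, Lt.ei, Lt.fi, Lt.e, Lt.f, Lt.ei, Lt.fi] [] (pair_rel hinv hr (by decide +kernel)) h
    · rcases brec_true h with h | h
      · exact mRel_good (T := T) (by decide) [Lt.bi, Lt.fi] [Lt.c, Lt.bi, Lt.ci, Lt.bi, Lt.f, Lt.d] (pair_rel hinv hr (by decide +kernel)) h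
      · rcases brec_true h with h | h
        · exact mRel_good (T := T) (by decide) [Lt.fi, Lt.b, Lt.c, Lt.b] [Lt.d, Lt.f, Lt.b, Lt.c] (pair_rel hinv hr (by decide +kernel)) h
        · exact mRel_good (T := T) (by decide) [Lt.ci, Lt.di] [Lt.b, Lt.b, Lt.ci, Lt.fi, Lt.fi, Lt.bi] (pair_rel hinv hr (by decide +kernel)) h
  · rcases brec_true h with h | h
    · rcases brec_true h with h | h
      · exact mRel_good (T := T) (by decide) [Lt.ci, Lt.bi, Lt.fi, Lt.di, Lt.fi, Lt.b, Lt.c] [Lt.bi] (pair_rel hinv hr (by decide +kernel)) h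
      · rcases brec_true h with h | h
        · exact mRel_good (T := T) (by decide) [Lt.d, Lt.c, Lt.b, Lt.b, Lt.ci, Lt.fi, Lt.fi] [Lt.b] (pair_rel hinv hr (by decide +kernel)) h
        · exact mRel_good (T := T) (by decide) [Lt.c, Lt.b] [Lt.di, Lt.f, Lt.bi, Lt.di, Lt.di, Lt.fi] (pair_rel hinv hr (by decide +kernel)) h
    · rcases brec_true h with h | h
      · exact mRel_good (T := T) (by decide) [Lt.di, Lt.bi, Lt.di] [Lt.bi, Lt.d, Lt.d, Lt.bi, Lt.d] (pair_rel hinv hr (by decide +kernel)) h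
      · rcases brec_true h with h | h
        · exact mRel_good (T := T) (by decide) [Lt.bi, Lt.d, Lt.c, Lt.b] [Lt.f, Lt.f, Lt.c, Lt.bi] (pair_rel hinv hr (by decide +kernel)) h
        · exact mRel_good (T := T) (by decide) [Lt.f, Lt.d, Lt.d, Lt.b] [Lt.bi, Lt.ci, Lt.di, Lt.f] (pair_rel hinv hr (by decide +kernel)) h
theorem dM_301_s (hinv : ∀ x, g (inv x) = (g x)⁻¹) (hr : ∀ r ∈ rels, (r.map g).prod = 1) (j z1 z2 u : ℕ) (h : dM_301 j z1 z2 u = true) : GoodM (fa g) T MG M (cP g H) u := by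
  unfold dM_301 at h
  rcases brec_true h with h | h
  · exact dM_299_s hinv hr j z1 z2 u h
  · exact dM_300_s hinv hr j z1 z2 u h
theorem dM_302_s (hinv : ∀ x, g (inv x) = (g x)⁻¹) (hr : ∀ r ∈ rels, (r.map g).prod = 1) (j z1 z2 u : ℕ) (h : dM_302 j z1 z2 u = true) : GoodM (fa g) T MG M (cP g H) u := by
  unfold dM_302 at h
  rcases brec_true h with h | h
  · exact dM_298_s hinv hr j z1 z2 u h
  · exact dM_301_s hinv hr j z1 z2 u h
theorem dM_303_s (hinv : ∀ x, g (inv x) = (g x)⁻¹) (hr : ∀ r ∈ rels, (r.map g).prod = 1) (j z1 z2 u : ℕ) (h : dM_303 j z1 z2 u = true) : GoodM (fa g) T MG M (cP g H) u := by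
  unfold dM_303 at h
  rcases brec_true h with h | h
  · exact dM_295_s hinv hr j z1 z2 u h
  · exact dM_302_s hinv hr j z1 z2 u h
theorem dM_304_s (hinv : ∀ x, g (inv x) = (g x)⁻¹) (hr : ∀ r ∈ rels, (r.map g).prod = 1) (j z1 z2 u : ℕ) (h : dM_304 j z1 z2 u = true) : GoodM (fa g) T MG M (cP g H) u := by
  unfold dM_304 at h
  rcases brec_true h with h | h
  · rcases brec_true h with h | h
    · rcases brec_true h with h | h
      · exact mRel_good (T := T) (by decide) [Lt.ci, Lt.b, Lt.di, Lt.f] [Lt.b, Lt.c, Lt.c, Lt.d] (pair_rel hinv hr (by decide +kernel)) h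
      · exact mRel_good (T := T) (by decide) [Lt.f, Lt.ei] [Lt.ei, Lt.f, Lt.c, Lt.di, Lt.f, Lt.ei, Lt.f] (pair_rel hinv hr (by decide +kernel)) h
    · rcases brec_true h with h | h
      · exact mRel_good (T := T) (by decide) [Lt.ci, Lt.b] [Lt.b, Lt.d, Lt.ci, Lt.fi, Lt.fi, Lt.di] (pair_rel hinv hr (by decide +kernel)) h
      · rcases brec_true h with h | h
        · exact mRel_good (T := T) (by decide) [Lt.di, Lt.ci, Lt.bi, Lt.f, Lt.ci] [Lt.c, Lt.bi, Lt.di] (pair_rel hinv hr (by decide +kernel)) h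
        · exact mRel_good (T := T) (by decide) [Lt.ci, Lt.bi, Lt.ci] [Lt.c, Lt.d, Lt.fi, Lt.d, Lt.bi] (pair_rel hinv hr (by decide +kernel)) h
  · rcases brec_true h with h | h
    · rcases brec_true h with h | h
      · exact mRel_good (T := T) (by decide) [Lt.di, Lt.bi, Lt.c, Lt.c] [Lt.ci, Lt.ci, Lt.b, Lt.d] (pair_rel hinv hr (by decide +kernel)) h
      · exact mRel_good (T := T) (by decide) [Lt.b, Lt.ci, Lt.bi, Lt.f, Lt.d, Lt.b] [Lt.di, Lt.ci] (pair_rel hinv hr (by decide +kernel)) h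
    · rcases brec_true h with h | h
      · exact mRel_good (T := T) (by decide) [Lt.di, Lt.b, Lt.di] [Lt.d, Lt.b, Lt.d, Lt.bi, Lt.d] (pair_rel hinv hr (by decide +kernel)) h
      · rcases brec_true h with h | h
        · exact mRel_good (T := T) (by decide) [Lt.bi, Lt.di, Lt.di, Lt.f, Lt.b, Lt.c, Lt.b] [Lt.c] (pair_rel hinv hr (by decide +kernel)) h
        · exact mRel_good (T := T) (by decide) [Lt.bi, Lt.fi] [Lt.c, Lt.bi, Lt.bi, Lt.di, Lt.ci, Lt.bi] (pair_rel hinv hr (by decide +kernel)) h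
theorem dM_305_s (hinv : ∀ x, g (inv x) = (g x)⁻¹) (hr : ∀ r ∈ rels, (r.map g).prod = 1) (j z1 z2 u : ℕ) (h : dM_305 j z1 z2 u = true) : GoodM (fa g) T MG M (cP g H) u := by
  unfold dM_305 at h
  rcases brec_true h with h | h
  · rcases brec_true h with h | h
    · rcases brec_true h with h | h
      · exact mRel_good (T := T) (by decide) [Lt.d, Lt.ci] [Lt.bi, Lt.ci, Lt.b, Lt.d, Lt.f, Lt.f] (pair_rel hinv hr (by decide +kernel)) h
      · exact mRel_good (T := T) (by decide) [Lt.fi, Lt.d, Lt.bi, Lt.c] [Lt.bi, Lt.c, Lt.fi, Lt.di] (pair_rel hinv hr (by decide +kernel)) h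
    · rcases brec_true h with h | h
      · exact mRel_good (T := T) (by decide) [Lt.ci, Lt.b, Lt.di, Lt.f, Lt.di, Lt.ci, Lt.ci] [Lt.b] (pair_rel hinv hr (by decide +kernel)) h
      · rcases brec_true h with h | h
        · exact mRel_good (T := T) (by decide) [Lt.bi, Lt.fi, Lt.di, Lt.ci, Lt.bi, Lt.ci, Lt.fi, Lt.d] [] (pair_rel hinv hr (by decide +kernel)) h
        · exact mRel_good (T := T) (by decide) [Lt.di, Lt.fi, Lt.b, Lt.c, Lt.bi, Lt.di] [Lt.b, Lt.c] (pair_rel hinv hr (by decide +kernel)) h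
  · rcases brec_true h with h | h
    · rcases brec_true h with h | h
      · exact mRel_good (T := T) (by decide) [Lt.di, Lt.ci, Lt.b, Lt.di, Lt.f] [Lt.f, Lt.ci, Lt.b] (pair_rel hinv hr (by decide +kernel)) h
      · rcases brec_true h with h | h
        · exact mRel_good (T := T) (by decide) [Lt.ci, Lt.ei, Lt.b, Lt.ei, Lt.ci, Lt.ei, Lt.b] [Lt.e] (pair_rel hinv hr (by decide +kernel)) h
        · exact mRel_good (T := T) (by decide) [Lt.di, Lt.di, Lt.f, Lt.di] [Lt.f, Lt.d, Lt.fi, Lt.fi] (pair_rel hinv hr (by decide +kernel)) h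
    · rcases brec_true h with h | h
      · exact mRel_good (T := T) (by decide) [Lt.ci, Lt.ci, Lt.b, Lt.d, Lt.ci, Lt.ci, Lt.b, Lt.d] [] (pair_rel hinv hr (by decide +kernel)) h
      · rcases brec_true h with h | h
        · exact mRel_good (T := T) (by decide) [Lt.di, Lt.ci, Lt.bi, Lt.ci, Lt.fi] [Lt.f, Lt.b, Lt.di] (pair_rel hinv hr (by decide +kernel)) h
        · exact mRel_good (T := T) (by decide) [Lt.d, Lt.b, Lt.c] [Lt.di, Lt.f, Lt.b, Lt.c, Lt.b] (pair_rel hinv hr (by decide +kernel)) h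
theorem dM_306_s (hinv : ∀ x, g (inv x) = (g x)⁻¹) (hr : ∀ r ∈ rels, (r.map g).prod = 1) (j z1 z2 u : ℕ) (h : dM_306 j z1 z2 u = true) : GoodM (fa g) T MG M (cP g H) u := by
  unfold dM_306 at h
  rcases brec_true h with h | h
  · exact dM_304_s hinv hr j z1 z2 u h
  · exact dM_305_s hinv hr j z1 z2 u h
theorem dM_307_s (hinv : ∀ x, g (inv x) = (g x)⁻¹) (hr : ∀ r ∈ rels, (r.map g).prod = 1) (j z1 z2 u : ℕ) (h : dM_307 j z1 z2 u = true) : GoodM (fa g) T MG M (cP g H) u := by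
  unfold dM_307 at h
  rcases brec_true h with h | h
  · rcases brec_true h with h | h
    · rcases brec_true h with h | h
      · exact mRel_good (T := T) (by decide) [Lt.ci, Lt.bi, Lt.d, Lt.fi, Lt.di, Lt.b] [Lt.di, Lt.ci] (pair_rel hinv hr (by decide +kernel)) h
      · exact mRel_good (T := T) (by decide) [Lt.bi, Lt.di, Lt.ci, Lt.bi, Lt.di] [Lt.ci, Lt.bi, Lt.f] (pair_rel hinv hr (by decide +kernel)) h
    · rcases brec_true h with h | h
      · exact mRel_good (T := T) (by decide) [Lt.b, Lt.di, Lt.di] [Lt.d, Lt.d, Lt.b, Lt.d, Lt.bi] (pair_rel hinv hr (by decide +kernel)) h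
      · rcases brec_true h with h | h
        · exact mRel_good (T := T) (by decide) [Lt.fi, Lt.d, Lt.bi, Lt.c, Lt.b, Lt.c, Lt.c] [Lt.di] (pair_rel hinv hr (by decide +kernel)) h
        · exact mRel_good (T := T) (by decide) [Lt.c, Lt.b, Lt.ci, Lt.bi, Lt.di] [Lt.bi, Lt.fi, Lt.d] (pair_rel hinv hr (by decide +kernel)) h
  · rcases brec_true h with h | h
    · rcases brec_true h with h | h
      · exact mRel_good (T := T) (by decide) [Lt.bi, Lt.di, Lt.di, Lt.f, Lt.b] [Lt.c, Lt.bi, Lt.ci] (pair_rel hinv hr (by decide +kernel)) h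
      · rcases brec_true h with h | h
        · exact mRel_good (T := T) (by decide) [Lt.f, Lt.f, Lt.c] [Lt.bi, Lt.d, Lt.c, Lt.b, Lt.b] (pair_rel hinv hr (by decide +kernel)) h
        · exact mRel_good (T := T) (by decide) [Lt.d, Lt.ci, Lt.fi, Lt.bi] [Lt.b, Lt.f, Lt.c, Lt.di] (pair_rel hinv hr (by decide +kernel)) h
    · rcases brec_true h with h | h
      · exact mRel_good (T := T) (by decide) [Lt.di, Lt.di, Lt.ci] [Lt.bi, Lt.f, Lt.c, Lt.bi, Lt.fi] (pair_rel hinv hr (by decide +kernel)) h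
      · rcases brec_true h with h | h
        · exact mRel_good (T := T) (by decide) [Lt.f, Lt.ei, Lt.f, Lt.e, Lt.fi, Lt.ei, Lt.f, Lt.c] [Lt.d] (pair_rel hinv hr (by decide +kernel)) h
        · exact mRel_good (T := T) (by decide) [Lt.ci, Lt.fi, Lt.e, Lt.f, Lt.ei, Lt.fi, Lt.e] [Lt.di, Lt.f] (pair_rel hinv hr (by decide +kernel)) h
theorem dM_308_s (hinv : ∀ x, g (inv x) = (g x)⁻¹) (hr : ∀ r ∈ rels, (r.map g).prod = 1) (j z1 z2 u : ℕ) (h : dM_308 j z1 z2 u = true) : GoodM (fa g) T MG M (cP g H) u := by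
  unfold dM_308 at h
  rcases brec_true h with h | h
  · rcases brec_true h with h | h
    · rcases brec_true h with h | h
      · exact mRel_good (T := T) (by decide) [Lt.d, Lt.f, Lt.di, Lt.b, Lt.c, Lt.di, Lt.ci, Lt.bi] [] (pair_rel hinv hr (by decide +kernel)) h
      · exact mRel_good (T := T) (by decide) [Lt.f, Lt.d, Lt.f, Lt.b, Lt.c, Lt.bi, Lt.ci] [Lt.b] (pair_rel hinv hr (by decide +kernel)) h
    · rcases brec_true h with h | h
      · exact mRel_good (T := T) (by decide) [Lt.bi, Lt.d, Lt.d, Lt.b, Lt.d, Lt.bi, Lt.d] [Lt.di] (pair_rel hinv hr (by decide +kernel)) h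
      · rcases brec_true h with h | h
        · exact mRel_good (T := T) (by decide) [Lt.ci, Lt.di, Lt.b, Lt.f] [Lt.b, Lt.b, Lt.ci, Lt.fi] (pair_rel hinv hr (by decide +kernel)) h
        · exact mRel_good (T := T) (by decide) [Lt.b, Lt.fi, Lt.d, Lt.bi] [Lt.c, Lt.fi, Lt.di, Lt.ci] (pair_rel hinv hr (by decide +kernel)) h
  · rcases brec_true h with h | h
    · rcases brec_true h with h | h
      · exact mRel_good (T := T) (by decide) [Lt.di, Lt.ci, Lt.b, Lt.di, Lt.f, Lt.bi, Lt.c] [Lt.f] (pair_rel hinv hr (by decide +kernel)) h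
      · rcases brec_true h with h | h
        · exact mRel_good (T := T) (by decide) [Lt.c, Lt.bi, Lt.ci, Lt.b] [Lt.ci, Lt.di, Lt.c, Lt.c] (pair_rel hinv hr (by decide +kernel)) h
        · exact mRel_good (T := T) (by decide) [Lt.b, Lt.c] [Lt.d, Lt.ci, Lt.b, Lt.di, Lt.ci, Lt.d] (pair_rel hinv hr (by decide +kernel)) h
    · rcases brec_true h with h | h
      · exact mRel_good (T := T) (by decide) [Lt.d, Lt.b, Lt.f, Lt.ci, Lt.f, Lt.di, Lt.b] [Lt.c] (pair_rel hinv hr (by decide +kernel)) h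
      · rcases brec_true h with h | h
        · exact mRel_good (T := T) (by decide) [Lt.b, Lt.ci] [Lt.di, Lt.c, Lt.fi, Lt.b, Lt.c, Lt.d] (pair_rel hinv hr (by decide +kernel)) h
        · exact mRel_good (T := T) (by decide) [Lt.bi, Lt.ci, Lt.fi, Lt.d, Lt.bi, Lt.fi] [Lt.c, Lt.d] (pair_rel hinv hr (by decide +kernel)) h
theorem dM_309_s (hinv : ∀ x, g (inv x) = (g x)⁻¹) (hr : ∀ r ∈ rels, (r.map g).prod = 1) (j z1 z2 u : ℕ) (h : dM_309 j z1 z2 u = true) : GoodM (fa g) T MG M (cP g H) u := by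
  unfold dM_309 at h
  rcases brec_true h with h | h
  · exact dM_307_s hinv hr j z1 z2 u h
  · exact dM_308_s hinv hr j z1 z2 u h
theorem dM_310_s (hinv : ∀ x, g (inv x) = (g x)⁻¹) (hr : ∀ r ∈ rels, (r.map g).prod = 1) (j z1 z2 u : ℕ) (h : dM_310 j z1 z2 u = true) : GoodM (fa g) T MG M (cP g H) u := by
  unfold dM_310 at h
  rcases brec_true h with h | h
  · exact dM_306_s hinv hr j z1 z2 u h
  · exact dM_309_s hinv hr j z1 z2 u h
theorem dM_311_s (hinv : ∀ x, g (inv x) = (g x)⁻¹) (hr : ∀ r ∈ rels, (r.map g).prod = 1) (j z1 z2 u : ℕ) (h : dM_311 j z1 z2 u = true) : GoodM (fa g) T MG M (cP g H) u := by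
  unfold dM_311 at h
  rcases brec_true h with h | h
  · rcases brec_true h with h | h
    · rcases brec_true h with h | h
      · exact mRel_good (T := T) (by decide) [Lt.d, Lt.c, Lt.c, Lt.bi, Lt.ci, Lt.b] [Lt.c, Lt.c] (pair_rel hinv hr (by decide +kernel)) h
      · exact mRel_good (T := T) (by decide) [Lt.ci, Lt.b, Lt.d, Lt.f, Lt.f, Lt.c, Lt.di] [Lt.b] (pair_rel hinv hr (by decide +kernel)) h
    · rcases brec_true h with h | h
      · exact mRel_good (T := T) (by decide) [Lt.d, Lt.b, Lt.c, Lt.bi, Lt.ci] [Lt.di, Lt.f, Lt.b] (pair_rel hinv hr (by decide +kernel)) h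
      · rcases brec_true h with h | h
        · exact mRel_good (T := T) (by decide) [Lt.e, Lt.f] [Lt.f, Lt.c, Lt.di, Lt.f, Lt.ei, Lt.f, Lt.e] (pair_rel hinv hr (by decide +kernel)) h
        · exact mRel_good (T := T) (by decide) [Lt.ci, Lt.bi, Lt.f] [Lt.d, Lt.b, Lt.b, Lt.ci, Lt.bi] (pair_rel hinv hr (by decide +kernel)) h
  · rcases brec_true h with h | h
    · rcases brec_true h with h | h
      · exact mRel_good (T := T) (by decide) [Lt.d, Lt.ci, Lt.ei, Lt.fi, Lt.e, Lt.f, Lt.ei] [Lt.f, Lt.f] (pair_rel hinv hr (by decide +kernel)) h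
      · exact mRel_good (T := T) (by decide) [Lt.di, Lt.b, Lt.c, Lt.d, Lt.ci, Lt.bi, Lt.d, Lt.fi] [] (pair_rel hinv hr (by decide +kernel)) h
    · rcases brec_true h with h | h
      · exact mRel_good (T := T) (by decide) [Lt.b, Lt.c, Lt.di, Lt.c, Lt.d, Lt.bi, Lt.c] [Lt.d] (pair_rel hinv hr (by decide +kernel)) h
      · rcases brec_true h with h | h
        · exact mRel_good (T := T) (by decide) [Lt.c, Lt.d, Lt.b] [Lt.bi, Lt.f, Lt.b, Lt.c, Lt.bi] (pair_rel hinv hr (by decide +kernel)) h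
        · exact mRel_good (T := T) (by decide) [Lt.fi, Lt.d] [Lt.bi, Lt.c, Lt.fi, Lt.di, Lt.ci, Lt.b] (pair_rel hinv hr (by decide +kernel)) h
theorem dM_312_s (hinv : ∀ x, g (inv x) = (g x)⁻¹) (hr : ∀ r ∈ rels, (r.map g).prod = 1) (j z1 z2 u : ℕ) (h : dM_312 j z1 z2 u = true) : GoodM (fa g) T MG M (cP g H) u := by
  unfold dM_312 at h
  rcases brec_true h with h | h
  · rcases brec_true h with h | h
    · rcases brec_true h with h | h
      · exact mRel_good (T := T) (by decide) [Lt.b, Lt.f, Lt.d, Lt.d, Lt.b, Lt.fi] [Lt.ci, Lt.di] (pair_rel hinv hr (by decide +kernel)) h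
      · exact mRel_good (T := T) (by decide) [Lt.c, Lt.d, Lt.f, Lt.ci, Lt.b, Lt.fi, Lt.d] [Lt.b] (pair_rel hinv hr (by decide +kernel)) h
    · rcases brec_true h with h | h
      · exact mRel_good (T := T) (by decide) [Lt.bi, Lt.ci, Lt.di] [Lt.f, Lt.d, Lt.d, Lt.b, Lt.fi] (pair_rel hinv hr (by decide +kernel)) h
      · rcases brec_true h with h | h
        · exact mRel_good (T := T) (by decide) [Lt.f] [Lt.e, Lt.f, Lt.ei, Lt.fi, Lt.e, Lt.fi, Lt.d, Lt.ci] (pair_rel hinv hr (by decide +kernel)) h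
        · exact mRel_good (T := T) (by decide) [Lt.di, Lt.di, Lt.b] [Lt.b, Lt.d, Lt.bi, Lt.d, Lt.d] (pair_rel hinv hr (by decide +kernel)) h
  · rcases brec_true h with h | h
    · rcases brec_true h with h | h
      · exact mRel_good (T := T) (by decide) [Lt.ci, Lt.b, Lt.f, Lt.ci, Lt.ci, Lt.f, Lt.bi, Lt.fi] [] (pair_rel hinv hr (by decide +kernel)) h
      · rcases brec_true h with h | h
        · exact mRel_good (T := T) (by decide) [Lt.d, Lt.c, Lt.b] [Lt.f, Lt.bi, Lt.di, Lt.di, Lt.fi] (pair_rel hinv hr (by decide +kernel)) h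
        · exact mRel_good (T := T) (by decide) [Lt.d, Lt.bi, Lt.c, Lt.d] [Lt.f, Lt.bi, Lt.c, Lt.fi] (pair_rel hinv hr (by decide +kernel)) h
    · rcases brec_true h with h | h
      · exact mRel_good (T := T) (by decide) [Lt.ei, Lt.bi, Lt.c, Lt.fi, Lt.ei, Lt.fi, Lt.b, Lt.f] [Lt.di] (pair_rel hinv hr (by decide +kernel)) h
      · rcases brec_true h with h | h
        · exact mRel_good (T := T) (by decide) [Lt.fi, Lt.fi, Lt.d, Lt.ci, Lt.ei, Lt.fi, Lt.e, Lt.f] [Lt.e] (pair_rel hinv hr (by decide +kernel)) h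
        · exact mRel_good (T := T) (by decide) [Lt.d, Lt.d, Lt.bi, Lt.f, Lt.c, Lt.bi] [Lt.ci, Lt.f] (pair_rel hinv hr (by decide +kernel)) h
theorem dM_313_s (hinv : ∀ x, g (inv x) = (g x)⁻¹) (hr : ∀ r ∈ rels, (r.map g).prod = 1) (j z1 z2 u : ℕ) (h : dM_313 j z1 z2 u = true) : GoodM (fa g) T MG M (cP g H) u := by
  unfold dM_313 at h
  rcases brec_true h with h | h
  · exact dM_311_s hinv hr j z1 z2 u h
  · exact dM_312_s hinv hr j z1 z2 u h
theorem dM_314_s (hinv : ∀ x, g (inv x) = (g x)⁻¹) (hr : ∀ r ∈ rels, (r.map g).prod = 1) (j z1 z2 u : ℕ) (h : dM_314 j z1 z2 u = true) : GoodM (fa g) T MG M (cP g H) u := by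
  unfold dM_314 at h
  rcases brec_true h with h | h
  · rcases brec_true h with h | h
    · rcases brec_true h with h | h
      · exact mRel_good (T := T) (by decide) [Lt.c, Lt.b, Lt.ci] [Lt.d, Lt.c, Lt.bi, Lt.ci, Lt.d] (pair_rel hinv hr (by decide +kernel)) h
      · exact mRel_good (T := T) (by decide) [Lt.b, Lt.di, Lt.ci, Lt.d, Lt.ci] [Lt.c, Lt.di, Lt.b] (pair_rel hinv hr (by decide +kernel)) h
    · rcases brec_true h with h | h
      · exact mRel_good (T := T) (by decide) [Lt.f, Lt.c, Lt.di, Lt.f, Lt.c, Lt.bi] [Lt.b, Lt.c, Lt.c] (pair_rel hinv hr (by decide +kernel)) h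
      · rcases brec_true h with h | h
        · exact mRel_good (T := T) (by decide) [Lt.fi, Lt.b] [Lt.ci, Lt.d, Lt.b, Lt.ci, Lt.di, Lt.ci] (pair_rel hinv hr (by decide +kernel)) h
        · exact mRel_good (T := T) (by decide) [Lt.c, Lt.b] [Lt.b, Lt.ci, Lt.ci, Lt.d, Lt.c, Lt.c] (pair_rel hinv hr (by decide +kernel)) h
  · rcases brec_true h with h | h
    · rcases brec_true h with h | h
      · exact mRel_good (T := T) (by decide) [Lt.bi, Lt.bi, Lt.f, Lt.b, Lt.f, Lt.di, Lt.c] [Lt.f] (pair_rel hinv hr (by decide +kernel)) h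
      · rcases brec_true h with h | h
        · exact mRel_good (T := T) (by decide) [Lt.d, Lt.f] [Lt.di, Lt.f, Lt.di, Lt.f, Lt.f, Lt.di] (pair_rel hinv hr (by decide +kernel)) h
        · exact mRel_good (T := T) (by decide) [Lt.ci] [Lt.di, Lt.b, Lt.f, Lt.c, Lt.di, Lt.b, Lt.f] (pair_rel hinv hr (by decide +kernel)) h
    · rcases brec_true h with h | h
      · exact mRel_good (T := T) (by decide) [Lt.d, Lt.bi, Lt.c, Lt.d, Lt.f, Lt.ci] [Lt.f, Lt.bi] (pair_rel hinv hr (by decide +kernel)) h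
      · rcases brec_true h with h | h
        · exact mRel_good (T := T) (by decide) [Lt.di, Lt.bi, Lt.di, Lt.di] [Lt.bi, Lt.d, Lt.d, Lt.bi] (pair_rel hinv hr (by decide +kernel)) h
        · exact mRel_good (T := T) (by decide) [Lt.bi, Lt.c, Lt.d, Lt.f, Lt.ci, Lt.b, Lt.fi, Lt.d] [] (pair_rel hinv hr (by decide +kernel)) h
theorem dM_315_s (hinv : ∀ x, g (inv x) = (g x)⁻¹) (hr : ∀ r ∈ rels, (r.map g).prod = 1) (j z1 z2 u : ℕ) (h : dM_315 j z1 z2 u = true) : GoodM (fa g) T MG M (cP g H) u := by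
  unfold dM_315 at h
  rcases brec_true h with h | h
  · rcases brec_true h with h | h
    · rcases brec_true h with h | h
      · exact mRel_good (T := T) (by decide) [Lt.di, Lt.f, Lt.f, Lt.e, Lt.fi, Lt.ei] [Lt.ci, Lt.ei, Lt.fi] (pair_rel hinv hr (by decide +kernel)) h
      · exact mRel_good (T := T) (by decide) [Lt.ci, Lt.d, Lt.c] [Lt.c, Lt.bi, Lt.c, Lt.b, Lt.ci] (pair_rel hinv hr (by decide +kernel)) h
    · rcases brec_true h with h | h
      · exact mRel_good (T := T) (by decide) [Lt.bi, Lt.di, Lt.di, Lt.fi, Lt.bi, Lt.ci, Lt.di] [Lt.fi] (pair_rel hinv hr (by decide +kernel)) h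
      · rcases brec_true h with h | h
        · exact mRel_good (T := T) (by decide) [Lt.ci, Lt.d, Lt.ci, Lt.bi] [Lt.d, Lt.bi, Lt.c, Lt.di] (pair_rel hinv hr (by decide +kernel)) h
        · exact mRel_good (T := T) (by decide) [Lt.fi, Lt.d, Lt.bi, Lt.c, Lt.d, Lt.f, Lt.ci, Lt.b] [] (pair_rel hinv hr (by decide +kernel)) h
  · rcases brec_true h with h | h
    · rcases brec_true h with h | h
      · exact mRel_good (T := T) (by decide) [Lt.ci, Lt.d, Lt.fi, Lt.bi] [Lt.fi, Lt.bi, Lt.bi, Lt.f] (pair_rel hinv hr (by decide +kernel)) h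
      · rcases brec_true h with h | h
        · exact mRel_good (T := T) (by decide) [Lt.fi] [Lt.d, Lt.d, Lt.b, Lt.fi, Lt.d, Lt.c, Lt.b] (pair_rel hinv hr (by decide +kernel)) h
        · exact mRel_good (T := T) (by decide) [Lt.bi] [Lt.ci, Lt.fi, Lt.fi, Lt.bi, Lt.d, Lt.c, Lt.b] (pair_rel hinv hr (by decide +kernel)) h
    · rcases brec_true h with h | h
      · exact mRel_good (T := T) (by decide) [Lt.ci, Lt.bi, Lt.f] [Lt.bi, Lt.di, Lt.ci, Lt.bi, Lt.di] (pair_rel hinv hr (by decide +kernel)) h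
      · rcases brec_true h with h | h
        · exact mRel_good (T := T) (by decide) [Lt.d, Lt.f, Lt.d, Lt.fi] [Lt.di, Lt.f, Lt.di, Lt.f] (pair_rel hinv hr (by decide +kernel)) h
        · exact mRel_good (T := T) (by decide) [Lt.di, Lt.f, Lt.f, Lt.di, Lt.fi, Lt.di] [Lt.fi, Lt.d] (pair_rel hinv hr (by decide +kernel)) h
theorem dM_316_s (hinv : ∀ x, g (inv x) = (g x)⁻¹) (hr : ∀ r ∈ rels, (r.map g).prod = 1) (j z1 z2 u : ℕ) (h : dM_316 j z1 z2 u = true) : GoodM (fa g) T MG M (cP g H) u := by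
  unfold dM_316 at h
  rcases brec_true h with h | h
  · exact dM_314_s hinv hr j z1 z2 u h
  · exact dM_315_s hinv hr j z1 z2 u h
theorem dM_317_s (hinv : ∀ x, g (inv x) = (g x)⁻¹) (hr : ∀ r ∈ rels, (r.map g).prod = 1) (j z1 z2 u : ℕ) (h : dM_317 j z1 z2 u = true) : GoodM (fa g) T MG M (cP g H) u := by
  unfold dM_317 at h
  rcases brec_true h with h | h
  · exact dM_313_s hinv hr j z1 z2 u h
  · exact dM_316_s hinv hr j z1 z2 u h
theorem dM_318_s (hinv : ∀ x, g (inv x) = (g x)⁻¹) (hr : ∀ r ∈ rels, (r.map g).prod = 1) (j z1 z2 u : ℕ) (h : dM_318 j z1 z2 u = true) : GoodM (fa g) T MG M (cP g H) u := by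
  unfold dM_318 at h
  rcases brec_true h with h | h
  · exact dM_310_s hinv hr j z1 z2 u h
  · exact dM_317_s hinv hr j z1 z2 u h
theorem dM_319_s (hinv : ∀ x, g (inv x) = (g x)⁻¹) (hr : ∀ r ∈ rels, (r.map g).prod = 1) (j z1 z2 u : ℕ) (h : dM_319 j z1 z2 u = true) : GoodM (fa g) T MG M (cP g H) u := by
  unfold dM_319 at h
  rcases brec_true h with h | h
  · exact dM_303_s hinv hr j z1 z2 u h
  · exact dM_318_s hinv hr j z1 z2 u h
theorem dM_320_s (hinv : ∀ x, g (inv x) = (g x)⁻¹) (hr : ∀ r ∈ rels, (r.map g).prod = 1) (j z1 z2 u : ℕ) (h : dM_320 j z1 z2 u = true) : GoodM (fa g) T MG M (cP g H) u := by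
  unfold dM_320 at h
  rcases brec_true h with h | h
  · exact dM_288_s hinv hr j z1 z2 u h
  · exact dM_319_s hinv hr j z1 z2 u h
theorem dM_321_s (hinv : ∀ x, g (inv x) = (g x)⁻¹) (hr : ∀ r ∈ rels, (r.map g).prod = 1) (j z1 z2 u : ℕ) (h : dM_321 j z1 z2 u = true) : GoodM (fa g) T MG M (cP g H) u := by
  unfold dM_321 at h
  rcases brec_true h with h | h
  · exact dM_257_s hinv hr j z1 z2 u h
  · exact dM_320_s hinv hr j z1 z2 u h
theorem dM_322_s (hinv : ∀ x, g (inv x) = (g x)⁻¹) (hr : ∀ r ∈ rels, (r.map g).prod = 1) (j z1 z2 u : ℕ) (h : dM_322 j z1 z2 u = true) : GoodM (fa g) T MG M (cP g H) u := by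
  unfold dM_322 at h
  rcases brec_true h with h | h
  · exact dM_194_s hinv hr j z1 z2 u h
  · exact dM_321_s hinv hr j z1 z2 u h
theorem dM_323_s (hinv : ∀ x, g (inv x) = (g x)⁻¹) (hr : ∀ r ∈ rels, (r.map g).prod = 1) (j z1 z2 u : ℕ) (h : dM_323 j z1 z2 u = true) : GoodM (fa g) T MG M (cP g H) u := by
  unfold dM_323 at h
  rcases brec_true h with h | h
  · exact dM_101_s hinv hr j z1 z2 u h
  · exact dM_322_s hinv hr j z1 z2 u h
theorem dM_324_s (hinv : ∀ x, g (inv x) = (g x)⁻¹) (hr : ∀ r ∈ rels, (r.map g).prod = 1) (j z1 z2 u : ℕ) (h : dM_324 j z1 z2 u = true) : GoodM (fa g) T MG M (cP g H) u := by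
  unfold dM_324 at h
  rcases brec_true h with h | h
  · exact dM_4_s hinv hr j z1 z2 u h
  · exact dM_323_s hinv hr j z1 z2 u h
theorem sndM (hinv : ∀ x, g (inv x) = (g x)⁻¹) (hr : ∀ r ∈ rels, (r.map g).prod = 1) (u : ℕ) (h : chkM u = true) :
    MG u < A → MG u % M < u ∧ GoodM (fa g) T MG M (cP g H) u := by
  intro hA
  unfold chkM at h
  cases hb : Nat.ble A (MG u) with
  | true => exact absurd (le_of_ble hb) (by omega)
  | false =>
    rw [hb] at h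
    obtain ⟨h1, h2⟩ := band_eq_true.1 h
    exact ⟨le_of_ble h1, dM_324_s hinv hr _ _ _ _ h2⟩
theorem sndN (hinv : ∀ x, g (inv x) = (g x)⁻¹) (hr : ∀ r ∈ rels, (r.map g).prod = 1) (hH : ∀ r ∈ subs, (r.map g).prod ∈ H)
    (u : ℕ) (hu : u < M) (h : chkP u = true) : (∀ x, (T x u < A ∧ Good (fa g) T MG M (cP g H) x u) ∨ (A ≤ T x u ∧ MG u < A)) ∧ (MG u < A → MG u % M < u ∧ GoodM (fa g) T MG M (cP g H) u) := by
  unfold chkP at h
  cases hb : Nat.ble M u with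
  | true => exact absurd (le_of_ble hb) (by omega)
  | false =>
    rw [hb] at h
    change chkN u = true at h
    unfold chkN at h
    obtain ⟨h0, h⟩ := band_eq_true.1 h
    obtain ⟨h1, h⟩ := band_eq_true.1 h
    obtain ⟨h2, h⟩ := band_eq_true.1 h
    obtain ⟨h3, h⟩ := band_eq_true.1 h
    obtain ⟨h4, h⟩ := band_eq_true.1 h
    obtain ⟨h5, h⟩ := band_eq_true.1 h
    obtain ⟨h6, h⟩ := band_eq_true.1 h
    obtain ⟨h7, h⟩ := band_eq_true.1 h
    obtain ⟨h8, h⟩ := band_eq_true.1 h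
    obtain ⟨h9, h⟩ := band_eq_true.1 h
    refine ⟨?_, sndM hinv hr u h⟩
    intro x
    cases x
    · exact snc_b hinv hr hH _ u hu h0
    · exact snc_bi hinv hr hH _ u hu h1
    · exact snc_d hinv hr hH _ u hu h2
    · exact snc_di hinv hr hH _ u hu h3
    · exact snc_c hinv hr hH _ u hu h4
    · exact snc_ci hinv hr hH _ u hu h5
    · exact snc_f hinv hr hH _ u hu h6
    · exact snc_fi hinv hr hH _ u hu h7
    · exact snc_e hinv hr hH _ u hu h8
    · exact snc_ei hinv hr hH _ u hu h9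
theorem final (hinv : ∀ x, g (inv x) = (g x)⁻¹) (hr : ∀ r ∈ rels, (r.map g).prod = 1) (hH : ∀ r ∈ subs, (r.map g).prod ∈ H)
    (hall : ∀ u, u < M → chkP u = true) (hc : cntB liveP 14 0 = 5600) :
    H.relIndex (Subgroup.closure (Set.range g)) ≤ 5600 ∧ H.relIndex (Subgroup.closure (Set.range g)) ≠ 0 := by
  have hn := fun u hu => sndN hinv hr hH u hu (hall u hu)
  have h1 : ∀ x u, u < M → T x u < A → Good (fa g) T MG M (cP g H) x u := by
    intro x u hu hx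
    rcases (hn u hu).1 x with h | h
    · exact h.2
    · exact absurd h.1 (by omega)
  have h2 : ∀ u, u < M → MG u < A → GoodM (fa g) T MG M (cP g H) u := fun u hu h => ((hn u hu).2 h).2
  refine relIndex_le (M := M) (A := A) (T := T) (MG := MG) (c := cP g H) (by decide) cc_zero (sound_of_good h1 h2) ?_ ?_ ?_
  · intro u hu h
    exact ((hn u hu).2 h).1
  · intro x u hu h
    rcases (hn u hu).1 x with h' | h'
    · exact h'.1
    · exact absurd h'.2 (by omega)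
  · rw [← hc, ← cntB_spec]
    apply Finset.card_le_card
    intro u
    simp only [Finset.mem_filter, Finset.mem_Ico]
    rintro ⟨⟨_, h3⟩, h4⟩
    refine ⟨⟨Nat.zero_le _, lt_of_lt_of_le h3 (by decide)⟩, ?_⟩
    unfold liveP
    cases hb : Nat.ble M u with
    | true => exact absurd (le_of_ble hb) (by omega)
    | false => exact h4
end
end H94.TCHSC
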